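import Cfsg.Agent.H5.PSLA5
import Cfsg.Agent.H5.PSLSimple
import Cfsg.Agent.H5.Small

/-! The 22 subgroups `A_5` of `PSL_2(11)`. -/

set_option autoImplicit false

namespace Cfsg.Agent.H16.A5P11

open Matrix Cfsg.Agent.H5 Cfsg.Agent.H16 Equiv
open scoped Pointwise

/-- generating pairs -/
def Rel {G : Type*} [Group G] (p : G × G) : Prop :=
  (p.1 ^ 3 = 1 ∧ p.1 ≠ 1) ∧ (p.2 ^ 5 = 1 ∧ p.2 ≠ 1) ∧ ((p.1 * p.2) ^ 2 = 1 ∧ p.1 * p.2 ≠ 1)

def S3 : Finset (Perm (Fin 5)) := (Finset.univ : Finset (Perm (Fin 5))).filter fun x => Perm.sign x = 1 ∧ x * x * x = 1 ∧ x ≠ 1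
def S5 : Finset (Perm (Fin 5)) := (Finset.univ : Finset (Perm (Fin 5))).filter fun x => Perm.sign x = 1 ∧ x * x * x * x * x = 1 ∧ x ≠ 1
def S35 : Finset (Perm (Fin 5) × Perm (Fin 5)) := (S3 ×ˢ S5).filter (fun p => p.1 * p.2 * (p.1 * p.2) = 1 ∧ p.1 * p.2 ≠ 1)

theorem mem_S3 {x : Perm (Fin 5)} : x ∈ S3 ↔ Perm.sign x = 1 ∧ x * x * x = 1 ∧ x ≠ 1 := by
  unfold S3; rw [Finset.mem_filter]; exact and_iff_right (Finset.mem_univ x)
theorem mem_S5 {x : Perm (Fin 5)} : x ∈ S5 ↔ Perm.sign x = 1 ∧ x * x * x * x * x = 1 ∧ x ≠ 1 := by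
  unfold S5; rw [Finset.mem_filter]; exact and_iff_right (Finset.mem_univ x)

theorem perm_count : S35.card = 120 := by decide +kernel

theorem card_A5 : Nat.card (alternatingGroup (Fin 5)) = 60 := by
  rw [Nat.card_eq_fintype_card]
  have := two_mul_card_alternatingGroup (α := Fin 5)
  rw [Fintype.card_perm, Fintype.card_fin] at this
  have h7 : Nat.factorial 5 = 120 := rfl
  omega

theorem pow5 {G : Type*} [Monoid G] (x : G) : x * x * x * x * x = x ^ 5 := by
  rw [pow_succ, pow_succ, pow_succ, pow_two]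
theorem pow3 {G : Type*} [Monoid G] (x : G) : x * x * x = x ^ 3 := by
  rw [pow_succ, pow_two]

theorem mem_S35 {p : Perm (Fin 5) × Perm (Fin 5)} : p ∈ S35 ↔ (Perm.sign p.1 = 1 ∧ Perm.sign p.2 = 1) ∧ Rel p := by
  unfold S35 Rel
  rw [Finset.mem_filter, Finset.mem_product, mem_S3, mem_S5, pow3, pow5, ← pow_two]
  tauto

theorem rel_map {G H : Type*} [Group G] [Group H] (f : G →* H) (hf : Function.Injective f) (p : G × G) :
    Rel (f p.1, f p.2) ↔ Rel p := by
  unfold Rel
  simp only [← map_mul, ← map_pow]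
  rw [map_eq_one_iff f hf, map_eq_one_iff f hf, map_eq_one_iff f hf, Ne, Ne, Ne, map_eq_one_iff f hf,
    map_eq_one_iff f hf, map_eq_one_iff f hf]

theorem mem_S35_of {p : alternatingGroup (Fin 5) × alternatingGroup (Fin 5)} (h : Rel p) :
    ((p.1 : Perm (Fin 5)), (p.2 : Perm (Fin 5))) ∈ S35 := by
  have h1 := (rel_map (alternatingGroup (Fin 5)).subtype (alternatingGroup (Fin 5)).subtype_injective p).2 h
  have h2 := Equiv.Perm.mem_alternatingGroup.1 p.1.2
  have h3 := Equiv.Perm.mem_alternatingGroup.1 p.2.2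
  rw [mem_S35]
  exact ⟨⟨h2, h3⟩, h1⟩

attribute [irreducible] S35 S3 S5

set_option maxRecDepth 10000 in
/-- pairs in `A_5` -/
theorem card_rel_A5 : Nat.card {p : alternatingGroup (Fin 5) × alternatingGroup (Fin 5) // Rel p} = 120 := by
  rw [← perm_count]
  have e : {p : alternatingGroup (Fin 5) × alternatingGroup (Fin 5) // Rel p} ≃ {p // p ∈ S35} := by
    apply Equiv.ofBijective (fun p => ⟨(p.1.1.1, p.1.2.1), mem_S35_of p.2⟩)
    constructor
    · rintro ⟨⟨x, y⟩, _⟩ ⟨⟨x', y'⟩, _⟩ h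
      have h1 := congrArg (fun z => z.1.1) h
      have h2 := congrArg (fun z => z.1.2) h
      exact Subtype.ext (Prod.ext (Subtype.ext h1) (Subtype.ext h2))
    · rintro ⟨⟨x, y⟩, h⟩
      rw [mem_S35] at h
      obtain ⟨⟨h1, h2⟩, h3⟩ := h
      exact ⟨⟨(⟨x, h1⟩, ⟨y, h2⟩), (rel_map (alternatingGroup (Fin 5)).subtype (alternatingGroup (Fin 5)).subtype_injective
        (⟨x, h1⟩, ⟨y, h2⟩)).1 h3⟩, rfl⟩
  rw [Nat.card_congr e, Nat.card_eq_fintype_card, Fintype.card_coe]

theorem card_rel_of_iso {L : Type*} [Group L] (e : L ≃* alternatingGroup (Fin 5)) :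
    Nat.card {p : L × L // Rel p} = 120 := by
  rw [← card_rel_A5]
  apply Nat.card_congr
  refine (e.toEquiv.prodCongr e.toEquiv).subtypeEquiv ?_
  intro p
  exact (rel_map e.toMonoidHom e.injective p).symm

theorem closure_of_iso {L : Type*} [Group L] (e : L ≃* alternatingGroup (Fin 5)) {x y : L} (h : Rel (x, y)) :
    Subgroup.closure {x, y} = ⊤ := by
  have h' := (rel_map e.toMonoidHom e.injective (x, y)).2 h
  obtain ⟨⟨h1, h2⟩, ⟨h3, h4⟩, ⟨h5, h6⟩⟩ := h'
  have h7 := a5_closure h1 h2 h3 h4 h5 h6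
  have h8 : (Subgroup.closure {x, y}).map e.toMonoidHom = ⊤ := by
    rw [MonoidHom.map_closure, Set.image_pair]; exact h7
  rw [eq_top_iff]
  intro z _
  have : e z ∈ (Subgroup.closure {x, y}).map e.toMonoidHom := by rw [h8]; trivial
  obtain ⟨w, hw, hwz⟩ := this
  have : w = z := e.injective hwz
  rw [← this]; exact hw

section grp
variable {G : Type*} [Group G]

theorem closure_sub {L : Subgroup G} {x y : L} (h : Subgroup.closure {x, y} = ⊤) :
    Subgroup.closure {(x : G), (y : G)} = L := by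
  have := congrArg (Subgroup.map L.subtype) h
  rw [MonoidHom.map_closure, Set.image_pair, ← MonoidHom.range_eq_map, Subgroup.range_subtype] at this
  exact this

/-- relators give `A_5` -/
theorem iso_of_rel {p : G × G} (h : Rel p) : Nonempty (Subgroup.closure {p.1, p.2} ≃* alternatingGroup (Fin 5)) := by
  obtain ⟨⟨h1, h2⟩, ⟨h3, h4⟩, ⟨h5, h6⟩⟩ := h
  set D := Subgroup.closure {p.1, p.2} with hD
  let x' : D := ⟨p.1, Subgroup.subset_closure (by simp)⟩
  let y' : D := ⟨p.2, Subgroup.subset_closure (by simp)⟩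
  have hDt : Subgroup.closure {x', y'} = ⊤ := by
    have h1 := Subgroup.closure_closure_coe_preimage (k := ({p.1, p.2} : Set G))
    rw [← h1]
    congr 1
    ext z
    simp only [Set.mem_insert_iff, Set.mem_singleton_iff, Set.mem_preimage]
    constructor
    · rintro (rfl | rfl)
      · left; rfl
      · right; rfl
    · rintro (h | h)
      · left; exact Subtype.ext h
      · right; exact Subtype.ext h
  obtain ⟨hfin, hle⟩ := Cfsg.Agent.H21.card_le_sixty x' y' hDt (Subtype.ext h1) (Subtype.ext h3) (Subtype.ext h5)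
  obtain ⟨f, hf⟩ := a5_of_rels x' y' (Subtype.ext h1) (Subtype.ext h3) (Subtype.ext h5)
    (fun h => h2 (congrArg Subtype.val h))
  have hbij : Function.Bijective f := by
    rw [Nat.bijective_iff_injective_and_card]
    refine ⟨hf, ?_⟩
    have h7 := Nat.card_le_card_of_injective f hf
    rw [card_A5] at h7 ⊢
    exact le_antisymm h7 hle
  exact ⟨(MulEquiv.ofBijective f hbij).symm⟩

theorem card_fiber [Finite G] (L : Subgroup G) (e : L ≃* alternatingGroup (Fin 5)) :
    Nat.card {p : G × G // Rel p ∧ Subgroup.closure {p.1, p.2} = L} = 120 := by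
  rw [← card_rel_of_iso e]
  symm
  apply Nat.card_congr
  apply Equiv.ofBijective (fun p => ⟨(p.1.1.1, p.1.2.1), (rel_map L.subtype L.subtype_injective p.1).2 p.2,
    closure_sub (closure_of_iso e p.2)⟩)
  constructor
  · rintro ⟨⟨x, y⟩, _⟩ ⟨⟨x', y'⟩, _⟩ h
    have h1 := congrArg (fun z => z.1.1) h
    have h2 := congrArg (fun z => z.1.2) h
    exact Subtype.ext (Prod.ext (Subtype.ext h1) (Subtype.ext h2))
  · rintro ⟨⟨x, y⟩, h, hL⟩
    have hx : x ∈ L := by rw [← hL]; exact Subgroup.subset_closure (by simp)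
    have hy : y ∈ L := by rw [← hL]; exact Subgroup.subset_closure (by simp)
    exact ⟨⟨(⟨x, hx⟩, ⟨y, hy⟩), (rel_map L.subtype L.subtype_injective (⟨x, hx⟩, ⟨y, hy⟩)).1 h⟩, rfl⟩

theorem card_pairs [Finite G] : Nat.card {p : G × G // Rel p} =
    120 * Nat.card {L : Subgroup G // Nonempty (L ≃* alternatingGroup (Fin 5))} := by
  classical
  let f : {p : G × G // Rel p} → {L : Subgroup G // Nonempty (L ≃* alternatingGroup (Fin 5))} :=
    fun p => ⟨Subgroup.closure {p.1.1, p.1.2}, iso_of_rel p.2⟩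
  haveI : Fintype {L : Subgroup G // Nonempty (L ≃* alternatingGroup (Fin 5))} := Fintype.ofFinite _
  rw [← Nat.card_congr (Equiv.sigmaFiberEquiv f), Nat.card_sigma]
  have : ∀ L : {L : Subgroup G // Nonempty (L ≃* alternatingGroup (Fin 5))}, Nat.card {p // f p = L} = 120 := by
    intro L
    obtain ⟨e⟩ := L.2
    rw [← card_fiber L.1 e]
    apply Nat.card_congr
    exact
      { toFun := fun p => ⟨p.1.1, p.1.2, congrArg Subtype.val p.2⟩
        invFun := fun p => ⟨⟨p.1, p.2.1⟩, Subtype.ext p.2.2⟩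
        left_inv := fun _ => rfl
        right_inv := fun _ => rfl }
  simp only [this]
  rw [Finset.sum_const, Finset.card_univ, smul_eq_mul, Nat.card_eq_fintype_card, mul_comm]

end grp

end Cfsg.Agent.H16.A5P11
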