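import Cfsg.Agent.H16.A5P11

/-! The 22 subgroups `A_5` of `PSL_2(11)`: counting. -/

set_option autoImplicit false

namespace Cfsg.Agent.H16.A5P11

open Matrix Cfsg.Agent.H5 Cfsg.Agent.H16
open scoped Pointwise

variable {F : Type*} [Field F] [Fintype F]

local notation "SL₂" => Matrix.SpecialLinearGroup (Fin 2) F
local notation "M₂" => Matrix (Fin 2) (Fin 2) F
local notation "PG" => Matrix.ProjectiveSpecialLinearGroup (Fin 2) F
local notation "π" => (QuotientGroup.mk' (Subgroup.center (Matrix.SpecialLinearGroup (Fin 2) F)))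

theorem pi_scal (g : SL₂) : π g = 1 ↔ IsScal (g : M₂) := by
  rw [pi_eq_one_iff, isScal_sl_iff]
  constructor
  · rintro (rfl | rfl)
    · left; rfl
    · right; simp
  · rintro (h | h)
    · left; exact Subtype.ext h
    · right; apply Subtype.ext; rw [h]; simp

omit [Fintype F] in
theorem scal_lin {A : M₂} (hA : ¬ IsScal A) (a b : F) : IsScal (a • A - b • (1 : M₂)) ↔ a = 0 := by
  constructor
  · rintro ⟨h1, h2, h3⟩
    by_contra ha
    apply hA
    simp at h1 h2 h3
    exact ⟨h1.resolve_left ha, h2.resolve_left ha, h3.resolve_right ha⟩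
  · rintro rfl
    rw [zero_smul, zero_sub]
    refine ⟨by simp, by simp, by simp⟩

omit [Fintype F] in
theorem cube (g : SL₂) : ((g ^ 3 : SL₂) : M₂) = ((g : M₂).trace ^ 2 - 1) • (g : M₂) - (g : M₂).trace • (1 : M₂) := by
  have h := sl_sq g
  rw [Matrix.SpecialLinearGroup.coe_pow, pow_succ, pow_two, h, sub_mul, Matrix.smul_mul, h, smul_sub, smul_smul, Matrix.one_mul,
    sub_smul, one_smul, pow_two]
  abel

omit [Fintype F] in
theorem square (g : SL₂) : ((g ^ 2 : SL₂) : M₂) = (g : M₂).trace • (g : M₂) - (1 : F) • (1 : M₂) := by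
  rw [Matrix.SpecialLinearGroup.coe_pow, pow_two, sl_sq g, one_smul]

omit [Fintype F] in
/-- trace of scalar elements -/
theorem scal_trace {g : SL₂} (h : IsScal (g : M₂)) : (g : M₂).trace = 2 ∨ (g : M₂).trace = -2 := by
  rcases isScal_sl_iff.1 h with h | h
  · left; rw [h, Matrix.trace_one]; simp
  · right; rw [h, Matrix.trace_neg, Matrix.trace_one]; simp

theorem ord3 (h3 : (3 : F) ≠ 0) (g : SL₂) : ((π g) ^ 3 = 1 ∧ π g ≠ 1) ↔ (g : M₂).trace ^ 2 = 1 := by
  rw [← map_pow, pi_scal, Ne, pi_scal]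
  constructor
  · rintro ⟨h1, h2⟩
    rw [cube, scal_lin h2] at h1
    linear_combination h1
  · intro h
    have h2 : ¬ IsScal (g : M₂) := by
      intro hs
      apply h3
      rcases scal_trace hs with h4 | h4 <;> rw [h4] at h <;> linear_combination h
    refine ⟨?_, h2⟩
    rw [cube, scal_lin h2]
    linear_combination h

theorem ord2 (h2 : (2 : F) ≠ 0) (g : SL₂) : ((π g) ^ 2 = 1 ∧ π g ≠ 1) ↔ (g : M₂).trace = 0 := by
  rw [← map_pow, pi_scal, Ne, pi_scal]
  constructor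
  · rintro ⟨h1, h3⟩
    rwa [square, scal_lin h3] at h1
  · intro h
    have h3 : ¬ IsScal (g : M₂) := by
      intro hs
      apply h2
      rcases scal_trace hs with h4 | h4
      · rw [← h4, h]
      · have : (2 : F) = - (g : M₂).trace := by rw [h4, neg_neg]
        rw [this, h, neg_zero]
    refine ⟨?_, h3⟩
    rw [square, scal_lin h3, h]

theorem ord5 (h5 : (5 : F) ≠ 0) (g : SL₂) : ((π g) ^ 5 = 1 ∧ π g ≠ 1) ↔
    (g : M₂).trace ^ 4 - 3 * (g : M₂).trace ^ 2 + 1 = 0 := by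
  rw [← map_pow, pi_scal, Ne, pi_scal]
  constructor
  · rintro ⟨h1, h2⟩
    rwa [sl2_pow_five, scal_lin h2] at h1
  · intro h
    have h2 : ¬ IsScal (g : M₂) := by
      intro hs
      apply h5
      rcases scal_trace hs with h4 | h4 <;> rw [h4] at h <;> linear_combination h
    refine ⟨?_, h2⟩
    rw [sl2_pow_five, scal_lin h2]
    exact h

/-- normalised pairs of matrices -/
def Q (A B : SL₂) : Prop :=
  (A : M₂).trace = -1 ∧ (B : M₂).trace ^ 2 + (B : M₂).trace - 1 = 0 ∧ ((A * B : SL₂) : M₂).trace = 0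

theorem rel_iff (h2 : (2 : F) ≠ 0) (h3 : (3 : F) ≠ 0) (h5 : (5 : F) ≠ 0) (A B : SL₂) :
    Rel (π A, π B) ↔ (A : M₂).trace ^ 2 = 1 ∧ (B : M₂).trace ^ 4 - 3 * (B : M₂).trace ^ 2 + 1 = 0 ∧
      ((A * B : SL₂) : M₂).trace = 0 := by
  unfold Rel
  rw [ord3 h3, ord5 h5, ← map_mul, ord2 h2]

theorem card_rel_eq (h2 : (2 : F) ≠ 0) (h3 : (3 : F) ≠ 0) (h5 : (5 : F) ≠ 0) :
    Nat.card {p : PG × PG // Rel p} = Nat.card {p : SL₂ × SL₂ // Q p.1 p.2} := by
  symm
  have hneg : ∀ g : SL₂, ((-g : SL₂) : M₂).trace = - (g : M₂).trace := by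
    intro g; rw [Matrix.SpecialLinearGroup.coe_neg, Matrix.trace_neg]
  have hpineg : ∀ g : SL₂, π (-g) = π g := by
    intro g
    have : (-g : SL₂) = (-1) * g := by simp
    rw [this, map_mul, pi_eq_one_iff.2 (Or.inr rfl), one_mul]
  have hinj : ∀ g h : SL₂, π g = π h → h = g ∨ h = -g := by
    intro g h hgh
    have h1 : π (g⁻¹ * h) = 1 := by rw [map_mul, map_inv, hgh, inv_mul_cancel]
    rcases pi_eq_one_iff.1 h1 with h4 | h4
    · left; exact (inv_mul_eq_one.1 h4).symm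
    · right
      rw [inv_mul_eq_iff_eq_mul] at h4
      rw [h4]; simp
  apply Nat.card_congr
  apply Equiv.ofBijective (fun p => ⟨(π p.1.1, π p.1.2), (rel_iff h2 h3 h5 _ _).2 ⟨by rw [p.2.1]; ring, by
    have h := p.2.2.1
    linear_combination ((p.1.2 : M₂).trace ^ 2 - (p.1.2 : M₂).trace - 1) * h, p.2.2.2⟩⟩)
  constructor
  · rintro ⟨⟨A, B⟩, hA, hB, hAB⟩ ⟨⟨A', B'⟩, hA', hB', hAB'⟩ h
    have h1 : π A = π A' := congrArg (fun z => z.1.1) h
    have h4 : π B = π B' := congrArg (fun z => z.1.2) h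
    simp only at hA hB hAB hA' hB' hAB'
    have e1 : A' = A := by
      rcases hinj _ _ h1 with e | e
      · exact e
      · exfalso
        rw [e, hneg, hA] at hA'
        apply h2; linear_combination hA'
    have e2 : B' = B := by
      rcases hinj _ _ h4 with e | e
      · exact e
      · exfalso
        rw [e, hneg] at hB'
        have h6 : (B : M₂).trace = 0 := by
          have : 2 * (B : M₂).trace = 0 := by linear_combination hB - hB'
          exact (mul_eq_zero.1 this).resolve_left h2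
        rw [h6] at hB
        apply one_ne_zero (α := F)
        linear_combination -hB
    apply Subtype.ext
    exact Prod.ext e1.symm e2.symm
  · rintro ⟨⟨x, y⟩, h⟩
    obtain ⟨A, rfl⟩ := QuotientGroup.mk'_surjective _ x
    obtain ⟨B, rfl⟩ := QuotientGroup.mk'_surjective _ y
    rw [rel_iff h2 h3 h5] at h
    obtain ⟨hA, hB, hAB⟩ := h
    obtain ⟨A', hA1, hA2, hA3⟩ : ∃ A' : SL₂, π A' = π A ∧ (A' : M₂).trace = -1 ∧ (A' = A ∨ A' = -A) := by
      have h6 : ((A : M₂).trace - 1) * ((A : M₂).trace + 1) = 0 := by linear_combination hA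
      rcases mul_eq_zero.1 h6 with h | h
      · exact ⟨-A, hpineg A, by rw [hneg, sub_eq_zero.1 h], Or.inr rfl⟩
      · exact ⟨A, rfl, eq_neg_of_add_eq_zero_left h, Or.inl rfl⟩
    obtain ⟨B', hB1, hB2, hB3⟩ : ∃ B' : SL₂, π B' = π B ∧ (B' : M₂).trace ^ 2 + (B' : M₂).trace - 1 = 0 ∧ (B' = B ∨ B' = -B) := by
      have h6 : ((B : M₂).trace ^ 2 + (B : M₂).trace - 1) * ((B : M₂).trace ^ 2 - (B : M₂).trace - 1) = 0 := by
        linear_combination hB
      rcases mul_eq_zero.1 h6 with h | h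
      · exact ⟨B, rfl, h, Or.inl rfl⟩
      · exact ⟨-B, hpineg B, by rw [hneg]; linear_combination h, Or.inr rfl⟩
    refine ⟨⟨(A', B'), hA2, hB2, ?_⟩, ?_⟩
    · simp only
      rcases hA3 with rfl | rfl <;> rcases hB3 with rfl | rfl
      · exact hAB
      · rw [mul_neg, hneg, hAB, neg_zero]
      · rw [neg_mul, hneg, hAB, neg_zero]
      · rw [neg_mul_neg]; exact hAB
    · apply Subtype.ext
      exact Prod.ext hA1 hB1

/-- conjugation by `GL_2` -/
def cg (P : GL (Fin 2) F) (B : SL₂) : SL₂ := ⟨(P : M₂) * B * ((P⁻¹ : GL (Fin 2) F) : M₂), by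
  rw [Matrix.det_mul, Matrix.det_mul, B.2, mul_one, ← Matrix.det_mul, ← Units.val_mul, mul_inv_cancel]; simp⟩

omit [Fintype F] in
theorem cg_trace (P : GL (Fin 2) F) (B : SL₂) : (cg P B : M₂).trace = (B : M₂).trace := by
  change ((P : M₂) * B * ((P⁻¹ : GL (Fin 2) F) : M₂)).trace = _
  rw [Matrix.trace_mul_comm, ← mul_assoc, ← Units.val_mul, inv_mul_cancel]; simp

omit [Fintype F] in
theorem cg_mul (P : GL (Fin 2) F) (A B : SL₂) : cg P (A * B) = cg P A * cg P B := by
  apply Subtype.ext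
  change (P : M₂) * ((A : M₂) * B) * ((P⁻¹ : GL (Fin 2) F) : M₂) =
    ((P : M₂) * A * ((P⁻¹ : GL (Fin 2) F) : M₂)) * ((P : M₂) * B * ((P⁻¹ : GL (Fin 2) F) : M₂))
  have : ((P⁻¹ : GL (Fin 2) F) : M₂) * (P : M₂) = 1 := by rw [← Units.val_mul, inv_mul_cancel]; rfl
  calc (P : M₂) * ((A : M₂) * B) * ((P⁻¹ : GL (Fin 2) F) : M₂) =
      (P : M₂) * A * 1 * B * ((P⁻¹ : GL (Fin 2) F) : M₂) := by rw [mul_one]; simp only [mul_assoc]
    _ = _ := by rw [← this]; simp only [mul_assoc]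

omit [Fintype F] in
theorem cg_inv (P : GL (Fin 2) F) (B : SL₂) : cg P (cg P⁻¹ B) = B := by
  apply Subtype.ext
  change (P : M₂) * (((P⁻¹ : GL (Fin 2) F) : M₂) * B * ((P⁻¹⁻¹ : GL (Fin 2) F) : M₂)) * ((P⁻¹ : GL (Fin 2) F) : M₂) = B
  have h1 : (P : M₂) * ((P⁻¹ : GL (Fin 2) F) : M₂) = 1 := by rw [← Units.val_mul, mul_inv_cancel]; rfl
  rw [inv_inv]
  calc _ = ((P : M₂) * ((P⁻¹ : GL (Fin 2) F) : M₂)) * B * ((P : M₂) * ((P⁻¹ : GL (Fin 2) F) : M₂)) := by simp only [mul_assoc]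
    _ = _ := by rw [h1, one_mul, mul_one]

def A0 : SL₂ := ⟨!![0, -1; 1, -1], by rw [det_fin_two_of]; ring⟩

theorem card_fib (A : SL₂) (hA : (A : M₂).trace = -1) (h3 : (3 : F) ≠ 0) :
    Nat.card {B : SL₂ // (B : M₂).trace ^ 2 + (B : M₂).trace - 1 = 0 ∧ ((A * B : SL₂) : M₂).trace = 0} =
    Nat.card {B : SL₂ // (B : M₂).trace ^ 2 + (B : M₂).trace - 1 = 0 ∧ ((A0 * B : SL₂) : M₂).trace = 0} := by
  have hns : ∀ g : SL₂, (g : M₂).trace = -1 → ¬ IsScal (g : M₂) := by
    intro g hg hs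
    apply h3
    rcases scal_trace hs with h4 | h4
    · rw [hg] at h4; linear_combination -h4
    · exfalso; rw [hg] at h4; apply one_ne_zero (α := F); linear_combination h4
  have hA0 : ((A0 : SL₂) : M₂).trace = -1 := by
    change (!![0, -1; 1, -1] : M₂).trace = -1
    simp [Matrix.trace_fin_two]
  have hconj := gl2_isConj_of_trace_det (tg F A0) (tg F A) (hns _ hA0) (hns _ hA) (by
    change ((A0 : SL₂) : M₂).trace = (A : M₂).trace
    rw [hA0, hA]) (by
    change ((A0 : SL₂) : M₂).det = (A : M₂).det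
    rw [A.2, (A0 : SL₂).2])
  rw [isConj_iff] at hconj
  obtain ⟨P, hP⟩ := hconj
  have hcg : cg P A0 = A := by
    apply Subtype.ext
    exact congrArg (fun z : GL (Fin 2) F => (z : M₂)) hP
  symm
  apply Nat.card_congr
  refine ⟨fun B => ⟨cg P B.1, by rw [cg_trace]; exact B.2.1, by
      rw [← hcg, ← cg_mul, cg_trace]; exact B.2.2⟩,
    fun B => ⟨cg P⁻¹ B.1, by rw [cg_trace]; exact B.2.1, by
      have h := B.2.2
      have e : cg P (A0 * cg P⁻¹ B.1) = A * B.1 := by rw [cg_mul, cg_inv, hcg]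
      rw [← cg_trace P, e]
      exact h⟩, ?_, ?_⟩
  · intro B
    apply Subtype.ext
    have := cg_inv P⁻¹ B.1
    rwa [inv_inv] at this
  · intro B
    apply Subtype.ext
    exact cg_inv P B.1

theorem card_fib0 : Nat.card {B : SL₂ // (B : M₂).trace ^ 2 + (B : M₂).trace - 1 = 0 ∧ ((A0 * B : SL₂) : M₂).trace = 0} =
    Nat.card {p : F × F × F // p.1 * p.2.2 - (p.2.1 + p.2.2) * p.2.1 = 1 ∧ (p.1 + p.2.2) ^ 2 + (p.1 + p.2.2) - 1 = 0} := by
  apply Nat.card_congr
  have htr : ∀ B : SL₂, ((A0 * B : SL₂) : M₂).trace = - (B : M₂) 1 0 + (B : M₂) 0 1 - (B : M₂) 1 1 := by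
    intro B
    change ((!![0, -1; 1, -1] : M₂) * (B : M₂)).trace = _
    rw [Matrix.trace_fin_two]
    simp [Matrix.mul_apply, Fin.sum_univ_two]
    ring
  refine ⟨fun B => ⟨((B.1 : M₂) 0 0, (B.1 : M₂) 1 0, (B.1 : M₂) 1 1), ?_, ?_⟩,
    fun p => ⟨⟨!![p.1.1, p.1.2.1 + p.1.2.2; p.1.2.1, p.1.2.2], ?_⟩, ?_, ?_⟩, ?_, ?_⟩
  · have h1 := B.2.2
    rw [htr] at h1
    have h2 := B.1.2
    rw [det_fin_two] at h2
    have h3 : (B.1 : M₂) 0 1 = (B.1 : M₂) 1 0 + (B.1 : M₂) 1 1 := by linear_combination h1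
    simp only
    rw [← h3]; exact h2
  · have h1 := B.2.1
    rw [Matrix.trace_fin_two] at h1
    exact h1
  · rw [det_fin_two_of]; exact p.2.1
  · rw [Matrix.trace_fin_two]; exact p.2.2
  · exact (htr (⟨!![p.1.1, p.1.2.1 + p.1.2.2; p.1.2.1, p.1.2.2],
      by rw [det_fin_two_of]; exact p.2.1⟩ : SL₂)).trans (by
        change -(p.1.2.1) + (p.1.2.1 + p.1.2.2) - p.1.2.2 = 0
        ring)
  · intro B
    have h1 := B.2.2
    rw [htr] at h1
    have h3 : (B.1 : M₂) 0 1 = (B.1 : M₂) 1 0 + (B.1 : M₂) 1 1 := by linear_combination h1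
    apply Subtype.ext; apply Subtype.ext
    simp only
    ext i j
    fin_cases i <;> fin_cases j
    · rfl
    · exact h3.symm
    · rfl
    · rfl
  · intro p
    apply Subtype.ext
    rfl

theorem card_tr : Nat.card {A : SL₂ // (A : M₂).trace = -1} =
    Nat.card {p : F × F × F // p.1 * (-1 - p.1) - p.2.1 * p.2.2 = 1} := by
  apply Nat.card_congr
  refine ⟨fun A => ⟨((A.1 : M₂) 0 0, (A.1 : M₂) 0 1, (A.1 : M₂) 1 0), ?_⟩,
    fun p => ⟨⟨!![p.1.1, p.1.2.1; p.1.2.2, -1 - p.1.1], ?_⟩, ?_⟩, ?_, ?_⟩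
  · have h1 := A.2
    rw [Matrix.trace_fin_two] at h1
    have h2 := A.1.2
    rw [det_fin_two] at h2
    have h3 : (A.1 : M₂) 1 1 = -1 - (A.1 : M₂) 0 0 := by linear_combination h1
    simp only
    rw [← h3]; exact h2
  · rw [det_fin_two_of]; exact p.2
  · rw [Matrix.trace_fin_two]; simp
  · intro A
    have h1 := A.2
    rw [Matrix.trace_fin_two] at h1
    have h3 : (A.1 : M₂) 1 1 = -1 - (A.1 : M₂) 0 0 := by linear_combination h1
    apply Subtype.ext; apply Subtype.ext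
    simp only
    ext i j
    fin_cases i <;> fin_cases j
    · rfl
    · rfl
    · rfl
    · exact h3.symm
  · intro p
    apply Subtype.ext
    rfl

theorem dec1 : (Finset.univ.filter (fun p : ZMod 11 × ZMod 11 × ZMod 11 => p.1 * p.2.2 - (p.2.1 + p.2.2) * p.2.1 = 1 ∧ (p.1 + p.2.2)^2 + (p.1 + p.2.2) - 1 = 0)).card = 24 := by decide +kernel
theorem dec2 : (Finset.univ.filter (fun p : ZMod 11 × ZMod 11 × ZMod 11 => p.1 * (-1 - p.1) - p.2.1 * p.2.2 = 1)).card = 110 := by decide +kernel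

theorem card_Q (hF : Fintype.card F = 11) (h3 : (3 : F) ≠ 0) : Nat.card {p : SL₂ × SL₂ // Q p.1 p.2} = 2640 := by
  classical
  let e := ZMod.ringEquivOfPrime F (by norm_num : Nat.Prime 11) hF
  have c1 : Nat.card {p : F × F × F // p.1 * p.2.2 - (p.2.1 + p.2.2) * p.2.1 = 1 ∧ (p.1 + p.2.2) ^ 2 + (p.1 + p.2.2) - 1 = 0} = 24 := by
    rw [← dec1]
    have : Nat.card {p : ZMod 11 × ZMod 11 × ZMod 11 // p.1 * p.2.2 - (p.2.1 + p.2.2) * p.2.1 = 1 ∧ (p.1 + p.2.2)^2 + (p.1 + p.2.2) - 1 = 0} =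
        Nat.card {p : F × F × F // p.1 * p.2.2 - (p.2.1 + p.2.2) * p.2.1 = 1 ∧ (p.1 + p.2.2) ^ 2 + (p.1 + p.2.2) - 1 = 0} := by
      apply Nat.card_congr
      refine (e.toEquiv.prodCongr (e.toEquiv.prodCongr e.toEquiv)).subtypeEquiv ?_
      intro p
      change _ ↔ (e p.1 * e p.2.2 - (e p.2.1 + e p.2.2) * e p.2.1 = 1 ∧ (e p.1 + e p.2.2) ^ 2 + (e p.1 + e p.2.2) - 1 = 0)
      rw [← map_mul, ← map_add, ← map_add, ← map_mul, ← map_sub, ← map_pow, ← map_add, ← map_one e, ← map_sub, ← map_zero e,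
        e.injective.eq_iff, e.injective.eq_iff]
    rw [← this, Nat.card_eq_fintype_card, Fintype.card_subtype]
  have c2 : Nat.card {p : F × F × F // p.1 * (-1 - p.1) - p.2.1 * p.2.2 = 1} = 110 := by
    rw [← dec2]
    have : Nat.card {p : ZMod 11 × ZMod 11 × ZMod 11 // p.1 * (-1 - p.1) - p.2.1 * p.2.2 = 1} =
        Nat.card {p : F × F × F // p.1 * (-1 - p.1) - p.2.1 * p.2.2 = 1} := by
      apply Nat.card_congr
      refine (e.toEquiv.prodCongr (e.toEquiv.prodCongr e.toEquiv)).subtypeEquiv ?_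
      intro p
      change _ ↔ (e p.1 * (-1 - e p.1) - e p.2.1 * e p.2.2 = 1)
      rw [← map_one e, ← map_neg, ← map_sub, ← map_mul, ← map_mul, ← map_sub, e.injective.eq_iff]
    rw [← this, Nat.card_eq_fintype_card, Fintype.card_subtype]
  have e2 : {p : SL₂ × SL₂ // Q p.1 p.2} ≃ Σ A : {A : SL₂ // (A : M₂).trace = -1},
      {B : SL₂ // (B : M₂).trace ^ 2 + (B : M₂).trace - 1 = 0 ∧ ((A.1 * B : SL₂) : M₂).trace = 0} :=
    { toFun := fun p => ⟨⟨p.1.1, p.2.1⟩, ⟨p.1.2, p.2.2⟩⟩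
      invFun := fun x => ⟨(x.1.1, x.2.1), x.1.2, x.2.2⟩
      left_inv := fun _ => rfl
      right_inv := fun _ => rfl }
  rw [Nat.card_congr e2, Nat.card_sigma]
  have : ∀ A : {A : SL₂ // (A : M₂).trace = -1},
      Nat.card {B : SL₂ // (B : M₂).trace ^ 2 + (B : M₂).trace - 1 = 0 ∧ ((A.1 * B : SL₂) : M₂).trace = 0} = 24 := by
    intro A
    rw [card_fib A.1 A.2 h3, card_fib0, c1]
  simp only [this]
  rw [Finset.sum_const, Finset.card_univ, smul_eq_mul, ← Nat.card_eq_fintype_card, card_tr, c2]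

theorem card_A5s (hF : Fintype.card F = 11) :
    Nat.card {L : Subgroup PG // Nonempty (L ≃* alternatingGroup (Fin 5))} = 22 := by
  let e := ZMod.ringEquivOfPrime F (by norm_num : Nat.Prime 11) hF
  have hk : ∀ k : ℕ, ((k : ℕ) : ZMod 11) ≠ 0 → ((k : ℕ) : F) ≠ 0 := by
    intro k hk h
    apply hk
    apply e.injective
    rw [map_natCast, map_zero, h]
  have h2 : (2 : F) ≠ 0 := by exact_mod_cast hk 2 (by decide)
  have h3 : (3 : F) ≠ 0 := by exact_mod_cast hk 3 (by decide)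
  have h5 : (5 : F) ≠ 0 := by exact_mod_cast hk 5 (by decide)
  have h := card_pairs (G := PG)
  rw [card_rel_eq h2 h3 h5, card_Q hF h3] at h
  omega

theorem main (hF : Fintype.card F = 11) : Nat.card {H : Subgroup (Matrix.ProjectiveSpecialLinearGroup (Fin 2) F) // Nonempty (H ≃* alternatingGroup (Fin 5))} = 22 ∧ ∃ H K : Subgroup (Matrix.ProjectiveSpecialLinearGroup (Fin 2) F), Nonempty (H ≃* alternatingGroup (Fin 5)) ∧ Nonempty (K ≃* alternatingGroup (Fin 5)) ∧ (∀ g : Matrix.ProjectiveSpecialLinearGroup (Fin 2) F, MulAut.conj g • H ≠ K) ∧ ∀ L : Subgroup (Matrix.ProjectiveSpecialLinearGroup (Fin 2) F), Nonempty (L ≃* alternatingGroup (Fin 5)) → ∃ g : Matrix.ProjectiveSpecialLinearGroup (Fin 2) F, MulAut.conj g • L = H ∨ MulAut.conj g • L = K := by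
  classical
  have h22 := card_A5s (F := F) hF
  refine ⟨h22, ?_⟩
  have hcard : Nat.card PG = 660 := by
    have h1 := card_PSL2 (F := F) hF
    have h2 : Nat.gcd 2 (11 - 1) = 2 := by decide
    rw [h2] at h1
    have h3 : 2 * Nat.card PG = 1320 := h1.trans (by norm_num)
    clear h1 h2
    omega
  have hsimple : IsSimpleGroup PG := PSL2_isSimple (by rw [Nat.card_eq_fintype_card, hF]; norm_num)
  -- the set of `A_5`'s and the action
  let Y := {L : Subgroup PG // Nonempty (L ≃* alternatingGroup (Fin 5))}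
  have hYfin : Finite Y := inferInstance
  have hstab : ∀ (g : PG) (L : Subgroup PG), Nonempty (L ≃* alternatingGroup (Fin 5)) →
      Nonempty ((MulAut.conj g • L : Subgroup PG) ≃* alternatingGroup (Fin 5)) := by
    rintro g L ⟨f⟩
    exact ⟨(L.equivSMul (MulAut.conj g)).symm.trans f⟩
  let act : MulAction PG Y :=
    { smul := fun g L => ⟨MulAut.conj g • L.1, hstab g L.1 L.2⟩
      one_smul := by
        intro L
        apply Subtype.ext
        change MulAut.conj (1 : PG) • L.1 = L.1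
        rw [map_one, one_smul]
      mul_smul := by
        intro a b L
        apply Subtype.ext
        change MulAut.conj (a * b) • L.1 = MulAut.conj a • MulAut.conj b • L.1
        rw [map_mul, mul_smul] }
  have hsmul : ∀ (g : PG) (L : Y), ((g • L : Y) : Subgroup PG) = MulAut.conj g • L.1 := fun _ _ => rfl
  -- orbit sizes
  have horb : ∀ L : Y, Nat.card (MulAction.orbit PG L) = 11 := by
    intro L
    have hL60 : Nat.card L.1 = 60 := by
      obtain ⟨f⟩ := L.2
      rw [Nat.card_congr f.toEquiv, card_A5]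
    have hle : L.1 ≤ MulAction.stabilizer PG L := by
      intro x hx
      rw [MulAction.mem_stabilizer_iff]
      apply Subtype.ext
      rw [hsmul]
      exact Subgroup.conj_smul_eq_self_of_mem hx
    have hidx : (MulAction.stabilizer PG L).index = Nat.card (MulAction.orbit PG L) := by
      rw [← Nat.card_congr (MulAction.orbitEquivQuotientStabilizer PG L).symm]; rfl
    have h1 : L.1.index = 11 := by
      have := L.1.card_mul_index
      rw [hL60, hcard] at this; omega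
    have h2 : (MulAction.stabilizer PG L).index ∣ 11 := by
      rw [← h1]; exact Subgroup.index_dvd_of_le hle
    rcases (Nat.dvd_prime (by norm_num)).1 h2 with h3 | h3
    · exfalso
      have h4 : MulAction.stabilizer PG L = ⊤ := Subgroup.index_eq_one.1 h3
      have hn : L.1.Normal := by
        constructor
        intro x hx g
        have hg : g ∈ MulAction.stabilizer PG L := by rw [h4]; trivial
        rw [MulAction.mem_stabilizer_iff] at hg
        have h5 : MulAut.conj g • L.1 = L.1 := congrArg Subtype.val hg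
        rw [← h5, Subgroup.mem_pointwise_smul_iff_inv_smul_mem, ← map_inv]
        simp only [MulAut.smul_def, MulAut.conj_apply, inv_inv]
        have : g⁻¹ * (g * x * g⁻¹) * g = x := by group
        rw [this]; exact hx
      rcases IsSimpleGroup.eq_bot_or_eq_top_of_normal L.1 hn with h5 | h5
      · rw [h5, Subgroup.card_bot] at hL60; omega
      · rw [h5, Subgroup.card_top, hcard] at hL60; omega
    · rw [← hidx, h3]
  have hY22 : Nat.card Y = 22 := h22
  obtain ⟨H⟩ : Nonempty Y := (Nat.card_pos_iff.1 (by rw [hY22]; norm_num)).1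
  obtain ⟨K, hK⟩ : ∃ K : Y, K ∉ MulAction.orbit PG H := by
    by_contra hcon
    push Not at hcon
    have : MulAction.orbit PG H = Set.univ := Set.eq_univ_of_forall hcon
    have h1 := horb H
    rw [this, Nat.card_univ, hY22] at h1
    omega
  have hdisj : Disjoint (MulAction.orbit PG H) (MulAction.orbit PG K) := by
    rw [Set.disjoint_left]
    intro z hz hz'
    apply hK
    rw [← MulAction.orbit_eq_iff.2 hz, MulAction.orbit_eq_iff.2 hz']
    exact MulAction.mem_orbit_self K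
  have hunion : MulAction.orbit PG H ∪ MulAction.orbit PG K = Set.univ := by
    apply Set.eq_of_subset_of_ncard_le (Set.subset_univ _)
    rw [Set.ncard_univ, hY22, Set.ncard_union_eq hdisj]
    have h1 := horb H
    have h2 := horb K
    rw [Nat.card_coe_set_eq] at h1 h2
    omega
  refine ⟨H.1, K.1, H.2, K.2, ?_, ?_⟩
  · intro g hg
    apply hK
    exact ⟨g, Subtype.ext hg⟩
  · intro L hL
    have : (⟨L, hL⟩ : Y) ∈ MulAction.orbit PG H ∪ MulAction.orbit PG K := by rw [hunion]; trivial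
    rcases this with h | h
    · rw [← MulAction.orbit_eq_iff] at h
      have h1 : H ∈ MulAction.orbit PG (⟨L, hL⟩ : Y) := by rw [h]; exact MulAction.mem_orbit_self H
      obtain ⟨g, hg⟩ := h1
      exact ⟨g, Or.inl (congrArg Subtype.val hg)⟩
    · rw [← MulAction.orbit_eq_iff] at h
      have h1 : K ∈ MulAction.orbit PG (⟨L, hL⟩ : Y) := by rw [h]; exact MulAction.mem_orbit_self K
      obtain ⟨g, hg⟩ := h1
      exact ⟨g, Or.inr (congrArg Subtype.val hg)⟩

end Cfsg.Agent.H16.A5P11
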