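import Mathlib
import Cfsg.Agent.H16.BnE

set_option autoImplicit false
set_option linter.all false

/-! Steinberg's count of unipotent elements in a finite group with split BN pair. -/

namespace Cfsg.Agent.H16.BNS

open Cfsg Cfsg.Agent.H6 Cfsg.Agent.H6.BN

variable {G : Type*} [Group G] {P : Cfsg.BNPair G} [Finite G]
variable {p : ℕ} (S : Split P p)

/-- elements of `p`-power order -/
def pel (p : ℕ) (x : G) : Prop := ∃ k : ℕ, orderOf x = p ^ k

omit [Finite G] in
lemma pel_mul [Fact p.Prime] {V : Subgroup G} (hVp : ∃ k : ℕ, Nat.card V = p ^ k) {x v : G} (hn : ∀ v ∈ V, x⁻¹ * v * x ∈ V) (hv : v ∈ V)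
    (hx : pel p x) : pel p (x * v) := by
  obtain ⟨l, hl⟩ := hVp
  obtain ⟨k, hk⟩ := hx
  have h1 : ∀ n : ℕ, ∃ v' ∈ V, (x * v) ^ n = x ^ n * v' := by
    intro n
    induction n with
    | zero => exact ⟨1, one_mem _, by simp⟩
    | succ n ih =>
      obtain ⟨v', hv', e⟩ := ih
      refine ⟨x⁻¹ * v' * x * v, mul_mem (hn v' hv') hv, ?_⟩
      rw [pow_succ, e, pow_succ]; group
  obtain ⟨v', hv', e⟩ := h1 (p ^ k)
  rw [← hk, pow_orderOf_eq_one, one_mul] at e
  have h2 : v' ^ (p ^ l) = 1 := by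
    rw [← hl]
    have := pow_card_eq_one' (x := (⟨v', hv'⟩ : V))
    exact congrArg Subtype.val this
  have h3 : (x * v) ^ (p ^ (k + l)) = 1 := by
    rw [pow_add, pow_mul, ← hk, e, h2]
  obtain ⟨j, -, hj⟩ := (Nat.dvd_prime_pow (Fact.out : p.Prime)).1 (orderOf_dvd_of_pow_eq_one h3)
  exact ⟨j, hj⟩

omit [Finite G] in
lemma pel_conj (g x : G) : pel p (g * x * g⁻¹) ↔ pel p x := by
  have : orderOf (g * x * g⁻¹) = orderOf x := orderOf_injective (MulAut.conj g).toMonoidHom (MulAut.conj g).injective x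
  unfold pel
  rw [this]

omit [Finite G] in
lemma pel_one : pel p (1 : G) := ⟨0, by simp⟩

omit [Finite G] in
lemma pel_dvd [Fact p.Prime] {x : G} (h : pel p x) (h1 : x ≠ 1) : p ∣ orderOf x := by
  obtain ⟨k, hk⟩ := h
  rw [hk]
  apply dvd_pow_self
  rintro rfl
  rw [pow_zero] at hk
  exact h1 (orderOf_eq_one_iff.1 hk)

open Classical in
include S in
lemma sum_pel [Fact p.Prime] (J : Finset P.S) [Fintype (PJ P (J : Set P.S))] :
    ∑ x ∈ Finset.univ.filter (fun x : PJ P (J : Set P.S) => pel p (x : G)), StZ P x =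
      ∑ x ∈ Finset.univ.filter (fun x : PJ P (J : Set P.S) => pel p (x : G)), StJ P J x := by
  have : Fintype (S.V J) := Fintype.ofFinite _
  have hn : ∀ x ∈ PJ P (J : Set P.S), ∀ v ∈ S.V J, x⁻¹ * v * x ∈ S.V J := by
    intro x hx v hv
    have := S.V_norm J x⁻¹ (inv_mem hx) v hv
    rwa [inv_inv] at this
  have h1 : ∑ x ∈ Finset.univ.filter (fun x : PJ P (J : Set P.S) => pel p (x : G)), ∑ v : S.V J, StZ P ((x : G) * (v : G)) =
      ∑ x ∈ Finset.univ.filter (fun x : PJ P (J : Set P.S) => pel p (x : G)), (Nat.card (S.V J) : ℤ) * StJ P J x :=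
    Finset.sum_congr rfl fun x _ => St_trunc (S.V_le J) (S.V_norm J) (S.V_fac J) x.2
  rw [Finset.sum_comm, ← Finset.mul_sum] at h1
  have h2 : ∀ v : S.V J, ∑ x ∈ Finset.univ.filter (fun x : PJ P (J : Set P.S) => pel p (x : G)), StZ P ((x : G) * (v : G)) =
      ∑ x ∈ Finset.univ.filter (fun x : PJ P (J : Set P.S) => pel p (x : G)), StZ P x := by
    intro v
    have hv : (v : G) ∈ PJ P (J : Set P.S) := B_le_PJ P _ (S.V_le J v.2)
    refine Finset.sum_equiv (Equiv.mulRight (⟨v, hv⟩ : PJ P (J : Set P.S))) ?_ ?_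
    · intro x
      rw [Finset.mem_filter, Finset.mem_filter]
      simp only [Finset.mem_univ, true_and]
      constructor
      · intro h
        exact pel_mul (S.V_p J) (hn x x.2) v.2 h
      · intro h
        have h3 : pel p ((x : G) * v) := h
        have := pel_mul (S.V_p J) (hn _ (mul_mem x.2 hv)) (inv_mem v.2) h3
        rwa [mul_inv_cancel_right] at this
    · intro x _; rfl
  rw [Finset.sum_congr rfl fun v _ => h2 v, Finset.sum_const, Finset.card_univ, nsmul_eq_mul, ← Nat.card_eq_fintype_card] at h1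
  have h3 : (Nat.card (S.V J) : ℤ) ≠ 0 := by
    have : 0 < Nat.card (S.V J) := Nat.card_pos
    positivity
  exact mul_left_cancel₀ h3 h1

/-- number of `p`-elements in a parabolic -/
noncomputable def fE (P : Cfsg.BNPair G) (p : ℕ) (M : Set P.S) : ℕ := Nat.card {x : G // x ∈ PJ P M ∧ pel p x}

/-- number of cosets of `P_M` in `P_J` -/
noncomputable def iJM (P : Cfsg.BNPair G) (J M : Set P.S) : ℕ := Nat.card {z : G ⧸ PJ P M // ∃ a ∈ PJ P J, z = (a : G ⧸ PJ P M)}

open Classical in
lemma sum_pel_fix (J M : Set P.S) (hM : M ⊆ J) [Fintype (PJ P J)] :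
    ∑ x ∈ Finset.univ.filter (fun x : PJ P J => pel p (x : G)), fixJM P x J M = iJM P J M * fE P p M := by
  have hle : PJ P M ≤ PJ P J := PJ_mono P hM
  let X := {z : G ⧸ PJ P M // ∃ a ∈ PJ P J, z = (a : G ⧸ PJ P M)}
  have : Fintype X := Fintype.ofFinite _
  have e1 : ∀ x : PJ P J, fixJM P x J M = ∑ z : X, if (x : G) • z.1 = z.1 then 1 else 0 := by
    intro x
    rw [← Finset.sum_filter, Finset.sum_const, smul_eq_mul, mul_one]
    unfold fixJM
    rw [Nat.card_congr (Equiv.subtypeSubtypeEquivSubtypeInter (fun z : G ⧸ PJ P M => ∃ a ∈ PJ P J, z = (a : G ⧸ PJ P M)) (fun z => (x : G) • z = z)).symm,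
      Nat.card_eq_fintype_card]
    exact Fintype.card_subtype (fun z : X => (x : G) • z.1 = z.1)
  rw [Finset.sum_congr rfl fun x _ => e1 x, Finset.sum_comm]
  have e2 : ∀ z : X, ∑ x ∈ Finset.univ.filter (fun x : PJ P J => pel p (x : G)), (if (x : G) • z.1 = z.1 then 1 else 0) = fE P p M := by
    rintro ⟨_, a, ha, rfl⟩
    rw [← Finset.sum_filter, Finset.filter_filter, Finset.sum_const, smul_eq_mul, mul_one]
    unfold fE
    have h1 : (Finset.univ.filter (fun x : PJ P J => pel p (x : G) ∧ (x : G) • (a : G ⧸ PJ P M) = a)).card =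
        Nat.card {x : PJ P J // pel p (x : G) ∧ (x : G) • (a : G ⧸ PJ P M) = a} := by
      rw [Nat.card_eq_fintype_card]
      exact (Fintype.card_subtype _).symm
    rw [h1]
    have hfix : ∀ x : G, x • (a : G ⧸ PJ P M) = a ↔ a⁻¹ * x * a ∈ PJ P M := by
      intro x
      show ((x * a : G) : G ⧸ PJ P M) = a ↔ _
      rw [eq_comm, QuotientGroup.eq, mul_assoc]
    apply Nat.card_congr
    refine ⟨fun x => ⟨a⁻¹ * x.1.1 * a, (hfix _).1 x.2.2, ?_⟩, fun x => ⟨⟨a * x.1 * a⁻¹, mul_mem (mul_mem ha (hle x.2.1)) (inv_mem ha)⟩, ?_, ?_⟩, ?_, ?_⟩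
    · have := (pel_conj (p := p) a⁻¹ (x.1 : G)).2 x.2.1
      rwa [inv_inv] at this
    · exact (pel_conj a _).2 x.2.2
    · rw [hfix]
      have e : a⁻¹ * (a * x.1 * a⁻¹) * a = x.1 := by group
      rw [e]; exact x.2.1
    · intro x; apply Subtype.ext; apply Subtype.ext; show a * (a⁻¹ * x.1.1 * a) * a⁻¹ = x.1.1; group
    · intro x; apply Subtype.ext; show a⁻¹ * (a * x.1 * a⁻¹) * a = x.1; group
  rw [Finset.sum_congr rfl fun z _ => e2 z, Finset.sum_const, smul_eq_mul]
  congr 1
  unfold iJM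
  rw [Nat.card_eq_fintype_card]
  rfl

include S in
theorem count_J [Fact p.Prime] (hF : Full S) (J : Finset P.S) :
    (Nat.card (S.V ∅) : ℤ) = ∑ M ∈ J.powerset, (-1 : ℤ) ^ M.card * ((iJM P (J : Set P.S) (M : Set P.S) : ℤ) * (fE P p (M : Set P.S) : ℤ)) := by
  classical
  have : Fintype (PJ P (J : Set P.S)) := Fintype.ofFinite _
  have h1 := sum_pel S J
  rw [Finset.sum_eq_single (1 : PJ P (J : Set P.S))] at h1
  · rw [Subgroup.coe_one, StZ_one S] at h1
    rw [h1]
    unfold StJ
    rw [Finset.sum_comm]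
    refine Finset.sum_congr rfl fun M hM => ?_
    rw [← Finset.mul_sum, ← Nat.cast_sum, sum_pel_fix _ _ (by exact_mod_cast Finset.mem_powerset.1 hM)]
    push_cast
    rfl
  · intro x hx h
    have h2 := (Finset.mem_filter.1 hx).2
    exact StZ_sing S hF (pel_dvd h2 (fun h' => h (Subtype.ext h')))
  · intro h
    exfalso
    apply h
    rw [Finset.mem_filter]
    exact ⟨Finset.mem_univ _, (pel_one : pel p (1 : G))⟩

/-- number of cosets of `B` in `BwB` -/
noncomputable def ind (P : Cfsg.BNPair G) (w : Wl P) : ℕ := Nat.card {y : G ⧸ P.B // tyQ P y = w}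

lemma ind_one : ind P 1 = 1 := by
  unfold ind
  rw [Nat.card_eq_one_iff_unique]
  constructor
  · constructor
    rintro ⟨y, hy⟩ ⟨y', hy'⟩
    apply Subtype.ext
    induction y using QuotientGroup.induction_on with
    | H g =>
      induction y' using QuotientGroup.induction_on with
      | H g' =>
        rw [tyQ_mk] at hy hy'
        have h1 := ty_mem P g
        have h2 := ty_mem P g'
        rw [hy, C_one] at h1
        rw [hy', C_one] at h2
        show (g : G ⧸ P.B) = g'
        rw [QuotientGroup.eq]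
        exact P.B.mul_mem (P.B.inv_mem h1) h2
  · exact ⟨⟨((1 : G) : G ⧸ P.B), by rw [tyQ_mk]; apply ty_eq; rw [C_one]; exact P.B.one_mem⟩⟩

lemma ind_mul {x y : Wl P} (h : len (sm P) (x * y) = len (sm P) x + len (sm P) y) : ind P (x * y) = ind P x * ind P y := by
  unfold ind
  rw [← Nat.card_prod]
  symm
  apply Nat.card_congr
  have hC : ∀ (z : G ⧸ P.B) (w : Wl P) (hz : tyQ P z = w), z.out ∈ C P w := by
    intro z w hz
    have h1 := ty_mem P z.out
    rw [← tyQ_mk, QuotientGroup.out_eq', hz] at h1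
    exact h1
  have hsm : ∀ (z : {y : G ⧸ P.B // tyQ P y = x}) (g : G), ty P g = y → tyQ P (z.1.out • (g : G ⧸ P.B)) = x * y := by
    intro z g hg
    show tyQ P ((z.1.out * g : G) : G ⧸ P.B) = x * y
    rw [tyQ_mk]
    have h2 := ty_mem P g
    rw [hg] at h2
    exact ty_eq P (C_mul P h (hC z.1 x z.2) h2)
  refine Equiv.ofBijective (fun q => ⟨q.1.1.out • q.2.1, ?_⟩) ⟨?_, ?_⟩
  · obtain ⟨z, ⟨u, hu⟩⟩ := q
    induction u using QuotientGroup.induction_on with
    | H g => exact hsm z g hu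
  · rintro ⟨z, ⟨u, hu⟩⟩ ⟨z', ⟨u', hu'⟩⟩ he
    have he' : z.1.out • u = z'.1.out • u' := congrArg Subtype.val he
    induction u using QuotientGroup.induction_on with
    | H g =>
      induction u' using QuotientGroup.induction_on with
      | H g' =>
        have h1 : ((z.1.out * g : G) : G ⧸ P.B) = ((z'.1.out * g' : G) : G ⧸ P.B) := he'
        rw [QuotientGroup.eq] at h1
        have h2 : z.1.out⁻¹ * (z.1.out * g) ∈ C P y := by
          rw [inv_mul_cancel_left]
          have := ty_mem P g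
          rwa [show ty P g = y from hu] at this
        have h3 : z'.1.out⁻¹ * (z.1.out * g) ∈ C P y := by
          have e : z'.1.out⁻¹ * (z.1.out * g) = g' * ((z.1.out * g)⁻¹ * (z'.1.out * g'))⁻¹ := by group
          rw [e]
          have := ty_mem P g'
          rw [show ty P g' = y from hu'] at this
          exact C_mul_right P this (P.B.inv_mem h1)
        have h4 := gate P h (hC z.1 x z.2) (hC z'.1 x z'.2) h2 h3
        have h5 : z = z' := by
          apply Subtype.ext
          rw [← QuotientGroup.out_eq' z.1, ← QuotientGroup.out_eq' z'.1, QuotientGroup.eq]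
          exact h4
        subst h5
        have h6 : (g : G ⧸ P.B) = g' := smul_left_cancel _ he'
        exact Prod.ext rfl (Subtype.ext h6)
  · rintro ⟨u, hu⟩
    induction u using QuotientGroup.induction_on with
    | H g =>
      have h1 := ty_mem P g
      rw [show ty P g = x * y from hu] at h1
      obtain ⟨n, rfl⟩ := pr_surj P x
      obtain ⟨m, rfl⟩ := pr_surj P y
      rw [← map_mul] at h1
      obtain ⟨a, ha, c, hc, e⟩ := C_rel P h1 (mem_C_pr P (n * m))
      -- g = a * (n * m) * c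
      have h2 : tyQ P ((a * n : G) : G ⧸ P.B) = pr P n := by
        rw [tyQ_mk]; exact ty_eq P (C_mul_left P (mem_C_pr P n) ha)
      set z : {y : G ⧸ P.B // tyQ P y = pr P n} := ⟨((a * n : G) : G ⧸ P.B), h2⟩ with hz
      have h3 : z.1.out⁻¹ * (a * n) ∈ P.B := by
        rw [← QuotientGroup.eq, QuotientGroup.out_eq']
      have h4 : tyQ P ((z.1.out⁻¹ * (a * n) * (m * c) : G) : G ⧸ P.B) = pr P m := by
        rw [tyQ_mk]
        exact ty_eq P (C_mul_left P (C_mul_right P (mem_C_pr P m) hc) h3)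
      refine ⟨(z, ⟨_, h4⟩), Subtype.ext ?_⟩
      show z.1.out • ((z.1.out⁻¹ * (a * n) * (m * c) : G) : G ⧸ P.B) = (g : G ⧸ P.B)
      show ((z.1.out * (z.1.out⁻¹ * (a * n) * (m * c)) : G) : G ⧸ P.B) = (g : G ⧸ P.B)
      congr 1
      rw [e]
      have : ((n * m : P.N) : G) = (n : G) * m := rfl
      rw [this]; group

open Classical in
lemma iJM_eq [Fintype (Wl P)] {J M : Set P.S} (hM : M ⊆ J) :
    iJM P J M = ∑ w ∈ Finset.univ.filter (fun w : Wl P => w ∈ WI (sm P) J ∧ MinR (sm P) M w), ind P w := by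
  have h1 : iJM P J M = Nat.card {y : G ⧸ P.B // tyQ P y ∈ WI (sm P) J ∧ MinR (sm P) M (tyQ P y)} := by
    unfold iJM
    symm
    apply Nat.card_congr
    let f : G ⧸ P.B → G ⧸ PJ P M := Quotient.map' id (by
      intro a c h
      have h1 : a⁻¹ * c ∈ P.B := QuotientGroup.leftRel_apply.1 h
      exact QuotientGroup.leftRel_apply.2 (B_le_PJ P M h1))
    have hf : ∀ g : G, f (g : G ⧸ P.B) = (g : G ⧸ PJ P M) := fun _ => rfl
    refine Equiv.ofBijective (fun y => ⟨f y.1, ?_⟩) ⟨?_, ?_⟩
    · obtain ⟨y, hy⟩ := y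
      induction y using QuotientGroup.induction_on with
      | H g =>
        exact ⟨g, (PJ_mem P (ty_mem P g)).2 hy.1, rfl⟩
    · rintro ⟨y, hy⟩ ⟨y', hy'⟩ he
      have he' : f y = f y' := congrArg Subtype.val he
      induction y using QuotientGroup.induction_on with
      | H g =>
        induction y' using QuotientGroup.induction_on with
        | H g' =>
          rw [hf, hf, QuotientGroup.eq] at he'
          apply Subtype.ext
          show (g : G ⧸ P.B) = g'
          rw [QuotientGroup.eq]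
          exact minrep_unique P hy.2 hy'.2 he'
    · rintro ⟨_, a, ha, rfl⟩
      obtain ⟨g0, x, hx, hmin, rfl⟩ := exists_minrep P M a
      have hg0 : g0 ∈ PJ P J := by
        have : g0 = g0 * x * x⁻¹ := by group
        rw [this]
        exact mul_mem ha (inv_mem (PJ_mono P hM hx))
      refine ⟨⟨(g0 : G ⧸ P.B), (PJ_mem P (ty_mem P g0)).1 hg0, hmin⟩, Subtype.ext ?_⟩
      show (g0 : G ⧸ PJ P M) = ((g0 * x : G) : G ⧸ PJ P M)
      rw [QuotientGroup.eq, inv_mul_cancel_left]
      exact hx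
  rw [h1]
  have : Fintype (G ⧸ P.B) := Fintype.ofFinite _
  rw [Nat.card_eq_fintype_card, Fintype.card_subtype, Finset.card_eq_sum_card_fiberwise (f := tyQ P) (t := Finset.univ.filter (fun w : Wl P => w ∈ WI (sm P) J ∧ MinR (sm P) M w))]
  · refine Finset.sum_congr rfl fun w hw => ?_
    unfold ind
    rw [Nat.card_eq_fintype_card, Fintype.card_subtype]
    congr 1
    ext y
    have hw' := (Finset.mem_filter.1 hw).2
    simp only [Finset.mem_filter, Finset.mem_univ, true_and]
    constructor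
    · rintro ⟨-, h⟩; exact h
    · rintro h; rw [h]; exact ⟨hw', rfl⟩
  · intro y hy
    have := (Finset.mem_filter.1 hy).2
    exact Finset.mem_filter.2 ⟨Finset.mem_univ _, this⟩

/-- the longest element of `W_J` -/
noncomputable def wl (P : Cfsg.BNPair G) (J : Set P.S) : Wl P := Classical.choose (exists_isLong (hsG P) (hexG P) (hneG P) J)
lemma wl_spec (J : Set P.S) : IsLong (sm P) J (wl P J) := Classical.choose_spec (exists_isLong (hsG P) (hexG P) (hneG P) J)

open Classical in
/-- right descent set -/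
noncomputable def Des (P : Cfsg.BNPair G) (w : Wl P) : Finset P.S := Finset.univ.filter fun i => len (sm P) (w * sm P i) < len (sm P) w

open Classical in
lemma sum_ind_wl [Fintype (Wl P)] {J M : Finset P.S} (hM : M ⊆ J) :
    (∑ w ∈ Finset.univ.filter (fun w : Wl P => w ∈ WI (sm P) (J : Set P.S) ∧ MinR (sm P) (M : Set P.S) w), ind P w) * ind P (wl P (M : Set P.S)) =
      ∑ w ∈ Finset.univ.filter (fun w : Wl P => w ∈ WI (sm P) (J : Set P.S) ∧ M ⊆ Des P w), ind P w := by
  rw [Finset.sum_mul]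
  have hwl := wl_spec (P := P) (M : Set P.S)
  have hsub : WI (sm P) (M : Set P.S) ≤ WI (sm P) (J : Set P.S) := Subgroup.closure_mono (Set.image_mono (by exact_mod_cast hM))
  refine Finset.sum_bij' (fun w _ => w * wl P (M : Set P.S)) (fun w _ => w * wl P (M : Set P.S)) ?_ ?_ ?_ ?_ ?_
  · intro w hw
    rw [Finset.mem_filter] at hw ⊢
    refine ⟨Finset.mem_univ _, mul_mem hw.2.1 (hsub hwl.mem), fun i hi => ?_⟩
    rw [Des, Finset.mem_filter]
    refine ⟨Finset.mem_univ _, ?_⟩
    rw [mul_assoc, addR (hsG P) (hexG P) (hneG P) hw.2.2 (mul_mem hwl.mem (s_mem (Finset.mem_coe.2 hi))),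
      addR (hsG P) (hexG P) (hneG P) hw.2.2 hwl.mem]
    have := hwl.dr i (Finset.mem_coe.2 hi)
    omega
  · intro w hw
    rw [Finset.mem_filter] at hw ⊢
    refine ⟨Finset.mem_univ _, mul_mem hw.2.1 (hsub hwl.mem), ?_⟩
    obtain ⟨d, v, hd, hv, rfl⟩ := existsR (hsG P) (hexG P) (hneG P) (M : Set P.S) w
    have hvl : v = wl P (M : Set P.S) := by
      apply uniq_long (hsG P) (hexG P) hwl.mem hwl.dl hv
      intro i hi
      have h1 := (Finset.mem_filter.1 (hw.2.2 (Finset.mem_coe.1 hi))).2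
      rw [mul_assoc, addR (hsG P) (hexG P) (hneG P) hd (mul_mem hv (s_mem hi)), addR (hsG P) (hexG P) (hneG P) hd hv] at h1
      omega
    rw [hvl, mul_assoc]
    have : wl P (M : Set P.S) * wl P (M : Set P.S) = 1 := by
      have := hwl.inv_eq (hsG P) (hexG P)
      nth_rewrite 1 [← this]
      rw [inv_mul_cancel]
    rw [this, mul_one]
    exact hd
  · intro w _
    have : wl P (M : Set P.S) * wl P (M : Set P.S) = 1 := by
      have := hwl.inv_eq (hsG P) (hexG P)
      nth_rewrite 1 [← this]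
      rw [inv_mul_cancel]
    show w * wl P (M : Set P.S) * wl P (M : Set P.S) = w
    rw [mul_assoc, this, mul_one]
  · intro w _
    have : wl P (M : Set P.S) * wl P (M : Set P.S) = 1 := by
      have := hwl.inv_eq (hsG P) (hexG P)
      nth_rewrite 1 [← this]
      rw [inv_mul_cancel]
    show w * wl P (M : Set P.S) * wl P (M : Set P.S) = w
    rw [mul_assoc, this, mul_one]
  · intro w hw
    rw [Finset.mem_filter] at hw
    exact (ind_mul (addR (hsG P) (hexG P) (hneG P) hw.2.2 hwl.mem)).symm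

lemma alt_sum_ind (J : Finset P.S) : ∑ M ∈ J.powerset, (-1 : ℤ) ^ M.card * ((iJM P (J : Set P.S) (M : Set P.S) : ℤ) * (ind P (wl P (M : Set P.S)) : ℤ)) = 1 := by
  classical
  have : Fintype (Wl P) := Fintype.ofFinite _
  have h1 : ∀ M ∈ J.powerset, (-1 : ℤ) ^ M.card * ((iJM P (J : Set P.S) (M : Set P.S) : ℤ) * (ind P (wl P (M : Set P.S)) : ℤ)) =
      ∑ w ∈ Finset.univ.filter (fun w : Wl P => w ∈ WI (sm P) (J : Set P.S)), if M ⊆ Des P w then (-1 : ℤ) ^ M.card * (ind P w : ℤ) else 0 := by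
    intro M hM
    have hM' := Finset.mem_powerset.1 hM
    rw [← Nat.cast_mul, iJM_eq (by exact_mod_cast hM'), sum_ind_wl hM', Nat.cast_sum, Finset.mul_sum, ← Finset.sum_filter, Finset.filter_filter]
  rw [Finset.sum_congr rfl h1, Finset.sum_comm, Finset.sum_eq_single (1 : Wl P)]
  · rw [Finset.sum_eq_single ∅]
    · rw [if_pos (Finset.empty_subset _), ind_one]; simp
    · intro M hM hne
      rw [if_neg]
      intro h
      obtain ⟨i, hi⟩ := Finset.nonempty_iff_ne_empty.2 hne
      have := (Finset.mem_filter.1 (h hi)).2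
      rw [(hsG P).len_one] at this
      omega
    · intro h; exact absurd (Finset.mem_powerset.2 (Finset.empty_subset _)) h
  · intro w hw hne
    have hw' := (Finset.mem_filter.1 hw).2
    have h2 : ∑ M ∈ J.powerset, (if M ⊆ Des P w then (-1 : ℤ) ^ M.card * (ind P w : ℤ) else 0) = (∑ M ∈ (J ∩ Des P w).powerset, (-1 : ℤ) ^ M.card) * ind P w := by
      rw [← Finset.sum_filter, Finset.sum_mul]
      congr 1
      ext M
      rw [Finset.mem_filter, Finset.mem_powerset, Finset.mem_powerset, Finset.subset_inter_iff]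
    rw [h2, Finset.sum_powerset_neg_one_pow_card, if_neg, zero_mul]
    intro hemp
    obtain ⟨i, hi, v, hv, e, hl⟩ := exists_last (hsG P) (hexG P) hw' hne
    have : i ∈ J ∩ Des P w := by
      rw [Finset.mem_inter]
      refine ⟨Finset.mem_coe.1 hi, Finset.mem_filter.2 ⟨Finset.mem_univ _, ?_⟩⟩
      have h3 : w * sm P i = v := by rw [e, mul_assoc, (hsG P).sq, mul_one]
      rw [h3]; omega
    rw [hemp] at this
    exact absurd this (Finset.notMem_empty _)
  · intro h
    exact absurd (Finset.mem_filter.2 ⟨Finset.mem_univ _, one_mem _⟩) h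

lemma iJM_self (J : Set P.S) : iJM P J J = 1 := by
  unfold iJM
  rw [Nat.card_eq_one_iff_unique]
  constructor
  · constructor
    rintro ⟨_, a, ha, rfl⟩ ⟨_, c, hc, rfl⟩
    apply Subtype.ext
    show (a : G ⧸ PJ P J) = c
    rw [QuotientGroup.eq]
    exact mul_mem (inv_mem ha) hc
  · exact ⟨⟨((1 : G) : G ⧸ PJ P J), 1, one_mem _, rfl⟩⟩

include S in
theorem fE_eq [Fact p.Prime] (hF : Full S) : ∀ (n : ℕ) (J : Finset P.S), J.card = n → fE P p (J : Set P.S) = Nat.card (S.V ∅) * ind P (wl P (J : Set P.S)) := by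
  classical
  intro n
  induction n using Nat.strong_induction_on with
  | _ n ih =>
    intro J hJ
    have h1 := count_J S hF J
    have h2 := alt_sum_ind (P := P) J
    have h3 : (Nat.card (S.V ∅) : ℤ) = ∑ M ∈ J.powerset, (-1 : ℤ) ^ M.card * ((iJM P (J : Set P.S) (M : Set P.S) : ℤ) * ((Nat.card (S.V ∅) : ℤ) * (ind P (wl P (M : Set P.S)) : ℤ))) := by
      have h2' := congrArg (fun z => (Nat.card (S.V ∅) : ℤ) * z) h2
      simp only [mul_one] at h2'
      refine h2'.symm.trans ?_
      rw [Finset.mul_sum]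
      refine Finset.sum_congr rfl fun M _ => ?_
      ring
    rw [h3] at h1
    have hmem : J ∈ J.powerset := Finset.mem_powerset.2 (Finset.Subset.refl J)
    rw [← Finset.add_sum_erase _ _ hmem, ← Finset.add_sum_erase _ _ hmem] at h1
    have h4 : ∑ M ∈ J.powerset.erase J, (-1 : ℤ) ^ M.card * ((iJM P (J : Set P.S) (M : Set P.S) : ℤ) * ((Nat.card (S.V ∅) : ℤ) * (ind P (wl P (M : Set P.S)) : ℤ))) =
        ∑ M ∈ J.powerset.erase J, (-1 : ℤ) ^ M.card * ((iJM P (J : Set P.S) (M : Set P.S) : ℤ) * (fE P p (M : Set P.S) : ℤ)) := by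
      refine Finset.sum_congr rfl fun M hM => ?_
      rw [Finset.mem_erase, Finset.mem_powerset] at hM
      have hlt : M.card < n := by rw [← hJ]; exact Finset.card_lt_card (Finset.ssubset_iff_subset_ne.2 ⟨hM.2, hM.1⟩)
      rw [ih M.card hlt M rfl]
      push_cast
      ring
    rw [h4, iJM_self] at h1
    have h5 := add_right_cancel h1
    have h6 : ((-1 : ℤ) ^ J.card) ≠ 0 := pow_ne_zero _ (by norm_num)
    have h7 := mul_left_cancel₀ h6 h5
    rw [Nat.cast_one, one_mul, one_mul] at h7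
    exact_mod_cast h7.symm

include S in
theorem ind_w0 [Fact p.Prime] : ind P (wl P Set.univ) = Nat.card (S.V ∅) := by
  have h1 := StZ_B (wl_spec (P := P) Set.univ) P.B.one_mem
  rw [StZ_one S] at h1
  unfold ind
  have h2 : Nat.card {y : G ⧸ P.B // tyQ P y = wl P Set.univ} = Nat.card {y : G ⧸ P.B // tyQ P y = wl P Set.univ ∧ (1 : G) • y = y} := by
    apply Nat.card_congr
    refine Equiv.subtypeEquivRight fun y => ?_
    rw [one_smul, and_iff_left rfl]
  rw [h2]
  exact_mod_cast h1.symm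

include S in
/-- Steinberg's theorem on the number of unipotent elements -/
theorem card_pel [Fact p.Prime] (hF : Full S) : Nat.card {x : G // pel p x} = Nat.card (S.V ∅) ^ 2 := by
  have h1 := fE_eq S hF _ Finset.univ rfl
  rw [Finset.coe_univ, ind_w0 S, ← sq] at h1
  rw [← h1]
  unfold fE
  apply Nat.card_congr
  refine Equiv.subtypeEquivRight fun x => ?_
  rw [PJ_univ]
  exact ⟨fun h => ⟨Subgroup.mem_top x, h⟩, fun h => h.2⟩

end Cfsg.Agent.H16.BNS
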