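import Mathlib
import Cfsg.Agent.H6.ChevTri
import Cfsg.Agent.H6.ChevAll

set_option autoImplicit false
set_option linter.all false

/-! Height filtration and the exponent of the unipotent subgroup. -/

namespace Cfsg.Agent.H16.BNS

open Cfsg Cfsg.Lie Cfsg.Agent.H6
open scoped Matrix

section
variable {D : ChevalleyDatum} {N : ℕ} {η : ℕ → ℕ → ℤ} {rc : ℕ → ℕ → ℤ} {F : Type*} [Field F]
variable (hG : Good D N η rc)

/-- height -/
def htS (D : ChevalleyDatum) (rc : ℕ → ℕ → ℤ) (s : ℕ) : ℤ := ∑ j ∈ Finset.range D.rank, rc s j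

/-- height of a basis vector -/
def htI (D : ChevalleyDatum) (rc : ℕ → ℕ → ℤ) : D.Idx → ℤ
  | Sum.inl _ => 0
  | Sum.inr s => htS D rc s

include hG

lemma htS_pos {r : ℕ} (hr : r < D.nroots) (hr' : N ≤ r) : 0 < htS D rc r := by
  have h1 : ∀ j ∈ Finset.range D.rank, 0 ≤ rc r j := fun j hj => hG.rc_pos r hr hr' j (Finset.mem_range.1 hj)
  have h2 : 0 ≤ htS D rc r := Finset.sum_nonneg h1
  by_contra h
  have h3 : htS D rc r = 0 := le_antisymm (not_lt.1 h) h2
  have h4 := (Finset.sum_eq_zero_iff_of_nonneg h1).1 h3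
  have h5 := hG.kap_pos hr hr'
  have : kap D.rank rc r = 0 := kapf_const_zero _ fun j hj => h4 j (Finset.mem_range.2 hj)
  omega

lemma htS_neg {r : ℕ} (hr : r < D.nroots) : htS D rc (D.neg r) = - htS D rc r := by
  unfold htS
  rw [← Finset.sum_neg_distrib]
  exact Finset.sum_congr rfl fun j hj => hG.rc_neg j (Finset.mem_range.1 hj) r hr

theorem uni_ht {r : ℕ} (hr : r < D.nroots) (hr' : N ≤ r) (t : F) :
    Uni (fun a b => htI D rc b < htI D rc a) (D.x F r t) := by
  have hpos := htS_pos hG hr hr'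
  have col : ∀ (b : D.Idx) (a : D.Idx), D.x F r t a b = (D.x F r t *ᵥ Pi.single b 1) a := by
    intro b a
    rw [Matrix.mulVec_single_one]; rfl
  have key : ∀ b : D.Idx, ∃ w : D.Idx → F, D.x F r t *ᵥ Pi.single b 1 = Pi.single b 1 + w ∧
      ∀ a, w a ≠ 0 → htI D rc b < htI D rc a := by
    rintro (i | s)
    · have h1 := x_bh (F := F) hr i.2 t
      rw [bh_of_lt i.2] at h1
      refine ⟨_, h1, ?_⟩
      intro a ha
      rw [Pi.smul_apply] at ha
      obtain ⟨s, rfl, hs⟩ := coe_be r a (right_ne_zero_of_smul ha)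
      show 0 < htS D rc s
      rw [hs]; exact hpos
    · by_cases h1 : (s : ℕ) = r
      · refine ⟨0, ?_, fun a ha => absurd rfl ha⟩
        have := x_be_self (F := F) hr t
        rw [be_of_lt hr] at this
        have e : s = ⟨r, hr⟩ := Fin.ext h1
        rw [e, this, add_zero]
      · by_cases h2 : (s : ℕ) = D.neg r
        · have h3 := x_be_neg (F := F) hr (hG.neg_lt' hr) (hG.toSem.neg_ne hr) t
          rw [be_of_lt (hG.neg_lt' hr), add_assoc] at h3
          have e : s = ⟨D.neg r, hG.neg_lt' hr⟩ := Fin.ext h2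
          rw [e]
          refine ⟨_, h3, ?_⟩
          intro a ha
          have hn : htI D rc (Sum.inr ⟨D.neg r, hG.neg_lt' hr⟩) = - htS D rc r := htS_neg hG hr
          rw [hn]
          rcases a with a | a
          · show - htS D rc r < 0
            omega
          · rw [Pi.add_apply, Pi.smul_apply, hvec_inr, smul_zero, zero_add, Pi.smul_apply] at ha
            obtain ⟨s', e', hs'⟩ := coe_be r _ (right_ne_zero_of_smul ha)
            rw [e']
            show - htS D rc r < htS D rc s'
            rw [hs']; omega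
        · have h3 := x_be (F := F) hr s.2 (hG.keys r) h1 h2 t
          rw [be_of_lt s.2] at h3
          refine ⟨_, h3, ?_⟩
          intro a ha
          obtain ⟨u, rfl, e, he, hu⟩ := chainVec_ne _ _ a ha
          obtain ⟨k, hk, rfl⟩ := List.getElem_of_mem he
          have h5 := (Cfsg.Agent.H6.Good.addC_get hG 1 (hG.add_rc r hr s s.2) k hk).2.2
          rw [hu] at h5
          show htS D rc s < htS D rc u
          have h6 : htS D rc u = htS D rc s + ((1 + k : ℕ) : ℤ) * htS D rc r := by
            unfold htS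
            rw [Finset.mul_sum, ← Finset.sum_add_distrib]
            exact Finset.sum_congr rfl fun j hj => h5 j (Finset.mem_range.1 hj)
          rw [h6]
          push_cast
          nlinarith
  constructor
  · intro a b hab hne
    obtain ⟨w, h1, h2⟩ := key b
    rw [col, h1, Pi.add_apply, Pi.single_eq_of_ne hab, zero_add] at hne
    exact h2 a hne
  · intro a
    obtain ⟨w, h1, h2⟩ := key a
    rw [col, h1, Pi.add_apply, Pi.single_eq_same]
    have : w a = 0 := by
      by_contra h
      exact absurd (h2 a h) (lt_irrefl _)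
    rw [this, add_zero]

theorem pos_ht {g : GL D.Idx F} (hg : g ∈ D.posUnipotent F) :
    Uni (fun a b => htI D rc b < htI D rc a) (g : Matrix D.Idx D.Idx F) := by
  have h : D.posUnipotent F ≤ UniS (fun a b => htI D rc b < htI D rc a) (fun a b c h1 h2 => lt_trans h2 h1)
      (fun a b h1 h2 => absurd h1 (lt_asymm h2)) := by
    rw [hG.posUnipotent_eq, Subgroup.closure_le]
    rintro g ⟨r, t, h1, h2, rfl⟩
    refine ⟨?_, ?_⟩
    · rw [hG.coe_xg]; exact uni_ht hG h2 h1 t
    · rw [← hG.xg_neg, hG.coe_xg]; exact uni_ht hG h2 h1 _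
  exact (h hg).1

theorem pos_pow {h : ℕ} (hh : ∀ r < D.nroots, htS D rc r ≤ h) {g : GL D.Idx F} (hg : g ∈ D.posUnipotent F) :
    ((g : Matrix D.Idx D.Idx F) - 1) ^ (2 * h + 1) = 0 := by
  have hlow : ∀ r < D.nroots, - (h : ℤ) ≤ htS D rc r := by
    intro r hr
    have := hh (D.neg r) (hG.neg_lt' hr)
    rw [htS_neg hG hr] at this
    omega
  have hb : ∀ a : D.Idx, - (h : ℤ) ≤ htI D rc a ∧ htI D rc a ≤ h := by
    rintro (a | a)
    · show - (h : ℤ) ≤ 0 ∧ (0 : ℤ) ≤ h
      omega
    · exact ⟨hlow a a.2, hh a a.2⟩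
  refine Uni.pow_eq_zero (lev := fun a => (htI D rc a + h).toNat) (M := 2 * h) ?_ ?_ (by omega)
  · intro a
    have := hb a
    show (htI D rc a + h).toNat ≤ 2 * h
    omega
  · have h1 := pos_ht hG hg
    refine ⟨fun a b hab hne => ?_, h1.2⟩
    have h2 := h1.1 a b hab hne
    have := hb a
    have := hb b
    show (htI D rc b + h).toNat < (htI D rc a + h).toNat
    omega

end

end Cfsg.Agent.H16.BNS
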