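import Cfsg.Prelude.Def_ChevAutomorphisms
import Cfsg.Agent.H6.ChevComm
import Cfsg.Agent.H6.ChevExtTab
import Cfsg.Agent.H6.ChevAll

/-! Generation of Chevalley groups by the monomial subgroup and a root subgroup. -/

set_option autoImplicit false

namespace Cfsg.Agent.H16.ChMon

open Cfsg.Lie Cfsg.Agent.H6

variable {D : ChevalleyDatum} {N : ℕ} {η : ℕ → ℕ → ℤ} {rc : ℕ → ℕ → ℤ} {F : Type*} [Field F]

/-- all elements of the root subgroup lie in `H` -/
def P (D : ChevalleyDatum) (F : Type*) [Field F] (H : Subgroup (GL D.Idx F)) (r : ℕ) : Prop :=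
  ∀ t : F, xg D F r t ∈ H

theorem P_reflect (hG : Good D N η rc) {H : Subgroup (GL D.Idx F)} (hH : D.monomialSubgroup F ≤ H) {i r : ℕ}
    (hi : i < D.rank) (hr : r < D.nroots) (h : P D F H r) : P D F H (D.reflectRoot i r) := by
  intro t
  have h1 := hG.ng_conj hi hr (((η i r : ℤ) : F) * t)
  rw [← mul_assoc, hG.etaF_sq hi hr, one_mul] at h1
  rw [← h1]
  have hn : ng D F i ∈ H := hH (hG.ng_mem_monomial hi)
  exact H.mul_mem (H.mul_mem hn (h _)) (H.inv_mem hn)

theorem reflect_adj (hG : Good D N η rc) {i j : ℕ} (hi : i < D.rank) (hj : j < D.rank)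
    (h1 : D.cartan i (D.simple j) = -1) (h2 : D.cartan j (D.simple i) = -1) :
    D.reflectRoot j (D.simple i) = D.reflectRoot i (D.simple j) := by
  have hsi := hG.simple_lt i hi
  have hsj := hG.simple_lt j hj
  apply hG.kap_inj (hG.w_lt j hj _ hsi) (hG.w_lt i hi _ hsj)
  rw [hG.kap_w hj hsi, hG.kap_w hi hsj, h1, h2]
  have key : ∀ k < D.rank, kap D.rank rc (D.simple k) = kapf D.rank (fun j => if j = k then 1 else 0) := by
    intro k hk
    exact kapf_congr (fun m hm => hG.rc_simple k hk m hm)
  rw [key i hi, key j hj]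
  ring

/-- adjacency by a single bond -/
def adj (D : ChevalleyDatum) (i j : ℕ) : Prop :=
  i < D.rank ∧ j < D.rank ∧ D.cartan i (D.simple j) = -1 ∧ D.cartan j (D.simple i) = -1

instance (D : ChevalleyDatum) (i j : ℕ) : Decidable (adj D i j) := by unfold adj; infer_instance

theorem P_adj (hG : Good D N η rc) {H : Subgroup (GL D.Idx F)} (hH : D.monomialSubgroup F ≤ H) {i j : ℕ}
    (h : adj D i j) (hP : P D F H (D.simple i)) : P D F H (D.simple j) := by
  obtain ⟨hi, hj, h1, h2⟩ := h
  have h3 := P_reflect hG hH hj (hG.simple_lt i hi) hP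
  rw [reflect_adj hG hi hj h1 h2] at h3
  have h4 := P_reflect hG hH hi (hG.w_lt i hi _ (hG.simple_lt j hj)) h3
  rwa [hG.w_w i hi _ (hG.simple_lt j hj)] at h4

theorem adj_symm {i j : ℕ} (h : adj D i j) : adj D j i := ⟨h.2.1, h.1, h.2.2.2, h.2.2.1⟩

theorem P_walk (hG : Good D N η rc) {H : Subgroup (GL D.Idx F)} (hH : D.monomialSubgroup F ≤ H) :
    ∀ (L : List ℕ), L.IsChain (adj D) → ∀ x ∈ L, ∀ y ∈ L, P D F H (D.simple x) → P D F H (D.simple y) := by
  intro L
  induction L with
  | nil => intro _ x hx; simp at hx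
  | cons a L ih =>
    intro hL x hx y hy hP
    cases L with
    | nil =>
      simp only [List.mem_cons, List.not_mem_nil, or_false] at hx hy
      rw [hy, ← hx]; exact hP
    | cons b L =>
      rw [List.isChain_cons_cons] at hL
      have hb : P D F H (D.simple b) := by
        rcases List.mem_cons.1 hx with rfl | hx
        · exact P_adj hG hH hL.1 hP
        · exact ih hL.2 x hx b List.mem_cons_self hP
      rcases List.mem_cons.1 hy with rfl | hy
      · exact P_adj hG hH (adj_symm hL.1) hb
      · exact ih hL.2 b List.mem_cons_self y hy hb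

/-- commutators of short root elements -/
theorem P_comm (hG : Good D N η rc) (hE : Ext D rc) {H : Subgroup (GL D.Idx F)} {r s l : ℕ} {c : ℤ}
    (hr : r < D.nroots) (hs : s < D.nroots) (hrs : s ≠ r) (hneg : s ≠ D.neg r)
    (hcm : D.commTerms r s = [(l, c, 1, 1)]) (hc : (c : F) ≠ 0) (h1 : P D F H r) (h2 : P D F H s) :
    P D F H l := by
  intro v
  have h := hG.comm (F := F) hE hr hs hrs hneg (-1) (v / c)
  have hw : wg D F (D.commWord F r s (-1) (v / c)) = xg D F l v := by
    unfold wg ChevalleyDatum.commWord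
    rw [hcm]
    simp only [List.map_cons, List.map_nil, List.prod_cons, List.prod_nil, mul_one, pow_one, neg_neg]
    congr 1
    field_simp
  rw [hw] at h
  have h3 : xg D F l v = (xg D F r (-1) * xg D F s (v / c))⁻¹ * (xg D F s (v / c) * xg D F r (-1)) := by
    rw [h]; group
  rw [h3]
  exact H.mul_mem (H.inv_mem (H.mul_mem (h1 _) (h2 _))) (H.mul_mem (h2 _) (h1 _))

theorem group_le (hG : Good D N η rc) {H : Subgroup (GL D.Idx F)} (hH : D.monomialSubgroup F ≤ H)
    (h : ∀ i < D.rank, P D F H (D.simple i)) : D.group F ≤ H := by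
  have h1 : ∀ r < D.nroots, P D F H r :=
    hG.root_induction h (fun i hi r hr h => P_reflect hG hH hi hr h)
  rw [hG.group_eq_closure, Subgroup.closure_le]
  rintro _ ⟨r, t, hr, rfl⟩
  exact h1 r hr t

theorem P_self (hG : Good D N η rc) {H : Subgroup (GL D.Idx F)} {r : ℕ} (h : D.rootSubgroup F r ≤ H) : P D F H r := by
  intro t
  apply h
  rw [hG.rootSubgroup_eq]
  exact Subgroup.subset_closure ⟨t, rfl⟩

/-- simply laced case -/
theorem simply (hG : Good D N η rc) (L : List ℕ) (hL : L.IsChain (adj D)) (hL' : ∀ i < D.rank, i ∈ L)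
    {i : ℕ} (hi : i < D.rank) :
    D.group F ≤ D.monomialSubgroup F ⊔ D.rootSubgroup F (D.simple i) := by
  apply group_le hG le_sup_left
  intro j hj
  exact P_walk hG le_sup_left L hL i (hL' i hi) j (hL' j hj) (P_self hG le_sup_right)

theorem caseB2 (h2 : (2 : F) ≠ 0) {H : Subgroup (GL chevB2.Idx F)} (hH : chevB2.monomialSubgroup F ≤ H)
    (h : P chevB2 F H (chevB2.simple 0)) : P chevB2 F H (chevB2.simple 1) := by
  have hG := TB2.good
  have h1 := P_reflect hG hH (i := 1) (by decide) (hG.simple_lt 0 (by decide)) h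
  have h2' := P_comm hG TB2.ext (r := chevB2.simple 0) (s := chevB2.reflectRoot 1 (chevB2.simple 0))
    (l := chevB2.reflectRoot 0 (chevB2.simple 1)) (c := ((chevB2.commTerms (chevB2.simple 0) (chevB2.reflectRoot 1 (chevB2.simple 0))).getD 0 (0,0,0,0)).2.1)
    (by decide +kernel) (by decide +kernel) (by decide +kernel) (by decide +kernel) (by decide +kernel)
    (by
      have : ((chevB2.commTerms (chevB2.simple 0) (chevB2.reflectRoot 1 (chevB2.simple 0))).getD 0 (0,0,0,0)).2.1 = 2 ∨
        ((chevB2.commTerms (chevB2.simple 0) (chevB2.reflectRoot 1 (chevB2.simple 0))).getD 0 (0,0,0,0)).2.1 = -2 := by decide +kernel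
      rcases this with h | h <;> rw [h] <;> push_cast
      · exact h2
      · exact neg_ne_zero.2 h2) h h1
  have h3 := P_reflect hG hH (i := 0) (by decide) (hG.w_lt 0 (by decide) _ (hG.simple_lt 1 (by decide))) h2'
  rwa [hG.w_w 0 (by decide) _ (hG.simple_lt 1 (by decide))] at h3

theorem caseF4 (h2 : (2 : F) ≠ 0) {H : Subgroup (GL chevF4.Idx F)} (hH : chevF4.monomialSubgroup F ≤ H)
    (h : P chevF4 F H (chevF4.simple 1)) : P chevF4 F H (chevF4.simple 2) := by
  have hG := TF4.good
  have h1 := P_reflect hG hH (i := 2) (by decide) (hG.simple_lt 1 (by decide)) h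
  have h2' := P_comm hG TF4.ext (r := chevF4.simple 1) (s := chevF4.reflectRoot 2 (chevF4.simple 1))
    (l := chevF4.reflectRoot 1 (chevF4.simple 2)) (c := ((chevF4.commTerms (chevF4.simple 1) (chevF4.reflectRoot 2 (chevF4.simple 1))).getD 0 (0,0,0,0)).2.1)
    (by decide +kernel) (by decide +kernel) (by decide +kernel) (by decide +kernel) (by decide +kernel)
    (by
      have : ((chevF4.commTerms (chevF4.simple 1) (chevF4.reflectRoot 2 (chevF4.simple 1))).getD 0 (0,0,0,0)).2.1 = 2 ∨
        ((chevF4.commTerms (chevF4.simple 1) (chevF4.reflectRoot 2 (chevF4.simple 1))).getD 0 (0,0,0,0)).2.1 = -2 := by decide +kernel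
      rcases this with h | h <;> rw [h] <;> push_cast
      · exact h2
      · exact neg_ne_zero.2 h2) h h1
  have h3 := P_reflect hG hH (i := 1) (by decide) (hG.w_lt 1 (by decide) _ (hG.simple_lt 2 (by decide))) h2'
  rwa [hG.w_w 1 (by decide) _ (hG.simple_lt 2 (by decide))] at h3

theorem caseG2 (h2 : (3 : F) ≠ 0) {H : Subgroup (GL chevG2.Idx F)} (hH : chevG2.monomialSubgroup F ≤ H)
    (h : P chevG2 F H (chevG2.simple 0)) : P chevG2 F H (chevG2.simple 1) := by
  have hG := TG2.good
  have h1 := P_reflect hG hH (i := 1) (by decide) (hG.simple_lt 0 (by decide)) h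
  have h1 := P_reflect hG hH (i := 0) (by decide) (hG.w_lt 1 (by decide) _ (hG.simple_lt 0 (by decide))) h1
  have h2' := P_comm hG TG2.ext (r := chevG2.simple 0) (s := chevG2.reflectRoot 0 (chevG2.reflectRoot 1 (chevG2.simple 0)))
    (l := chevG2.reflectRoot 0 (chevG2.simple 1)) (c := ((chevG2.commTerms (chevG2.simple 0) (chevG2.reflectRoot 0 (chevG2.reflectRoot 1 (chevG2.simple 0)))).getD 0 (0,0,0,0)).2.1)
    (by decide +kernel) (by decide +kernel) (by decide +kernel) (by decide +kernel) (by decide +kernel)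
    (by
      have : ((chevG2.commTerms (chevG2.simple 0) (chevG2.reflectRoot 0 (chevG2.reflectRoot 1 (chevG2.simple 0)))).getD 0 (0,0,0,0)).2.1 = 3 ∨
        ((chevG2.commTerms (chevG2.simple 0) (chevG2.reflectRoot 0 (chevG2.reflectRoot 1 (chevG2.simple 0)))).getD 0 (0,0,0,0)).2.1 = -3 := by decide +kernel
      rcases this with h | h <;> rw [h] <;> push_cast
      · exact h2
      · exact neg_ne_zero.2 h2) h h1
  have h3 := P_reflect hG hH (i := 0) (by decide) (hG.w_lt 0 (by decide) _ (hG.simple_lt 1 (by decide))) h2'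
  rwa [hG.w_w 0 (by decide) _ (hG.simple_lt 1 (by decide))] at h3

theorem cast_ne_zero_of {p : ℕ} (hp : p.Prime) (h : ringChar F ≠ p) : ((p : ℕ) : F) ≠ 0 := by
  intro h0
  have h1 : ringChar F ∣ p := (ringChar.spec F p).1 h0
  rcases (Nat.dvd_prime hp).1 h1 with h2 | h2
  · exact absurd h2 (CharP.ringChar_ne_one)
  · exact h h2

theorem main2416 (D : ChevalleyDatum) (hD : D ∈ [chevG2, chevB2, chevD4, chevF4, chevE6, chevE7, chevE8])
    (h2 : D ∈ [chevB2, chevF4] → ringChar F ≠ 2) (h3 : D = chevG2 → ringChar F ≠ 3)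
    (i : ℕ) (hi : i < D.rank) (hshort : D.isLong (D.simple i) = false) :
    D.group F ≤ D.monomialSubgroup F ⊔ D.rootSubgroup F (D.simple i) := by
  simp only [List.mem_cons, List.not_mem_nil, or_false] at hD
  rcases hD with rfl | rfl | rfl | rfl | rfl | rfl | rfl
  · have hG := TG2.good
    have hp : (3 : F) ≠ 0 := by
      have := cast_ne_zero_of Nat.prime_three (h3 rfl)
      simpa using this
    have hi0 : i = 0 := by
      have : ∀ k < chevG2.rank, chevG2.isLong (chevG2.simple k) = false → k = 0 := by decide +kernel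
      exact this i hi hshort
    subst hi0
    apply group_le hG le_sup_left
    have h0 : P chevG2 F (chevG2.monomialSubgroup F ⊔ chevG2.rootSubgroup F (chevG2.simple 0)) (chevG2.simple 0) :=
      P_self hG le_sup_right
    have h1 := caseG2 hp le_sup_left h0
    intro j hj
    have : j = 0 ∨ j = 1 := by
      have : ∀ k < chevG2.rank, k = 0 ∨ k = 1 := by decide +kernel
      exact this j hj
    rcases this with rfl | rfl
    · exact h0
    · exact h1
  · have hG := TB2.good
    have hp : (2 : F) ≠ 0 := by
      have := cast_ne_zero_of Nat.prime_two (h2 (by simp))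
      simpa using this
    have hi0 : i = 0 := by
      have : ∀ k < chevB2.rank, chevB2.isLong (chevB2.simple k) = false → k = 0 := by decide +kernel
      exact this i hi hshort
    subst hi0
    apply group_le hG le_sup_left
    have h0 : P chevB2 F (chevB2.monomialSubgroup F ⊔ chevB2.rootSubgroup F (chevB2.simple 0)) (chevB2.simple 0) :=
      P_self hG le_sup_right
    have h1 := caseB2 hp le_sup_left h0
    intro j hj
    have : j = 0 ∨ j = 1 := by
      have : ∀ k < chevB2.rank, k = 0 ∨ k = 1 := by decide +kernel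
      exact this j hj
    rcases this with rfl | rfl
    · exact h0
    · exact h1
  · exact simply TD4.good [0, 1, 2, 1, 3] (by decide +kernel) (by decide +kernel) hi
  · have hG := TF4.good
    have hp : (2 : F) ≠ 0 := by
      have := cast_ne_zero_of Nat.prime_two (h2 (by simp))
      simpa using this
    have hi0 : i ∈ [0, 1] := by
      have : ∀ k < chevF4.rank, chevF4.isLong (chevF4.simple k) = false → k ∈ [0, 1] := by decide +kernel
      exact this i hi hshort
    apply group_le hG le_sup_left
    have h0 : P chevF4 F (chevF4.monomialSubgroup F ⊔ chevF4.rootSubgroup F (chevF4.simple i)) (chevF4.simple i) :=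
      P_self hG le_sup_right
    have hs := P_walk hG (le_sup_left : _ ≤ chevF4.monomialSubgroup F ⊔ chevF4.rootSubgroup F (chevF4.simple i)) [0, 1] (by decide +kernel) i hi0
    have h1 := caseF4 hp le_sup_left (hs 1 (by simp) h0)
    have hl := P_walk hG (le_sup_left : _ ≤ chevF4.monomialSubgroup F ⊔ chevF4.rootSubgroup F (chevF4.simple i))
      [2, 3] (by decide +kernel) 2 (by simp)
    intro j hj
    have : j ∈ [0, 1] ∨ j ∈ [2, 3] := by
      have : ∀ k < chevF4.rank, k ∈ [0, 1] ∨ k ∈ [2, 3] := by decide +kernel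
      exact this j hj
    rcases this with hj | hj
    · exact hs j hj h0
    · exact hl j hj h1
  · exact simply TE6.good [0, 2, 3, 1, 3, 4, 5] (by decide +kernel) (by decide +kernel) hi
  · exact simply TE7.good [0, 2, 3, 1, 3, 4, 5, 6] (by decide +kernel) (by decide +kernel) hi
  · exact simply TE8.good [0, 2, 3, 1, 3, 4, 5, 6, 7] (by decide +kernel) (by decide +kernel) hi

theorem main2417 (e : ChevalleyDatum × ℕ)
    (he : e ∈ [(chevB2, 2), (chevF4, 2), (chevG2, 3)])
    (i j : ℕ) (hi : i < e.1.rank) (hj : j < e.1.rank) (hshort : e.1.isLong (e.1.simple i) = false)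
    (hlong : e.1.isLong (e.1.simple j) = true) :
    e.1.group F ≤ e.1.monomialSubgroup F ⊔ e.1.rootSubgroup F (e.1.simple i) ⊔ e.1.rootSubgroup F (e.1.simple j) := by
  simp only [List.mem_cons, List.not_mem_nil, or_false] at he
  have hle : e.1.monomialSubgroup F ≤
      e.1.monomialSubgroup F ⊔ e.1.rootSubgroup F (e.1.simple i) ⊔ e.1.rootSubgroup F (e.1.simple j) :=
    le_sup_left.trans le_sup_left
  rcases he with rfl | rfl | rfl
  · have hG := TB2.good
    have hPi := P_self (F := F) hG (le_sup_right.trans le_sup_left :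
      _ ≤ chevB2.monomialSubgroup F ⊔ chevB2.rootSubgroup F (chevB2.simple i) ⊔ chevB2.rootSubgroup F (chevB2.simple j))
    have hPj := P_self (F := F) hG (le_sup_right :
      _ ≤ chevB2.monomialSubgroup F ⊔ chevB2.rootSubgroup F (chevB2.simple i) ⊔ chevB2.rootSubgroup F (chevB2.simple j))
    apply group_le hG hle
    have hi' : i = 0 := by
      have : ∀ k < chevB2.rank, chevB2.isLong (chevB2.simple k) = false → k = 0 := by decide +kernel
      exact this i hi hshort
    have hj' : j = 1 := by
      have : ∀ k < chevB2.rank, chevB2.isLong (chevB2.simple k) = true → k = 1 := by decide +kernel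
      exact this j hj hlong
    subst hi' hj'
    intro k hk
    have : k = 0 ∨ k = 1 := by
      have : ∀ k < chevB2.rank, k = 0 ∨ k = 1 := by decide +kernel
      exact this k hk
    rcases this with rfl | rfl
    · exact hPi
    · exact hPj
  · have hG := TF4.good
    have hPi := P_self (F := F) hG (le_sup_right.trans le_sup_left :
      _ ≤ chevF4.monomialSubgroup F ⊔ chevF4.rootSubgroup F (chevF4.simple i) ⊔ chevF4.rootSubgroup F (chevF4.simple j))
    have hPj := P_self (F := F) hG (le_sup_right :
      _ ≤ chevF4.monomialSubgroup F ⊔ chevF4.rootSubgroup F (chevF4.simple i) ⊔ chevF4.rootSubgroup F (chevF4.simple j))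
    apply group_le hG hle
    have hi' : i ∈ [0, 1] := by
      have : ∀ k < chevF4.rank, chevF4.isLong (chevF4.simple k) = false → k ∈ [0, 1] := by decide +kernel
      exact this i hi hshort
    have hj' : j ∈ [2, 3] := by
      have : ∀ k < chevF4.rank, chevF4.isLong (chevF4.simple k) = true → k ∈ [2, 3] := by decide +kernel
      exact this j hj hlong
    intro k hk
    have : k ∈ [0, 1] ∨ k ∈ [2, 3] := by
      have : ∀ k < chevF4.rank, k ∈ [0, 1] ∨ k ∈ [2, 3] := by decide +kernel
      exact this k hk
    rcases this with hk | hk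
    · exact P_walk hG hle [0, 1] (by decide +kernel) i hi' k hk hPi
    · exact P_walk hG hle [2, 3] (by decide +kernel) j hj' k hk hPj
  · have hG := TG2.good
    have hPi := P_self (F := F) hG (le_sup_right.trans le_sup_left :
      _ ≤ chevG2.monomialSubgroup F ⊔ chevG2.rootSubgroup F (chevG2.simple i) ⊔ chevG2.rootSubgroup F (chevG2.simple j))
    have hPj := P_self (F := F) hG (le_sup_right :
      _ ≤ chevG2.monomialSubgroup F ⊔ chevG2.rootSubgroup F (chevG2.simple i) ⊔ chevG2.rootSubgroup F (chevG2.simple j))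
    apply group_le hG hle
    have hi' : i = 0 := by
      have : ∀ k < chevG2.rank, chevG2.isLong (chevG2.simple k) = false → k = 0 := by decide +kernel
      exact this i hi hshort
    have hj' : j = 1 := by
      have : ∀ k < chevG2.rank, chevG2.isLong (chevG2.simple k) = true → k = 1 := by decide +kernel
      exact this j hj hlong
    subst hi' hj'
    intro k hk
    have : k = 0 ∨ k = 1 := by
      have : ∀ k < chevG2.rank, k = 0 ∨ k = 1 := by decide +kernel
      exact this k hk
    rcases this with rfl | rfl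
    · exact hPi
    · exact hPj

end Cfsg.Agent.H16.ChMon
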