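import Mathlib
import Cfsg.Agent.H16.BnG
import Cfsg.Agent.H11.LocalRing
import Cfsg.Agent.H27.CentralChar

set_option autoImplicit false
set_option linter.all false

/-! Double cosets of the unipotent subgroup and Hecke operators. -/

namespace Cfsg.Agent.H16.BNS

open Cfsg Cfsg.Agent.H6 Cfsg.Agent.H6.BN Cfsg.Agent.H11

variable {G : Type*} [Group G] {P : Cfsg.BNPair G} [Finite G]
variable {p : ℕ} (S : Split P p)

lemma U_norm {b : G} (hb : b ∈ P.B) {u : G} (hu : u ∈ S.V ∅) : b * u * b⁻¹ ∈ S.V ∅ :=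
  S.V_norm ∅ b (by rw [Finset.coe_empty, PJ_empty]; exact hb) u hu

lemma U_norm' {b : G} (hb : b ∈ P.B) {u : G} (hu : u ∈ S.V ∅) : b⁻¹ * u * b ∈ S.V ∅ := by
  have := U_norm S (P.B.inv_mem hb) hu
  rwa [inv_inv] at this

lemma U_pel [Fact p.Prime] {u : G} (hu : u ∈ S.V ∅) : pel p u := by
  obtain ⟨k, hk⟩ := S.V_p ∅
  have h2 : orderOf u ∣ p ^ k := by rw [← hk]; exact Subgroup.orderOf_dvd_natCard _ hu
  obtain ⟨j, -, hj⟩ := (Nat.dvd_prime_pow (Fact.out : p.Prime)).1 h2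
  exact ⟨j, hj⟩

include S in
lemma pel_T [Fact p.Prime] {t : G} (ht : t ∈ P.B ⊓ P.N) (hp : pel p t) : t = 1 := by
  by_contra h
  exact S.T_p t ht (pel_dvd hp h)

lemma mem_U_of_pel [Fact p.Prime] {x : G} (hx : x ∈ P.B) (hp : pel p x) : x ∈ S.V ∅ := by
  obtain ⟨v, hv, t, ht, rfl⟩ := B_fac S hx
  have hpow : ∀ n : ℕ, ∃ v' ∈ S.V ∅, (v * t) ^ n = v' * t ^ n := by
    intro n
    induction n with
    | zero => exact ⟨1, one_mem _, by simp⟩
    | succ n ih =>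
      obtain ⟨v', hv', e⟩ := ih
      have htn : t ^ n ∈ P.B := P.B.pow_mem ht.1 n
      refine ⟨v' * (t ^ n * v * (t ^ n)⁻¹), mul_mem hv' (U_norm S htn hv), ?_⟩
      rw [pow_succ, e, pow_succ]; group
  obtain ⟨k, hk⟩ := hp
  obtain ⟨v', hv', e⟩ := hpow (p ^ k)
  rw [← hk, pow_orderOf_eq_one] at e
  have h1 : t ^ orderOf (v * t) = v'⁻¹ := by rw [eq_inv_iff_mul_eq_one, ← mul_eq_one_comm, ← e]
  have h2 : t ^ orderOf (v * t) = 1 := inter_VT S (by rw [h1]; exact inv_mem hv') (Subgroup.pow_mem _ ht _)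
  rw [hk] at h2
  obtain ⟨j, -, hj⟩ := (Nat.dvd_prime_pow (Fact.out : p.Prime)).1 (orderOf_dvd_of_pow_eq_one h2)
  rw [pel_T S ht ⟨j, hj⟩, mul_one]
  exact hv

/-- double coset of `U` -/
def DU (n : P.N) : Set G := {g | ∃ u ∈ S.V ∅, ∃ u' ∈ S.V ∅, g = u * n * u'}

lemma DU_self (n : P.N) : (n : G) ∈ DU S n := ⟨1, one_mem _, 1, one_mem _, by simp⟩

lemma DU_sub {n : P.N} {g : G} (hg : g ∈ DU S n) : g ∈ C P (pr P n) := by
  obtain ⟨u, hu, u', hu', rfl⟩ := hg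
  exact C_mul_right P (C_mul_left P (mem_C_pr P n) (S.V_le ∅ hu)) (S.V_le ∅ hu')

lemma DU_left {n : P.N} {g u : G} (hg : g ∈ DU S n) (hu : u ∈ S.V ∅) : u * g ∈ DU S n := by
  obtain ⟨a, ha, b, hb, rfl⟩ := hg
  exact ⟨u * a, mul_mem hu ha, b, hb, by group⟩

lemma DU_right {n : P.N} {g u : G} (hg : g ∈ DU S n) (hu : u ∈ S.V ∅) : g * u ∈ DU S n := by
  obtain ⟨a, ha, b, hb, rfl⟩ := hg
  exact ⟨a, ha, b * u, mul_mem hb hu, by group⟩

lemma DU_inv {n : P.N} {g : G} (hg : g ∈ DU S n) : g⁻¹ ∈ DU S n⁻¹ := by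
  obtain ⟨a, ha, b, hb, rfl⟩ := hg
  exact ⟨b⁻¹, inv_mem hb, a⁻¹, inv_mem ha, by rw [mul_inv_rev, mul_inv_rev, Subgroup.coe_inv, mul_assoc]⟩

lemma DU_unique [Fact p.Prime] {n m : P.N} {g : G} (hg : g ∈ DU S n) (hg' : g ∈ DU S m) : n = m := by
  have h1 : pr P n = pr P m := C_unique P (DU_sub S hg) (DU_sub S hg')
  have h2 := (pr_eq_iff P).1 h1
  have hT : (n : G)⁻¹ * m ∈ P.B ⊓ P.N := ⟨h2, P.N.mul_mem (P.N.inv_mem n.2) m.2⟩
  obtain ⟨u, hu, u', hu', rfl⟩ := hg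
  obtain ⟨v, hv, v', hv', e⟩ := hg'
  -- n⁻¹ (v⁻¹ u) n = (n⁻¹ m) v' u'⁻¹
  have h3 : (n : G)⁻¹ * (v⁻¹ * u) * n = (n : G)⁻¹ * m * (v' * u'⁻¹) := by
    have : v⁻¹ * u * n = m * v' * u'⁻¹ := by
      calc v⁻¹ * u * n = v⁻¹ * (u * n * u') * u'⁻¹ := by group
        _ = v⁻¹ * (v * m * v') * u'⁻¹ := by rw [e]
        _ = _ := by group
    calc (n : G)⁻¹ * (v⁻¹ * u) * n = (n : G)⁻¹ * (v⁻¹ * u * n) := by group
      _ = (n : G)⁻¹ * (m * v' * u'⁻¹) := by rw [this]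
      _ = _ := by group
  have h4 : pel p ((n : G)⁻¹ * (v⁻¹ * u) * n) := by
    have := (pel_conj (p := p) (n : G)⁻¹ (v⁻¹ * u)).2 (U_pel S (mul_mem (inv_mem hv) hu))
    rwa [inv_inv] at this
  have hU : v' * u'⁻¹ ∈ S.V ∅ := mul_mem hv' (inv_mem hu')
  have h5 : (n : G)⁻¹ * (v⁻¹ * u) * n ∈ P.B := by rw [h3]; exact mul_mem h2 (S.V_le ∅ hU)
  have h6 := mem_U_of_pel S h5 h4
  rw [h3] at h6
  have h7 : (n : G)⁻¹ * m ∈ S.V ∅ := by
    have := mul_mem h6 (inv_mem hU)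
    rwa [mul_inv_cancel_right] at this
  have h8 := inter_VT S h7 hT
  exact Subtype.ext (inv_mul_eq_one.1 h8)

lemma DU_exists (g : G) : ∃ n : P.N, g ∈ DU S n := by
  obtain ⟨w, n, hn, b, hb, b', hb', rfl⟩ := exists_mem_C P g
  obtain ⟨v, hv, t, ht, rfl⟩ := B_fac S hb
  obtain ⟨v', hv', t', ht', rfl⟩ := B_fac S hb'
  refine ⟨⟨t * n * t', P.N.mul_mem (P.N.mul_mem ht.2 n.2) ht'.2⟩, v, hv, t'⁻¹ * v' * t', ?_, ?_⟩
  · exact U_norm' S ht'.1 hv'
  · show v * t * n * (v' * t') = v * (t * n * t') * (t'⁻¹ * v' * t')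
    group

/-- the monomial part of an element -/
noncomputable def nU (g : G) : P.N := Classical.choose (DU_exists S g)
lemma nU_spec (g : G) : g ∈ DU S (nU S g) := Classical.choose_spec (DU_exists S g)
lemma nU_eq [Fact p.Prime] {g : G} {n : P.N} (h : g ∈ DU S n) : nU S g = n := DU_unique S (nU_spec S g) h

lemma card_DU [Fact p.Prime] (n : P.N) : Nat.card (DU S n) = Nat.card (S.V ∅) * ind P (pr P n) := by
  unfold ind
  rw [mul_comm, ← Nat.card_prod]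
  symm
  apply Nat.card_congr
  have hex : ∀ y : {y : G ⧸ P.B // tyQ P y = pr P n}, ∃ g ∈ DU S n, (g : G ⧸ P.B) = y.1 := by
    rintro ⟨y, hy⟩
    induction y using QuotientGroup.induction_on with
    | H g =>
      rw [tyQ_mk] at hy
      have h1 := ty_mem P g
      rw [hy] at h1
      obtain ⟨b, hb, b', hb', rfl⟩ := C_rel P h1 (mem_C_pr P n)
      obtain ⟨v, hv, t, ht, rfl⟩ := B_fac S hb
      refine ⟨v * n, ⟨v, hv, 1, one_mem _, by simp⟩, ?_⟩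
      show ((v * (n : G) : G) : G ⧸ P.B) = ((v * t * n * b' : G) : G ⧸ P.B)
      rw [QuotientGroup.eq]
      have h2 : (n : G)⁻¹ * t * n ∈ P.B := by
        have := P.conj_mem (n : G)⁻¹ (P.N.inv_mem n.2) t ht
        rwa [inv_inv] at this
      have e : (v * (n : G))⁻¹ * (v * t * n * b') = (n : G)⁻¹ * t * n * b' := by group
      rw [e]; exact P.B.mul_mem h2 hb'
  choose r hr1 hr2 using hex
  refine Equiv.ofBijective (fun q => ⟨r q.1 * q.2, DU_right S (hr1 q.1) q.2.2⟩) ⟨?_, ?_⟩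
  · rintro ⟨y, u⟩ ⟨y', u'⟩ h
    have h1 : r y * u = r y' * u' := congrArg Subtype.val h
    have h2 : y = y' := by
      apply Subtype.ext
      rw [← hr2 y, ← hr2 y', QuotientGroup.eq]
      have : (r y)⁻¹ * r y' = u * (u' : G)⁻¹ := by
        have : r y' = r y * u * (u' : G)⁻¹ := by rw [h1]; group
        rw [this]; group
      rw [this]
      exact P.B.mul_mem (S.V_le ∅ u.2) (P.B.inv_mem (S.V_le ∅ u'.2))
    subst h2
    exact Prod.ext rfl (Subtype.ext (mul_left_cancel h1))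
  · rintro ⟨g, hg⟩
    have hy : tyQ P (g : G ⧸ P.B) = pr P n := by rw [tyQ_mk]; exact ty_eq P (DU_sub S hg)
    set y : {y : G ⧸ P.B // tyQ P y = pr P n} := ⟨(g : G ⧸ P.B), hy⟩ with hyd
    have h1 : (r y)⁻¹ * g ∈ P.B := by
      rw [← QuotientGroup.eq, hr2 y]
    obtain ⟨v, hv, t, ht, e⟩ := B_fac S h1
    -- g = r y * v * t; so g ∈ DU (n t)
    have h2 : g ∈ DU S ⟨n * t, P.N.mul_mem n.2 ht.2⟩ := by
      obtain ⟨a, ha, b, hb, e2⟩ := hr1 y
      refine ⟨a, ha, t⁻¹ * (b * v) * t, U_norm' S ht.1 (mul_mem hb hv), ?_⟩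
      show g = a * ((n : G) * t) * (t⁻¹ * (b * v) * t)
      have : g = r y * (v * t) := by rw [← e]; group
      rw [this, e2]; group
    have h3 := DU_unique S hg h2
    have h4 : t = 1 := by
      have := congrArg Subtype.val h3
      simpa using this
    rw [h4, mul_one] at e
    refine ⟨(y, ⟨v, hv⟩), Subtype.ext ?_⟩
    show r y * v = g
    rw [← e]; group

include S in
lemma ind_inv [Fact p.Prime] (n : P.N) : ind P (pr P n⁻¹) = ind P (pr P n) := by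
  have h1 := card_DU S n
  have h2 := card_DU S n⁻¹
  have h3 : Nat.card (DU S n) = Nat.card (DU S n⁻¹) := by
    apply Nat.card_congr
    refine ⟨fun g => ⟨g.1⁻¹, DU_inv S g.2⟩, fun g => ⟨g.1⁻¹, by have := DU_inv S g.2; rwa [inv_inv] at this⟩, fun g => Subtype.ext (inv_inv _), fun g => Subtype.ext (inv_inv _)⟩
  have h4 : 0 < Nat.card (S.V ∅) := Nat.card_pos
  rw [h1, h2] at h3
  exact (Nat.eq_of_mul_eq_mul_left h4 h3).symm

lemma ind_pos (w : Wl P) : 0 < ind P w := by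
  unfold ind
  obtain ⟨n, rfl⟩ := pr_surj P w
  have : Nonempty {y : G ⧸ P.B // tyQ P y = pr P n} := ⟨⟨((n : G) : G ⧸ P.B), by rw [tyQ_mk]; exact ty_eq P (mem_C_pr P n)⟩⟩
  exact Nat.card_pos

end Cfsg.Agent.H16.BNS
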