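import Mathlib
import Cfsg.Agent.H16.HkA

set_option autoImplicit false
set_option linter.all false

/-! Hecke operators: algebra and integrality. -/

namespace Cfsg.Agent.H16.BNS

open Cfsg Cfsg.Agent.H6 Cfsg.Agent.H6.BN Cfsg.Agent.H11

variable {G : Type*} [Group G] {P : Cfsg.BNPair G} [Fintype G]
variable {p : ℕ} (S : Split P p) {k : ℕ} (ρ : Representation ℂ G (Fin k → ℂ))

/-- average over a subgroup -/
noncomputable def avg (ρ : Representation ℂ G (Fin k → ℂ)) (H : Subgroup G) : Module.End ℂ (Fin k → ℂ) := by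
  classical
  exact (Nat.card H : ℂ)⁻¹ • ∑ g ∈ Finset.univ.filter (fun g : G => g ∈ H), ρ g

lemma avg_def (H : Subgroup G) [DecidablePred (· ∈ H)] : avg ρ H = (Nat.card H : ℂ)⁻¹ • ∑ g ∈ Finset.univ.filter (fun g : G => g ∈ H), ρ g := by
  unfold avg
  congr!

lemma card_filter_sub (H : Subgroup G) [DecidablePred (· ∈ H)] : (Finset.univ.filter (fun g : G => g ∈ H)).card = Nat.card H := by
  rw [Nat.card_eq_fintype_card]
  exact (Fintype.card_subtype _).symm

lemma avg_left {H : Subgroup G} {h : G} (hh : h ∈ H) : ρ h * avg ρ H = avg ρ H := by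
  classical
  rw [avg_def, mul_smul_comm, Finset.mul_sum]
  congr 1
  refine Finset.sum_equiv (Equiv.mulLeft h) ?_ ?_
  · intro g
    simp only [Finset.mem_filter, Finset.mem_univ, true_and, Equiv.coe_mulLeft]
    exact (Subgroup.mul_mem_cancel_left H hh).symm
  · intro g _
    rw [Equiv.coe_mulLeft, map_mul]

lemma avg_right {H : Subgroup G} {h : G} (hh : h ∈ H) : avg ρ H * ρ h = avg ρ H := by
  classical
  rw [avg_def, smul_mul_assoc, Finset.sum_mul]
  congr 1
  refine Finset.sum_equiv (Equiv.mulRight h) ?_ ?_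
  · intro g
    simp only [Finset.mem_filter, Finset.mem_univ, true_and, Equiv.coe_mulRight]
    exact (Subgroup.mul_mem_cancel_right H hh).symm
  · intro g _
    rw [Equiv.coe_mulRight, map_mul]

lemma avg_mul_of_left {H : Subgroup G} {X : Module.End ℂ (Fin k → ℂ)} (h : ∀ g ∈ H, ρ g * X = X) : avg ρ H * X = X := by
  classical
  rw [avg_def, smul_mul_assoc, Finset.sum_mul, Finset.sum_congr rfl fun g hg => h g (Finset.mem_filter.1 hg).2, Finset.sum_const, card_filter_sub,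
    ← Nat.cast_smul_eq_nsmul ℂ, smul_smul, inv_mul_cancel₀ (Nat.cast_ne_zero.2 Nat.card_pos.ne'), one_smul]

lemma avg_mul_of_right {H : Subgroup G} {X : Module.End ℂ (Fin k → ℂ)} (h : ∀ g ∈ H, X * ρ g = X) : X * avg ρ H = X := by
  classical
  rw [avg_def, mul_smul_comm, Finset.mul_sum, Finset.sum_congr rfl fun g hg => h g (Finset.mem_filter.1 hg).2, Finset.sum_const, card_filter_sub,
    ← Nat.cast_smul_eq_nsmul ℂ, smul_smul, inv_mul_cancel₀ (Nat.cast_ne_zero.2 Nat.card_pos.ne'), one_smul]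

lemma avg_sq (H : Subgroup G) : avg ρ H * avg ρ H = avg ρ H := avg_mul_of_left ρ fun g hg => avg_left ρ hg

/-- operator attached to a function -/
noncomputable def op (ρ : Representation ℂ G (Fin k → ℂ)) (U : Subgroup G) (f : G → ℂ) : Module.End ℂ (Fin k → ℂ) :=
  (Nat.card U : ℂ)⁻¹ • ∑ g : G, f g • ρ g

/-- bi-invariant functions -/
def BiU (U : Subgroup G) (f : G → ℂ) : Prop := ∀ u ∈ U, ∀ g, f (u * g) = f g ∧ f (g * u) = f g

/-- sum over the group of a right invariant function -/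
lemma sum_right_inv (U : Subgroup G) [Fintype (G ⧸ U)] {M : Type*} [AddCommMonoid M] (F : G → M) (h : ∀ u ∈ U, ∀ g, F (g * u) = F g) :
    ∑ g : G, F g = Nat.card U • ∑ y : G ⧸ U, F y.out := by
  classical
  rw [← Finset.sum_fiberwise (s := Finset.univ) (g := fun g : G => (g : G ⧸ U)) (f := F), Finset.smul_sum]
  refine Finset.sum_congr rfl fun y _ => ?_
  have h1 : ∀ g ∈ Finset.univ.filter (fun g : G => (g : G ⧸ U) = y), F g = F y.out := by
    intro g hg
    have h2 : (g : G ⧸ U) = y := (Finset.mem_filter.1 hg).2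
    have h3 : y.out⁻¹ * g ∈ U := by rw [← QuotientGroup.eq, QuotientGroup.out_eq', h2]
    have := h _ h3 y.out
    rwa [mul_inv_cancel_left] at this
  rw [Finset.sum_congr rfl h1, Finset.sum_const]
  congr 1
  have h4 : (Finset.univ.filter (fun g : G => (g : G ⧸ U) = y)).card = (Finset.univ.filter (fun g : G => g ∈ U)).card := by
    refine Finset.card_nbij' (fun g => y.out⁻¹ * g) (fun u => y.out * u) ?_ ?_ ?_ ?_
    · intro g hg
      have h2 : (g : G ⧸ U) = y := (Finset.mem_filter.1 (Finset.mem_coe.1 hg)).2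
      rw [Finset.mem_coe, Finset.mem_filter]
      exact ⟨Finset.mem_univ _, by rw [← QuotientGroup.eq, QuotientGroup.out_eq', h2]⟩
    · intro u hu
      have h2 : u ∈ U := (Finset.mem_filter.1 (Finset.mem_coe.1 hu)).2
      rw [Finset.mem_coe, Finset.mem_filter]
      refine ⟨Finset.mem_univ _, ?_⟩
      rw [← QuotientGroup.out_eq' y, eq_comm, QuotientGroup.eq, QuotientGroup.out_eq', inv_mul_cancel_left]
      exact h2
    · intro g _; simp
    · intro g _; simp
  rw [h4, card_filter_sub]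

lemma op_mul (U : Subgroup G) {f f' : G → ℂ} {A : Subring ℂ} (hf : BiU U f) (hf' : BiU U f') (hA : ∀ g, f g ∈ A) (hA' : ∀ g, f' g ∈ A) :
    ∃ f'' : G → ℂ, BiU U f'' ∧ (∀ g, f'' g ∈ A) ∧ op ρ U f * op ρ U f' = op ρ U f'' := by
  classical
  have : Fintype (G ⧸ U) := Fintype.ofFinite _
  have key : ∀ x : G, ∑ g : G, f g * f' (g⁻¹ * x) = Nat.card U • ∑ y : G ⧸ U, f y.out * f' (y.out⁻¹ * x) := by
    intro x
    apply sum_right_inv U (fun g => f g * f' (g⁻¹ * x))
    intro u hu g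
    rw [(hf u hu g).2, mul_inv_rev, mul_assoc, (hf' u⁻¹ (inv_mem hu) _).1]
  have hcard : (Nat.card U : ℂ) ≠ 0 := Nat.cast_ne_zero.2 Nat.card_pos.ne'
  refine ⟨fun x => ∑ y : G ⧸ U, f y.out * f' (y.out⁻¹ * x), ?_, ?_, ?_⟩
  · intro u hu x
    constructor
    · have h1 := key (u * x)
      have h2 := key x
      have h3 : ∑ g : G, f g * f' (g⁻¹ * (u * x)) = ∑ g : G, f g * f' (g⁻¹ * x) := by
        rw [← Equiv.sum_comp (Equiv.mulLeft u)]
        refine Finset.sum_congr rfl fun g _ => ?_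
        rw [Equiv.coe_mulLeft, (hf u hu g).1]
        congr 2
        group
      rw [h3, h2, nsmul_eq_mul, nsmul_eq_mul] at h1
      exact (mul_left_cancel₀ hcard h1).symm
    · refine Finset.sum_congr rfl fun y _ => ?_
      rw [← mul_assoc, (hf' u hu _).2]
  · intro x
    exact A.sum_mem fun y _ => A.mul_mem (hA _) (hA' _)
  · unfold op
    rw [smul_mul_smul_comm, Finset.sum_mul_sum]
    have e1 : ∀ g : G, ∑ g' : G, (f g • ρ g) * (f' g' • ρ g') = ∑ x : G, (f g * f' (g⁻¹ * x)) • ρ x := by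
      intro g
      rw [← Equiv.sum_comp (Equiv.mulLeft g) (fun x => (f g * f' (g⁻¹ * x)) • ρ x)]
      refine Finset.sum_congr rfl fun g' _ => ?_
      rw [Equiv.coe_mulLeft, inv_mul_cancel_left, smul_mul_smul_comm, map_mul]
    rw [Finset.sum_congr rfl fun g _ => e1 g, Finset.sum_comm]
    have e2 : ∀ x : G, ∑ g : G, (f g * f' (g⁻¹ * x)) • ρ x = (Nat.card U : ℂ) • ((∑ y : G ⧸ U, f y.out * f' (y.out⁻¹ * x)) • ρ x) := by
      intro x
      rw [← Finset.sum_smul, key x, smul_smul, nsmul_eq_mul]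
    rw [Finset.sum_congr rfl fun x _ => e2 x, ← Finset.smul_sum, smul_smul]
    congr 1
    field_simp

/-- the operator `T_n` -/
noncomputable def Tn (n : P.N) : Module.End ℂ (Fin k → ℂ) := (ind P (pr P n) : ℂ) • (avg ρ (S.V ∅) * ρ n * avg ρ (S.V ∅))

open Classical in
lemma Tn_eq [Fact p.Prime] (n : P.N) : Tn S ρ n = op ρ (S.V ∅) (fun g => if g ∈ DU S n then 1 else 0) := by
  unfold op Tn
  simp only [ite_smul, one_smul, zero_smul]
  rw [← Finset.sum_filter]
  set X := ∑ g ∈ Finset.univ.filter (fun g => g ∈ DU S n), ρ g with hX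
  have h1 : ∀ u ∈ S.V ∅, ρ u * X = X := by
    intro u hu
    rw [hX, Finset.mul_sum]
    refine Finset.sum_equiv (Equiv.mulLeft u) ?_ ?_
    · intro g
      simp only [Finset.mem_filter, Finset.mem_univ, true_and, Equiv.coe_mulLeft]
      refine ⟨fun h => DU_left S h hu, fun h => ?_⟩
      have := DU_left S h (inv_mem hu)
      rwa [inv_mul_cancel_left] at this
    · intro g _
      rw [Equiv.coe_mulLeft, map_mul]
  have h2 : ∀ u ∈ S.V ∅, X * ρ u = X := by
    intro u hu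
    rw [hX, Finset.sum_mul]
    refine Finset.sum_equiv (Equiv.mulRight u) ?_ ?_
    · intro g
      simp only [Finset.mem_filter, Finset.mem_univ, true_and, Equiv.coe_mulRight]
      refine ⟨fun h => DU_right S h hu, fun h => ?_⟩
      have := DU_right S h (inv_mem hu)
      rwa [mul_inv_cancel_right] at this
    · intro g _
      rw [Equiv.coe_mulRight, map_mul]
  have h3 : X = avg ρ (S.V ∅) * X * avg ρ (S.V ∅) := by
    rw [avg_mul_of_left ρ h1, avg_mul_of_right ρ h2]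
  rw [h3, hX, Finset.mul_sum, Finset.sum_mul]
  have h4 : ∀ g ∈ Finset.univ.filter (fun g => g ∈ DU S n), avg ρ (S.V ∅) * ρ g * avg ρ (S.V ∅) = avg ρ (S.V ∅) * ρ n * avg ρ (S.V ∅) := by
    intro g hg
    obtain ⟨u, hu, u', hu', rfl⟩ := (Finset.mem_filter.1 hg).2
    rw [map_mul, map_mul, ← mul_assoc, ← mul_assoc, avg_right ρ hu, mul_assoc, avg_left ρ hu']
  rw [Finset.sum_congr rfl h4, Finset.sum_const]
  have h5 : (Finset.univ.filter (fun g => g ∈ DU S n)).card = Nat.card (DU S n) := by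
    rw [Nat.card_eq_fintype_card]
    exact (Fintype.card_subtype _).symm
  rw [h5, card_DU, ← Nat.cast_smul_eq_nsmul ℂ, smul_smul, Nat.cast_mul, ← mul_assoc, inv_mul_cancel₀ (Nat.cast_ne_zero.2 Nat.card_pos.ne'), one_mul]

lemma Tn_mul [Fact p.Prime] {n m : P.N} (h : len (sm P) (pr P n * pr P m) = len (sm P) (pr P n) + len (sm P) (pr P m)) :
    Tn S ρ n * Tn S ρ m = Tn S ρ (n * m) := by
  classical
  have hU : ∀ u ∈ S.V ∅, ∃ u1 ∈ S.V ∅, ∃ u2 ∈ S.V ∅, (n : G) * u1 * (n : G)⁻¹ ∈ S.V ∅ ∧ (m : G)⁻¹ * u2 * m ∈ S.V ∅ ∧ u = u1 * u2 := by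
    intro u hu
    obtain ⟨b1, h1, h2, b2, h3, h4, e⟩ := factor P h (S.V_le ∅ hu)
    obtain ⟨v, hv, t, ht, rfl⟩ := B_fac S h1
    have h5 : (n : G) * t * (n : G)⁻¹ ∈ P.B := P.conj_mem _ n.2 t ht
    have h6 : (n : G) * v * (n : G)⁻¹ ∈ P.B := by
      have e : (n : G) * v * (n : G)⁻¹ = ((n : G) * (v * t) * (n : G)⁻¹) * ((n : G) * t * (n : G)⁻¹)⁻¹ := by group
      rw [e]; exact P.B.mul_mem h2 (P.B.inv_mem h5)
    have h7 : t * b2 ∈ S.V ∅ := by
      have : t * b2 = v⁻¹ * u := by rw [e]; group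
      rw [this]; exact mul_mem (inv_mem hv) hu
    have h8 : (m : G)⁻¹ * (t * b2) * m ∈ P.B := by
      have h9 : (m : G)⁻¹ * t * m ∈ P.B := by
        have := P.conj_mem (m : G)⁻¹ (P.N.inv_mem m.2) t ht
        rwa [inv_inv] at this
      have e : (m : G)⁻¹ * (t * b2) * m = ((m : G)⁻¹ * t * m) * ((m : G)⁻¹ * b2 * m) := by group
      rw [e]; exact P.B.mul_mem h9 h4
    refine ⟨v, hv, t * b2, h7, mem_U_of_pel S h6 ((pel_conj _ _).2 (U_pel S hv)), mem_U_of_pel S h8 ?_, by rw [e]; group⟩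
    have := (pel_conj (p := p) (m : G)⁻¹ (t * b2)).2 (U_pel S h7)
    rwa [inv_inv] at this
  unfold Tn
  rw [map_mul, ind_mul h, Nat.cast_mul, smul_mul_smul_comm]
  congr 1
  set e := avg ρ (S.V ∅) with he
  have h1 : e * ρ n * e * (e * ρ m * e) = e * ρ n * e * ρ m * e := by
    simp only [mul_assoc]
    rw [← mul_assoc e e, avg_sq]
  rw [h1]
  have h2 : e * ρ n * e * ρ m * e = (Nat.card (S.V ∅) : ℂ)⁻¹ • ∑ u ∈ Finset.univ.filter (fun g : G => g ∈ S.V ∅), e * ρ n * ρ u * ρ m * e := by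
    have : e * ρ n * e * ρ m * e = e * ρ n * avg ρ (S.V ∅) * ρ m * e := rfl
    rw [this, avg_def]
    simp only [mul_smul_comm, smul_mul_assoc, Finset.mul_sum, Finset.sum_mul]
  rw [h2]
  have h3 : ∀ u ∈ Finset.univ.filter (fun g : G => g ∈ S.V ∅), e * ρ n * ρ u * ρ m * e = e * ρ ((n * m : P.N) : G) * e := by
    intro u hu
    obtain ⟨u1, h4, u2, h5, h6, h7, rfl⟩ := hU u (Finset.mem_filter.1 hu).2
    have e1 : e * ρ n * ρ (u1 * u2) * ρ m * e = e * ρ ((n : G) * u1 * (n : G)⁻¹) * ρ ((n : G) * m) * (ρ ((m : G)⁻¹ * u2 * m) * e) := by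
      simp only [mul_assoc, ← map_mul]
      simp only [← mul_assoc, ← map_mul]
      congr 3
      group
    rw [e1, avg_right ρ h6, avg_left ρ h7]
    rfl
  rw [Finset.sum_congr rfl h3, Finset.sum_const, card_filter_sub, ← Nat.cast_smul_eq_nsmul ℂ, smul_smul, inv_mul_cancel₀ (Nat.cast_ne_zero.2 Nat.card_pos.ne'), one_smul]

end Cfsg.Agent.H16.BNS
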