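import Mathlib
import Cfsg.Agent.H16.HkB

set_option autoImplicit false
set_option linter.all false

/-! Integrality of Hecke operators. -/

namespace Cfsg.Agent.H16.BNS

open Cfsg Cfsg.Agent.H6 Cfsg.Agent.H6.BN Cfsg.Agent.H11

variable {G : Type*} [Group G] {P : Cfsg.BNPair G} [Fintype G]
variable {p : ℕ} (S : Split P p) {k : ℕ} (ρ : Representation ℂ G (Fin k → ℂ))
variable {M : Ideal AlgInt} [M.IsPrime]

open Classical in
lemma op_eq_sum [Fact p.Prime] [Fintype P.N] {f : G → ℂ} (hf : BiU (S.V ∅) f) : op ρ (S.V ∅) f = ∑ n : P.N, f n • Tn S ρ n := by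
  have h1 : ∀ g : G, f g = ∑ n : P.N, f n * (if g ∈ DU S n then 1 else 0) := by
    intro g
    rw [Finset.sum_eq_single (nU S g)]
    · rw [if_pos (nU_spec S g), mul_one]
      obtain ⟨u, hu, u', hu', e⟩ := nU_spec S g
      nth_rewrite 1 [e]
      rw [(hf u' hu' _).2, (hf u hu _).1]
    · intro n _ hn
      rw [if_neg, mul_zero]
      intro h
      exact hn (nU_eq S h).symm
    · intro h; exact absurd (Finset.mem_univ _) h
  have h2 : ∀ n : P.N, Tn S ρ n = op ρ (S.V ∅) (fun g => if g ∈ DU S n then 1 else 0) := fun n => Tn_eq S ρ n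
  have e1 : ∀ g : G, f g • ρ g = ∑ n : P.N, (f n * (if g ∈ DU S n then 1 else 0)) • ρ g := fun g => by
    rw [← Finset.sum_smul, ← h1 g]
  unfold op
  rw [Finset.sum_congr rfl (fun g _ => e1 g), Finset.sum_comm, Finset.smul_sum]
  refine Finset.sum_congr rfl fun n _ => ?_
  rw [h2 n]
  unfold op
  rw [smul_comm (f n), Finset.smul_sum (r := f n)]
  congr 1
  refine Finset.sum_congr rfl fun g _ => ?_
  rw [smul_smul]

open Classical in
lemma DU_BiU [Fact p.Prime] (n : P.N) : BiU (S.V ∅) (fun g => if g ∈ DU S n then (1 : ℂ) else 0) := by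
  intro u hu g
  constructor
  · have : u * g ∈ DU S n ↔ g ∈ DU S n := by
      refine ⟨fun h => ?_, fun h => DU_left S h hu⟩
      have := DU_left S h (inv_mem hu)
      rwa [inv_mul_cancel_left] at this
    simp only [this]
  · have : g * u ∈ DU S n ↔ g ∈ DU S n := by
      refine ⟨fun h => ?_, fun h => DU_right S h hu⟩
      have := DU_right S h (inv_mem hu)
      rwa [mul_inv_cancel_right] at this
    simp only [this]

/-- span of the Hecke operators over the local ring -/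
def HT (M : Ideal AlgInt) [M.IsPrime] : Set (Module.End ℂ (Fin k → ℂ)) := {a | ∃ f : G → ℂ, BiU (S.V ∅) f ∧ (∀ g, MemLocalRing M (f g)) ∧ a = op ρ (S.V ∅) f}

variable {S ρ}

lemma HT_mul {a b : Module.End ℂ (Fin k → ℂ)} (ha : a ∈ HT S ρ M) (hb : b ∈ HT S ρ M) : a * b ∈ HT S ρ M := by
  obtain ⟨f, hf, hf', rfl⟩ := ha
  obtain ⟨g, hg, hg', rfl⟩ := hb
  obtain ⟨f'', h1, h2, h3⟩ := op_mul ρ (S.V ∅) (A := locRing M) hf hg hf' hg'
  exact ⟨f'', h1, h2, h3⟩

lemma HT_add {a b : Module.End ℂ (Fin k → ℂ)} (ha : a ∈ HT S ρ M) (hb : b ∈ HT S ρ M) : a + b ∈ HT S ρ M := by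
  obtain ⟨f, hf, hf', rfl⟩ := ha
  obtain ⟨g, hg, hg', rfl⟩ := hb
  refine ⟨f + g, fun u hu x => ⟨?_, ?_⟩, fun x => lr_add (hf' x) (hg' x), ?_⟩
  · rw [Pi.add_apply, Pi.add_apply, (hf u hu x).1, (hg u hu x).1]
  · rw [Pi.add_apply, Pi.add_apply, (hf u hu x).2, (hg u hu x).2]
  · unfold op
    rw [← smul_add, ← Finset.sum_add_distrib]
    congr 1
    refine Finset.sum_congr rfl fun x _ => ?_
    rw [Pi.add_apply, add_smul]

lemma HT_smul {c : ℂ} (hc : MemLocalRing M c) {a : Module.End ℂ (Fin k → ℂ)} (ha : a ∈ HT S ρ M) : c • a ∈ HT S ρ M := by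
  obtain ⟨f, hf, hf', rfl⟩ := ha
  refine ⟨fun x => c * f x, fun u hu x => ⟨?_, ?_⟩, fun x => lr_mul hc (hf' x), ?_⟩
  · simp only [(hf u hu x).1]
  · simp only [(hf u hu x).2]
  · unfold op
    rw [smul_comm, Finset.smul_sum]
    congr 1
    refine Finset.sum_congr rfl fun x _ => ?_
    rw [smul_smul]

lemma HT_zero : (0 : Module.End ℂ (Fin k → ℂ)) ∈ HT S ρ M := by
  refine ⟨0, fun u hu x => ⟨rfl, rfl⟩, fun x => lr_zero M, ?_⟩
  unfold op
  simp

lemma HT_sum {ι : Type*} (s : Finset ι) {a : ι → Module.End ℂ (Fin k → ℂ)} (ha : ∀ i ∈ s, a i ∈ HT S ρ M) : ∑ i ∈ s, a i ∈ HT S ρ M := by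
  classical
  induction s using Finset.induction_on with
  | empty => simpa using HT_zero
  | insert i s hi ih =>
    rw [Finset.sum_insert hi]
    exact HT_add (ha i (Finset.mem_insert_self _ _)) (ih fun j hj => ha j (Finset.mem_insert_of_mem hj))

lemma HT_Tn [Fact p.Prime] (n : P.N) : Tn S ρ n ∈ HT S ρ M := by
  classical
  refine ⟨_, DU_BiU S n, fun g => ?_, Tn_eq S ρ n⟩
  split_ifs
  · exact lr_one M
  · exact lr_zero M

/-- the unital subalgebra over the local ring -/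
noncomputable def HO (S : Split P p) (ρ : Representation ℂ G (Fin k → ℂ)) (M : Ideal AlgInt) [M.IsPrime] : Subalgebra (locRing M) (Module.End ℂ (Fin k → ℂ)) where
  carrier := {a | ∃ c : locRing M, ∃ b ∈ HT S ρ M, a = algebraMap (locRing M) (Module.End ℂ (Fin k → ℂ)) c + b}
  mul_mem' := by
    rintro _ _ ⟨c, a, ha, rfl⟩ ⟨d, b, hb, rfl⟩
    refine ⟨c * d, (c : ℂ) • b + (d : ℂ) • a + a * b, HT_add (HT_add (HT_smul c.2 hb) (HT_smul d.2 ha)) (HT_mul ha hb), ?_⟩
    rw [map_mul, add_mul, mul_add, mul_add, add_assoc, add_assoc]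
    congr 1
    rw [← Algebra.smul_def, ← Algebra.commutes, ← Algebra.smul_def]
    rfl
  add_mem' := by
    rintro _ _ ⟨c, a, ha, rfl⟩ ⟨d, b, hb, rfl⟩
    refine ⟨c + d, a + b, HT_add ha hb, ?_⟩
    rw [map_add]; abel
  algebraMap_mem' := by
    intro c
    exact ⟨c, 0, HT_zero, by rw [add_zero]⟩

lemma HO_of_HT {a : Module.End ℂ (Fin k → ℂ)} (ha : a ∈ HT S ρ M) : a ∈ HO S ρ M := ⟨0, a, ha, by rw [map_zero, zero_add]⟩

lemma HO_fg [Fact p.Prime] : (Subalgebra.toSubmodule (HO S ρ M)).FG := by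
  classical
  have : Fintype P.N := Fintype.ofFinite _
  refine ⟨insert 1 (Finset.univ.image fun n : P.N => Tn S ρ n), ?_⟩
  apply le_antisymm
  · rw [Submodule.span_le]
    intro a ha
    rw [Finset.coe_insert, Set.mem_insert_iff] at ha
    rcases ha with rfl | ha
    · exact (HO S ρ M).one_mem
    · rw [Finset.coe_image] at ha
      obtain ⟨n, -, rfl⟩ := ha
      exact HO_of_HT (HT_Tn n)
  · rintro _ ⟨c, b, ⟨f, hf, hf', rfl⟩, rfl⟩
    refine Submodule.add_mem _ ?_ ?_
    · rw [Algebra.algebraMap_eq_smul_one]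
      exact Submodule.smul_mem _ _ (Submodule.subset_span (by simp))
    · rw [op_eq_sum S ρ hf]
      refine Submodule.sum_mem _ fun n _ => ?_
      have : f n • Tn S ρ n = (⟨f n, hf' n⟩ : locRing M) • Tn S ρ n := rfl
      rw [this]
      exact Submodule.smul_mem _ _ (Submodule.subset_span (by simp))

lemma HO_integral [Fact p.Prime] {a : Module.End ℂ (Fin k → ℂ)} (ha : a ∈ HO S ρ M) : IsIntegral (locRing M) a :=
  IsIntegral.of_mem_of_fg _ HO_fg a ha

/-- eigenvalues of integral operators -/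
lemma eig_lr {a : Module.End ℂ (Fin k → ℂ)} (ha : IsIntegral (locRing M) a) {μ : ℂ} {v : Fin k → ℂ} (hv : v ≠ 0) (h : a v = μ • v) :
    MemLocalRing M μ := by
  apply lr_of_isIntegral_locRing
  obtain ⟨Q, hQ, hQa⟩ := ha
  refine ⟨Q, hQ, ?_⟩
  have h1 : ∀ n : ℕ, (a ^ n) v = (μ ^ n) • v := by
    intro n
    induction n with
    | zero => simp
    | succ n ih => rw [pow_succ', Module.End.mul_apply, ih, map_smul, h, smul_smul, pow_succ]
  have h2 : (Polynomial.eval₂ (algebraMap (locRing M) (Module.End ℂ (Fin k → ℂ))) a Q) v = (Polynomial.eval₂ (algebraMap (locRing M) ℂ) μ Q) • v := by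
    rw [Polynomial.eval₂_eq_sum_range, Polynomial.eval₂_eq_sum_range, LinearMap.sum_apply, Finset.sum_smul]
    refine Finset.sum_congr rfl fun n _ => ?_
    rw [Module.End.mul_apply, h1, mul_smul, map_smul]
    rw [smul_comm]
    rfl
  rw [hQa, LinearMap.zero_apply] at h2
  by_contra hne
  exact hv ((smul_eq_zero.1 h2.symm).resolve_left hne)

lemma trace_sum {Q : ℂ → Prop} (a : Module.End ℂ (Fin k → ℂ)) (h0 : Q 0) (hadd : ∀ x y, Q x → Q y → Q (x + y))
    (h : ∀ (μ : ℂ) (v : Fin k → ℂ), v ≠ 0 → a v = μ • v → Q μ) : Q (LinearMap.trace ℂ (Fin k → ℂ) a) := by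
  rw [Module.End.trace_eq_sum_roots_charpoly_of_splits (IsAlgClosed.splits _)]
  have : ∀ s : Multiset ℂ, (∀ μ ∈ s, Q μ) → Q s.sum := by
    intro s
    induction s using Multiset.induction_on with
    | empty => intro _; simpa using h0
    | cons x s ih =>
      intro hs
      rw [Multiset.sum_cons]
      exact hadd _ _ (hs x (Multiset.mem_cons_self x s)) (ih fun μ hμ => hs μ (Multiset.mem_cons_of_mem hμ))
  apply this
  intro μ hμ
  have h1 : a.charpoly.IsRoot μ := (Polynomial.mem_roots'.1 hμ).2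
  rw [← Module.End.hasEigenvalue_iff_isRoot_charpoly] at h1
  obtain ⟨v, hv⟩ := h1.exists_hasEigenvector
  exact h μ v hv.2 hv.apply_eq_smul

lemma trace_lr [Fact p.Prime] {a : Module.End ℂ (Fin k → ℂ)} (ha : a ∈ HO S ρ M) : MemLocalRing M (LinearMap.trace ℂ (Fin k → ℂ) a) :=
  trace_sum a (lr_zero M) (fun _ _ => lr_add) fun μ v hv h => eig_lr (HO_integral ha) hv h

lemma trace_li [Fact p.Prime] (hM : IsPModular p M) {a b : Module.End ℂ (Fin k → ℂ)} (ha : a ∈ HO S ρ M) (hb : b ∈ HO S ρ M) (h : a * a = (p : ℂ) • b) :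
    MemLocalIdeal M (LinearMap.trace ℂ (Fin k → ℂ) a) := by
  apply trace_sum a (li_zero M) (fun _ _ => li_add)
  intro μ v hv h1
  have h2 : b v = (μ * μ / p) • v := by
    have h3 : (p : ℂ) • b v = (μ * μ) • v := by
      have := congrArg (fun T : Module.End ℂ (Fin k → ℂ) => T v) h
      simp only [Module.End.mul_apply, LinearMap.smul_apply] at this
      rw [← this, h1, map_smul, h1, smul_smul]
    have hp : (p : ℂ) ≠ 0 := Nat.cast_ne_zero.2 (Fact.out : p.Prime).ne_zero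
    rw [div_eq_inv_mul, ← smul_smul, ← h3, smul_smul, inv_mul_cancel₀ hp, one_smul]
  have h3 := eig_lr (HO_integral hb) hv h2
  have h4 := eig_lr (HO_integral ha) hv h1
  have hp : (p : ℂ) ≠ 0 := Nat.cast_ne_zero.2 (Fact.out : p.Prime).ne_zero
  have h5 : MemLocalIdeal M (μ * μ) := by
    have := li_mul_left h3 (li_p hM)
    rwa [div_mul_cancel₀ _ hp] at this
  rcases (li_mul_iff h4 h4).1 h5 with h | h <;> exact h

end Cfsg.Agent.H16.BNS
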