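import Mathlib
import Cfsg.Agent.H16.HkC
import Cfsg.Agent.H3.Core3

set_option autoImplicit false
set_option linter.all false

/-! Schur relations and uniqueness of the defect zero character. -/

namespace Cfsg.Agent.H16.BNS

open Cfsg Cfsg.Agent.H6 Cfsg.Agent.H6.BN Cfsg.Agent.H11

variable {G : Type*} [Group G] {P : Cfsg.BNPair G} [Fintype G]
variable {p : ℕ} (S : Split P p) {k : ℕ} (ρ : Representation ℂ G (Fin k → ℂ))

local notation "tr" => LinearMap.trace ℂ (Fin _ → ℂ)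

lemma conv_orth {χ ψ : G → ℂ} (hχ : IsIrrCharacter G χ) (hψ : IsIrrCharacter G ψ) (u v : G) :
    ∑ g : G, χ (g * u) * ψ (g⁻¹ * v) = (if χ = ψ then (Nat.card G : ℂ) else 0) * ψ (v * u) / ψ 1 := by
  classical
  have h1 : ∑ g : G, χ (g * u) * ψ (g⁻¹ * v) = ∑ x : G, χ x⁻¹ * ψ (x * (v * u)) := by
    rw [← Equiv.sum_comp ((Equiv.inv G).trans (Equiv.mulRight u⁻¹))]
    refine Finset.sum_congr rfl fun x _ => ?_
    have e1 : ((Equiv.inv G).trans (Equiv.mulRight u⁻¹)) x = x⁻¹ * u⁻¹ := rfl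
    rw [e1, inv_mul_cancel_right, mul_inv_rev, inv_inv, inv_inv]
    congr 1
    rw [show u * x * v = u * (x * v) by group, Cfsg.Agent.H27.isCharacter_mul_comm (Cfsg.Agent.H27.isIrr_isCharacter hψ), mul_assoc]
  rw [h1, Cfsg.Agent.H27.irr_sum_classFun_mul hψ (fun x => χ x⁻¹)]
  · congr 2
    have h2 := Cfsg.Agent.H3.classInner_irr hψ hχ
    unfold classInner at h2
    have h3 : ∑ x : G, χ x⁻¹ * ψ x = ∑ x : G, ψ x * (starRingEnd ℂ) (χ x) := by
      refine Finset.sum_congr rfl fun x _ => ?_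
      rw [Cfsg.Agent.H3.char_inv (Cfsg.Agent.H27.isIrr_isCharacter hχ), mul_comm]
    rw [h3]
    have h4 : (Nat.card G : ℂ) ≠ 0 := Nat.cast_ne_zero.2 Nat.card_pos.ne'
    have h5 : ∑ x : G, ψ x * (starRingEnd ℂ) (χ x) = (Nat.card G : ℂ) * (if ψ = χ then 1 else 0) := by
      rw [← h2, mul_inv_cancel_left₀ h4]
    rw [h5]
    by_cases h : χ = ψ
    · rw [if_pos h, if_pos h.symm, mul_one]
    · rw [if_neg h, if_neg (fun h' => h h'.symm), mul_zero]
  · intro g x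
    simp only [mul_inv_rev, inv_inv]
    have : x * (g⁻¹ * x⁻¹) = x * g⁻¹ * x⁻¹ := by group
    rw [this]
    exact Cfsg.Agent.H27.isCharacter_conj (Cfsg.Agent.H27.isIrr_isCharacter hχ) _ _

/-- trace of the averaged operator -/
lemma tr_mul_avg (H : Subgroup G) [DecidablePred (· ∈ H)] (g : G) :
    LinearMap.trace ℂ (Fin k → ℂ) (ρ g * avg ρ H) = (Nat.card H : ℂ)⁻¹ * ∑ u ∈ Finset.univ.filter (fun u : G => u ∈ H), ρ.character (g * u) := by
  rw [avg_def, mul_smul_comm, map_smul, Finset.mul_sum, map_sum, smul_eq_mul]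
  congr 1
  refine Finset.sum_congr rfl fun u _ => ?_
  rw [← map_mul]; rfl

lemma tr_avg (H : Subgroup G) (g : G) :
    LinearMap.trace ℂ (Fin k → ℂ) (avg ρ H * ρ g * avg ρ H) = LinearMap.trace ℂ (Fin k → ℂ) (ρ g * avg ρ H) := by
  rw [mul_assoc, LinearMap.trace_mul_comm, mul_assoc, avg_sq]

lemma sum_avg {k' : ℕ} (ρ' : Representation ℂ G (Fin k' → ℂ)) (hχ : IsIrrCharacter G ρ.character) (hψ : IsIrrCharacter G ρ'.character) (H : Subgroup G) :
    ∑ g : G, LinearMap.trace ℂ (Fin k → ℂ) (ρ g * avg ρ H) * LinearMap.trace ℂ (Fin k' → ℂ) (ρ' g⁻¹ * avg ρ' H) =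
      (if ρ.character = ρ'.character then (Nat.card G : ℂ) else 0) * LinearMap.trace ℂ (Fin k' → ℂ) (avg ρ' H) / ρ'.character 1 := by
  classical
  simp only [tr_mul_avg]
  have h1 : ∀ g : G, ((Nat.card H : ℂ)⁻¹ * ∑ u ∈ Finset.univ.filter (fun u : G => u ∈ H), ρ.character (g * u)) *
      ((Nat.card H : ℂ)⁻¹ * ∑ u ∈ Finset.univ.filter (fun u : G => u ∈ H), ρ'.character (g⁻¹ * u)) =
      (Nat.card H : ℂ)⁻¹ * (Nat.card H : ℂ)⁻¹ * ∑ u ∈ Finset.univ.filter (fun u : G => u ∈ H), ∑ v ∈ Finset.univ.filter (fun u : G => u ∈ H), ρ.character (g * u) * ρ'.character (g⁻¹ * v) := by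
    intro g
    rw [← Finset.sum_mul_sum]; ring
  rw [Finset.sum_congr rfl fun g _ => h1 g, ← Finset.mul_sum, Finset.sum_comm]
  have h2 : ∀ u ∈ Finset.univ.filter (fun u : G => u ∈ H), ∑ g : G, ∑ v ∈ Finset.univ.filter (fun u : G => u ∈ H), ρ.character (g * u) * ρ'.character (g⁻¹ * v) =
      (if ρ.character = ρ'.character then (Nat.card G : ℂ) else 0) / ρ'.character 1 * ∑ v ∈ Finset.univ.filter (fun u : G => u ∈ H), ρ'.character v := by
    intro u hu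
    rw [Finset.sum_comm, Finset.mul_sum]
    have hu' := (Finset.mem_filter.1 hu).2
    have e3 : ∀ v : G, ∑ g : G, ρ.character (g * u) * ρ'.character (g⁻¹ * v) =
        (if ρ.character = ρ'.character then (Nat.card G : ℂ) else 0) / ρ'.character 1 * ρ'.character (v * u) := fun v => by
      rw [conv_orth hχ hψ]; ring
    rw [Finset.sum_congr rfl fun v _ => e3 v]
    refine Finset.sum_equiv (Equiv.mulRight u) ?_ (fun v _ => rfl)
    intro v
    simp only [Finset.mem_filter, Finset.mem_univ, true_and, Equiv.coe_mulRight]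
    exact (Subgroup.mul_mem_cancel_right H hu').symm
  rw [Finset.sum_congr rfl h2, Finset.sum_const, card_filter_sub, nsmul_eq_mul]
  have h3 : LinearMap.trace ℂ (Fin k' → ℂ) (avg ρ' H) = (Nat.card H : ℂ)⁻¹ * ∑ v ∈ Finset.univ.filter (fun u : G => u ∈ H), ρ'.character v := by
    have := tr_mul_avg ρ' H 1
    rw [map_one, one_mul] at this
    rw [this]
    simp only [one_mul]
  rw [h3]
  have h4 : (Nat.card H : ℂ) ≠ 0 := Nat.cast_ne_zero.2 Nat.card_pos.ne'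
  field_simp

lemma avg_DU {n : P.N} {g : G} (hg : g ∈ DU S n) : avg ρ (S.V ∅) * ρ g * avg ρ (S.V ∅) = avg ρ (S.V ∅) * ρ n * avg ρ (S.V ∅) := by
  obtain ⟨u, hu, u', hu', rfl⟩ := hg
  rw [map_mul, map_mul, ← mul_assoc, ← mul_assoc, avg_right ρ hu, mul_assoc, avg_left ρ hu']

/-- the Schur relations for Hecke operators -/
theorem schur_rel [Fact p.Prime] [Fintype P.N] {k' : ℕ} (ρ' : Representation ℂ G (Fin k' → ℂ)) (hχ : IsIrrCharacter G ρ.character) (hψ : IsIrrCharacter G ρ'.character) :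
    ∑ n : P.N, ((Nat.card (S.V ∅) : ℂ) / (ind P (pr P n) : ℂ)) * (LinearMap.trace ℂ (Fin k → ℂ) (Tn S ρ n) * LinearMap.trace ℂ (Fin k' → ℂ) (Tn S ρ' n⁻¹)) =
      (if ρ.character = ρ'.character then (Nat.card G : ℂ) else 0) * LinearMap.trace ℂ (Fin k' → ℂ) (avg ρ' (S.V ∅)) / ρ'.character 1 := by
  classical
  rw [← sum_avg ρ ρ' hχ hψ]
  rw [← Finset.sum_fiberwise (s := Finset.univ) (g := fun g : G => nU S g)]
  refine Finset.sum_congr rfl fun n _ => ?_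
  have h1 : ∀ g ∈ Finset.univ.filter (fun g : G => nU S g = n), LinearMap.trace ℂ (Fin k → ℂ) (ρ g * avg ρ (S.V ∅)) * LinearMap.trace ℂ (Fin k' → ℂ) (ρ' g⁻¹ * avg ρ' (S.V ∅)) =
      LinearMap.trace ℂ (Fin k → ℂ) (ρ n * avg ρ (S.V ∅)) * LinearMap.trace ℂ (Fin k' → ℂ) (ρ' (n⁻¹ : P.N) * avg ρ' (S.V ∅)) := by
    intro g hg
    have hn := (Finset.mem_filter.1 hg).2
    have h2 := nU_spec S g
    rw [hn] at h2
    have h3 : LinearMap.trace ℂ (Fin k → ℂ) (ρ g * avg ρ (S.V ∅)) = LinearMap.trace ℂ (Fin k → ℂ) (ρ n * avg ρ (S.V ∅)) := by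
      rw [← tr_avg, ← tr_avg ρ (S.V ∅) n, avg_DU S ρ h2]
    have h4 : LinearMap.trace ℂ (Fin k' → ℂ) (ρ' g⁻¹ * avg ρ' (S.V ∅)) = LinearMap.trace ℂ (Fin k' → ℂ) (ρ' (n⁻¹ : P.N) * avg ρ' (S.V ∅)) := by
      rw [← tr_avg, ← tr_avg ρ' (S.V ∅) ((n⁻¹ : P.N) : G), avg_DU S ρ' (DU_inv S h2)]
    rw [h3, h4]
  rw [Finset.sum_congr rfl h1, Finset.sum_const]
  have h5 : (Finset.univ.filter (fun g : G => nU S g = n)).card = Nat.card (S.V ∅) * ind P (pr P n) := by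
    rw [← card_DU, Nat.card_eq_fintype_card, ← Fintype.card_subtype]
    apply Fintype.card_congr
    refine Equiv.subtypeEquivRight fun g => ?_
    constructor
    · intro h; rw [← h]; exact nU_spec S g
    · intro h; exact nU_eq S h
  rw [h5, nsmul_eq_mul]
  unfold Tn
  rw [map_smul, map_smul, smul_eq_mul, smul_eq_mul, tr_avg, tr_avg, ind_inv S]
  have h6 : (ind P (pr P n) : ℂ) ≠ 0 := Nat.cast_ne_zero.2 (ind_pos _).ne'
  push_cast
  field_simp

/-! ### operators of long elements -/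

lemma Tn_avg_left (n : P.N) : avg ρ (S.V ∅) * Tn S ρ n = Tn S ρ n := by
  unfold Tn
  rw [mul_smul_comm, ← mul_assoc, ← mul_assoc, avg_sq]

lemma avgU_comm {t : G} (ht : t ∈ P.B) : ρ t * avg ρ (S.V ∅) = avg ρ (S.V ∅) * ρ t := by
  classical
  rw [avg_def, mul_smul_comm, smul_mul_assoc, Finset.mul_sum, Finset.sum_mul]
  congr 1
  refine Finset.sum_equiv (MulAut.conj t).toEquiv ?_ ?_
  · intro g
    simp only [Finset.mem_filter, Finset.mem_univ, true_and]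
    show g ∈ S.V ∅ ↔ t * g * t⁻¹ ∈ S.V ∅
    constructor
    · exact fun h => U_norm S ht h
    · intro h
      have := U_norm' S ht h
      have e : t⁻¹ * (t * g * t⁻¹) * t = g := by group
      rwa [e] at this
  · intro g _
    show ρ t * ρ g = ρ (t * g * t⁻¹) * ρ t
    rw [← map_mul, ← map_mul, inv_mul_cancel_right]

lemma pr_T_mul {t : G} (ht : t ∈ P.B ⊓ P.N) (n : P.N) : pr P (⟨t, ht.2⟩ * n) = pr P n := by
  rw [map_mul, (pr_eq_one_iff P).2 (show ((⟨t, ht.2⟩ : P.N) : G) ∈ P.B from ht.1), one_mul]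

lemma pr_mul_T {t : G} (ht : t ∈ P.B ⊓ P.N) (n : P.N) : pr P (n * ⟨t, ht.2⟩) = pr P n := by
  rw [map_mul, (pr_eq_one_iff P).2 (show ((⟨t, ht.2⟩ : P.N) : G) ∈ P.B from ht.1), mul_one]

lemma Tn_T_left {t : G} (ht : t ∈ P.B ⊓ P.N) (n : P.N) : Tn S ρ (⟨t, ht.2⟩ * n) = ρ t * Tn S ρ n := by
  unfold Tn
  rw [pr_T_mul ht, mul_smul_comm]
  congr 1
  rw [← mul_assoc, ← mul_assoc, avgU_comm S ρ ht.1, Subgroup.coe_mul, map_mul, ← mul_assoc]

lemma Tn_T_right {t : G} (ht : t ∈ P.B ⊓ P.N) (n : P.N) : Tn S ρ (n * ⟨t, ht.2⟩) = Tn S ρ n * ρ t := by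
  unfold Tn
  rw [pr_mul_T ht, smul_mul_assoc]
  congr 1
  rw [mul_assoc _ _ (ρ t), ← avgU_comm S ρ ht.1, Subgroup.coe_mul, map_mul]
  simp only [mul_assoc]

lemma HT_avg {M : Ideal AlgInt} [M.IsPrime] [Fact p.Prime] {b : Module.End ℂ (Fin k → ℂ)} (hb : b ∈ HT S ρ M) : avg ρ (S.V ∅) * b = b := by
  classical
  have : Fintype P.N := Fintype.ofFinite _
  obtain ⟨f, hf, hf', rfl⟩ := hb
  rw [op_eq_sum S ρ hf, Finset.mul_sum]
  refine Finset.sum_congr rfl fun n _ => ?_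
  rw [mul_smul_comm, Tn_avg_left]

lemma HT_T {M : Ideal AlgInt} [M.IsPrime] [Fact p.Prime] {b : Module.End ℂ (Fin k → ℂ)} (hb : b ∈ HT S ρ M) {t : G} (ht : t ∈ P.B ⊓ P.N) : ρ t * b ∈ HT S ρ M := by
  have h1 : ρ t * b = Tn S ρ ⟨t, ht.2⟩ * b := by
    have := Tn_T_left S ρ ht 1
    rw [mul_one] at this
    rw [this]
    have h2 : Tn S ρ (1 : P.N) = avg ρ (S.V ∅) := by
      unfold Tn
      rw [map_one, ind_one, Nat.cast_one, one_smul, Subgroup.coe_one, map_one, mul_one, avg_sq]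
    rw [h2, mul_assoc, HT_avg S ρ hb]
  rw [h1]
  exact HT_mul (HT_Tn _) hb

include S in
lemma card_T [Fact p.Prime] : ¬ p ∣ Nat.card ↥(P.B ⊓ P.N) := by
  intro h
  obtain ⟨x, hx⟩ := exists_prime_orderOf_dvd_card' p h
  apply S.T_p x x.2
  rw [Subgroup.orderOf_coe, hx]

lemma HT_avgT {M : Ideal AlgInt} [M.IsPrime] [Fact p.Prime] (hM : IsPModular p M) {b : Module.End ℂ (Fin k → ℂ)} (hb : b ∈ HT S ρ M) :
    avg ρ (P.B ⊓ P.N) * b ∈ HT S ρ M := by
  classical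
  rw [avg_def, smul_mul_assoc, Finset.sum_mul]
  refine HT_smul (lr_inv_natCast hM (card_T S)) (HT_sum _ fun t ht => HT_T S ρ hb (Finset.mem_filter.1 ht).2)

lemma HT_sub {M : Ideal AlgInt} [M.IsPrime] {a b : Module.End ℂ (Fin k → ℂ)} (ha : a ∈ HT S ρ M) (hb : b ∈ HT S ρ M) : a - b ∈ HT S ρ M := by
  have := HT_add ha (HT_smul (lr_neg (lr_one M)) hb)
  have e : a + (-1 : ℂ) • b = a - b := by
    apply LinearMap.ext
    intro x
    rw [LinearMap.add_apply, LinearMap.smul_apply, LinearMap.sub_apply, neg_smul, one_smul, sub_eq_add_neg]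
  rwa [e] at this

end Cfsg.Agent.H16.BNS
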