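import Mathlib
import Cfsg.Agent.H16.HkD

set_option autoImplicit false
set_option linter.all false

/-! Uniqueness of the defect zero character. -/

namespace Cfsg.Agent.H16.BNS

open Cfsg Cfsg.Agent.H6 Cfsg.Agent.H6.BN Cfsg.Agent.H11

variable {G : Type*} [Group G] {P : Cfsg.BNPair G} [Fintype G]
variable {p : ℕ} (S : Split P p)

/-- rank one relations -/
structure RankOne {G : Type*} [Group G] {P : Cfsg.BNPair G} [Fintype G] {p : ℕ} (S : Split P p) (K : Type*) [Fintype K] where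
  h : P.S → K → G
  h_mem : ∀ i c, h i c ∈ P.B ⊓ P.N
  comm : ∀ a ∈ P.B ⊓ P.N, ∀ b ∈ P.B ⊓ P.N, a * b = b * a
  absorb : ∀ i c', ∃ e : K ≃ K, ∀ c, h i c' * h i c = h i (e c)
  gen : P.B ⊓ P.N ≤ Subgroup.closure {x | ∃ i c, x = h i c}
  rel : ∀ (k : ℕ) (ρ : Representation ℂ G (Fin k → ℂ)) (i : P.S) (m : P.N), IsLong (sm P) Set.univ (pr P m) →
    (ind P (sm P i) : ℂ) • (avg ρ (S.V ∅) * ρ i * avg ρ (S.V ∅) * ρ m * avg ρ (S.V ∅)) =
      avg ρ (S.V ∅) * ρ ((i : G) * m) * avg ρ (S.V ∅) + ∑ c : K, avg ρ (S.V ∅) * ρ (h i c * m) * avg ρ (S.V ∅)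

variable {S} {K : Type*} [Fintype K] (R : RankOne S K) {k : ℕ} (ρ : Representation ℂ G (Fin k → ℂ)) {M : Ideal AlgInt} [M.IsPrime]

/-- as element of `N` -/
def ni (P : Cfsg.BNPair G) (i : P.S) : P.N := ⟨i, P.subset i.2⟩

lemma pr_ni (i : P.S) : pr P (ni P i) = sm P i := rfl

lemma long_smul {w : Wl P} (h : IsLong (sm P) Set.univ w) (i : P.S) : len (sm P) (sm P i) + len (sm P) (sm P i * w) = len (sm P) w ∧
    sm P i * (sm P i * w) = w := by
  have h1 := h.dl i (Set.mem_univ _)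
  have h2 := (hsG P).len_le_smul i w
  have h3 : len (sm P) (sm P i) = 1 := by
    have h4 := (hsG P).len_smul_le i 1
    rw [mul_one, (hsG P).len_one] at h4
    have h5 : len (sm P) (sm P i) ≠ 0 := by
      intro h6
      have h7 := (hsG P).len_eq_zero.1 h6
      exact sm_ne_one P i h7
    omega
  refine ⟨by omega, (hsG P).cancel i w⟩

/-- the sum `Σ_c h_i(c)` -/
noncomputable def Ei (i : P.S) : Module.End ℂ (Fin k → ℂ) := ∑ c : K, ρ (R.h i c)

/-- products -/
noncomputable def EL (L : List P.S) : Module.End ℂ (Fin k → ℂ) := (L.map (Ei R ρ)).prod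

lemma Ei_absorb (i : P.S) (c : K) : ρ (R.h i c) * Ei R ρ i = Ei R ρ i := by
  unfold Ei
  obtain ⟨e, he⟩ := R.absorb i c
  rw [Finset.mul_sum, ← Equiv.sum_comp e (fun c' => ρ (R.h i c'))]
  refine Finset.sum_congr rfl fun c' _ => ?_
  rw [← map_mul, he]

lemma Ei_comm {t : G} (ht : t ∈ P.B ⊓ P.N) (i : P.S) : ρ t * Ei R ρ i = Ei R ρ i * ρ t := by
  unfold Ei
  rw [Finset.mul_sum, Finset.sum_mul]
  refine Finset.sum_congr rfl fun c _ => ?_
  rw [← map_mul, ← map_mul, R.comm t ht _ (R.h_mem i c)]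

lemma EL_absorb {L : List P.S} {j : P.S} (hj : j ∈ L) (c : K) : ρ (R.h j c) * EL R ρ L = EL R ρ L := by
  induction L with
  | nil => simp at hj
  | cons i L ih =>
    have h1 : EL R ρ (i :: L) = Ei R ρ i * EL R ρ L := by unfold EL; rw [List.map_cons, List.prod_cons]
    rw [h1, ← mul_assoc]
    by_cases h : j = i
    · subst h
      rw [Ei_absorb]
    · rw [Ei_comm R ρ (R.h_mem j c), mul_assoc, ih ((List.mem_cons.1 hj).resolve_left h)]

lemma EL_T {L : List P.S} (hL : ∀ i, i ∈ L) {t : G} (ht : t ∈ P.B ⊓ P.N) : ρ t * EL R ρ L = EL R ρ L := by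
  have h1 := R.gen ht
  induction h1 using Subgroup.closure_induction with
  | mem x hx =>
    obtain ⟨i, c, rfl⟩ := hx
    exact EL_absorb R ρ (hL i) c
  | one => rw [map_one, one_mul]
  | mul x y hx hy ihx ihy =>
    have hle : Subgroup.closure {x | ∃ i c, x = R.h i c} ≤ P.B ⊓ P.N := by
      rw [Subgroup.closure_le]
      rintro _ ⟨i, c, rfl⟩
      exact R.h_mem i c
    rw [map_mul, mul_assoc, ihy (hle hy), ihx (hle hx)]
  | inv x hx ih =>
    have hle : Subgroup.closure {x | ∃ i c, x = R.h i c} ≤ P.B ⊓ P.N := by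
      rw [Subgroup.closure_le]
      rintro _ ⟨i, c, rfl⟩
      exact R.h_mem i c
    have h2 := ih (hle hx)
    nth_rewrite 1 [← h2]
    rw [← mul_assoc, ← map_mul, inv_mul_cancel, map_one, one_mul]

/-- additive span of the torus -/
def TT (P : Cfsg.BNPair G) (ρ : Representation ℂ G (Fin k → ℂ)) : AddSubmonoid (Module.End ℂ (Fin k → ℂ)) := AddSubmonoid.closure {X | ∃ t ∈ P.B ⊓ P.N, X = ρ t}

lemma TT_mul_left {t : G} (ht : t ∈ P.B ⊓ P.N) {X : Module.End ℂ (Fin k → ℂ)} (hX : X ∈ TT P ρ) : ρ t * X ∈ TT P ρ := by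
  unfold TT at hX
  induction hX using AddSubmonoid.closure_induction with
  | mem x hx =>
    obtain ⟨s, hs, rfl⟩ := hx
    exact AddSubmonoid.subset_closure ⟨t * s, mul_mem ht hs, by rw [map_mul]⟩
  | zero => rw [mul_zero]; exact zero_mem _
  | add x y _ _ hx hy => rw [mul_add]; exact add_mem hx hy

lemma EL_mem (L : List P.S) : EL R ρ L ∈ TT P ρ := by
  induction L with
  | nil => exact AddSubmonoid.subset_closure ⟨1, one_mem _, by rw [map_one]; rfl⟩
  | cons i L ih =>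
    have h1 : EL R ρ (i :: L) = Ei R ρ i * EL R ρ L := by unfold EL; rw [List.map_cons, List.prod_cons]
    rw [h1]
    unfold Ei
    rw [Finset.sum_mul]
    exact sum_mem fun c _ => TT_mul_left ρ (R.h_mem i c) ih

variable (S) in
include S in
lemma ind_dvd [Fact p.Prime] (i : P.S) : p ∣ ind P (sm P i) := by
  have h1 : ind P (sm P i) ∣ Nat.card (S.V ∅) := by
    rw [← ind_w0 S]
    obtain ⟨h2, h3⟩ := long_smul (wl_spec (P := P) Set.univ) i
    rw [← h3, ind_mul (by rw [h3]; exact h2.symm)]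
    exact dvd_mul_right _ _
  obtain ⟨j, hj⟩ := S.V_p ∅
  rw [hj] at h1
  obtain ⟨l, -, hl⟩ := (Nat.dvd_prime_pow (Fact.out : p.Prime)).1 h1
  rw [hl]
  apply dvd_pow_self
  rintro rfl
  rw [pow_zero] at hl
  -- only one coset
  obtain ⟨b, hb, hb'⟩ := exists_conj_not_mem P i
  apply hb'
  unfold ind at hl
  have hsub := (Nat.card_eq_one_iff_unique.1 hl).1
  have h4 : tyQ P (((i : G)) : G ⧸ P.B) = sm P i := by rw [tyQ_mk]; exact ty_eq P (sm_mem_C P i)
  have h5 : tyQ P ((b * (i : G) : G) : G ⧸ P.B) = sm P i := by rw [tyQ_mk]; exact ty_eq P (C_mul_left P (sm_mem_C P i) hb)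
  have h6 : (⟨_, h4⟩ : {y : G ⧸ P.B // tyQ P y = sm P i}) = ⟨_, h5⟩ := Subsingleton.elim _ _
  have h7 : ((i : G) : G ⧸ P.B) = ((b * (i : G) : G) : G ⧸ P.B) := congrArg Subtype.val h6
  rw [QuotientGroup.eq] at h7
  have e : (i : G) * b * i = ((i : G) * i) * ((i : G)⁻¹ * (b * i)) := by group
  rw [e]
  exact P.B.mul_mem (P.sq_mem i i.2) h7

include R in
/-- the basic relation -/
lemma rel_Tn [Fact p.Prime] (i : P.S) {m : P.N} (hm : IsLong (sm P) Set.univ (pr P m)) :
    Tn S ρ (ni P i) * Tn S ρ m = (ind P (sm P i) : ℂ) • Tn S ρ (ni P i * m) + Ei R ρ i * Tn S ρ m := by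
  obtain ⟨h1, h2⟩ := long_smul hm i
  have h3 : ind P (pr P m) = ind P (sm P i) * ind P (sm P i * pr P m) := by
    nth_rewrite 1 [← h2]
    rw [ind_mul (by rw [h2]; exact h1.symm)]
  have h4 := R.rel k ρ i m hm
  set e := avg ρ (S.V ∅) with he
  have h5 : Tn S ρ (ni P i) * Tn S ρ m = (ind P (pr P m) : ℂ) • ((ind P (sm P i) : ℂ) • (e * ρ i * e * ρ m * e)) := by
    unfold Tn
    rw [smul_mul_smul_comm, pr_ni, smul_smul, mul_comm]
    congr 1
    simp only [mul_assoc]
    rw [← mul_assoc e e, he, avg_sq]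
    rfl
  rw [h5, h4, smul_add, Finset.smul_sum]
  congr 1
  · unfold Tn
    rw [h3, Nat.cast_mul, mul_smul]
    congr 2
  · unfold Ei
    rw [Finset.sum_mul]
    refine Finset.sum_congr rfl fun c _ => ?_
    rw [← Tn_T_left S ρ (R.h_mem i c)]
    unfold Tn
    rw [pr_T_mul (R.h_mem i c)]
    rfl

/-- products of the simple operators -/
noncomputable def TL (S : Split P p) (ρ : Representation ℂ G (Fin k → ℂ)) (L : List P.S) : Module.End ℂ (Fin k → ℂ) := (L.map fun i => Tn S ρ (ni P i)).prod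

lemma rel_TL [Fact p.Prime] {m : P.N} (hm : IsLong (sm P) Set.univ (pr P m)) (L : List P.S) :
    ∃ b ∈ HT S ρ M, TL S ρ L * Tn S ρ m = EL R ρ L * Tn S ρ m + (p : ℂ) • b := by
  have key : ∀ (i : P.S) (X : Module.End ℂ (Fin k → ℂ)), X ∈ TT P ρ → ∃ b ∈ HT S ρ M, Tn S ρ (ni P i) * (X * Tn S ρ m) = Ei R ρ i * (X * Tn S ρ m) + (p : ℂ) • b := by
    intro i X hX
    unfold TT at hX
    induction hX using AddSubmonoid.closure_induction with
    | mem x hx =>
      obtain ⟨t, ht, rfl⟩ := hx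
      rw [← Tn_T_left S ρ ht]
      have h1 : IsLong (sm P) Set.univ (pr P (⟨t, ht.2⟩ * m)) := by rw [pr_T_mul ht]; exact hm
      rw [rel_Tn R ρ i h1]
      obtain ⟨c, hc⟩ := ind_dvd S i
      refine ⟨(c : ℂ) • Tn S ρ (ni P i * (⟨t, ht.2⟩ * m)), HT_smul (lr_natCast M c) (HT_Tn _), ?_⟩
      rw [add_comm, hc, Nat.cast_mul, mul_smul]
    | zero => exact ⟨0, HT_zero, by simp⟩
    | add x y _ _ hx hy =>
      obtain ⟨b, hb, e⟩ := hx
      obtain ⟨b', hb', e'⟩ := hy
      refine ⟨b + b', HT_add hb hb', ?_⟩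
      rw [add_mul, mul_add, mul_add, e, e', smul_add]; abel
  induction L with
  | nil => exact ⟨0, HT_zero, by unfold TL EL; simp⟩
  | cons i L ih =>
    obtain ⟨b, hb, e⟩ := ih
    obtain ⟨b', hb', e'⟩ := key i _ (EL_mem R ρ L)
    refine ⟨b' + Tn S ρ (ni P i) * b, HT_add hb' (HT_mul (HT_Tn _) hb), ?_⟩
    have h1 : EL R ρ (i :: L) = Ei R ρ i * EL R ρ L := by unfold EL; rw [List.map_cons, List.prod_cons]
    have h2 : TL S ρ (i :: L) = Tn S ρ (ni P i) * TL S ρ L := by unfold TL; rw [List.map_cons, List.prod_cons]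
    rw [h2, mul_assoc, e, mul_add, e', h1, mul_smul_comm, smul_add, mul_assoc]; abel

/-- product of representatives -/
def nL (P : Cfsg.BNPair G) (L : List P.S) : P.N := (L.map (ni P)).prod

lemma pr_nL (L : List P.S) : pr P (nL P L) = wp (sm P) L := by
  unfold nL wp
  rw [map_list_prod, List.map_map]
  rfl

lemma Tn_nL [Fact p.Prime] (L : List P.S) (hL : IsRed (sm P) L) : Tn S ρ (nL P L) * avg ρ (S.V ∅) = TL S ρ L * avg ρ (S.V ∅) := by
  induction L with
  | nil =>
    have h2 : Tn S ρ (1 : P.N) = avg ρ (S.V ∅) := by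
      unfold Tn
      rw [map_one, ind_one, Nat.cast_one, one_smul, Subgroup.coe_one, map_one, mul_one, avg_sq]
    unfold nL TL
    rw [List.map_nil, List.prod_nil, List.map_nil, List.prod_nil, h2, one_mul, avg_sq]
  | cons i L ih =>
    have h3 : IsRed (sm P) L := by
      have : i :: L = [i] ++ L := rfl
      rw [this] at hL
      exact (hsG P).red_of_append_right hL
    have h1 : nL P (i :: L) = ni P i * nL P L := by unfold nL; rw [List.map_cons, List.prod_cons]
    have h2 : TL S ρ (i :: L) = Tn S ρ (ni P i) * TL S ρ L := by unfold TL; rw [List.map_cons, List.prod_cons]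
    have h4 : len (sm P) (pr P (ni P i) * pr P (nL P L)) = len (sm P) (pr P (ni P i)) + len (sm P) (pr P (nL P L)) := by
      rw [← map_mul, ← h1, pr_nL, pr_nL, pr_ni]
      unfold IsRed at hL h3
      rw [hL, h3, List.length_cons]
      have h6 := (hsG P).len_smul_le i 1
      rw [mul_one, (hsG P).len_one] at h6
      have h5 : len (sm P) (sm P i) ≠ 0 := by
        intro h6
        have h7 := (hsG P).len_eq_zero.1 h6
        exact sm_ne_one P i h7
      omega
    rw [h1, ← Tn_mul S ρ h4, h2, mul_assoc, ih h3, mul_assoc]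

end Cfsg.Agent.H16.BNS
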