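import Mathlib
import Cfsg.Agent.H16.HkE

set_option autoImplicit false
set_option linter.all false

/-! Uniqueness of the defect zero character, II. -/

namespace Cfsg.Agent.H16.BNS

open Cfsg Cfsg.Agent.H6 Cfsg.Agent.H6.BN Cfsg.Agent.H11

variable {G : Type*} [Group G] {P : Cfsg.BNPair G} [Fintype G]
variable {p : ℕ} {S : Split P p} {K : Type*} [Fintype K] (R : RankOne S K) {k : ℕ} (ρ : Representation ℂ G (Fin k → ℂ)) {M : Ideal AlgInt} [M.IsPrime]

lemma full_support {w : Wl P} (hw : IsLong (sm P) Set.univ w) {L : List P.S} (h : wp (sm P) L = w) (i : P.S) : i ∈ L := by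
  by_contra hi
  have h1 : w ∈ WI (sm P) {j | j ≠ i} := by
    rw [← h]
    unfold wp
    apply Subgroup.list_prod_mem
    intro x hx
    rw [List.mem_map] at hx
    obtain ⟨j, hj, rfl⟩ := hx
    exact s_mem (by rintro rfl; exact hi hj)
  have h2 : len (sm P) (sm P i) = 1 := by
    have h4 := (hsG P).len_smul_le i 1
    rw [mul_one, (hsG P).len_one] at h4
    have h5 : len (sm P) (sm P i) ≠ 0 := by
      intro h6
      exact sm_ne_one P i ((hsG P).len_eq_zero.1 h6)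
    omega
  have h3 : MinR (sm P) {j | j ≠ i} (sm P i) := by
    intro j hj
    have h4 := hneR (hsG P) (hneG P) j (sm P i)
    have h5 : len (sm P) (sm P i * sm P j) ≠ 0 := by
      intro h6
      have h7 := (hsG P).len_eq_zero.1 h6
      have h8 : sm P i = sm P j := by
        rw [← (hsG P).inv_eq j]
        exact eq_inv_of_mul_eq_one_left h7
      exact hj (sm_inj P h8).symm
    omega
  have h4 := addR (hsG P) (hexG P) (hneG P) h3 h1
  have h5 := hw.dl i (Set.mem_univ _)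
  omega

lemma avgT_comm (m : P.N) : ρ m * avg ρ (P.B ⊓ P.N) = avg ρ (P.B ⊓ P.N) * ρ m := by
  classical
  have hT : ∀ (n : P.N) (t : G), t ∈ P.B ⊓ P.N → (n : G) * t * (n : G)⁻¹ ∈ P.B ⊓ P.N := fun n t ht =>
    ⟨P.conj_mem _ n.2 t ht, P.N.mul_mem (P.N.mul_mem n.2 ht.2) (P.N.inv_mem n.2)⟩
  rw [avg_def, mul_smul_comm, smul_mul_assoc, Finset.mul_sum, Finset.sum_mul]
  congr 1
  refine Finset.sum_equiv (MulAut.conj (m : G)).toEquiv ?_ ?_
  · intro g
    simp only [Finset.mem_filter, Finset.mem_univ, true_and]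
    show g ∈ P.B ⊓ P.N ↔ (m : G) * g * (m : G)⁻¹ ∈ P.B ⊓ P.N
    constructor
    · exact fun h => hT m g h
    · intro h
      have := hT m⁻¹ _ h
      have e : ((m⁻¹ : P.N) : G) * ((m : G) * g * (m : G)⁻¹) * ((m⁻¹ : P.N) : G)⁻¹ = g := by
        rw [Subgroup.coe_inv]; group
      rwa [e] at this
  · intro g _
    show ρ m * ρ g = ρ ((m : G) * g * (m : G)⁻¹) * ρ m
    rw [← map_mul, ← map_mul, inv_mul_cancel_right]

lemma avgTU : avg ρ (P.B ⊓ P.N) * avg ρ (S.V ∅) = avg ρ (S.V ∅) * avg ρ (P.B ⊓ P.N) := by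
  classical
  rw [avg_def (H := P.B ⊓ P.N), mul_smul_comm, smul_mul_assoc, Finset.mul_sum, Finset.sum_mul]
  congr 1
  refine Finset.sum_congr rfl fun t ht => ?_
  exact avgU_comm S ρ (Finset.mem_filter.1 ht).2.1

lemma avgT_Tn (m : P.N) : Tn S ρ m * avg ρ (P.B ⊓ P.N) = avg ρ (P.B ⊓ P.N) * Tn S ρ m := by
  unfold Tn
  rw [smul_mul_assoc, mul_smul_comm]
  congr 1
  rw [mul_assoc, ← avgTU, ← mul_assoc, mul_assoc _ (ρ m), avgT_comm, ← mul_assoc, ← avgTU]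
  simp only [mul_assoc]

include R in
/-- key congruence for long elements -/
theorem tr_long [Fact p.Prime] (hM : IsPModular p M) {m : P.N} (hm : IsLong (sm P) Set.univ (pr P m)) :
    MemLocalIdeal M (LinearMap.trace ℂ (Fin k → ℂ) (Tn S ρ m) - LinearMap.trace ℂ (Fin k → ℂ) (avg ρ (P.B ⊓ P.N) * Tn S ρ m)) := by
  classical
  set f := avg ρ (P.B ⊓ P.N) with hf
  obtain ⟨L, hL1, hL2⟩ := (hsG P).exists_red (pr P m)
  have hred : IsRed (sm P) L := by unfold IsRed; rw [hL2, hL1]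
  have hall : ∀ i, i ∈ L := full_support hm hL2
  have ht0 : ((nL P L : P.N) : G)⁻¹ * m ∈ P.B := (pr_eq_iff P).1 (by rw [pr_nL, hL2])
  set t : G := ((nL P L : P.N) : G)⁻¹ * m with htd
  have ht : t ∈ P.B ⊓ P.N := ⟨ht0, P.N.mul_mem (P.N.inv_mem (nL P L).2) m.2⟩
  have hmt : m = nL P L * ⟨t, ht.2⟩ := by
    apply Subtype.ext
    rw [Subgroup.coe_mul]
    show (m : G) = (nL P L : G) * (((nL P L : P.N) : G)⁻¹ * m)
    group
  have hlong : IsLong (sm P) Set.univ (pr P (⟨t, ht.2⟩ * m)) := by rw [pr_T_mul ht]; exact hm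
  obtain ⟨b, hb, e⟩ := rel_TL R ρ (M := M) hlong L
  have hX : Tn S ρ m * Tn S ρ m = EL R ρ L * Tn S ρ (⟨t, ht.2⟩ * m) + (p : ℂ) • b := by
    have h1 : Tn S ρ m = Tn S ρ (nL P L) * ρ t := by
      have := Tn_T_right S ρ ht (nL P L)
      rw [← hmt] at this; exact this
    calc Tn S ρ m * Tn S ρ m = Tn S ρ (nL P L) * (ρ t * Tn S ρ m) := by nth_rewrite 1 [h1]; rw [mul_assoc]
      _ = Tn S ρ (nL P L) * Tn S ρ (⟨t, ht.2⟩ * m) := by rw [Tn_T_left S ρ ht]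
      _ = Tn S ρ (nL P L) * avg ρ (S.V ∅) * Tn S ρ (⟨t, ht.2⟩ * m) := by rw [mul_assoc, Tn_avg_left]
      _ = TL S ρ L * avg ρ (S.V ∅) * Tn S ρ (⟨t, ht.2⟩ * m) := by rw [Tn_nL ρ L hred]
      _ = TL S ρ L * Tn S ρ (⟨t, ht.2⟩ * m) := by rw [mul_assoc, Tn_avg_left]
      _ = _ := e
  have hfE : f * EL R ρ L = EL R ρ L := avg_mul_of_left ρ fun s hs => EL_T R ρ hall hs
  have hcomm : Tn S ρ m * f = f * Tn S ρ m := avgT_Tn ρ m
  have hff : f * f = f := avg_sq ρ _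
  have ha : Tn S ρ m - f * Tn S ρ m ∈ HT S ρ M := HT_sub S ρ (HT_Tn m) (HT_avgT S ρ hM (HT_Tn m))
  have hb' : b - f * b ∈ HT S ρ M := HT_sub S ρ hb (HT_avgT S ρ hM hb)
  rw [← map_sub]
  apply trace_li hM (HO_of_HT ha) (HO_of_HT hb')
  have h2 : (Tn S ρ m - f * Tn S ρ m) * (Tn S ρ m - f * Tn S ρ m) = Tn S ρ m * Tn S ρ m - f * (Tn S ρ m * Tn S ρ m) := by
    have h3 : Tn S ρ m * (f * Tn S ρ m) = f * (Tn S ρ m * Tn S ρ m) := by rw [← mul_assoc, hcomm, mul_assoc]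
    have h4 : f * Tn S ρ m * (f * Tn S ρ m) = f * (Tn S ρ m * Tn S ρ m) := by
      rw [mul_assoc, h3, ← mul_assoc, hff]
    rw [sub_mul, mul_sub, mul_sub, h3, h4, mul_assoc]
    abel
  rw [h2, hX, mul_add, ← mul_assoc, hfE, mul_smul_comm, smul_sub]
  abel

end Cfsg.Agent.H16.BNS
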