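import Mathlib
import Cfsg.Agent.H16.HkF

set_option autoImplicit false
set_option linter.all false

/-! Uniqueness of the defect zero character, III. -/

namespace Cfsg.Agent.H16.BNS

open Cfsg Cfsg.Agent.H6 Cfsg.Agent.H6.BN Cfsg.Agent.H11

variable {G : Type*} [Group G] {P : Cfsg.BNPair G} [Fintype G]
variable {p : ℕ} {S : Split P p} {K : Type*} [Fintype K] (R : RankOne S K) {k k' : ℕ} (ρ : Representation ℂ G (Fin k → ℂ)) (ρ' : Representation ℂ G (Fin k' → ℂ)) {M : Ideal AlgInt} [M.IsPrime]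

variable (S) in
include S in
lemma ind_dvd' [Fact p.Prime] {x : Wl P} (hx : x ≠ 1) : p ∣ ind P x := by
  have h1 : x ∈ WI (sm P) Set.univ := by
    obtain ⟨L, rfl⟩ := (hsG P).exists_word x
    unfold wp
    apply Subgroup.list_prod_mem
    intro y hy
    rw [List.mem_map] at hy
    obtain ⟨j, -, rfl⟩ := hy
    exact s_mem (Set.mem_univ _)
  obtain ⟨i, -, x', -, rfl, h2⟩ := exists_first (hsG P) (hexG P) h1 hx
  have h3 : len (sm P) (sm P i) = 1 := by
    have h4 := (hsG P).len_smul_le i 1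
    rw [mul_one, (hsG P).len_one] at h4
    have h5 : len (sm P) (sm P i) ≠ 0 := by
      intro h6
      exact sm_ne_one P i ((hsG P).len_eq_zero.1 h6)
    omega
  rw [ind_mul (by rw [h2, h3, add_comm])]
  exact (ind_dvd S i).mul_right _

lemma mem_WI_univ (x : Wl P) : x ∈ WI (sm P) Set.univ := by
  obtain ⟨L, rfl⟩ := (hsG P).exists_word x
  unfold wp
  apply Subgroup.list_prod_mem
  intro y hy
  rw [List.mem_map] at hy
  obtain ⟨j, -, rfl⟩ := hy
  exact s_mem (Set.mem_univ _)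

/-- weights in the Schur relation -/
lemma weight [Fact p.Prime] (hM : IsPModular p M) (n : P.N) :
    (pr P n = wl P Set.univ → (Nat.card (S.V ∅) : ℂ) / (ind P (pr P n) : ℂ) = 1) ∧
    (pr P n ≠ wl P Set.univ → MemLocalIdeal M ((Nat.card (S.V ∅) : ℂ) / (ind P (pr P n) : ℂ))) := by
  have hne : (ind P (pr P n) : ℂ) ≠ 0 := Nat.cast_ne_zero.2 (ind_pos _).ne'
  constructor
  · intro h
    rw [h, ind_w0 S, div_self]
    rw [← ind_w0 S, ← h]; exact hne
  · intro h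
    have hl := wl_spec (P := P) Set.univ
    obtain ⟨x, -, h1, h2⟩ := long_add' (hsG P) (hexG P) hl.mem hl.dl (mem_WI_univ (pr P n))
    have hx : x ≠ 1 := by
      rintro rfl
      rw [mul_one] at h1
      exact h h1.symm
    obtain ⟨c, hc⟩ := ind_dvd' S hx
    have h3 : Nat.card (S.V ∅) = ind P (pr P n) * (p * c) := by
      rw [← ind_w0 S, h1, ind_mul (by rw [← h1, h2]), hc]
    rw [h3]
    push_cast
    rw [mul_div_cancel_left₀ _ hne]
    exact li_mul_right (li_p hM) (lr_natCast M c)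

lemma long_of_pr {n : P.N} (h : pr P n = wl P Set.univ) : IsLong (sm P) Set.univ (pr P n) := by rw [h]; exact wl_spec _

lemma tau_eq {n m : P.N} (hn : pr P n = pr P m) : avg ρ (P.B ⊓ P.N) * Tn S ρ n = avg ρ (P.B ⊓ P.N) * Tn S ρ m := by
  have ht0 : ((m⁻¹ : P.N) : G)⁻¹ * ((n⁻¹ : P.N) : G) ∈ P.B := (pr_eq_iff P).1 (by rw [map_inv, map_inv, hn])
  have ht : (m : G) * (n : G)⁻¹ ∈ P.B ⊓ P.N := by
    refine ⟨?_, P.N.mul_mem m.2 (P.N.inv_mem n.2)⟩
    have e : ((m⁻¹ : P.N) : G)⁻¹ * ((n⁻¹ : P.N) : G) = (m : G) * (n : G)⁻¹ := by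
      rw [Subgroup.coe_inv, Subgroup.coe_inv, inv_inv]
    rwa [e] at ht0
  have h1 : m = ⟨(m : G) * (n : G)⁻¹, ht.2⟩ * n := by
    apply Subtype.ext
    rw [Subgroup.coe_mul]
    show (m : G) = (m : G) * (n : G)⁻¹ * n
    group
  have h2 := Tn_T_left S ρ ht n
  rw [← h1] at h2
  rw [h2, ← mul_assoc, avg_right ρ ht]

include R in
theorem pairing [Fact p.Prime] [Fintype P.N] (hM : IsPModular p M) (n0 : P.N) (h0 : pr P n0 = wl P Set.univ)
    (hχ : IsIrrCharacter G ρ.character) (hψ : IsIrrCharacter G ρ'.character)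
    (hdeg : LinearMap.trace ℂ (Fin k' → ℂ) (avg ρ' (S.V ∅)) = ρ'.character 1 / (Nat.card (S.V ∅) : ℂ)) :
    ∃ c : ℕ, ∀ c' : ℕ, c' = Nat.card {n : P.N // pr P n = wl P Set.univ} →
    MemLocalIdeal M ((c' : ℂ) * (LinearMap.trace ℂ (Fin k → ℂ) (avg ρ (P.B ⊓ P.N) * Tn S ρ n0) * LinearMap.trace ℂ (Fin k' → ℂ) (avg ρ' (P.B ⊓ P.N) * Tn S ρ' n0)) -
      (if ρ.character = ρ'.character then (Nat.card G : ℂ) / (Nat.card (S.V ∅) : ℂ) else 0)) := by
  classical
  refine ⟨0, ?_⟩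
  rintro _ rfl
  have h1 := schur_rel S ρ ρ' hχ hψ
  have hne : ρ'.character 1 ≠ 0 := Cfsg.Agent.H27.isIrr_one_ne_zero hψ
  have h2 : (if ρ.character = ρ'.character then (Nat.card G : ℂ) else 0) * LinearMap.trace ℂ (Fin k' → ℂ) (avg ρ' (S.V ∅)) / ρ'.character 1 =
      (if ρ.character = ρ'.character then (Nat.card G : ℂ) / (Nat.card (S.V ∅) : ℂ) else 0) := by
    rw [hdeg]
    split_ifs
    · field_simp
    · simp
  rw [h2] at h1
  rw [← h1]
  set a := LinearMap.trace ℂ (Fin k → ℂ) (avg ρ (P.B ⊓ P.N) * Tn S ρ n0) with ha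
  set b := LinearMap.trace ℂ (Fin k' → ℂ) (avg ρ' (P.B ⊓ P.N) * Tn S ρ' n0) with hb
  have h3 : ((Nat.card {n : P.N // pr P n = wl P Set.univ} : ℕ) : ℂ) * (a * b) = ∑ n : P.N, if pr P n = wl P Set.univ then a * b else 0 := by
    rw [← Finset.sum_filter, Finset.sum_const, nsmul_eq_mul, Nat.card_eq_fintype_card, Fintype.card_subtype]
  rw [h3, ← Finset.sum_sub_distrib]
  apply li_sum
  intro n _
  have hl1 : MemLocalRing M (LinearMap.trace ℂ (Fin k → ℂ) (Tn S ρ n)) := trace_lr (S := S) (ρ := ρ) (HO_of_HT (HT_Tn n))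
  have hl2 : MemLocalRing M (LinearMap.trace ℂ (Fin k' → ℂ) (Tn S ρ' n⁻¹)) := trace_lr (S := S) (ρ := ρ') (HO_of_HT (HT_Tn n⁻¹))
  by_cases hn : pr P n = wl P Set.univ
  · rw [if_pos hn, (weight (S := S) hM n).1 hn, one_mul]
    have hwinv : (wl P Set.univ)⁻¹ = wl P Set.univ := (wl_spec (P := P) Set.univ).inv_eq (hsG P) (hexG P)
    have hn' : pr P n⁻¹ = wl P Set.univ := by rw [map_inv, hn, hwinv]
    have h4 := tr_long R ρ hM (long_of_pr hn)
    rw [tau_eq ρ (hn.trans h0.symm), ← ha] at h4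
    have h5 := tr_long R ρ' hM (long_of_pr hn')
    rw [tau_eq ρ' (hn'.trans h0.symm), ← hb] at h5
    rw [li_sub_comm] at h4 h5
    have hla : MemLocalRing M a := by
      have := lr_add hl1 (li_lr h4)
      simpa using this
    exact li_mul_sub_mul hla hl2 h4 h5
  · rw [if_neg hn, zero_sub]
    exact li_neg (li_mul_right ((weight (S := S) hM n).2 hn) (lr_mul hl1 hl2))

include R in
theorem defect_unique [Fact p.Prime] (hM : IsPModular p M) (hF : Full S)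
    (hχ : IsIrrCharacter G ρ.character) (hψ : IsIrrCharacter G ρ'.character)
    (hd1 : LinearMap.trace ℂ (Fin k → ℂ) (avg ρ (S.V ∅)) = ρ.character 1 / (Nat.card (S.V ∅) : ℂ))
    (hd2 : LinearMap.trace ℂ (Fin k' → ℂ) (avg ρ' (S.V ∅)) = ρ'.character 1 / (Nat.card (S.V ∅) : ℂ)) :
    ρ.character = ρ'.character := by
  classical
  have : Fintype P.N := Fintype.ofFinite _
  obtain ⟨n0, h0⟩ := pr_surj P (wl P Set.univ)
  by_contra hne
  obtain ⟨-, h1⟩ := pairing R ρ ρ hM n0 h0 hχ hχ hd1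
  obtain ⟨-, h2⟩ := pairing R ρ' ρ' hM n0 h0 hψ hψ hd2
  obtain ⟨-, h3⟩ := pairing R ρ ρ' hM n0 h0 hχ hψ hd2
  have h1 := h1 _ rfl
  have h2 := h2 _ rfl
  have h3 := h3 _ rfl
  rw [if_pos rfl] at h1 h2
  rw [if_neg hne, sub_zero] at h3
  have hq : ¬ MemLocalIdeal M ((Nat.card G : ℂ) / (Nat.card (S.V ∅) : ℂ)) := by
    have hdiv : (Nat.card G : ℂ) / (Nat.card (S.V ∅) : ℂ) = ((Nat.card G / Nat.card (S.V ∅) : ℕ) : ℂ) := by
      rw [Nat.cast_div (card_U_dvd S) (Nat.cast_ne_zero.2 Nat.card_pos.ne')]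
    rw [hdiv, li_natCast_iff hM]
    exact hF
  set c : ℂ := ((Nat.card {n : P.N // pr P n = wl P Set.univ} : ℕ) : ℂ) with hc
  set a := LinearMap.trace ℂ (Fin k → ℂ) (avg ρ (P.B ⊓ P.N) * Tn S ρ n0) with ha
  set b := LinearMap.trace ℂ (Fin k' → ℂ) (avg ρ' (P.B ⊓ P.N) * Tn S ρ' n0) with hb
  have hcl : MemLocalRing M c := lr_natCast M _
  have hal : MemLocalRing M a := trace_lr (S := S) (ρ := ρ) (HO_of_HT (HT_avgT S ρ hM (HT_Tn n0)))
  have hbl : MemLocalRing M b := trace_lr (S := S) (ρ := ρ') (HO_of_HT (HT_avgT S ρ' hM (HT_Tn n0)))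
  have h1' : ¬ MemLocalIdeal M (c * (a * a)) := fun h => hq ((li_congr h1).1 h)
  have h2' : ¬ MemLocalIdeal M (c * (b * b)) := fun h => hq ((li_congr h2).1 h)
  rcases (li_mul_iff hcl (lr_mul hal hbl)).1 h3 with h | h
  · exact h1' (li_mul_right h (lr_mul hal hal))
  · rcases (li_mul_iff hal hbl).1 h with h | h
    · exact h1' (li_mul_left hcl (li_mul_right h hal))
    · exact h2' (li_mul_left hcl (li_mul_right h hbl))

end Cfsg.Agent.H16.BNS
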