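import Mathlib
import Cfsg.Agent.H16.ChB3
import Cfsg.Agent.H16.HkG

set_option autoImplicit false
set_option linter.all false

/-! Rank one relations in a Chevalley group. -/

namespace Cfsg.Agent.H16.BNS

open Cfsg Cfsg.Lie Cfsg.Agent.H6 Cfsg.Agent.H6.BN

section
variable {D : ChevalleyDatum} {N : ℕ} {η : ℕ → ℕ → ℤ} {rc : ℕ → ℕ → ℤ} {F : Type*} [Field F]
variable (hG : Good D N η rc) (hE : Ext D rc)

/-- root elements in the group -/
noncomputable def xG (r : ℕ) (t : F) : ↥(D.group F) := ⟨xg D F r t, hG.xg_mem_group r t⟩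

/-- torus elements in the group -/
noncomputable def hGr (r : ℕ) (t : F) : ↥(D.group F) := ⟨hgr D F r t, hG.hgr_mem_group r t⟩

lemma gi_coe (i : Fin D.rank) : (((gi hG hE F i : (PP hG hE F).S) : ↥(D.group F)) : GL D.Idx F) = ng D F i := rfl

lemma toJ_single (i : Fin D.rank) : toJ hG hE ((({gi hG hE F i} : Finset (PP hG hE F).S)) : Set (PP hG hE F).S) = {(i : ℕ)} := by
  ext j
  constructor
  · rintro ⟨h, h2⟩
    rw [Finset.coe_singleton, Set.mem_singleton_iff] at h2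
    have := gi_inj hG hE h2
    rw [Set.mem_singleton_iff, ← this]
  · intro h
    rw [Set.mem_singleton_iff] at h
    subst h
    exact ⟨i.2, by rw [Finset.coe_singleton]; rfl⟩

include hG hE in
lemma US_i_le (i : Fin D.rank) : US (xg D F) (posS D N \ {D.simple i}) ≤ D.unipotentRadical F {(i : ℕ)} := by
  rw [Cfsg.Agent.H22.radical_eq hG hE]
  apply US_mono
  rintro r ⟨hr, hne⟩
  refine ⟨hr, fun h => hne ?_⟩
  rw [Set.mem_singleton_iff]
  apply hG.eq_simple_of_rc hr.2 hr.1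
  intro j hj hji
  exact h.2 j hj (by rw [Set.mem_singleton_iff]; exact hji)

variable [Fintype F] (p : ℕ) [Fact p.Prime] [CharP F p]

lemma xG_mem_V (i : Fin D.rank) (t : F) : xG hG (D.simple i) t ∈ (chSplit hG hE F p).V ∅ := by
  rw [chV_empty, Subgroup.mem_subgroupOf]
  exact hG.xg_mem_pos (hG.simple_pos i i.2) (hG.simple_lt i i.2) t

lemma U_split (i : Fin D.rank) {u : ↥(D.group F)} (hu : u ∈ (chSplit hG hE F p).V ∅) :
    ∃ v ∈ (chSplit hG hE F p).V {gi hG hE F i}, ∃ t : F, u = v * xG hG (D.simple i) t := by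
  rw [chV_empty, Subgroup.mem_subgroupOf, hG.posUnipotent_eq_US] at hu
  obtain ⟨v, hv, x, hx, e⟩ := hG.US_union_mul (hG.rd hE) (S₁ := posS D N \ {D.simple i}) (S₂ := {D.simple i})
    hG.pClo_all (by rw [Set.union_comm]; exact hG.posS_split i) hu
  obtain ⟨t, rfl⟩ := (hG.mem_US_single (hG.rdn hE) (hG.simple_lt i i.2)).1 hx
  have h1 : v ∈ D.unipotentRadical F {(i : ℕ)} := US_i_le hG hE i hv
  refine ⟨⟨v, rad_le_group hG hE _ h1⟩, ?_, t, Subtype.ext e⟩
  show (⟨v, _⟩ : ↥(D.group F)) ∈ (D.unipotentRadical F (toJ hG hE ((({gi hG hE F i} : Finset (PP hG hE F).S)) : Set (PP hG hE F).S))).subgroupOf (D.group F)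
  rw [toJ_single, Subgroup.mem_subgroupOf]
  exact h1

lemma V_le_U (J : Finset (PP hG hE F).S) : (chSplit hG hE F p).V J ≤ (chSplit hG hE F p).V ∅ := by
  intro x hx
  rw [chV_empty, Subgroup.mem_subgroupOf]
  exact rad_le hG hE _ (Subgroup.mem_subgroupOf.1 hx)

lemma gi_norm (i : Fin D.rank) {v : ↥(D.group F)} (hv : v ∈ (chSplit hG hE F p).V {gi hG hE F i}) :
    (gi hG hE F i : ↥(D.group F)) * v * (gi hG hE F i : ↥(D.group F))⁻¹ ∈ (chSplit hG hE F p).V {gi hG hE F i} := by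
  apply (chSplit hG hE F p).V_norm _ _ _ _ hv
  rw [PJ_mem _ (sm_mem_C (PP hG hE F) (gi hG hE F i))]
  exact Subgroup.subset_closure ⟨_, by simp, rfl⟩

lemma gi_norm' (i : Fin D.rank) {v : ↥(D.group F)} (hv : v ∈ (chSplit hG hE F p).V {gi hG hE F i}) :
    (gi hG hE F i : ↥(D.group F))⁻¹ * v * (gi hG hE F i : ↥(D.group F)) ∈ (chSplit hG hE F p).V {gi hG hE F i} := by
  have h := (chSplit hG hE F p).V_norm {gi hG hE F i} (gi hG hE F i : ↥(D.group F))⁻¹ (by
    apply inv_mem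
    rw [PJ_mem _ (sm_mem_C (PP hG hE F) (gi hG hE F i))]
    exact Subgroup.subset_closure ⟨_, by simp, rfl⟩) v hv
  rwa [inv_inv] at h

lemma xG_norm (i : Fin D.rank) (t : F) {v : ↥(D.group F)} (hv : v ∈ (chSplit hG hE F p).V {gi hG hE F i}) :
    xG hG (D.simple i) t * v * (xG hG (D.simple i) t)⁻¹ ∈ (chSplit hG hE F p).V {gi hG hE F i} := by
  apply (chSplit hG hE F p).V_norm _ _ _ _ hv
  apply B_le_PJ
  exact (chSplit hG hE F p).V_le ∅ (xG_mem_V hG hE p i t)

omit [Fintype F] in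
/-- the conjugate of a negative root element by a long element -/
lemma neg_conj (i : Fin D.rank) (t : F) {m : (PP hG hE F).N} (hm : IsLong (sm (PP hG hE F)) Set.univ (pr (PP hG hE F) m)) :
    ((m : ↥(D.group F)) : GL D.Idx F)⁻¹ * xg D F (D.neg (D.simple i)) t * ((m : ↥(D.group F)) : GL D.Idx F) ∈ D.posUnipotent F := by
  obtain ⟨χ, h⟩ := thN_spec hG hE m
  obtain ⟨c, hc⟩ := h.act_inv (hG.ngf (hG.sr i)) t
  have e : ((hG.ngf (hG.sr i) : Fin D.nroots) : ℕ) = D.neg (D.simple i) := rfl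
  rw [e] at hc
  rw [hc, hG.W_neg]
  have h1 : (((thN hG hE F m)⁻¹).1 (hG.sr i) : ℕ) < N := by
    rw [hG.lt_iff_len]
    have h1 := hm.dl (gi hG hE F i) (Set.mem_univ _)
    have h2 : ((thN hG hE F m)⁻¹ * hG.s i) = thW hG hE F ((sm (PP hG hE F) (gi hG hE F i) * pr (PP hG hE F) m)⁻¹) := by
      rw [map_inv, map_mul, thW_sm, thW_pr, mul_inv_rev, hG.genInv.inv_eq]
    have h3 : (thN hG hE F m)⁻¹ = thW hG hE F ((pr (PP hG hE F) m)⁻¹) := by rw [map_inv, thW_pr]
    rw [h2, h3, len_thW, len_thW, (hsG (PP hG hE F)).len_inv, (hsG (PP hG hE F)).len_inv]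
    exact h1
  exact hG.xg_mem_pos (hG.N_le_neg (((thN hG hE F m)⁻¹).1 (hG.sr i)).2 h1) (hG.neg_lt' (((thN hG hE F m)⁻¹).1 (hG.sr i)).2) _

lemma avg_norm {G : Type*} [Group G] [Fintype G] {k : ℕ} (ρ : Representation ℂ G (Fin k → ℂ)) {H : Subgroup G} {g : G}
    (h1 : ∀ v ∈ H, g * v * g⁻¹ ∈ H) (h2 : ∀ v ∈ H, g⁻¹ * v * g ∈ H) : ρ g * avg ρ H = avg ρ H * ρ g := by
  have e1 : avg ρ H * (ρ g * avg ρ H) = ρ g * avg ρ H := by
    apply avg_mul_of_left
    intro v hv
    have : v * g = g * (g⁻¹ * v * g) := by group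
    rw [← mul_assoc, ← map_mul, this, map_mul, mul_assoc, avg_left ρ (h2 v hv)]
  have e2 : (avg ρ H * ρ g) * avg ρ H = avg ρ H * ρ g := by
    apply avg_mul_of_right
    intro v hv
    have : g * v = (g * v * g⁻¹) * g := by group
    rw [mul_assoc, ← map_mul, this, map_mul, ← mul_assoc, avg_right ρ (h1 v hv)]
  rw [← e1, ← mul_assoc, e2]

variable {k : ℕ} [Fintype ↥(D.group F)] (ρ : Representation ℂ ↥(D.group F) (Fin k → ℂ))

/-- average over a root group -/
noncomputable def avX (i : Fin D.rank) : Module.End ℂ (Fin k → ℂ) := (Fintype.card F : ℂ)⁻¹ • ∑ t : F, ρ (xG hG (D.simple i) t)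

lemma q_ne : (Fintype.card F : ℂ) ≠ 0 := Nat.cast_ne_zero.2 Fintype.card_ne_zero

include hE in
omit [Fintype F] [Fintype ↥(D.group F)] in
lemma xG_add (i : Fin D.rank) (s t : F) : xG hG (D.simple i) (s + t) = xG hG (D.simple i) s * xG hG (D.simple i) t :=
  Subtype.ext ((hG.rd hE).add _ (hG.simple_lt i i.2) s t)

include hE in
omit [Fintype ↥(D.group F)] in
lemma avX_left (i : Fin D.rank) (s : F) : ρ (xG hG (D.simple i) s) * avX hG ρ i = avX hG ρ i := by
  unfold avX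
  rw [mul_smul_comm, Finset.mul_sum]
  congr 1
  rw [← Equiv.sum_comp (Equiv.addLeft s) (fun t => ρ (xG hG (D.simple i) t))]
  refine Finset.sum_congr rfl fun t _ => ?_
  rw [← map_mul, ← xG_add hG hE]
  rfl

lemma avg_U_eq (i : Fin D.rank) : avg ρ ((chSplit hG hE F p).V ∅) = avg ρ ((chSplit hG hE F p).V {gi hG hE F i}) * avX hG ρ i := by
  set X := avg ρ ((chSplit hG hE F p).V {gi hG hE F i}) * avX hG ρ i with hX
  have h1 : avg ρ ((chSplit hG hE F p).V ∅) * X = X := by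
    apply avg_mul_of_left
    intro u hu
    obtain ⟨v, hv, t, rfl⟩ := U_split hG hE p i hu
    have h2 := avg_norm ρ (H := (chSplit hG hE F p).V {gi hG hE F i}) (g := xG hG (D.simple i) t) (fun v hv => xG_norm hG hE p i t hv) (by
      intro v hv
      have e : (xG hG (D.simple i) t)⁻¹ = xG hG (D.simple i) (-t) := Subtype.ext ((hG.rd hE).neg (hG.simple_lt i i.2) t).symm
      have e2 : xG hG (D.simple i) t = (xG hG (D.simple i) (-t))⁻¹ := by rw [← e, inv_inv]
      rw [e]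
      rw [e2]
      exact xG_norm hG hE p i (-t) hv)
    rw [hX, map_mul, mul_assoc, ← mul_assoc (ρ (xG hG (D.simple i) t)), h2, mul_assoc, avX_left hG hE, ← mul_assoc, avg_left ρ hv]
  have h3 : avg ρ ((chSplit hG hE F p).V ∅) * avg ρ ((chSplit hG hE F p).V {gi hG hE F i}) = avg ρ ((chSplit hG hE F p).V ∅) := by
    apply avg_mul_of_right
    intro v hv
    exact avg_right ρ (V_le_U hG hE p _ hv)
  rw [← h1, hX, ← mul_assoc, h3]
  unfold avX
  rw [mul_smul_comm, Finset.mul_sum, Finset.sum_congr rfl fun t _ => avg_right ρ (xG_mem_V hG hE p i t), Finset.sum_const, Finset.card_univ,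
    ← Nat.cast_smul_eq_nsmul ℂ, smul_smul, inv_mul_cancel₀ q_ne, one_smul]

lemma e_n_e (i : Fin D.rank) : avg ρ ((chSplit hG hE F p).V ∅) * ρ (gi hG hE F i : ↥(D.group F)) * avg ρ ((chSplit hG hE F p).V ∅) =
    avg ρ ((chSplit hG hE F p).V ∅) * ρ (gi hG hE F i : ↥(D.group F)) * avX hG ρ i := by
  have h1 : avg ρ ((chSplit hG hE F p).V ∅) * ρ (gi hG hE F i : ↥(D.group F)) * avg ρ ((chSplit hG hE F p).V {gi hG hE F i}) =
      avg ρ ((chSplit hG hE F p).V ∅) * ρ (gi hG hE F i : ↥(D.group F)) := by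
    apply avg_mul_of_right
    intro v hv
    have e : (gi hG hE F i : ↥(D.group F)) * v = ((gi hG hE F i : ↥(D.group F)) * v * (gi hG hE F i : ↥(D.group F))⁻¹) * (gi hG hE F i : ↥(D.group F)) := by group
    rw [mul_assoc, ← map_mul, e, map_mul, ← mul_assoc, avg_right ρ (V_le_U hG hE p _ (gi_norm hG hE p i hv))]
  rw [avg_U_eq hG hE p ρ i, ← mul_assoc, ← avg_U_eq hG hE p ρ i, h1]

omit [Fintype F] [Fintype ↥(D.group F)] in
/-- the basic rank one computation -/
lemma rank_one (i : Fin D.rank) (c : Fˣ) {m : (PP hG hE F).N} (hm : IsLong (sm (PP hG hE F)) Set.univ (pr (PP hG hE F) m)) :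
    ∃ u ∈ D.posUnipotent F, ng D F i * xg D F (D.simple i) (-(c : F)⁻¹) * ((m : ↥(D.group F)) : GL D.Idx F) =
      xg D F (D.simple i) c * (hgr D F (D.simple i) c * ((m : ↥(D.group F)) : GL D.Idx F)) * u := by
  have hR := hG.rdn (F := F) hE
  obtain ⟨χ, hn⟩ := hG.mon_ng (F := F) hE i
  obtain ⟨d, hd⟩ := hn.act_inv (hG.sr i) (c : F)
  have hs : ((((hG.s i)⁻¹).1 (hG.sr i) : Fin D.nroots) : ℕ) = D.neg (D.simple i) := by
    rw [hG.genInv.inv_eq, hG.s_sr]; rfl
  rw [hs] at hd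
  have hu := neg_conj hG hE i ((d : F) * c) hm
  refine ⟨_, hu, ?_⟩
  have h1 := hG.n_X_eq hR i (t := -(c : F)⁻¹) (by simp)
  have e1 : -(-(c : F)⁻¹)⁻¹ = (c : F) := by rw [inv_neg, inv_inv, neg_neg]
  have e2 : (-(c : F)⁻¹)⁻¹ = (((-c : Fˣ)) : F) := by rw [inv_neg, inv_inv]; push_cast; rfl
  rw [e1, e2] at h1
  change ng D F i * xg D F (D.simple i) (-(c : F)⁻¹) = xg D F (D.simple i) c * hgr D F (D.simple i) ((-c : Fˣ) : F) * ng D F i * xg D F (D.simple i) c * ng D F i at h1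
  have h2 : hgr D F (D.simple i) ((-c : Fˣ) : F) * (ng D F i * ng D F i) = hgr D F (D.simple i) c := by
    have h3 : hgr D F (D.simple i) ((-1 : Fˣ) : F) = (ng D F i * ng D F i)⁻¹ := by
      have h4 : ngr D F (D.simple i) (-1) = (ng D F i)⁻¹ := (hG.ngr_inv (F := F) (D.simple i) 1).symm
      unfold hgr
      rw [Units.val_neg, Units.val_one, h4, mul_inv_rev]
    have h5 := hG.hgr_mul (F := F) (hG.simple_lt i i.2) c (-1)
    rw [h3, mul_neg, mul_one] at h5
    rw [← h5]; group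
  rw [h1, ← h2]
  change (ng D F i)⁻¹ * xg D F (D.simple i) (c : F) * ng D F i = _ at hd
  rw [← hd]
  group

include p in
lemma ind_gi : ∀ i : Fin D.rank, ind (PP hG hE F) (sm (PP hG hE F) (gi hG hE F i)) = Fintype.card F := by
  intro i
  have hf : ∀ t : F, tyQ (PP hG hE F) ((xG hG (D.simple i) t * (gi hG hE F i : ↥(D.group F)) : ↥(D.group F)) : ↥(D.group F) ⧸ (PP hG hE F).B) = sm (PP hG hE F) (gi hG hE F i) := by
    intro t
    rw [tyQ_mk]
    exact ty_eq _ (C_mul_left _ (sm_mem_C _ _) ((chSplit hG hE F p).V_le ∅ (xG_mem_V hG hE p i t)))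
  have hb : Function.Bijective (fun t : F => (⟨_, hf t⟩ : {y : ↥(D.group F) ⧸ (PP hG hE F).B // tyQ (PP hG hE F) y = sm (PP hG hE F) (gi hG hE F i)})) := by
    constructor
    · intro t t' h
      have h1 := congrArg Subtype.val h
      simp only at h1
      rw [QuotientGroup.eq] at h1
      have h2 : (xG hG (D.simple i) t * (gi hG hE F i : ↥(D.group F)))⁻¹ * (xG hG (D.simple i) t' * (gi hG hE F i : ↥(D.group F))) =
          (gi hG hE F i : ↥(D.group F))⁻¹ * xG hG (D.simple i) (-t + t') * (gi hG hE F i : ↥(D.group F)) := by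
        have e : (xG hG (D.simple i) t)⁻¹ = xG hG (D.simple i) (-t) := Subtype.ext ((hG.rd hE).neg (hG.simple_lt i i.2) t).symm
        rw [xG_add hG hE, ← e]; group
      rw [h2] at h1
      have h3 : (ng D F i)⁻¹ * xg D F (D.simple i) (-t + t') * ng D F i ∈ D.borelSubgroup F := Subgroup.mem_subgroupOf.1 h1
      obtain ⟨χ, hn⟩ := hG.mon_ng (F := F) hE i
      obtain ⟨d, hd⟩ := hn.act_inv (hG.sr i) (-t + t')
      have hs : ((((hG.s i)⁻¹).1 (hG.sr i) : Fin D.nroots) : ℕ) = D.neg (D.simple i) := by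
        rw [hG.genInv.inv_eq, hG.s_sr]; rfl
      rw [hs] at hd
      change (ng D F i)⁻¹ * xg D F (D.simple i) (-t + t') * ng D F i = _ at hd
      rw [hd] at h3
      have h4 : xg D F (D.neg (D.simple i)) ((d : F) * (-t + t')) ∈ D.borelSubgroup F ⊓ D.negUnipotent F :=
        ⟨h3, hG.xg_mem_neg (hG.neg_lt_N (hG.simple_lt i i.2) (hG.simple_pos i i.2)) _⟩
      rw [hG.borel_inf_neg, Subgroup.mem_bot] at h4
      by_contra hne
      exact hG.xg_ne_one hE (hG.neg_lt' (hG.simple_lt i i.2)) (mul_ne_zero d.ne_zero (fun h => hne (by linear_combination -h))) h4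
    · rintro ⟨y, hy⟩
      obtain ⟨g, rfl⟩ := QuotientGroup.mk_surjective y
      have hg : g ∈ C (PP hG hE F) (pr (PP hG hE F) (ni (PP hG hE F) (gi hG hE F i))) := by
        have := ty_mem (PP hG hE F) g
        have h2 : ty (PP hG hE F) g = sm (PP hG hE F) (gi hG hE F i) := by rw [← tyQ_mk]; exact hy
        rw [h2] at this
        exact this
      have hself : (gi hG hE F i : ↥(D.group F)) ∈ C (PP hG hE F) (sm (PP hG hE F) (gi hG hE F i)) := sm_mem_C _ _
      obtain ⟨b, hb, b', hb', rfl⟩ := C_rel (PP hG hE F) hg hself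
      obtain ⟨u, hu, t, ht, rfl⟩ := B_fac (chSplit hG hE F p) hb
      obtain ⟨v, hv, s, e⟩ := U_split hG hE p i (inv_mem hu)
      refine ⟨-s, Subtype.ext ?_⟩
      simp only
      rw [QuotientGroup.eq]
      have e1 : (xG hG (D.simple i) s)⁻¹ = xG hG (D.simple i) (-s) := Subtype.ext ((hG.rd hE).neg (hG.simple_lt i i.2) s).symm
      have e2 : u = (xG hG (D.simple i) s)⁻¹ * v⁻¹ := by rw [← inv_inv u, e, mul_inv_rev]
      have e3 : (xG hG (D.simple i) (-s) * (gi hG hE F i : ↥(D.group F)))⁻¹ * (u * t * (gi hG hE F i : ↥(D.group F)) * b') =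
          ((gi hG hE F i : ↥(D.group F))⁻¹ * v * (gi hG hE F i : ↥(D.group F)))⁻¹ * ((gi hG hE F i : ↥(D.group F))⁻¹ * t * (gi hG hE F i : ↥(D.group F))) * b' := by
        rw [← e1, e2]; group
      rw [e3]
      refine mul_mem (mul_mem (inv_mem ?_) ?_) hb'
      · exact (chSplit hG hE F p).V_le _ (gi_norm' hG hE p i hv)
      · have := (PP hG hE F).conj_mem (gi hG hE F i : ↥(D.group F))⁻¹ ((PP hG hE F).N.inv_mem ((PP hG hE F).subset (gi hG hE F i).2)) t ht
        rwa [inv_inv] at this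
  rw [ind, ← Nat.card_congr (Equiv.ofBijective _ hb), Nat.card_eq_fintype_card]

omit [Fintype ↥(D.group F)] in
lemma sum_units [DecidableEq F] {M : Type*} [AddCommMonoid M] (g : F → M) : ∑ t : F, g t = g 0 + ∑ c : Fˣ, g (-(c : F)⁻¹) := by
  rw [← Finset.add_sum_erase _ _ (Finset.mem_univ (0 : F))]
  congr 1
  symm
  refine Finset.sum_bij (fun (c : Fˣ) _ => -(c : F)⁻¹) ?_ ?_ ?_ ?_
  · intro c _
    rw [Finset.mem_erase]
    exact ⟨by simp, Finset.mem_univ _⟩
  · intro c _ c' _ h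
    apply Units.ext
    have := neg_injective h
    exact inv_injective this
  · intro t ht
    have ht' := (Finset.mem_erase.1 ht).1
    refine ⟨Units.mk0 (-t⁻¹) (by simpa using ht'), Finset.mem_univ _, ?_⟩
    rw [Units.val_mk0, inv_neg, inv_inv, neg_neg]
  · intro c _; rfl

lemma gen_T : (PP hG hE F).B ⊓ (PP hG hE F).N ≤ Subgroup.closure {x | ∃ (i : (PP hG hE F).S) (c : Fˣ), x = hGr hG (D.simple ((giE hG hE F).symm i)) (c : F)} := by
  intro x hx
  rw [T_eq, Subgroup.mem_subgroupOf, hG.mem_diagonal_iff] at hx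
  obtain ⟨c, hc⟩ := hx
  rw [hG.tor_eq_prod_hgr] at hc
  have h1 : ((List.range D.rank).map fun i => hgr D F (D.simple i) (c i : F)).prod ∈
      (Subgroup.closure {x | ∃ (i : (PP hG hE F).S) (c : Fˣ), x = hGr hG (D.simple ((giE hG hE F).symm i)) (c : F)}).map (D.group F).subtype := by
    apply Subgroup.list_prod_mem
    intro y hy
    rw [List.mem_map] at hy
    obtain ⟨j, hj, rfl⟩ := hy
    rw [List.mem_range] at hj
    refine ⟨hGr hG (D.simple j) (c j : F), Subgroup.subset_closure ⟨giE hG hE F ⟨j, hj⟩, c j, ?_⟩, rfl⟩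
    rw [Equiv.symm_apply_apply]
  rw [← hc] at h1
  obtain ⟨y, hy, e⟩ := h1
  have : y = x := Subtype.ext e
  rwa [← this]

/-- the rank one structure of a Chevalley group -/
noncomputable def chRank (hG : Good D N η rc) (hE : Ext D rc) (F : Type*) [Field F] [Fintype F] [DecidableEq F] (p : ℕ) [Fact p.Prime] [CharP F p] [Fintype ↥(D.group F)] :
    RankOne (chSplit hG hE F p) Fˣ where
  h i c := hGr hG (D.simple ((giE hG hE F).symm i)) (c : F)
  h_mem i c := by
    rw [T_eq, Subgroup.mem_subgroupOf, hG.diagonalSubgroup_eq]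
    exact Subgroup.subset_closure ⟨_, _, hG.simple_lt _ ((giE hG hE F).symm i).2, c.ne_zero, rfl⟩
  comm a ha b hb := by
    rw [T_eq, Subgroup.mem_subgroupOf] at ha hb
    exact Subtype.ext (hG.diagonal_comm ha hb)
  absorb i c' := ⟨Equiv.mulLeft c', fun c => Subtype.ext (hG.hgr_mul (hG.simple_lt _ ((giE hG hE F).symm i).2) c' c)⟩
  gen := gen_T hG hE
  rel k ρ i m hm := by
    obtain ⟨j, rfl⟩ := (giE hG hE F).surjective i
    rw [Equiv.symm_apply_apply]
    change (ind (PP hG hE F) (sm (PP hG hE F) (gi hG hE F j)) : ℂ) • (avg ρ ((chSplit hG hE F p).V ∅) * ρ (gi hG hE F j : ↥(D.group F)) * avg ρ ((chSplit hG hE F p).V ∅) * ρ m * avg ρ ((chSplit hG hE F p).V ∅)) =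
      avg ρ ((chSplit hG hE F p).V ∅) * ρ ((gi hG hE F j : ↥(D.group F)) * m) * avg ρ ((chSplit hG hE F p).V ∅) + ∑ c : Fˣ, avg ρ ((chSplit hG hE F p).V ∅) * ρ (hGr hG (D.simple j) (c : F) * m) * avg ρ ((chSplit hG hE F p).V ∅)
    rw [ind_gi hG hE p j, e_n_e hG hE p ρ j]
    unfold avX
    simp only [mul_smul_comm, smul_mul_assoc]
    rw [smul_smul, mul_inv_cancel₀ q_ne, one_smul]
    simp only [Finset.mul_sum, Finset.sum_mul]
    rw [sum_units (F := F)]
    congr 1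
    · have : xG hG (D.simple j) (0 : F) = 1 := Subtype.ext ((hG.rd hE).zero (hG.simple_lt j j.2))
      rw [this, map_one, mul_one, map_mul, ← mul_assoc]
    · refine Finset.sum_congr rfl fun c _ => ?_
      obtain ⟨u, hu, e⟩ := rank_one hG hE j c hm
      have e' : (gi hG hE F j : ↥(D.group F)) * xG hG (D.simple j) (-(c : F)⁻¹) * (m : ↥(D.group F)) =
          xG hG (D.simple j) (c : F) * (hGr hG (D.simple j) (c : F) * (m : ↥(D.group F))) * ⟨u, hG.pos_le hu⟩ := Subtype.ext e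
      have hu' : (⟨u, hG.pos_le hu⟩ : ↥(D.group F)) ∈ (chSplit hG hE F p).V ∅ := by
        rw [chV_empty, Subgroup.mem_subgroupOf]; exact hu
      rw [mul_assoc (avg ρ _), ← map_mul, mul_assoc (avg ρ _), ← map_mul, e', map_mul, map_mul, mul_assoc (avg ρ _),
        mul_assoc (ρ _ * ρ _), avg_left ρ hu', ← mul_assoc, ← mul_assoc, avg_right ρ (xG_mem_V hG hE p j (c : F))]

end

end Cfsg.Agent.H16.BNS
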