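import Mathlib
import Cfsg.Agent.H16.SylB

set_option autoImplicit false
set_option linter.all false

/-! Elements commuting with an element of order `p` in `PSL_n(q)`. -/

namespace Cfsg.Agent.H16.CommP

open Module Matrix

section lin
variable {F : Type*} [Field F] [Fintype F] {V : Type*} [AddCommGroup V] [Module F V] [FiniteDimensional F V] {r : ℕ} [hr : Fact r.Prime]

lemma pow_apply_of_fix {B : Module.End F V} {v : V} (h : B (B v - v) = B v - v) (k : ℕ) : (B ^ k) v = v + (k : F) • (B v - v) := by
  induction k with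
  | zero => simp
  | succ k ih =>
    rw [pow_succ', Module.End.mul_apply, ih, map_add, map_smul, h]
    push_cast
    rw [add_smul, one_smul]
    abel

/-- the commutator space of an `r`-element meets the fixed space trivially -/
lemma fix_range {B : Module.End F V} (hrF : (r : F) ≠ 0) (hB : B ^ r = 1) {w : V} (hw : w ∈ LinearMap.range (B - 1)) (hf : B w = w) : w = 0 := by
  obtain ⟨v, rfl⟩ := hw
  rw [LinearMap.sub_apply, Module.End.one_apply] at hf ⊢
  have h1 := pow_apply_of_fix hf r
  rw [hB, Module.End.one_apply] at h1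
  have h2 : (r : F) • (B v - v) = 0 := by
    have := h1.symm
    rwa [add_eq_left] at this
  exact (smul_eq_zero.1 h2).resolve_left hrF

/-- dimension of the commutator space -/
lemma finrank_range_ge (hrF : (r : F) ≠ 0) {B : Module.End F V} (hB : B ^ r = 1) (hB1 : B ≠ 1) :
    orderOf (Fintype.card F : ZMod r) ≤ finrank F (LinearMap.range (B - 1)) := by
  classical
  set W := LinearMap.range (B - 1) with hW
  have hBW : ∀ x ∈ W, B x ∈ W := by
    rintro _ ⟨y, rfl⟩
    exact ⟨B y, by simp [LinearMap.sub_apply]⟩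
  have hr0 : r ≠ 0 := hr.out.ne_zero
  let T : Equiv.Perm W :=
    { toFun := fun x => ⟨B x, hBW x x.2⟩
      invFun := fun x => ⟨(B ^ (r - 1)) x, by
        have : ∀ k : ℕ, ∀ x ∈ W, (B ^ k) x ∈ W := by
          intro k
          induction k with
          | zero => intro x hx; simpa using hx
          | succ k ih => intro x hx; rw [pow_succ', Module.End.mul_apply]; exact hBW _ (ih x hx)
        exact this _ x x.2⟩
      left_inv := fun x => Subtype.ext (by
        show (B ^ (r - 1)) (B x) = x
        rw [← Module.End.mul_apply, ← pow_succ, Nat.sub_add_cancel hr.out.one_le, hB]; rfl)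
      right_inv := fun x => Subtype.ext (by
        show B ((B ^ (r - 1)) x) = x
        rw [← Module.End.mul_apply, ← pow_succ', Nat.sub_add_cancel hr.out.one_le, hB]; rfl) }
  have hTr : T ^ r = 1 := by
    have h1 : ∀ k : ℕ, ∀ x : W, (((T ^ k) x : W) : V) = (B ^ k) x := by
      intro k
      induction k with
      | zero => intro x; simp
      | succ k ih => intro x; rw [pow_succ', Equiv.Perm.mul_apply, pow_succ', Module.End.mul_apply, ← ih]; rfl
    ext x
    rw [h1, hB]; rfl
  haveI : Finite V := Module.finite_of_finite F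
  haveI : Finite W := inferInstance
  haveI : Fintype W := Fintype.ofFinite _
  have hpg : IsPGroup r (Subgroup.zpowers T) := by
    apply IsPGroup.of_card (n := (orderOf T).factorization r)
    rw [Nat.card_zpowers]
    rcases (Nat.dvd_prime hr.out).1 (orderOf_dvd_of_pow_eq_one hTr) with h | h
    · rw [h]; simp
    · rw [h]; simp [hr.out.factorization]
  have hfix : Nat.card (MulAction.fixedPoints (Subgroup.zpowers T) W) = 1 := by
    rw [Nat.card_eq_one_iff_unique]
    refine ⟨⟨fun a b => ?_⟩, ⟨⟨0, fun g => ?_⟩⟩⟩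
    · have key : ∀ a : MulAction.fixedPoints (Subgroup.zpowers T) W, ((a : W) : V) = 0 := by
        intro a
        have h1 := a.2 ⟨T, Subgroup.mem_zpowers T⟩
        have h2 : B ((a : W) : V) = ((a : W) : V) := congrArg Subtype.val h1
        exact fix_range hrF hB (a : W).2 h2
      exact Subtype.ext (Subtype.ext (by rw [key a, key b]))
    · obtain ⟨g, k, rfl⟩ := g
      have h0 : T 0 = 0 := Subtype.ext (by show B ((0 : W) : V) = 0; simp)
      show (T ^ k) (0 : W) = 0
      have : (T ^ k) 0 = 0 := by
        apply Function.IsFixedPt.perm_zpow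
        exact h0
      exact this
  have hmod := hpg.card_modEq_card_fixedPoints (α := W)
  rw [hfix, Nat.card_eq_fintype_card, ← Nat.card_eq_fintype_card, Module.natCard_eq_pow_finrank (K := F) (V := W), Nat.card_eq_fintype_card] at hmod
  have hq1 : 1 < Fintype.card F := Fintype.one_lt_card
  have hdvd : orderOf (Fintype.card F : ZMod r) ∣ finrank F W := by
    rw [orderOf_dvd_iff_pow_eq_one]
    have := (ZMod.natCast_eq_natCast_iff _ _ _).2 hmod
    push_cast at this
    exact this
  apply Nat.le_of_dvd _ hdvd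
  rw [Nat.pos_iff_ne_zero]
  intro h0
  rw [Submodule.finrank_eq_zero, hW, LinearMap.range_eq_bot, sub_eq_zero] at h0
  exact hB1 h0

/-- main estimate -/
theorem ord_le {n : ℕ} (hV : finrank F V = n) (hn : 4 ≤ n) (hrF : (r : F) ≠ 0) {B N : Module.End F V} (hB : B ^ r = 1) (hB1 : B ≠ 1)
    (hN : IsNilpotent N) (hN0 : N ≠ 0) (hc : Commute B N) : orderOf (Fintype.card F : ZMod r) ≤ n - 2 := by
  classical
  -- reduce to square zero
  obtain ⟨N, hN0, hNN, hc⟩ : ∃ N : Module.End F V, N ≠ 0 ∧ N * N = 0 ∧ Commute B N := by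
    obtain ⟨k, hk⟩ := hN
    have hex : ∃ k, N ^ k = 0 := ⟨k, hk⟩
    set m := Nat.find hex with hm
    have hm0 : N ^ m = 0 := Nat.find_spec hex
    have hmin : ∀ j, j < m → N ^ j ≠ 0 := fun j hj => Nat.find_min hex hj
    have hm2 : 2 ≤ m := by
      by_contra hcon
      have h01 : m = 0 ∨ m = 1 := by omega
      rcases h01 with h | h
      · rw [h, pow_zero] at hm0
        apply hN0
        rw [← mul_one N, hm0, mul_zero]
      · rw [h, pow_one] at hm0
        exact hN0 hm0
    refine ⟨N ^ (m - 1), hmin _ (by omega), ?_, hc.pow_right _⟩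
    rw [← pow_add, show m - 1 + (m - 1) = m + (m - 2) by omega, pow_add, hm0, zero_mul]
  set U := LinearMap.range N with hU
  have hUK : U ≤ LinearMap.ker N := by
    rintro _ ⟨x, rfl⟩
    rw [LinearMap.mem_ker, ← Module.End.mul_apply, hNN]; rfl
  have hdim : finrank F U + finrank F (LinearMap.ker N) = n := by rw [← hV]; exact LinearMap.finrank_range_add_finrank_ker N
  have hUpos : 0 < finrank F U := by
    rw [Nat.pos_iff_ne_zero]
    intro h0
    rw [Submodule.finrank_eq_zero, hU, LinearMap.range_eq_bot] at h0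
    exact hN0 h0
  have hUle : finrank F U ≤ finrank F (LinearMap.ker N) := Submodule.finrank_mono hUK
  have hBU : ∀ x ∈ U, B x ∈ U := by
    rintro _ ⟨y, rfl⟩
    refine ⟨B y, ?_⟩
    rw [← Module.End.mul_apply, ← Module.End.mul_apply, hc.eq]
  by_cases htriv : ∀ x ∈ U, B x = x
  · -- trivial on U
    have h1 : LinearMap.range (B - 1) ≤ LinearMap.ker N := by
      rintro _ ⟨y, rfl⟩
      rw [LinearMap.mem_ker, LinearMap.sub_apply, map_sub, Module.End.one_apply, ← Module.End.mul_apply, ← hc.eq, Module.End.mul_apply, htriv _ ⟨y, rfl⟩, sub_self]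
    have h2 : LinearMap.range (B - 1) ⊓ U = ⊥ := by
      rw [eq_bot_iff]
      rintro x ⟨hx1, hx2⟩
      rw [Submodule.mem_bot]
      exact fix_range hrF hB hx1 (htriv x hx2)
    have h3 : finrank F (LinearMap.range (B - 1)) + finrank F U ≤ finrank F (LinearMap.ker N) := by
      have h4 := Submodule.finrank_sup_add_finrank_inf_eq (LinearMap.range (B - 1)) U
      rw [h2, finrank_bot, add_zero] at h4
      rw [← h4]
      exact Submodule.finrank_mono (sup_le h1 hUK)
    have h5 := finrank_range_ge hrF hB hB1
    omega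
  · push Not at htriv
    obtain ⟨x, hx, hxB⟩ := htriv
    let B' : Module.End F U := B.restrict hBU
    have hB' : B' ^ r = 1 := by
      apply LinearMap.ext
      intro y
      apply Subtype.ext
      have : ∀ k : ℕ, ∀ y : U, (((B' ^ k) y : U) : V) = (B ^ k) y := by
        intro k
        induction k with
        | zero => intro y; simp
        | succ k ih => intro y; rw [pow_succ', Module.End.mul_apply, pow_succ', Module.End.mul_apply, ← ih]; rfl
      rw [this, hB]; rfl
    have hB'1 : B' ≠ 1 := by
      intro h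
      apply hxB
      exact congrArg Subtype.val (LinearMap.congr_fun h ⟨x, hx⟩)
    have h5 := finrank_range_ge hrF hB' hB'1
    have h6 : finrank F (LinearMap.range (B' - 1)) ≤ finrank F U := Submodule.finrank_le _
    omega

end lin

section psl
variable {F : Type*} [Field F] [Fintype F]

lemma factor_dvd {q n i : ℕ} (hq : 1 < q) (hF : Fintype.card F = q) (hn : 1 ≤ n) (hi : 2 ≤ i) (hin : i ≤ n) :
    q ^ i - 1 ∣ Nat.card (Matrix.SpecialLinearGroup (Fin n) F) := by
  have h1 := H5.card_SL_mul hF n hn
  have h2 := SylB.card_gl (F := F) hF n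
  rw [Matrix.card_GL_field, hF, ← h1] at h2
  obtain ⟨m, rfl⟩ := Nat.exists_eq_add_of_le' hn
  rw [Finset.prod_range_succ'] at h2
  have h3 : q ^ (0 + 1) - 1 = q - 1 := by rw [zero_add, pow_one]
  rw [h3] at h2
  have h4 : Nat.card (Matrix.SpecialLinearGroup (Fin (m + 1)) F) = q ^ (∑ i ∈ Finset.range (m + 1), i) * ∏ k ∈ Finset.range m, (q ^ (k + 1 + 1) - 1) := by
    have h5 : (q - 1) * Nat.card (Matrix.SpecialLinearGroup (Fin (m + 1)) F) =
        (q - 1) * (q ^ (∑ i ∈ Finset.range (m + 1), i) * ∏ k ∈ Finset.range m, (q ^ (k + 1 + 1) - 1)) := by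
      rw [show m + 1 = m + 1 from rfl] at h2
      rw [h2]; ring
    exact Nat.eq_of_mul_eq_mul_left (by omega) h5
  rw [h4]
  apply Dvd.dvd.mul_left
  have : q ^ i - 1 = q ^ ((i - 2) + 1 + 1) - 1 := by congr 2; omega
  rw [this]
  exact Finset.dvd_prod_of_mem (fun k => q ^ (k + 1 + 1) - 1) (Finset.mem_range.2 (by omega))

theorem psl_comm (p : ℕ) [Fact p.Prime] [CharP F p] (n : ℕ) (hn : 4 ≤ n)
    (a b : Matrix.ProjectiveSpecialLinearGroup (Fin n) F) (ha : orderOf a = p) (hab : Commute a b) :
    (orderOf b).primeFactors ⊆ (Nat.card (Matrix.SpecialLinearGroup (Fin (n - 2)) F)).primeFactors := by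
  classical
  haveI : NeZero n := ⟨by omega⟩
  haveI : Nonempty (Fin n) := ⟨⟨0, by omega⟩⟩
  obtain ⟨e, hpp, hq⟩ := FiniteField.card F p
  set q := Fintype.card F with hqd
  have hq1 : 1 < q := Fintype.one_lt_card
  intro r hr
  rw [Nat.mem_primeFactors] at hr ⊢
  obtain ⟨hrp, hrb, -⟩ := hr
  refine ⟨hrp, ?_, Nat.card_pos.ne'⟩
  haveI : Fact r.Prime := ⟨hrp⟩
  have hq2 : q ^ 2 - 1 ∣ Nat.card (Matrix.SpecialLinearGroup (Fin (n - 2)) F) := factor_dvd hq1 rfl (by omega) (by omega) (by omega)
  by_cases hrpp : r = p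
  · -- r = p
    have h1 := H5.card_SL_mul (F := F) rfl (n - 2) (by omega)
    have h2 := SylB.card_gl (F := F) rfl (n - 2)
    rw [Matrix.card_GL_field, ← hqd, ← h1] at h2
    have h3 : r ∣ (q - 1) * Nat.card (Matrix.SpecialLinearGroup (Fin (n - 2)) F) := by
      rw [h2]
      apply Dvd.dvd.mul_right
      rw [hq, hrpp, ← pow_mul]
      apply dvd_pow_self
      apply mul_ne_zero e.ne_zero
      have : 1 ≤ ∑ i ∈ Finset.range (n - 2), i := Finset.single_le_sum (f := fun i => i) (fun _ _ => Nat.zero_le _) (Finset.mem_range.2 (by omega : 1 < n - 2))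
      omega
    have h4 : Nat.Coprime r (q - 1) := by
      rw [hrpp, Nat.Prime.coprime_iff_not_dvd hpp]
      intro h
      have h5 : p ∣ q := by rw [hq]; exact dvd_pow_self p e.ne_zero
      have h6 : p ∣ 1 := by
        have := Nat.dvd_sub h5 h
        rwa [Nat.sub_sub_self (by omega)] at this
      exact hpp.one_lt.ne' (Nat.dvd_one.1 h6)
    exact h4.dvd_of_dvd_mul_left h3
  · have hrF : (r : F) ≠ 0 := by
      intro h
      rw [CharP.cast_eq_zero_iff F p] at h
      exact hrpp ((Nat.prime_dvd_prime_iff_eq hpp hrp).1 h).symm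
    have hrq : ¬ r ∣ q := by
      rw [hq]
      intro h
      exact hrpp ((Nat.prime_dvd_prime_iff_eq hrp hpp).1 (hrp.dvd_of_dvd_pow h))
    set d := orderOf (q : ZMod r) with hd
    have hd0 : 0 < d := SylB.ord_pos hrq
    by_cases hd1 : d ≤ 2
    · -- r divides q^2-1
      have : d ∣ 2 := by
        have : d = 1 ∨ d = 2 := by omega
        rcases this with h | h <;> rw [h] <;> norm_num
      exact ((SylB.dvd_iff hq1 2).2 this).trans hq2
    · push Not at hd1
      suffices hdn : d ≤ n - 2 from ((SylB.dvd_iff hq1 d).2 dvd_rfl).trans (factor_dvd hq1 rfl (by omega) (by omega) hdn)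
      -- lift
      have hZq : ∀ z ∈ Subgroup.center (Matrix.SpecialLinearGroup (Fin n) F), z ^ (q - 1) = 1 := by
        intro z hz
        obtain ⟨c, hc, hcz⟩ := Matrix.SpecialLinearGroup.mem_center_iff.1 hz
        apply Subtype.ext
        rw [Matrix.SpecialLinearGroup.coe_pow, ← hcz, ← map_pow, Matrix.SpecialLinearGroup.coe_one]
        have hc0 : c ≠ 0 := by
          rintro rfl
          rw [zero_pow (by rw [Fintype.card_fin]; omega)] at hc
          exact zero_ne_one hc
        rw [FiniteField.pow_card_sub_one_eq_one c hc0, map_one]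
      obtain ⟨A, rfl⟩ := QuotientGroup.mk_surjective a
      obtain ⟨B, rfl⟩ := QuotientGroup.mk_surjective b
      -- A0 = A^(q-1), B0 = (B^(q-1))^(order/r)
      have hA1 : ((A ^ (q - 1)) ^ p) = 1 := by
        rw [← pow_mul, mul_comm, pow_mul]
        apply hZq
        rw [← QuotientGroup.eq_one_iff, QuotientGroup.mk_pow, ← ha, pow_orderOf_eq_one]
      have hcopp : Nat.Coprime p (q - 1) := by
        rw [Nat.Prime.coprime_iff_not_dvd hpp]
        intro h
        have h5 : p ∣ q := by rw [hq]; exact dvd_pow_self p e.ne_zero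
        have h6 : p ∣ 1 := by
          have := Nat.dvd_sub h5 h
          rwa [Nat.sub_sub_self (by omega)] at this
        exact hpp.one_lt.ne' (Nat.dvd_one.1 h6)
      have hA2 : A ^ (q - 1) ≠ 1 := by
        intro h
        have h1 : (QuotientGroup.mk A : Matrix.ProjectiveSpecialLinearGroup (Fin n) F) ^ (q - 1) = 1 := by
          rw [← QuotientGroup.mk_pow, h, QuotientGroup.mk_one]
        have h2 := orderOf_dvd_of_pow_eq_one h1
        rw [ha] at h2
        have := Nat.Coprime.eq_one_of_dvd hcopp h2
        exact hpp.one_lt.ne' this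
      obtain ⟨s, hs⟩ := hrb
      have hcopr : Nat.Coprime r (q - 1) := by
        rw [Nat.Prime.coprime_iff_not_dvd hrp]
        intro h
        have h1 := (SylB.dvd_iff (r := r) hq1 1).1 (by rwa [pow_one])
        rw [Nat.dvd_one] at h1
        omega
      set B0 := (B ^ s) ^ (q - 1) with hB0
      have hB1 : B0 ^ r = 1 := by
        rw [hB0, ← pow_mul, mul_comm, pow_mul]
        apply hZq
        rw [← QuotientGroup.eq_one_iff, QuotientGroup.mk_pow, QuotientGroup.mk_pow, ← pow_mul, mul_comm s r, ← hs, pow_orderOf_eq_one]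
      have hB2 : B0 ≠ 1 := by
        intro h
        have h1 : ((QuotientGroup.mk B : Matrix.ProjectiveSpecialLinearGroup (Fin n) F) ^ s) ^ (q - 1) = 1 := by
          rw [← QuotientGroup.mk_pow, ← QuotientGroup.mk_pow, ← hB0, h, QuotientGroup.mk_one]
        rw [← pow_mul] at h1
        have h2 := orderOf_dvd_of_pow_eq_one h1
        rw [hs, mul_comm] at h2
        have hs0 : 0 < s := by
          rcases Nat.eq_zero_or_pos s with h0 | h0
          · rw [h0, mul_zero] at hs
            exact absurd hs (orderOf_pos _).ne'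
          · exact h0
        have h3 : r ∣ q - 1 := Nat.dvd_of_mul_dvd_mul_left hs0 h2
        exact hrp.one_lt.ne' (Nat.Coprime.eq_one_of_dvd hcopr h3)
      -- they commute
      have hcomm : Commute (A ^ (q - 1)) B0 := by
        set A0 := A ^ (q - 1) with hA0
        have hz : A0 * B0 * A0⁻¹ * B0⁻¹ ∈ Subgroup.center (Matrix.SpecialLinearGroup (Fin n) F) := by
          rw [← QuotientGroup.eq_one_iff]
          have h1 : Commute (QuotientGroup.mk A0 : Matrix.ProjectiveSpecialLinearGroup (Fin n) F) (QuotientGroup.mk B0) := by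
            rw [hA0, hB0, QuotientGroup.mk_pow, QuotientGroup.mk_pow, QuotientGroup.mk_pow]
            exact ((hab.pow_left _).pow_right _).pow_right _
          rw [QuotientGroup.mk_mul, QuotientGroup.mk_mul, QuotientGroup.mk_mul, QuotientGroup.mk_inv, QuotientGroup.mk_inv, h1.eq]
          group
        set z := A0 * B0 * A0⁻¹ * B0⁻¹ with hzd
        have hzc : ∀ g, g * z = z * g := fun g => Subgroup.mem_center_iff.1 hz g
        have h2 : A0 * B0 * A0⁻¹ = z * B0 := by rw [hzd]; group
        have h3 : ∀ k : ℕ, A0 ^ k * B0 * (A0 ^ k)⁻¹ = z ^ k * B0 := by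
          intro k
          induction k with
          | zero => simp
          | succ k ih =>
            rw [pow_succ', show A0 * A0 ^ k * B0 * (A0 * A0 ^ k)⁻¹ = A0 * (A0 ^ k * B0 * (A0 ^ k)⁻¹) * A0⁻¹ by group, ih]
            have h4 : A0 * (z ^ k * B0) * A0⁻¹ = z ^ k * (A0 * B0 * A0⁻¹) := by
              have : A0 * z ^ k = z ^ k * A0 := (Commute.pow_right (hzc A0) k).eq
              rw [← mul_assoc, this]; group
            rw [h4, h2, pow_succ]; group
        have h5 := h3 p
        rw [hA1, inv_one, one_mul, mul_one] at h5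
        have h6 : z ^ p = 1 := by
          have := h5.symm
          rwa [mul_eq_right] at this
        have h7 : z = 1 := by
          have h8 := Nat.dvd_gcd (orderOf_dvd_of_pow_eq_one h6) (orderOf_dvd_of_pow_eq_one (hZq z hz))
          rw [hcopp, Nat.dvd_one, orderOf_eq_one_iff] at h8
          exact h8
        rw [h7, one_mul] at h2
        exact mul_inv_eq_iff_eq_mul.1 h2
      -- apply the linear estimate
      have hE : ∀ g : Matrix.SpecialLinearGroup (Fin n) F, ∀ k : ℕ, (toLin' (g : Matrix (Fin n) (Fin n) F)) ^ k = toLin' ((g ^ k : Matrix.SpecialLinearGroup (Fin n) F) : Matrix (Fin n) (Fin n) F) := by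
        intro g k
        rw [Matrix.SpecialLinearGroup.coe_pow, toLin'_pow]
      have hinj : ∀ g : Matrix.SpecialLinearGroup (Fin n) F, toLin' (g : Matrix (Fin n) (Fin n) F) = 1 → g = 1 := by
        intro g h
        apply Subtype.ext
        apply toLin'.injective
        rw [h, Matrix.SpecialLinearGroup.coe_one, toLin'_one]; rfl
      apply ord_le (F := F) (V := Fin n → F) (r := r) (B := toLin' (B0 : Matrix (Fin n) (Fin n) F)) (N := toLin' ((A ^ (q - 1) : Matrix.SpecialLinearGroup (Fin n) F) : Matrix (Fin n) (Fin n) F) - 1) (by simp) hn hrF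
      · rw [hE, hB1, Matrix.SpecialLinearGroup.coe_one, toLin'_one]; rfl
      · intro h; exact hB2 (hinj _ h)
      · refine ⟨p, ?_⟩
        rcases Nat.eq_zero_or_pos n with h | h
        · omega
        · haveI : CharP (Module.End F (Fin n → F)) p := by
            haveI : Nontrivial (Module.End F (Fin n → F)) := inferInstance
            exact charP_of_injective_algebraMap (algebraMap F (Module.End F (Fin n → F))).injective p
          rw [sub_pow_char_of_commute _ (Commute.one_right _), one_pow, hE, hA1, Matrix.SpecialLinearGroup.coe_one, toLin'_one]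
          exact sub_self _
      · intro h
        exact hA2 (hinj _ (sub_eq_zero.1 h))
      · apply Commute.sub_right _ (Commute.one_right _)
        show _ * _ = _ * _
        rw [Module.End.mul_eq_comp, Module.End.mul_eq_comp, ← toLin'_mul, ← toLin'_mul, ← Matrix.SpecialLinearGroup.coe_mul, ← Matrix.SpecialLinearGroup.coe_mul, hcomm.eq]

end psl

end Cfsg.Agent.H16.CommP
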