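import Cfsg.Agent.H22.WeylEquiv

/-! Centres and generation of the exceptional Coxeter groups. -/

set_option autoImplicit false

namespace Cfsg.Agent.H16.CoxC

open Cfsg.Lie Cfsg.Agent.H6 Cfsg.Agent.H22

variable {D : ChevalleyDatum} {N : ℕ} {η : ℕ → ℕ → ℤ} {rc : ℕ → ℕ → ℤ}

theorem wp_eq_one_of (hG : Good D N η rc) {A : List (List ℤ)}
    (hA : ∀ i < D.rank, ∀ j < D.rank, D.cartan i (D.simple j) = (A.getD i []).getD j 0)
    (L : List (Fin D.rank)) (h : mword A D.rank (L.map Fin.val) (mid D.rank) = mid D.rank) : wp hG.s L = 1 := by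
  rw [← mmat_one hG, ← mmat_mul_wp hG hA, one_mul, mmat_one, mmat_eq_one_iff] at h
  exact h

/-! ### generation -/

/-- words in the Coxeter element and simple reflections -/
def blk {n : ℕ} (B : List (Option (Fin n))) : List (Fin n) :=
  B.flatMap fun o => o.elim (List.finRange n) (fun a => [a])

/-- letters are allowed -/
def allowed {n : ℕ} (T : List (Fin n)) (B : List (Option (Fin n))) : Bool :=
  B.all fun o => o.elim true (fun a => decide (a ∈ T))

/-- the check -/
def gchk (A : List (List ℤ)) (n : ℕ) (T : List (Fin n)) (C : List (List (Option (Fin n)) × List (Option (Fin n)))) : Bool :=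
  (List.finRange n).all fun i => allowed T (C.getD i.1 ([], [])).1 && allowed T (C.getD i.1 ([], [])).2 &&
    (mword A n ((blk (C.getD i.1 ([], [])).1 ++ (blk (C.getD i.1 ([], [])).2).reverse ++ [i]).map Fin.val) (mid n) == mid n)

/-- distinctness check -/
def dchk (A : List (List ℤ)) (n : ℕ) (T : List (Fin n)) : Bool :=
  T.all fun a => T.all fun b => (mword A n ([a, b].map Fin.val) (mid n) != mid n) || a == b

theorem wp_blk_mem (hG : Good D N η rc) (T : List (Fin D.rank)) (H : Subgroup hG.W)
    (hc : wp hG.s (List.finRange D.rank) ∈ H) (hT : ∀ a ∈ T, hG.s a ∈ H) (B : List (Option (Fin D.rank)))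
    (hB : allowed T B = true) : wp hG.s (blk B) ∈ H := by
  induction B with
  | nil => simp only [blk, List.flatMap_nil, wp_nil]; exact H.one_mem
  | cons o B ih =>
    simp only [allowed, List.all_cons, Bool.and_eq_true] at hB
    have h2 := ih (by simpa [allowed] using hB.2)
    have e : blk (o :: B) = (o.elim (List.finRange D.rank) (fun a => [a])) ++ blk B := by simp [blk]
    rw [e, wp_append]
    apply H.mul_mem _ h2
    cases o with
    | none => exact hc
    | some a =>
      simp only [Option.elim_some, decide_eq_true_eq] at hB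
      simp only [Option.elim_some, wp_single]
      exact hT a hB.1

theorem gen_main (hG : Good D N η rc) {A : List (List ℤ)}
    (hA : ∀ i < D.rank, ∀ j < D.rank, D.cartan i (D.simple j) = (A.getD i []).getD j 0)
    (M : CoxeterMatrix (Fin D.rank)) (φ : M.Group ≃* hG.W) (hφ : ∀ i, φ (M.simple i) = hG.s i)
    (T : List (Fin D.rank)) (C : List (List (Option (Fin D.rank)) × List (Option (Fin D.rank))))
    (hC : gchk A D.rank T C = true) (hn' : decide T.Nodup = true)
    (hd' : dchk A D.rank T = true) :
    ∃ S : Finset M.Group, S.card = T.length ∧ (∀ t ∈ S, ∃ (g : M.Group) (i : Fin D.rank), t = g * M.simple i * g⁻¹) ∧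
      Subgroup.closure (({((List.finRange D.rank).map M.simple).prod} : Set M.Group) ∪ ↑S) = ⊤ := by
  classical
  have hn : T.Nodup := of_decide_eq_true hn'
  have hd : ∀ a ∈ T, ∀ b ∈ T, mword A D.rank ([a, b].map Fin.val) (mid D.rank) = mid D.rank → a = b := by
    intro a ha b hb h
    unfold dchk at hd'
    rw [List.all_eq_true] at hd'
    have h1 := hd' a ha
    rw [List.all_eq_true] at h1
    have h2 := h1 b hb
    rw [Bool.or_eq_true, bne_iff_ne, beq_iff_eq] at h2
    exact h2.resolve_left (not_not.2 h)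
  have hinj : ∀ a ∈ T, ∀ b ∈ T, M.simple a = M.simple b → a = b := by
    intro a ha b hb hab
    apply hd a ha b hb
    have h1 : hG.s a = hG.s b := by rw [← hφ, ← hφ, hab]
    have h2 : wp hG.s [a, b] = 1 := by
      rw [wp_cons, wp_single, h1, hG.s_sq]
    have h3 := mmat_mul_wp hG hA [a, b] 1
    rw [one_mul, h2, mmat_one] at h3
    exact h3.symm
  refine ⟨(T.map M.simple).toFinset, ?_, ?_, ?_⟩
  · rw [List.toFinset_card_of_nodup, List.length_map]
    exact List.Nodup.map_on (fun a ha b hb h => hinj a ha b hb h) hn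
  · intro t ht
    rw [List.mem_toFinset, List.mem_map] at ht
    obtain ⟨a, -, rfl⟩ := ht
    exact ⟨1, a, by simp⟩
  · set K := Subgroup.closure (({((List.finRange D.rank).map M.simple).prod} : Set M.Group) ∪
      ↑(T.map M.simple).toFinset) with hK
    have hc' : ((List.finRange D.rank).map M.simple).prod ∈ K :=
      Subgroup.subset_closure (Or.inl rfl)
    have hT' : ∀ a ∈ T, M.simple a ∈ K := by
      intro a ha
      apply Subgroup.subset_closure
      right
      rw [Finset.mem_coe, List.mem_toFinset, List.mem_map]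
      exact ⟨a, ha, rfl⟩
    have hφc : φ ((List.finRange D.rank).map M.simple).prod = wp hG.s (List.finRange D.rank) := by
      rw [map_list_prod, List.map_map]
      unfold wp
      congr 1
      apply List.map_congr_left
      intro i _
      exact hφ i
    have hc : wp hG.s (List.finRange D.rank) ∈ K.map φ.toMonoidHom := ⟨_, hc', hφc⟩
    have hT : ∀ a ∈ T, hG.s a ∈ K.map φ.toMonoidHom := fun a ha => ⟨_, hT' a ha, hφ a⟩
    have hall : ∀ i : Fin D.rank, hG.s i ∈ K.map φ.toMonoidHom := by
      intro i
      unfold gchk at hC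
      rw [List.all_eq_true] at hC
      have h1 := hC i (List.mem_finRange i)
      rw [Bool.and_eq_true, Bool.and_eq_true, beq_iff_eq] at h1
      obtain ⟨⟨h2, h3⟩, h4⟩ := h1
      have h5 := wp_eq_one_of hG hA _ h4
      rw [wp_append, wp_append, wp_single, hG.genInv.wp_reverse] at h5
      have h6 := wp_blk_mem hG T _ hc hT _ h2
      have h7 := wp_blk_mem hG T _ hc hT _ h3
      have h8 : hG.s i = (wp hG.s (blk (C.getD i.1 ([], [])).1) * (wp hG.s (blk (C.getD i.1 ([], [])).2))⁻¹)⁻¹ :=
        eq_inv_of_mul_eq_one_right h5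
      rw [h8]
      exact inv_mem (mul_mem h6 (inv_mem h7))
    have htop : K.map φ.toMonoidHom = ⊤ := by
      rw [eq_top_iff, ← hG.s_gen, Subgroup.closure_le]
      rintro _ ⟨i, rfl⟩
      exact hall i
    rw [eq_top_iff]
    intro x _
    have : φ x ∈ K.map φ.toMonoidHom := by rw [htop]; exact Subgroup.mem_top _
    obtain ⟨y, hy, hxy⟩ := this
    have : y = x := φ.injective hxy
    rw [← this]; exact hy

/-! ### centres -/

def mneg (r : ℕ) : List (List ℤ) := (List.range r).map fun j => (List.range r).map fun k => if k = j then -1 else 0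

theorem mmat_get (hG : Good D N η rc) (w : hG.W) (i k : Fin D.rank) :
    ((mmat hG w).getD i []).getD k 0 = rc (w.1 (hG.sr i)) k := by
  have h1 : (mmat hG w).getD i [] = List.ofFn fun k : Fin D.rank => rc (w.1 (hG.sr i)) k := by
    rw [List.getD_eq_getElem _ _ (by simp [mmat])]
    simp [mmat]
  rw [h1, List.getD_eq_getElem _ _ (by simp)]
  simp

theorem mmat_eq_mneg (hG : Good D N η rc) {w : hG.W}
    (h : ∀ j k : Fin D.rank, rc (w.1 (hG.sr j)) k = if k = j then -1 else 0) : mmat hG w = mneg D.rank := by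
  apply List.ext_getElem
  · simp [mmat, mneg]
  · intro n h1 h2
    have hn : n < D.rank := by simpa [mmat] using h1
    simp only [mmat, mneg, List.getElem_ofFn, List.getElem_map, List.getElem_range]
    apply List.ext_getElem
    · simp
    · intro m h3 h4
      have hm : m < D.rank := by simpa using h3
      simp only [List.getElem_ofFn, List.getElem_map, List.getElem_range]
      have := h ⟨n, hn⟩ ⟨m, hm⟩
      simp only [Fin.mk.injEq] at this
      exact this

theorem eq_one_of_coord (hG : Good D N η rc) {w : hG.W}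
    (h : ∀ j k : Fin D.rank, rc (w.1 (hG.sr j)) k = if k = j then 1 else 0) : w = 1 := by
  apply hG.eq_one_of_pos
  intro i
  have h2 : w.1 (hG.sr i) = hG.sr i := by
    apply Fin.ext
    apply hG.rc_inj (w.1 (hG.sr i)).2 (hG.sr i).2
    intro j hj
    have h3 := h i ⟨j, hj⟩
    rw [h3]
    change _ = rc (D.simple i) j
    rw [hG.rc_simple i i.2 j hj]
    simp [Fin.ext_iff]
  rw [h2]
  exact hG.sr_pos i

section central
variable (hG : Good D N η rc)

theorem coord_off {z : hG.W} (hz : ∀ j, z * hG.s j = hG.s j * z) (j k : Fin D.rank) (hk : k ≠ j) :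
    rc (z.1 (hG.sr j)) k = 0 := by
  have h1 : z.1 ((hG.s j).1 (hG.sr j)) = (hG.s j).1 (z.1 (hG.sr j)) := by
    have := congrArg (fun w : hG.W => w.1 (hG.sr j)) (hz j)
    exact this
  rw [hG.s_sr, hG.W_neg] at h1
  have h2 : rc (hG.ngf (z.1 (hG.sr j))) k = rc ((hG.s j).1 (z.1 (hG.sr j))) k := by rw [h1]
  rw [hG.s_val] at h2
  have h3 : rc (hG.ngf (z.1 (hG.sr j))) k = - rc (z.1 (hG.sr j)) k := hG.rc_neg k k.2 _ (z.1 (hG.sr j)).2
  rw [h3, hG.rc_w j j.2 k k.2 _ (z.1 (hG.sr j)).2, if_neg (fun h => hk (Fin.ext h))] at h2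
  omega

theorem coord_adj {z : hG.W} (hz : ∀ j, z * hG.s j = hG.s j * z) (i j : Fin D.rank) (hij : i ≠ j)
    (hA : D.cartan i (D.simple j) ≠ 0) : rc (z.1 (hG.sr i)) i = rc (z.1 (hG.sr j)) j := by
  have h1 : z.1 ((hG.s i).1 (hG.sr j)) = (hG.s i).1 (z.1 (hG.sr j)) := by
    have := congrArg (fun w : hG.W => w.1 (hG.sr j)) (hz i)
    exact this
  have h2 : rc (z.1 ((hG.s i).1 (hG.sr j))) i = rc ((hG.s i).1 (z.1 (hG.sr j))) i := by rw [h1]
  rw [hG.rc_W z _ i i.2, hG.s_val i (z.1 (hG.sr j)), hG.rc_w i i.2 i i.2 _ (z.1 (hG.sr j)).2, if_pos rfl,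
    hG.cartan_rc' i.2 (z.1 (hG.sr j)).2, coord_off hG hz j i hij] at h2
  rw [Finset.sum_eq_single i (fun k _ hk => by rw [coord_off hG hz k i hk.symm, mul_zero])
    (fun h => absurd (Finset.mem_univ _) h)] at h2
  rw [Finset.sum_eq_single (j : ℕ) (fun k hk hkj => by
      rw [coord_off hG hz j ⟨k, Finset.mem_range.1 hk⟩ (fun h => hkj (by rw [← h])), zero_mul])
    (fun h => absurd (Finset.mem_range.2 j.2) h)] at h2
  have h3 : rc ((hG.s i).1 (hG.sr j)) i = - D.cartan i (D.simple j) := by
    rw [hG.s_val i (hG.sr j), hG.rc_w i i.2 i i.2 _ (hG.sr j).2, if_pos rfl]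
    change rc (D.simple j) i - D.cartan i (D.simple j) = _
    rw [hG.rc_simple j j.2 i i.2, if_neg (fun h => hij (Fin.ext h))]
    ring
  rw [h3] at h2
  have h4 : D.cartan i (D.simple j) * (rc (z.1 (hG.sr i)) i - rc (z.1 (hG.sr j)) j) = 0 := by linarith
  rcases mul_eq_zero.1 h4 with h | h
  · exact absurd h hA
  · linarith

theorem coord_unit {z : hG.W} (hz : ∀ j, z * hG.s j = hG.s j * z) (j : Fin D.rank) :
    rc (z.1 (hG.sr j)) j = 1 ∨ rc (z.1 (hG.sr j)) j = -1 := by
  have hz' : ∀ j, z⁻¹ * hG.s j = hG.s j * z⁻¹ := by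
    intro j
    have := hz j
    rw [inv_mul_eq_iff_eq_mul, ← mul_assoc, this, mul_assoc, mul_inv_cancel, mul_one]
  have h1 : z.1 ((z⁻¹).1 (hG.sr j)) = hG.sr j := by
    have : (z * z⁻¹).1 (hG.sr j) = hG.sr j := by rw [mul_inv_cancel]; rfl
    exact this
  have h2 : rc (z.1 ((z⁻¹).1 (hG.sr j))) j = rc (hG.sr j) j := by rw [h1]
  rw [hG.rc_W z _ j j.2, Finset.sum_eq_single j (fun k _ hk => by rw [coord_off hG hz' j k hk, zero_mul])
    (fun h => absurd (Finset.mem_univ _) h)] at h2
  have h3 : rc (hG.sr j) j = 1 := by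
    change rc (D.simple j) j = 1
    rw [hG.rc_simple j j.2 j j.2, if_pos rfl]
  rw [h3] at h2
  exact Int.isUnit_iff.1 (IsUnit.of_mul_eq_one _ (by rw [mul_comm]; exact h2))

/-- adjacency -/
def nadj (A : List (List ℤ)) {n : ℕ} (i j : Fin n) : Prop := i ≠ j ∧ (A.getD i []).getD j 0 ≠ 0

instance (A : List (List ℤ)) {n : ℕ} (i j : Fin n) : Decidable (nadj A i j) := by unfold nadj; infer_instance

/-- chain check -/
def cchk (A : List (List ℤ)) {n : ℕ} (L : List (Fin n)) : Bool :=
  decide (L.IsChain (nadj A)) && decide (∀ i, i ∈ L)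

theorem walk_const {A : List (List ℤ)} (hA : ∀ i < D.rank, ∀ j < D.rank, D.cartan i (D.simple j) = (A.getD i []).getD j 0)
    {z : hG.W} (hz : ∀ j, z * hG.s j = hG.s j * z) :
    ∀ L : List (Fin D.rank), L.IsChain (nadj A) → ∀ x ∈ L, ∀ y ∈ L,
      rc (z.1 (hG.sr x)) x = rc (z.1 (hG.sr y)) y := by
  intro L
  induction L with
  | nil => intro _ x hx; simp at hx
  | cons a L ih =>
    intro hL
    cases L with
    | nil =>
      intro x hx y hy
      simp only [List.mem_cons, List.not_mem_nil, or_false] at hx hy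
      rw [hy, hx]
    | cons b L =>
      rw [List.isChain_cons_cons] at hL
      have hab := coord_adj hG hz a b hL.1.1 (by rw [hA a a.2 b b.2]; exact hL.1.2)
      have key : ∀ x ∈ a :: b :: L, rc (z.1 (hG.sr x)) x = rc (z.1 (hG.sr b)) b := by
        intro x hx
        rcases List.mem_cons.1 hx with rfl | hx
        · exact hab
        · exact ih hL.2 x hx b List.mem_cons_self
      intro x hx y hy
      rw [key x hx, key y hy]

theorem central_cases {A : List (List ℤ)} (hA : ∀ i < D.rank, ∀ j < D.rank, D.cartan i (D.simple j) = (A.getD i []).getD j 0)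
    (L : List (Fin D.rank)) (hL : L.IsChain (nadj A)) (hL' : ∀ i, i ∈ L)
    {z : hG.W} (hz : ∀ j, z * hG.s j = hG.s j * z) : z = 1 ∨ mmat hG z = mneg D.rank := by
  have key : ∀ j k : Fin D.rank, rc (z.1 (hG.sr j)) j = rc (z.1 (hG.sr k)) k :=
    fun j k => walk_const hG hA hz L hL j (hL' j) k (hL' k)
  by_cases h : ∀ j : Fin D.rank, rc (z.1 (hG.sr j)) j = 1
  · left
    apply eq_one_of_coord hG
    intro j k
    split_ifs with hk
    · rw [hk]; exact h j
    · exact coord_off hG hz j k hk
  · right
    push Not at h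
    obtain ⟨j0, hj0⟩ := h
    have h1 : rc (z.1 (hG.sr j0)) j0 = -1 := (coord_unit hG hz j0).resolve_left hj0
    apply mmat_eq_mneg hG
    intro j k
    split_ifs with hk
    · rw [hk, key j j0]; exact h1
    · exact coord_off hG hz j k hk

end central

/-- powers of the Coxeter word -/
def cw (n m : ℕ) : List (Fin n) := (List.replicate m (List.finRange n)).flatten

theorem wp_cw (hG : Good D N η rc) (m : ℕ) : wp hG.s (cw D.rank m) = wp hG.s (List.finRange D.rank) ^ m := by
  induction m with
  | zero => simp [cw]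
  | succ m ih =>
    have : cw D.rank (m + 1) = List.finRange D.rank ++ cw D.rank m := by
      simp [cw, List.replicate_succ]
    rw [this, wp_append, ih, pow_succ']

theorem phi_cox (hG : Good D N η rc) (M : CoxeterMatrix (Fin D.rank)) (φ : M.Group ≃* hG.W)
    (hφ : ∀ i, φ (M.simple i) = hG.s i) :
    φ ((List.finRange D.rank).map M.simple).prod = wp hG.s (List.finRange D.rank) := by
  rw [map_list_prod, List.map_map]
  unfold wp
  congr 1
  apply List.map_congr_left
  intro i _
  exact hφ i

theorem cen_main (hG : Good D N η rc) {A : List (List ℤ)}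
    (hA : ∀ i < D.rank, ∀ j < D.rank, D.cartan i (D.simple j) = (A.getD i []).getD j 0)
    (M : CoxeterMatrix (Fin D.rank)) (φ : M.Group ≃* hG.W) (hφ : ∀ i, φ (M.simple i) = hG.s i)
    (L : List (Fin D.rank)) (hLc : cchk A L = true) (m : ℕ)
    (h1 : mword A D.rank ((cw D.rank m).map Fin.val) (mneg D.rank) = mid D.rank)
    (h2' : decide (∀ i : Fin D.rank, mword A D.rank ((cw D.rank m ++ [i] ++ (cw D.rank m ++ [i])).map Fin.val) (mid D.rank) =
      mid D.rank) = true)
    (h3 : mword A D.rank ((cw D.rank m ++ cw D.rank m).map Fin.val) (mid D.rank) = mid D.rank)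
    (h4 : mword A D.rank ((cw D.rank m).map Fin.val) (mid D.rank) ≠ mid D.rank) :
    Nat.card (Subgroup.center M.Group) = 2 ∧
      Subgroup.center M.Group ≤ Subgroup.zpowers ((List.finRange D.rank).map M.simple).prod := by
  have hL := of_decide_eq_true ((Bool.and_eq_true _ _ ▸ hLc : _ ∧ _).1)
  have hL' := of_decide_eq_true ((Bool.and_eq_true _ _ ▸ hLc : _ ∧ _).2)
  have h2 := of_decide_eq_true h2'
  set c : M.Group := ((List.finRange D.rank).map M.simple).prod with hc
  have hφc : φ (c ^ m) = wp hG.s (cw D.rank m) := by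
    rw [map_pow, wp_cw, hc, phi_cox hG M φ hφ]
  set z0 : hG.W := wp hG.s (cw D.rank m) with hz0
  have hsq : z0 * z0 = 1 := by
    have := wp_eq_one_of hG hA _ h3
    rwa [wp_append] at this
  have hne : z0 ≠ 1 := by
    intro h
    apply h4
    rw [← mmat_one hG, ← mmat_mul_wp hG hA, one_mul, ← hz0, h]
  have hcomm : ∀ i, z0 * hG.s i = hG.s i * z0 := by
    intro i
    have h5 := wp_eq_one_of hG hA _ (h2 i)
    rw [wp_append, wp_append, wp_single, ← hz0] at h5
    have h6 : z0 * hG.s i = (z0 * hG.s i)⁻¹ := eq_inv_of_mul_eq_one_left h5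
    have h7 : (z0 * hG.s i)⁻¹ = hG.s i * z0 := by
      rw [mul_inv_rev, hG.genInv.inv_eq]
      congr 1
      exact (eq_inv_of_mul_eq_one_left hsq).symm
    rw [h6, h7]
  have hcen : z0 ∈ Subgroup.center hG.W := by
    have hle : Subgroup.closure (Set.range hG.s) ≤ Subgroup.centralizer {z0} := by
      rw [Subgroup.closure_le]
      rintro _ ⟨i, rfl⟩
      rw [SetLike.mem_coe, Subgroup.mem_centralizer_singleton_iff]
      exact (hcomm i).symm
    rw [hG.s_gen] at hle
    rw [Subgroup.mem_center_iff]
    intro g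
    have := hle (Subgroup.mem_top g)
    rw [Subgroup.mem_centralizer_singleton_iff] at this
    exact this
  have hcase : ∀ z ∈ Subgroup.center hG.W, z = 1 ∨ z = z0 := by
    intro z hz
    rw [Subgroup.mem_center_iff] at hz
    rcases central_cases hG hA L hL hL' (z := z) (fun j => (hz _).symm) with h | h
    · left; exact h
    · right
      have h5 := mmat_mul_wp hG hA (cw D.rank m) z
      rw [h, h1, mmat_eq_one_iff, ← hz0] at h5
      have h6 := eq_inv_of_mul_eq_one_left h5
      rw [h6]
      exact (eq_inv_of_mul_eq_one_left hsq).symm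
  have hcaseM : ∀ z ∈ Subgroup.center M.Group, z = 1 ∨ z = c ^ m := by
    intro z hz
    have hz' : φ z ∈ Subgroup.center hG.W := by
      rw [Subgroup.mem_center_iff] at hz ⊢
      intro g
      obtain ⟨y, rfl⟩ := φ.surjective g
      rw [← map_mul, ← map_mul, hz]
    rcases hcase _ hz' with h | h
    · left; exact φ.injective (by rw [h, map_one])
    · right; exact φ.injective (by rw [h, hφc])
  have hcM : c ^ m ∈ Subgroup.center M.Group := by
    rw [Subgroup.mem_center_iff] at hcen ⊢
    intro g
    apply φ.injective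
    rw [map_mul, map_mul, hφc]
    exact hcen _
  have hneM : c ^ m ≠ 1 := by
    intro h
    rw [h, map_one] at hφc
    exact hne hφc.symm
  constructor
  · have e : (Subgroup.center M.Group : Set M.Group) = {1, c ^ m} := by
      ext z
      constructor
      · intro hz
        rcases hcaseM z hz with h | h
        · left; exact h
        · right; exact h
      · rintro (h | h)
        · rw [h]; exact Subgroup.one_mem _
        · rw [Set.mem_singleton_iff.1 h]; exact hcM
    have : Nat.card (Subgroup.center M.Group) = (Subgroup.center M.Group : Set M.Group).ncard := rfl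
    rw [this, e, Set.ncard_pair hneM.symm]
  · intro z hz
    rcases hcaseM z hz with h | h
    · rw [h]; exact Subgroup.one_mem _
    · rw [h]; exact Subgroup.pow_mem _ (Subgroup.mem_zpowers _) _

/-- rows are unit vectors -/
def rchk (n : ℕ) (P : List (List ℤ)) : Bool :=
  (List.range n).all fun i => (List.range n).any fun j => (List.range n).all fun k =>
    (P.getD i []).getD k 0 == if k = j then 1 else 0

theorem cen_triv (hG : Good D N η rc) {A : List (List ℤ)}
    (hA : ∀ i < D.rank, ∀ j < D.rank, D.cartan i (D.simple j) = (A.getD i []).getD j 0)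
    (M : CoxeterMatrix (Fin D.rank)) (φ : M.Group ≃* hG.W) (_hφ : ∀ i, φ (M.simple i) = hG.s i)
    (L : List (Fin D.rank)) (hLc : cchk A L = true) (L0 : List (Fin D.rank))
    (h1 : rchk D.rank (mword A D.rank (L0.map Fin.val) (mneg D.rank)) = true)
    (h2 : mword A D.rank (L0.map Fin.val) (mneg D.rank) ≠ mid D.rank) :
    Nat.card (Subgroup.center M.Group) = 1 ∧
      Subgroup.center M.Group ≤ Subgroup.zpowers ((List.finRange D.rank).map M.simple).prod := by
  have hL := of_decide_eq_true ((Bool.and_eq_true _ _ ▸ hLc : _ ∧ _).1)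
  have hL' := of_decide_eq_true ((Bool.and_eq_true _ _ ▸ hLc : _ ∧ _).2)
  have hcase : ∀ z ∈ Subgroup.center hG.W, z = 1 := by
    intro z hz
    rw [Subgroup.mem_center_iff] at hz
    rcases central_cases hG hA L hL hL' (z := z) (fun j => (hz _).symm) with h | h
    · exact h
    · exfalso
      have h5 := mmat_mul_wp hG hA L0 z
      rw [h] at h5
      rw [← h5] at h1 h2
      apply h2
      rw [mmat_eq_one_iff]
      apply hG.eq_one_of_pos
      intro i
      unfold rchk at h1
      rw [List.all_eq_true] at h1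
      have h6 := h1 i (List.mem_range.2 i.2)
      rw [List.any_eq_true] at h6
      obtain ⟨j, hj, h7⟩ := h6
      rw [List.all_eq_true] at h7
      have hj' : j < D.rank := List.mem_range.1 hj
      have h8 : (z * wp hG.s L0).1 (hG.sr i) = hG.sr ⟨j, hj'⟩ := by
        apply Fin.ext
        apply hG.rc_inj ((z * wp hG.s L0).1 (hG.sr i)).2 (hG.sr ⟨j, hj'⟩).2
        intro k hk
        have h9 := h7 k (List.mem_range.2 hk)
        rw [beq_iff_eq, mmat_get hG _ i ⟨k, hk⟩] at h9
        rw [h9]
        change _ = rc (D.simple j) k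
        rw [hG.rc_simple j hj' k hk]
      rw [h8]
      exact hG.sr_pos _
  have hbot : Subgroup.center M.Group = ⊥ := by
    rw [eq_bot_iff]
    intro z hz
    have hz' : φ z ∈ Subgroup.center hG.W := by
      rw [Subgroup.mem_center_iff] at hz ⊢
      intro g
      obtain ⟨y, rfl⟩ := φ.surjective g
      rw [← map_mul, ← map_mul, hz]
    rw [Subgroup.mem_bot]
    exact φ.injective (by rw [hcase _ hz', map_one])
  rw [hbot]
  exact ⟨by simp, bot_le⟩

set_option maxRecDepth 100000

def certG2 : List (List (Option (Fin 2)) × List (Option (Fin 2))) :=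
  [([some 0], []),
   ([some 0, none], [])]

theorem genG2 : ∃ T : Finset CoxeterMatrix.G₂.Group, T.card = 1 ∧
    (∀ t ∈ T, ∃ (g : CoxeterMatrix.G₂.Group) (i : Fin 2), t = g * CoxeterMatrix.G₂.simple i * g⁻¹) ∧
      Subgroup.closure (({((List.finRange 2).map CoxeterMatrix.G₂.simple).prod} : Set CoxeterMatrix.G₂.Group) ∪ ↑T) = ⊤ := by
  obtain ⟨φ, hφ⟩ := equivG2
  exact gen_main TG2.good PG2.hA CoxeterMatrix.G₂ φ hφ ([0] : List (Fin 2)) certG2 (by decide +kernel) (by decide +kernel)
    (by decide +kernel)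

theorem cenG2 : Nat.card (Subgroup.center CoxeterMatrix.G₂.Group) = 2 ∧
      Subgroup.center CoxeterMatrix.G₂.Group ≤ Subgroup.zpowers ((List.finRange 2).map CoxeterMatrix.G₂.simple).prod := by
  obtain ⟨φ, hφ⟩ := equivG2
  exact cen_main TG2.good PG2.hA CoxeterMatrix.G₂ φ hφ ([0, 1] : List (Fin 2)) (by decide +kernel) 3
    (by decide +kernel) (by decide +kernel) (by decide +kernel) (by decide +kernel)

def certB2 : List (List (Option (Fin 2)) × List (Option (Fin 2))) :=
  [([some 0], []),
   ([some 0, none], [])]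

theorem genB2 : ∃ T : Finset (CoxeterMatrix.B 2).Group, T.card = 1 ∧
    (∀ t ∈ T, ∃ (g : (CoxeterMatrix.B 2).Group) (i : Fin 2), t = g * (CoxeterMatrix.B 2).simple i * g⁻¹) ∧
      Subgroup.closure (({((List.finRange 2).map (CoxeterMatrix.B 2).simple).prod} : Set (CoxeterMatrix.B 2).Group) ∪ ↑T) = ⊤ := by
  obtain ⟨φ, hφ⟩ := equivB2
  exact gen_main TB2.good PB2.hA (CoxeterMatrix.B 2) φ hφ ([0] : List (Fin 2)) certB2 (by decide +kernel) (by decide +kernel)
    (by decide +kernel)

theorem cenB2 : Nat.card (Subgroup.center (CoxeterMatrix.B 2).Group) = 2 ∧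
      Subgroup.center (CoxeterMatrix.B 2).Group ≤ Subgroup.zpowers ((List.finRange 2).map (CoxeterMatrix.B 2).simple).prod := by
  obtain ⟨φ, hφ⟩ := equivB2
  exact cen_main TB2.good PB2.hA (CoxeterMatrix.B 2) φ hφ ([0, 1] : List (Fin 2)) (by decide +kernel) 2
    (by decide +kernel) (by decide +kernel) (by decide +kernel) (by decide +kernel)

def certD4 : List (List (Option (Fin 4)) × List (Option (Fin 4))) :=
  [([some 0], []),
   ([none, some 0], [none]),
   ([some 2], []),
   ([none, some 2, none, some 0], [none, some 2, none])]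

theorem genD4 : ∃ T : Finset Cfsg.Lie.coxeterD4.Group, T.card = 2 ∧
    (∀ t ∈ T, ∃ (g : Cfsg.Lie.coxeterD4.Group) (i : Fin 4), t = g * Cfsg.Lie.coxeterD4.simple i * g⁻¹) ∧
      Subgroup.closure (({((List.finRange 4).map Cfsg.Lie.coxeterD4.simple).prod} : Set Cfsg.Lie.coxeterD4.Group) ∪ ↑T) = ⊤ := by
  obtain ⟨φ, hφ⟩ := equivD4
  exact gen_main TD4.good PD4.hA Cfsg.Lie.coxeterD4 φ hφ ([0, 2] : List (Fin 4)) certD4 (by decide +kernel) (by decide +kernel)
    (by decide +kernel)

theorem cenD4 : Nat.card (Subgroup.center Cfsg.Lie.coxeterD4.Group) = 2 ∧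
      Subgroup.center Cfsg.Lie.coxeterD4.Group ≤ Subgroup.zpowers ((List.finRange 4).map Cfsg.Lie.coxeterD4.simple).prod := by
  obtain ⟨φ, hφ⟩ := equivD4
  exact cen_main TD4.good PD4.hA Cfsg.Lie.coxeterD4 φ hφ ([0, 1, 2, 1, 3] : List (Fin 4)) (by decide +kernel) 3
    (by decide +kernel) (by decide +kernel) (by decide +kernel) (by decide +kernel)

def certF4 : List (List (Option (Fin 4)) × List (Option (Fin 4))) :=
  [([some 0], []),
   ([none, some 0], [none]),
   ([some 2], []),
   ([none, some 2], [none])]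

theorem genF4 : ∃ T : Finset CoxeterMatrix.F₄.Group, T.card = 2 ∧
    (∀ t ∈ T, ∃ (g : CoxeterMatrix.F₄.Group) (i : Fin 4), t = g * CoxeterMatrix.F₄.simple i * g⁻¹) ∧
      Subgroup.closure (({((List.finRange 4).map CoxeterMatrix.F₄.simple).prod} : Set CoxeterMatrix.F₄.Group) ∪ ↑T) = ⊤ := by
  obtain ⟨φ, hφ⟩ := equivF4
  exact gen_main TF4.good PF4.hA CoxeterMatrix.F₄ φ hφ ([0, 2] : List (Fin 4)) certF4 (by decide +kernel) (by decide +kernel)
    (by decide +kernel)

theorem cenF4 : Nat.card (Subgroup.center CoxeterMatrix.F₄.Group) = 2 ∧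
      Subgroup.center CoxeterMatrix.F₄.Group ≤ Subgroup.zpowers ((List.finRange 4).map CoxeterMatrix.F₄.simple).prod := by
  obtain ⟨φ, hφ⟩ := equivF4
  exact cen_main TF4.good PF4.hA CoxeterMatrix.F₄ φ hφ ([0, 1, 2, 3] : List (Fin 4)) (by decide +kernel) 6
    (by decide +kernel) (by decide +kernel) (by decide +kernel) (by decide +kernel)

def certE6 : List (List (Option (Fin 6)) × List (Option (Fin 6))) :=
  [([some 0], []),
   ([none, none, some 0, none, none, none, some 0], [none, none, some 0, none, none, none]),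
   ([none, some 0], [none]),
   ([none, none, none, none, none, some 0], [none, none, none, none, none]),
   ([none, none, none, none, none, none, some 0], [none, none, none, none, none, none]),
   ([none, none, none, none, none, none, none, some 0], [none, none, none, none, none, none, none])]

theorem genE6 : ∃ T : Finset CoxeterMatrix.E₆.Group, T.card = 1 ∧
    (∀ t ∈ T, ∃ (g : CoxeterMatrix.E₆.Group) (i : Fin 6), t = g * CoxeterMatrix.E₆.simple i * g⁻¹) ∧
      Subgroup.closure (({((List.finRange 6).map CoxeterMatrix.E₆.simple).prod} : Set CoxeterMatrix.E₆.Group) ∪ ↑T) = ⊤ := by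
  obtain ⟨φ, hφ⟩ := equivE6
  exact gen_main TE6.good PE6.hA CoxeterMatrix.E₆ φ hφ ([0] : List (Fin 6)) certE6 (by decide +kernel) (by decide +kernel)
    (by decide +kernel)

theorem cenE6 : Nat.card (Subgroup.center CoxeterMatrix.E₆.Group) = 1 ∧
      Subgroup.center CoxeterMatrix.E₆.Group ≤ Subgroup.zpowers ((List.finRange 6).map CoxeterMatrix.E₆.simple).prod := by
  obtain ⟨φ, hφ⟩ := equivE6
  exact cen_triv TE6.good PE6.hA CoxeterMatrix.E₆ φ hφ ([0, 2, 3, 1, 3, 4, 5] : List (Fin 6)) (by decide +kernel)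
    ([0, 1, 2, 0, 3, 1, 2, 0, 3, 2, 4, 3, 1, 2, 0, 3, 2, 4, 3, 1, 5, 4, 3, 1, 2, 0, 3, 2, 4, 3, 1, 5, 4, 3, 2, 0] : List (Fin 6)) (by decide +kernel) (by decide +kernel)

def certE7 : List (List (Option (Fin 7)) × List (Option (Fin 7))) :=
  [([none, none, none, some 1, none, none, some 1], [none, none, none, some 1, none, none]),
   ([some 1], []),
   ([none, none, none, none, some 1, none, none, some 1], [none, none, none, none, some 1, none, none]),
   ([some 1, none, none, none, none, none, some 1, none, none, some 1], [some 1, none, none, none, none, none, some 1, none, none]),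
   ([none, some 1, none, none, none, none, none, some 1, none, none, some 1], [none, some 1, none, none, none, none, none, some 1, none, none]),
   ([none, none, some 1, none, none, none, none, none, some 1, none, none, some 1], [none, none, some 1, none, none, none, none, none, some 1, none, none]),
   ([none, none, none, some 1, none, none, none, none, none, some 1, none, none, some 1], [none, none, none, some 1, none, none, none, none, none, some 1, none, none])]

theorem genE7 : ∃ T : Finset CoxeterMatrix.E₇.Group, T.card = 1 ∧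
    (∀ t ∈ T, ∃ (g : CoxeterMatrix.E₇.Group) (i : Fin 7), t = g * CoxeterMatrix.E₇.simple i * g⁻¹) ∧
      Subgroup.closure (({((List.finRange 7).map CoxeterMatrix.E₇.simple).prod} : Set CoxeterMatrix.E₇.Group) ∪ ↑T) = ⊤ := by
  obtain ⟨φ, hφ⟩ := equivE7
  exact gen_main TE7.good PE7.hA CoxeterMatrix.E₇ φ hφ ([1] : List (Fin 7)) certE7 (by decide +kernel) (by decide +kernel)
    (by decide +kernel)

theorem cenE7 : Nat.card (Subgroup.center CoxeterMatrix.E₇.Group) = 2 ∧
      Subgroup.center CoxeterMatrix.E₇.Group ≤ Subgroup.zpowers ((List.finRange 7).map CoxeterMatrix.E₇.simple).prod := by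
  obtain ⟨φ, hφ⟩ := equivE7
  exact cen_main TE7.good PE7.hA CoxeterMatrix.E₇ φ hφ ([0, 2, 3, 1, 3, 4, 5, 6] : List (Fin 7)) (by decide +kernel) 9
    (by decide +kernel) (by decide +kernel) (by decide +kernel) (by decide +kernel)

def certE8 : List (List (Option (Fin 8)) × List (Option (Fin 8))) :=
  [([some 0], []),
   ([none, none, some 0, none, none, some 0, none, none, none, some 0], [none, none, some 0, none, none, some 0, none, none, none]),
   ([none, some 0], [none]),
   ([none, none, none, none, some 0, none, none, none, some 0], [none, none, none, none, some 0, none, none, none]),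
   ([none, none, none, none, none, some 0, none, none, none, some 0], [none, none, none, none, none, some 0, none, none, none]),
   ([none, none, none, none, none, none, some 0, none, none, none, some 0], [none, none, none, none, none, none, some 0, none, none, none]),
   ([none, none, none, none, none, none, none, some 0, none, none, none, some 0], [none, none, none, none, none, none, none, some 0, none, none, none]),
   ([none, none, none, none, none, none, none, none, some 0, none, none, none, some 0], [none, none, none, none, none, none, none, none, some 0, none, none, none])]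

theorem genE8 : ∃ T : Finset CoxeterMatrix.E₈.Group, T.card = 1 ∧
    (∀ t ∈ T, ∃ (g : CoxeterMatrix.E₈.Group) (i : Fin 8), t = g * CoxeterMatrix.E₈.simple i * g⁻¹) ∧
      Subgroup.closure (({((List.finRange 8).map CoxeterMatrix.E₈.simple).prod} : Set CoxeterMatrix.E₈.Group) ∪ ↑T) = ⊤ := by
  obtain ⟨φ, hφ⟩ := equivE8
  exact gen_main TE8.good PE8.hA CoxeterMatrix.E₈ φ hφ ([0] : List (Fin 8)) certE8 (by decide +kernel) (by decide +kernel)
    (by decide +kernel)

theorem cenE8 : Nat.card (Subgroup.center CoxeterMatrix.E₈.Group) = 2 ∧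
      Subgroup.center CoxeterMatrix.E₈.Group ≤ Subgroup.zpowers ((List.finRange 8).map CoxeterMatrix.E₈.simple).prod := by
  obtain ⟨φ, hφ⟩ := equivE8
  exact cen_main TE8.good PE8.hA CoxeterMatrix.E₈ φ hφ ([0, 2, 3, 1, 3, 4, 5, 6, 7] : List (Fin 8)) (by decide +kernel) 15
    (by decide +kernel) (by decide +kernel) (by decide +kernel) (by decide +kernel)

end Cfsg.Agent.H16.CoxC
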