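import Mathlib
import Cfsg.Agent.H16.DL3

set_option autoImplicit false
set_option linter.all false

namespace Cfsg.Agent.H16

open Matrix Cfsg Cfsg.Agent.H3
open scoped ComplexConjugate

section

variable {F : Type*} [Field F] [Fintype F] [DecidableEq F]

local notation "SL₂" => Matrix.SpecialLinearGroup (Fin 2) F
local notation "M₂" => Matrix (Fin 2) (Fin 2) F

variable {T : Subgroup (Matrix.SpecialLinearGroup (Fin 2) F)}

/-- the quadratic character of a nonsplit torus -/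
theorem NST.exists_quad (hT : NST T) : ∃ θ₀ : T →* ℂˣ, θ₀ ≠ 1 ∧ (∀ c, θ₀ c ^ 2 = 1) ∧
    ∀ c : T, (θ₀ c = 1 ↔ (c : SL₂) ^ ((Fintype.card F + 1) / 2) = 1) := by
  classical
  haveI := hT.cyc
  haveI : Finite (T →* ℂˣ) := by
    apply Nat.finite_of_card_ne_zero
    rw [card_hom_cyclic T]; exact Nat.card_pos.ne'
  haveI := Fintype.ofFinite (T →* ℂˣ)
  haveI := Fintype.ofFinite (IrrCharacter SL₂)
  -- counting
  obtain ⟨hE, _, _⟩ := card_cuspS_odd (F := F) hT.odd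
  have h0 := (hT.sum_chi (fun _ => (1 : ℕ))).1
  rw [Finset.sum_const, Finset.sum_const, smul_eq_mul, smul_eq_mul, smul_eq_mul, mul_one, mul_one, hE] at h0
  have h1 := card_hom_cyclic T
  rw [hT.card, Nat.card_eq_fintype_card] at h1
  have h2 := Finset.card_filter_add_card_filter_not (s := (Finset.univ : Finset (T →* ℂˣ))) (fun θ : T →* ℂˣ => ∃ c : T, θ c ^ 2 ≠ 1)
  rw [Finset.card_univ, h1, h0] at h2
  have hq := hT.q3
  have h3 : 1 < (Finset.univ.filter (fun θ : T →* ℂˣ => ¬ ∃ c : T, θ c ^ 2 ≠ 1)).card := by omega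
  obtain ⟨θ₀, hθ₀, hne⟩ := Finset.exists_mem_ne h3 1
  rw [Finset.mem_filter] at hθ₀
  have h5 := hθ₀.2
  push Not at h5
  refine ⟨θ₀, hne, h5, ?_⟩
  obtain ⟨c₀, hc, hgen, ho, hs⟩ := hT.gen
  have hc1 : θ₀ ⟨c₀, hc⟩ = -1 := by
    have h7 : ((θ₀ ⟨c₀, hc⟩ : ℂˣ) : ℂ) * ((θ₀ ⟨c₀, hc⟩ : ℂˣ) : ℂ) = 1 := by
      rw [← Units.val_mul, ← pow_two, h5, Units.val_one]
    rcases mul_self_eq_one_iff.1 h7 with h | h
    · exfalso
      apply hne
      ext x
      obtain ⟨n, hn⟩ := hgen x x.2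
      have : x = (⟨c₀, hc⟩ : T) ^ n := by
        apply Subtype.ext; rw [← hn]; simp
      have h' : θ₀ ⟨c₀, hc⟩ = 1 := Units.ext h
      rw [this, map_zpow, map_zpow, h']
      simp
    · apply Units.ext; rw [h]; simp
  intro c
  obtain ⟨n, hn⟩ := hgen c c.2
  have hcn : c = (⟨c₀, hc⟩ : T) ^ n := by
    apply Subtype.ext; rw [← hn]; simp
  have hv : θ₀ c = (-1) ^ n := by rw [hcn, map_zpow, hc1]
  rw [hv]
  obtain ⟨m, hm⟩ : ∃ m, Fintype.card F + 1 = 2 * m := by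
    obtain ⟨k, hk⟩ := hT.odd
    exact ⟨k + 1, by omega⟩
  have hm' : (Fintype.card F + 1) / 2 = m := by omega
  rw [hm', ← hn]
  have e1 : (c₀ ^ n) ^ m = c₀ ^ (n * m) := by
    rw [_root_.zpow_mul, zpow_natCast]
  rw [e1, ← orderOf_dvd_iff_zpow_eq_one (x := c₀), ho, hm]
  rcases Int.even_or_odd n with ⟨k, hk⟩ | ⟨k, hk⟩
  · constructor
    · intro _
      refine ⟨k, ?_⟩
      rw [hk]; push_cast; ring
    · intro _
      rw [hk]
      exact Even.neg_one_zpow ⟨k, rfl⟩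
  · constructor
    · intro h
      rw [Odd.neg_one_zpow ⟨k, hk⟩] at h
      exfalso
      have := congrArg Units.val h
      simp at this
      norm_num at this
    · rintro ⟨j, hj⟩
      exfalso
      push_cast at hj
      have hm0 : (m : ℤ) ≠ 0 := by omega
      have : n = 2 * j := by
        apply mul_right_cancel₀ hm0
        rw [hj]; ring
      omega

/-- values of the two half cuspidal characters on the torus -/
theorem TypF_ell (hodd : Odd (Fintype.card F)) {ψ : SL₂ → ℂ} (hψ : IsIrrCharacter SL₂ ψ) (hF : TypF ψ) (hT : NST T) {c : T}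
    (hc : ¬ IsScal ((c : SL₂) : M₂)) (θ₀ : T →* ℂˣ) (hθ1 : θ₀ ≠ 1) (hθ : ∀ c, θ₀ c ^ 2 = 1) :
    ψ c = - (θ₀ c : ℂ) := by
  classical
  haveI := hT.cyc
  haveI : Finite (T →* ℂˣ) := by
    apply Nat.finite_of_card_ne_zero
    rw [card_hom_cyclic T]; exact Nat.card_pos.ne'
  haveI := Fintype.ofFinite (T →* ℂˣ)
  haveI := Fintype.ofFinite (IrrCharacter SL₂)
  have hq3 := hT.q3
  have hell := hT.ell c.2 hc
  obtain ⟨hE, hC2, hC3⟩ := card_cuspS_odd (F := F) hodd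
  -- the sum over Θ
  have h0 := (hT.sum_chi (fun _ => (1 : ℕ))).1
  rw [Finset.sum_const, Finset.sum_const, smul_eq_mul, smul_eq_mul, smul_eq_mul, mul_one, mul_one, hE] at h0
  have h1 := card_hom_cyclic T
  rw [hT.card, Nat.card_eq_fintype_card] at h1
  have h2 := Finset.card_filter_add_card_filter_not (s := (Finset.univ : Finset (T →* ℂˣ))) (fun θ : T →* ℂˣ => ∃ c : T, θ c ^ 2 ≠ 1)
  rw [Finset.card_univ, h1, h0] at h2
  have h3 : (Finset.univ.filter (fun θ : T →* ℂˣ => ¬ ∃ c : T, θ c ^ 2 ≠ 1)) = {1, θ₀} := by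
    symm
    apply Finset.eq_of_subset_of_card_le
    · intro θ h
      rw [Finset.mem_insert, Finset.mem_singleton] at h
      rw [Finset.mem_filter]
      refine ⟨Finset.mem_univ _, ?_⟩
      push Not
      rcases h with h | h
      · rw [h]; intro c; simp
      · rw [h]; exact hθ
    · rw [Finset.card_pair hθ1.symm]; omega
  have hc1 : c ≠ 1 := by
    rintro rfl; exact hc one_scal
  have hsum : ∀ d : T, d ≠ 1 → ∑ θ ∈ Finset.univ.filter (fun θ : T →* ℂˣ => ∃ c : T, θ c ^ 2 ≠ 1), (θ d : ℂ) = - 1 - (θ₀ d : ℂ) := by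
    intro d hd
    have h4 := sum_hom_eval T hd
    rw [← Finset.sum_filter_add_sum_filter_not _ (fun θ : T →* ℂˣ => ∃ c : T, θ c ^ 2 ≠ 1), h3, Finset.sum_pair hθ1.symm] at h4
    rw [MonoidHom.one_apply, Units.val_one] at h4
    linear_combination h4
  have hinv : θ₀ c⁻¹ = θ₀ c := by
    rw [map_inv, inv_eq_iff_mul_eq_one, ← pow_two, hθ]
  have hE' : ∑ χ ∈ Finset.filter (fun χ => ndeg χ = Fintype.card F - 1) (setCS F), (χ : SL₂ → ℂ) c = 1 + (θ₀ c : ℂ) := by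
    have h4 := (hT.sum_chi (fun χ => (χ : SL₂ → ℂ) c)).1
    have h5 : ∑ θ ∈ Finset.univ.filter (fun θ : T →* ℂˣ => ∃ c : T, θ c ^ 2 ≠ 1), ((hT.chi θ : SL₂ → ℂ) c) =
        ∑ θ ∈ Finset.univ.filter (fun θ : T →* ℂˣ => ∃ c : T, θ c ^ 2 ≠ 1), -((θ c : ℂ) + (θ c⁻¹ : ℂ)) := by
      refine Finset.sum_congr rfl fun θ hθ' => ?_
      rw [Finset.mem_filter] at hθ'
      obtain ⟨α, hα, he⟩ := hT.chi_eq hθ'.2
      rw [he, hT.dl_ell θ α hc, map_inv]
    rw [h5, Finset.sum_neg_distrib, Finset.sum_add_distrib, hsum c hc1, hsum c⁻¹ (inv_ne_one.2 hc1), hinv, nsmul_eq_mul] at h4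
    push_cast at h4
    linear_combination -h4 / 2
  -- column orthogonality
  have hcol := column_orth (G := SL₂) c 1
  rw [if_neg] at hcol
  swap
  · rw [isConj_one_left]
    intro h
    exact hc1 (Subtype.ext h)
  obtain ⟨α₀, hα1, hα2⟩ := exists_quad (F := F) hodd
  obtain ⟨ψ₁, ψ₂, i1', i2', hne12, hPS, hdeg12, _⟩ := PS_halves α₀ hα2 hα1
  rw [sl2_sum_odd hα2 hα1 (ψ₁ := ⟨ψ₁, i1'⟩) (ψ₂ := ⟨ψ₂, i2'⟩) (fun h => hne12 (congrArg Subtype.val h)) hPS] at hcol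
  have hPS0 : ψ₁ c + ψ₂ c = 0 := by
    have := congrFun hPS c
    rw [PS_ell α₀ _ hell.1] at this
    exact this.symm
  have f1 : ((i1 F : IrrCharacter SL₂) : SL₂ → ℂ) = fun _ => 1 := rfl
  have f2 : ((iSt F : IrrCharacter SL₂) : SL₂ → ℂ) = StS F := rfl
  have f3 : ∑ χ ∈ setPS F, (χ : SL₂ → ℂ) c * conj ((χ : SL₂ → ℂ) 1) = 0 := by
    apply Finset.sum_eq_zero
    intro χ hχ
    obtain ⟨α, hα, he⟩ := mem_setPS.1 hχ
    rw [he, PS_ell α _ hell.1, zero_mul]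
  rw [f1, f2, f3, ← Finset.sum_filter_add_sum_filter_not (setCS F) (fun χ => ndeg χ = Fintype.card F - 1)] at hcol
  have f4 : ∑ χ ∈ Finset.filter (fun χ => ndeg χ = Fintype.card F - 1) (setCS F), (χ : SL₂ → ℂ) c * conj ((χ : SL₂ → ℂ) 1) =
      (1 + (θ₀ c : ℂ)) * ((Fintype.card F : ℂ) - 1) := by
    rw [← hE', Finset.sum_mul]
    refine Finset.sum_congr rfl fun χ hχ => ?_
    rw [Finset.mem_filter] at hχ
    rw [ndeg_eq, hχ.2, Complex.conj_natCast, Nat.cast_sub Fintype.card_pos, Nat.cast_one]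
  -- the two half characters
  obtain ⟨hcusp, χ, ψ', hχ, hcu, hψ', hne, hres, hcusp', hdeg, x, hx⟩ := hF
  have hFd := TypF_deg (⟨hcusp, χ, ψ', hχ, hcu, hψ', hne, hres, hcusp', hdeg, x, hx⟩ : TypF ψ)
  have hval : ψ' c = ψ c := gl_conj_value (irr_classFun hψ') hx c hc (sq_ne_four_of_ell hell.1)
  have hnd : ∀ (φ : SL₂ → ℂ) (hφ : IsIrrCharacter SL₂ φ), 2 * φ 1 = (Fintype.card F : ℂ) - 1 → ¬ ndeg (⟨φ, hφ⟩ : IrrCharacter SL₂) = Fintype.card F - 1 := by
    intro φ hφ h4 h5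
    have h6 := ndeg_eq (⟨φ, hφ⟩ : IrrCharacter SL₂)
    change φ 1 = _ at h6
    rw [h5, Nat.cast_sub Fintype.card_pos, Nat.cast_one] at h6
    rw [h6] at h4
    have h7 : (Fintype.card F : ℂ) = 1 := by linear_combination h4
    have h8 : Fintype.card F = 1 := by exact_mod_cast h7
    omega
  have hset : Finset.filter (fun χ => ¬ ndeg χ = Fintype.card F - 1) (setCS F) = {⟨ψ, hψ⟩, ⟨ψ', hψ'⟩} := by
    symm
    apply Finset.eq_of_subset_of_card_le
    · intro φ h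
      rw [Finset.mem_insert, Finset.mem_singleton] at h
      rw [Finset.mem_filter, mem_setCS]
      rcases h with h | h
      · rw [h]; exact ⟨hcusp, hnd ψ hψ hFd⟩
      · rw [h]; exact ⟨hcusp', hnd ψ' hψ' (by rw [← hdeg]; exact hFd)⟩
    · rw [hC2, Finset.card_pair (fun h => hne (congrArg Subtype.val h))]
  rw [f4, hset, Finset.sum_pair (fun h => hne (congrArg Subtype.val h))] at hcol
  have g1 : conj (ψ 1) = ψ 1 := by
    have h6 := ndeg_eq (⟨ψ, hψ⟩ : IrrCharacter SL₂)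
    change ψ 1 = _ at h6
    rw [h6, Complex.conj_natCast]
  change ((1 : ℂ) * conj (1 : ℂ) + StS F c * conj (StS F 1)) + (ψ₁ c * conj (ψ₁ 1) + ψ₂ c * conj (ψ₂ 1)) + 0 +
    ((1 + (θ₀ c : ℂ)) * ((Fintype.card F : ℂ) - 1) + (ψ c * conj (ψ 1) + ψ' c * conj (ψ' 1))) = 0 at hcol
  rw [← hdeg12, hval, ← hdeg, g1, StS_one, StS_apply, PS_ell _ _ hell.1, Complex.conj_natCast, map_one] at hcol
  have hq1 : ((Fintype.card F : ℂ) - 1) ≠ 0 := by
    have := card_sub_one_ne (F := F)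
    rw [Nat.cast_sub Fintype.card_pos] at this
    exact_mod_cast this
  have g2 : ((Fintype.card F : ℂ) - 1) * (ψ c + (θ₀ c : ℂ)) = 0 := by
    linear_combination hcol - conj (ψ₁ 1) * hPS0 - ψ c * hFd
  rcases mul_eq_zero.1 g2 with h | h
  · exact absurd h hq1
  · linear_combination h

end

end Cfsg.Agent.H16
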