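import Mathlib
import Cfsg.Agent.H16.ChMon
import Cfsg.Agent.H16.CoxC
import Cfsg.Agent.H6.TwOrb

/-! Generation of Chevalley groups by two elements. -/

set_option autoImplicit false
set_option linter.all false

namespace Cfsg.Agent.H16.Gen2

open Cfsg.Lie Cfsg.Agent.H6 Cfsg.Agent.H22 Cfsg.Agent.H16.ChMon Cfsg.Agent.H16.CoxC

variable {D : ChevalleyDatum} {N : ℕ} {η : ℕ → ℕ → ℤ} {rc : ℕ → ℕ → ℤ} {F : Type*} [Field F]

/-- product of the `n_i` along a word -/
noncomputable def nL (D : ChevalleyDatum) (F : Type*) [Field F] (L : List (Fin D.rank)) : GL D.Idx F :=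
  (L.map fun i => ng D F (i : ℕ)).prod

theorem nL_cons (i : Fin D.rank) (L : List (Fin D.rank)) : nL D F (i :: L) = ng D F (i : ℕ) * nL D F L := by simp [nL]

theorem rfw_lt (hG : Good D N η rc) (L : List (Fin D.rank)) {r : ℕ} (hr : r < D.nroots) : rfw D L r < D.nroots := by
  induction L with
  | nil => exact hr
  | cons i L ih => exact hG.w_lt i i.2 _ ih

theorem iter_lt (hG : Good D N η rc) (L : List (Fin D.rank)) {r : ℕ} (hr : r < D.nroots) (k : ℕ) : (rfw D L)^[k] r < D.nroots := by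
  induction k with
  | zero => exact hr
  | succ k ih => rw [Function.iterate_succ_apply']; exact rfw_lt hG L ih

theorem nL_conj (hG : Good D N η rc) (L : List (Fin D.rank)) {r : ℕ} (hr : r < D.nroots) :
    ∃ e : F, e * e = 1 ∧ ∀ t, nL D F L * xg D F r t * (nL D F L)⁻¹ = xg D F (rfw D L r) (e * t) := by
  induction L with
  | nil => exact ⟨1, by ring, fun t => by simp [nL, rfw]⟩
  | cons i L ih =>
    obtain ⟨e, he, h⟩ := ih
    refine ⟨((η i (rfw D L r) : ℤ) : F) * e, ?_, fun t => ?_⟩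
    · have := hG.etaF_sq (F := F) i.2 (rfw_lt hG L hr)
      linear_combination (e*e) * this + he
    · have h1 := hG.ng_conj (F := F) i.2 (rfw_lt hG L hr) (e * t)
      rw [← h t] at h1
      rw [nL_cons]
      have e2 : rfw D (i::L) r = D.reflectRoot i (rfw D L r) := rfl
      rw [e2, mul_assoc ((η i _ : ℤ) : F), ← h1]; group

theorem nL_conj_hgr (hG : Good D N η rc) (L : List (Fin D.rank)) {c : ℕ} (hc : c < D.nroots) (z : Fˣ) :
    nL D F L * hgr D F c (z : F) * (nL D F L)⁻¹ = hgr D F (rfw D L c) (z : F) := by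
  induction L with
  | nil => simp [nL, rfw]
  | cons i L ih =>
    have h1 := hG.ng_conj_hgr i.2 (rfw_lt hG L hc) z
    rw [← ih] at h1
    rw [nL_cons]
    have e2 : rfw D (i::L) c = D.reflectRoot i (rfw D L c) := rfl
    rw [e2, ← h1]; group

theorem P_nL (hG : Good D N η rc) {H : Subgroup (GL D.Idx F)} {L : List (Fin D.rank)} (hL : nL D F L ∈ H) {r : ℕ} (hr : r < D.nroots) :
    P D F H r ↔ P D F H (rfw D L r) := by
  obtain ⟨e, he, h⟩ := nL_conj (F := F) hG L hr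
  constructor
  · intro hP t
    have h1 := h (e * t)
    rw [← mul_assoc, he, one_mul] at h1
    rw [← h1]
    exact H.mul_mem (H.mul_mem hL (hP _)) (H.inv_mem hL)
  · intro hP t
    have h1 := h t
    have h2 : xg D F r t = (nL D F L)⁻¹ * xg D F (rfw D L r) (e * t) * nL D F L := by rw [← h1]; group
    rw [h2]
    exact H.mul_mem (H.mul_mem (H.inv_mem hL) (hP _)) hL

theorem P_iter (hG : Good D N η rc) {H : Subgroup (GL D.Idx F)} {L : List (Fin D.rank)} (hL : nL D F L ∈ H) {r : ℕ} (hr : r < D.nroots) (k : ℕ) :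
    P D F H r ↔ P D F H ((rfw D L)^[k] r) := by
  induction k with
  | zero => exact Iff.rfl
  | succ k ih => rw [Function.iterate_succ_apply', ← P_nL hG hL (iter_lt hG L hr k)]; exact ih

theorem x_iter (hG : Good D N η rc) {H : Subgroup (GL D.Idx F)} {L : List (Fin D.rank)} (hL : nL D F L ∈ H) {r : ℕ} (hr : r < D.nroots)
    {a : F} (ha : a ≠ 0) (hx : xg D F r a ∈ H) (k : ℕ) : ∃ a' : F, a' ≠ 0 ∧ xg D F ((rfw D L)^[k] r) a' ∈ H := by
  induction k with
  | zero => exact ⟨a, ha, hx⟩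
  | succ k ih =>
    obtain ⟨a', ha', hx'⟩ := ih
    obtain ⟨e, he, h⟩ := nL_conj (F := F) hG L (iter_lt hG L hr k)
    refine ⟨e * a', mul_ne_zero (fun h0 => ?_) ha', ?_⟩
    · rw [h0, zero_mul] at he; exact zero_ne_one he
    · rw [Function.iterate_succ_apply', ← h]
      exact H.mul_mem (H.mul_mem hL hx') (H.inv_mem hL)

theorem hgr_conj (hG : Good D N η rc) {c r : ℕ} (hc : c < D.nroots) (hr : r < D.nroots) (z : Fˣ) (t : F) :
    hgr D F c (z : F) * xg D F r t * (hgr D F c (z : F))⁻¹ = xg D F r (((z ^ D.pairing c r : Fˣ) : F) * t) := by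
  rw [hG.hgr_eq_tor c hc]
  exact hG.tor_conj_xg (hG.isChr_pairing c z) hr t

/-- the torus homomorphism -/
noncomputable def hH (hG : Good D N η rc) {c : ℕ} (hc : c < D.nroots) : Fˣ →* GL D.Idx F :=
  MonoidHom.mk' (fun u => hgr D F c (u : F)) (fun a b => (hG.hgr_mul hc a b).symm)

theorem hgr_zpow_mem (hG : Good D N η rc) {H : Subgroup (GL D.Idx F)} {c : ℕ} (hc : c < D.nroots) {z : Fˣ}
    (hh : hgr D F c (z : F) ∈ H) (k : ℤ) : hgr D F c ((z ^ k : Fˣ) : F) ∈ H := by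
  have h1 : hgr D F c ((z ^ k : Fˣ) : F) = (hgr D F c (z : F)) ^ k := map_zpow (hH hG hc) z k
  rw [h1]
  exact H.zpow_mem hh k

theorem P_field (hG : Good D N η rc) {H : Subgroup (GL D.Idx F)} {z : Fˣ} (hz : ∀ x : Fˣ, x ∈ Subgroup.zpowers z) {c r : ℕ}
    (hc : c < D.nroots) (hr : r < D.nroots) (hp : D.pairing c r = 1 ∨ D.pairing c r = -1)
    (hh : hgr D F c (z : F) ∈ H) {a : F} (ha : a ≠ 0) (hx : xg D F r a ∈ H) : P D F H r := by
  intro t
  by_cases ht : t = 0
  · rw [ht, hG.xg_zero]; exact H.one_mem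
  obtain ⟨k, hk⟩ := hz (Units.mk0 (t / a) (div_ne_zero ht ha))
  obtain ⟨k', hk'⟩ : ∃ k' : ℤ, (z ^ k') ^ D.pairing c r = Units.mk0 (t / a) (div_ne_zero ht ha) := by
    rcases hp with hp | hp
    · exact ⟨k, by rw [hp, zpow_one]; exact hk⟩
    · refine ⟨-k, ?_⟩
      rw [hp, ← zpow_mul, neg_mul_neg, mul_one]; exact hk
  have h1 := hgr_conj hG hc hr (z ^ k') a
  rw [hk', Units.val_mk0, div_mul_cancel₀ t ha] at h1
  rw [← h1]
  have h2 := hgr_zpow_mem hG hc hh k'
  exact H.mul_mem (H.mul_mem h2 hx) (H.inv_mem h2)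

theorem P_field2 (hG : Good D N η rc) {H : Subgroup (GL D.Idx F)} {z : Fˣ} (hz : ∀ x : Fˣ, x ∈ Subgroup.zpowers z) (hsq : ∀ x : Fˣ, ∃ y : Fˣ, y ^ (2 : ℤ) = x) {c r : ℕ}
    (hc : c < D.nroots) (hr : r < D.nroots) (hp : D.pairing c r = 2 ∨ D.pairing c r = -2)
    (hh : hgr D F c (z : F) ∈ H) {a : F} (ha : a ≠ 0) (hx : xg D F r a ∈ H) : P D F H r := by
  intro t
  by_cases ht : t = 0
  · rw [ht, hG.xg_zero]; exact H.one_mem
  obtain ⟨y, hy⟩ := hsq (Units.mk0 (t / a) (div_ne_zero ht ha))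
  obtain ⟨k, hk⟩ := hz y
  obtain ⟨k', hk'⟩ : ∃ k' : ℤ, (z ^ k') ^ D.pairing c r = Units.mk0 (t / a) (div_ne_zero ht ha) := by
    simp only at hk
    rcases hp with hp | hp
    · exact ⟨k, by rw [hp, hk]; exact hy⟩
    · refine ⟨-k, ?_⟩
      rw [hp, ← zpow_mul, neg_mul_neg, zpow_mul, hk]; exact hy
  have h1 := hgr_conj hG hc hr (z ^ k') a
  rw [hk', Units.val_mk0, div_mul_cancel₀ t ha] at h1
  rw [← h1]
  have h2 := hgr_zpow_mem hG hc hh k'
  exact H.mul_mem (H.mul_mem h2 hx) (H.inv_mem h2)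

theorem xg_nat (hG : Good D N η rc) (r : ℕ) (t : F) (n : ℕ) : (xg D F r t) ^ n = xg D F r (n * t) := by
  induction n with
  | zero => rw [pow_zero, Nat.cast_zero, zero_mul, hG.xg_zero]
  | succ n ih => rw [pow_succ, ih, ← hG.xg_add]; congr 1; push_cast; ring

theorem split1 [Fintype F] (hG : Good D N η rc) {c b : ℕ} (hc : c < D.nroots) (hb : b < D.nroots) (hcb : D.pairing c b = 0) (z : Fˣ)
    {H : Subgroup (GL D.Idx F)} (h : hgr D F c (z : F) * xg D F b 1 ∈ H) : hgr D F c (z : F) ∈ H ∧ xg D F b 1 ∈ H := by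
  have h1 := hgr_conj hG hc hb z (1 : F)
  rw [hcb, zpow_zero, Units.val_one, one_mul] at h1
  have hcomm : Commute (hgr D F c (z : F)) (xg D F b 1) := by
    change hgr D F c (z : F) * xg D F b 1 = xg D F b 1 * hgr D F c (z : F)
    rw [mul_inv_eq_iff_eq_mul] at h1
    exact h1
  have h2 : (hgr D F c (z : F) * xg D F b 1) ^ Fintype.card F = hgr D F c (z : F) := by
    rw [hcomm.mul_pow, xg_nat hG]
    have e1 : ((Fintype.card F : ℕ) : F) = 0 := by simp
    have e2 : (hgr D F c (z : F)) ^ Fintype.card F = hgr D F c (z : F) := by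
      have h3 : (hgr D F c (z : F)) ^ Fintype.card F = hgr D F c ((z ^ Fintype.card F : Fˣ) : F) := (map_pow (hH hG hc) z _).symm
      rw [h3, Units.val_pow_eq_pow_val, FiniteField.pow_card]
    rw [e1, e2, zero_mul, hG.xg_zero, mul_one]
  have h3 : hgr D F c (z : F) ∈ H := by
    rw [← h2]; exact H.pow_mem h _
  refine ⟨h3, ?_⟩
  have h4 : xg D F b 1 = (hgr D F c (z : F))⁻¹ * (hgr D F c (z : F) * xg D F b 1) := by group
  rw [h4]
  exact H.mul_mem (H.inv_mem h3) h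

/-- the commutator trick -/
theorem T1 [Fintype F] (hG : Good D N η rc) {z : Fˣ} (hz : ∀ x : Fˣ, x ∈ Subgroup.zpowers z) (hz1 : z ≠ 1) (L : List (Fin D.rank)) {c b d : ℕ}
    (hc : c < D.nroots) (hb : b < D.nroots) (hd : d < D.nroots) (h1 : D.pairing c b = 0)
    (h2 : D.pairing c d = 1 ∨ D.pairing c d = -1) (h3 : D.pairing (rfw D L c) d = 1 ∨ D.pairing (rfw D L c) d = -1)
    {H : Subgroup (GL D.Idx F)} (hg1 : hgr D F c (z : F) * xg D F b 1 ∈ H) (hg2 : xg D F d 1 * nL D F L ∈ H) :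
    hgr D F c (z : F) ∈ H ∧ xg D F b 1 ∈ H ∧ P D F H d ∧ nL D F L ∈ H := by
  obtain ⟨hh, hxb⟩ := split1 hG hc hb h1 z hg1
  have hzz : ∀ e : ℤ, (e = 1 ∨ e = -1) → ((z ^ e : Fˣ) : F) ≠ 1 := by
    rintro e (rfl | rfl) h0
    · apply hz1
      rw [zpow_one] at h0
      exact Units.ext h0
    · apply hz1
      rw [zpow_neg, zpow_one] at h0
      have : z⁻¹ = 1 := Units.ext h0
      exact inv_eq_one.1 this
  obtain ⟨a1, ha1⟩ : ∃ a, a = ((z ^ D.pairing c d : Fˣ) : F) := ⟨_, rfl⟩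
  obtain ⟨a2, ha2⟩ : ∃ a, a = ((z ^ D.pairing (rfw D L c) d : Fˣ) : F) := ⟨_, rfl⟩
  have hn1 : a1 ≠ 1 := by rw [ha1]; exact hzz _ h2
  have hn2 : a2 ≠ 1 := by rw [ha2]; exact hzz _ h3
  have c1 := nL_conj_hgr hG L hc z
  have c2 := hgr_conj hG (rfw_lt hG L hc) hd z (-1 : F)
  rw [← ha2] at c2
  -- the conjugate of `h`
  have k1 : xg D F d (1 - a2) * hgr D F (rfw D L c) (z : F) ∈ H := by
    have e1 : xg D F d (1 - a2) * hgr D F (rfw D L c) (z : F) =
        (xg D F d 1 * nL D F L) * hgr D F c (z : F) * (xg D F d 1 * nL D F L)⁻¹ := by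
      have e2 : (xg D F d 1 * nL D F L) * hgr D F c (z : F) * (xg D F d 1 * nL D F L)⁻¹ =
          xg D F d 1 * (nL D F L * hgr D F c (z : F) * (nL D F L)⁻¹) * (xg D F d 1)⁻¹ := by group
      rw [e2, c1, ← hG.xg_neg]
      have e3 : hgr D F (rfw D L c) (z : F) * xg D F d (-1) = xg D F d (a2 * -1) * hgr D F (rfw D L c) (z : F) := by
        rw [← c2]; group
      rw [mul_assoc, e3, ← mul_assoc, ← hG.xg_add]
      congr 2
      ring
    rw [e1]
    exact H.mul_mem (H.mul_mem hg2 hh) (H.inv_mem hg2)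
  have c3 := hgr_conj hG hc hd z (1 - a2)
  rw [← ha1] at c3
  have hcm : hgr D F c (z : F) * hgr D F (rfw D L c) (z : F) = hgr D F (rfw D L c) (z : F) * hgr D F c (z : F) := by
    rw [hG.hgr_eq_tor c hc, hG.hgr_eq_tor _ (rfw_lt hG L hc), ← tor_mul, ← tor_mul, mul_comm]
  have k2 : xg D F d ((a1 - 1) * (1 - a2)) ∈ H := by
    have e1 : xg D F d ((a1 - 1) * (1 - a2)) =
        (hgr D F c (z : F) * (xg D F d (1 - a2) * hgr D F (rfw D L c) (z : F)) * (hgr D F c (z : F))⁻¹) *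
          (xg D F d (1 - a2) * hgr D F (rfw D L c) (z : F))⁻¹ := by
      have e2 : (hgr D F c (z : F) * (xg D F d (1 - a2) * hgr D F (rfw D L c) (z : F)) * (hgr D F c (z : F))⁻¹) *
          (xg D F d (1 - a2) * hgr D F (rfw D L c) (z : F))⁻¹ =
          (hgr D F c (z : F) * xg D F d (1 - a2) * (hgr D F c (z : F))⁻¹) *
            ((hgr D F c (z : F) * hgr D F (rfw D L c) (z : F)) * (hgr D F c (z : F))⁻¹ * (hgr D F (rfw D L c) (z : F))⁻¹) *
            (xg D F d (1 - a2))⁻¹ := by group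
      rw [e2, c3, hcm]
      have e3 : hgr D F (rfw D L c) (z : F) * hgr D F c (z : F) * (hgr D F c (z : F))⁻¹ * (hgr D F (rfw D L c) (z : F))⁻¹ = 1 := by group
      rw [e3, mul_one, ← hG.xg_neg, ← hG.xg_add]
      congr 1; ring
    rw [e1]
    exact H.mul_mem (H.mul_mem (H.mul_mem hh k1) (H.inv_mem hh)) (H.inv_mem k1)
  have hP : P D F H d := P_field hG hz hc hd h2 hh (mul_ne_zero (sub_ne_zero.2 hn1) (sub_ne_zero.2 hn2.symm)) k2
  refine ⟨hh, hxb, hP, ?_⟩
  have e4 : nL D F L = (xg D F d 1)⁻¹ * (xg D F d 1 * nL D F L) := by group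
  rw [e4]
  exact H.mul_mem (H.inv_mem (hP 1)) hg2

/-- the full `P` for `b` from one element and one torus element -/
theorem P_of_one (hG : Good D N η rc) {z : Fˣ} (hz : ∀ x : Fˣ, x ∈ Subgroup.zpowers z) {L : List (Fin D.rank)} {c b : ℕ}
    (hc : c < D.nroots) (hb : b < D.nroots) {H : Subgroup (GL D.Idx F)} (hL : nL D F L ∈ H) (hh : hgr D F c (z : F) ∈ H)
    (hx : xg D F b 1 ∈ H) (k : ℕ) (hk : D.pairing c ((rfw D L)^[k] b) = 1 ∨ D.pairing c ((rfw D L)^[k] b) = -1) : P D F H b := by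
  obtain ⟨a', ha', hx'⟩ := x_iter hG hL hb one_ne_zero hx k
  exact (P_iter hG hL hb k).2 (P_field hG hz hc (iter_lt hG L hb k) hk hh ha' hx')

/-- the subgroup of `W` preserving the known root subgroups -/
def KW (hG : Good D N η rc) (H : Subgroup (GL D.Idx F)) : Subgroup hG.W where
  carrier := {w | ∀ r : Fin D.nroots, P D F H (r : ℕ) ↔ P D F H ((w.1 r : Fin D.nroots) : ℕ)}
  one_mem' := fun r => Iff.rfl
  mul_mem' := by
    intro a b ha hb r
    exact (hb r).trans (ha (b.1 r))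
  inv_mem' := by
    intro a ha r
    have h := ha (a⁻¹.1 r)
    have e : a.1 (a⁻¹.1 r) = r := by
      have : (a * a⁻¹).1 r = r := by rw [mul_inv_cancel]; rfl
      exact this
    rw [e] at h
    exact h.symm

theorem wp_mem_KW (hG : Good D N η rc) {H : Subgroup (GL D.Idx F)} {L : List (Fin D.rank)} (hL : nL D F L ∈ H) : wp hG.s L ∈ KW hG H := by
  intro r
  rw [wp_val]
  exact P_nL hG hL r.2

theorem ng_mem_of (hG : Good D N η rc) {H : Subgroup (GL D.Idx F)} {i : ℕ} (h1 : P D F H (D.simple i)) (h2 : P D F H (D.neg (D.simple i))) :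
    ng D F i ∈ H := by
  unfold ng ngr
  exact H.mul_mem (H.mul_mem (h1 _) (h2 _)) (h1 _)

theorem s_mem_KW (hG : Good D N η rc) {H : Subgroup (GL D.Idx F)} {i : Fin D.rank} (h : ng D F (i : ℕ) ∈ H) : hG.s i ∈ KW hG H := by
  have h1 : nL D F [i] ∈ H := by simpa [nL] using h
  have h2 := wp_mem_KW hG h1
  rwa [wp_single] at h2

/-- all simple reflections from the certificate -/
theorem all_s (hG : Good D N η rc) {A : List (List ℤ)}
    (hA : ∀ i < D.rank, ∀ j < D.rank, D.cartan i (D.simple j) = (A.getD i []).getD j 0)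
    (T : List (Fin D.rank)) (C : List (List (Option (Fin D.rank)) × List (Option (Fin D.rank))))
    (hC : gchk A D.rank T C = true) (K : Subgroup hG.W) (hc : wp hG.s (List.finRange D.rank) ∈ K) (hT : ∀ a ∈ T, hG.s a ∈ K) :
    ∀ i : Fin D.rank, hG.s i ∈ K := by
  intro i
  unfold gchk at hC
  rw [List.all_eq_true] at hC
  have h1 := hC i (List.mem_finRange i)
  rw [Bool.and_eq_true, Bool.and_eq_true, beq_iff_eq] at h1
  obtain ⟨⟨h2, h3⟩, h4⟩ := h1
  have h5 := wp_eq_one_of hG hA _ h4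
  rw [wp_append, wp_append, wp_single, hG.genInv.wp_reverse] at h5
  have h6 := wp_blk_mem hG T _ hc hT _ h2
  have h7 := wp_blk_mem hG T _ hc hT _ h3
  have h8 : hG.s i = (wp hG.s (blk (C.getD i.1 ([], [])).1) * (wp hG.s (blk (C.getD i.1 ([], [])).2))⁻¹)⁻¹ :=
    eq_inv_of_mul_eq_one_right h5
  rw [h8]
  exact inv_mem (mul_mem h6 (inv_mem h7))

theorem P_adj' (hG : Good D N η rc) {H : Subgroup (GL D.Idx F)} (hs : ∀ i : Fin D.rank, hG.s i ∈ KW hG H) {i j : ℕ}
    (h : adj D i j) (hP : P D F H (D.simple i)) : P D F H (D.simple j) := by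
  obtain ⟨hi, hj, h1, h2⟩ := h
  have h3 := (hs ⟨j, hj⟩ ⟨D.simple i, hG.simple_lt i hi⟩).1 hP
  have h4 : P D F H (D.reflectRoot j (D.simple i)) := h3
  rw [reflect_adj hG hi hj h1 h2] at h4
  exact (hs ⟨i, hi⟩ ⟨D.simple j, hG.simple_lt j hj⟩).2 h4

theorem P_walk' (hG : Good D N η rc) {H : Subgroup (GL D.Idx F)} (hs : ∀ i : Fin D.rank, hG.s i ∈ KW hG H) :
    ∀ (L : List ℕ), L.IsChain (adj D) → ∀ x ∈ L, ∀ y ∈ L, P D F H (D.simple x) → P D F H (D.simple y) := by
  intro L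
  induction L with
  | nil => intro _ x hx; simp at hx
  | cons a L ih =>
    intro hL x hx y hy hP
    cases L with
    | nil =>
      simp only [List.mem_cons, List.not_mem_nil, or_false] at hx hy
      rw [hy, ← hx]; exact hP
    | cons b L =>
      rw [List.isChain_cons_cons] at hL
      have hb : P D F H (D.simple b) := by
        rcases List.mem_cons.1 hx with rfl | hx
        · exact P_adj' hG hs hL.1 hP
        · exact ih hL.2 x hx b List.mem_cons_self hP
      rcases List.mem_cons.1 hy with rfl | hy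
      · exact P_adj' hG hs (adj_symm hL.1) hb
      · exact ih hL.2 b List.mem_cons_self y hy hb

theorem group_le' (hG : Good D N η rc) {H : Subgroup (GL D.Idx F)} (hs : ∀ i : Fin D.rank, hG.s i ∈ KW hG H)
    (h : ∀ i < D.rank, P D F H (D.simple i)) : D.group F ≤ H := by
  have h1 : ∀ r < D.nroots, P D F H r :=
    hG.root_induction h (fun i hi r hr h => (hs ⟨i, hi⟩ ⟨r, hr⟩).1 h)
  rw [hG.group_eq_closure, Subgroup.closure_le]
  rintro _ ⟨r, t, hr, rfl⟩
  exact h1 r hr t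

/-- the final step -/
theorem fin_main (hG : Good D N η rc) {A : List (List ℤ)}
    (hA : ∀ i < D.rank, ∀ j < D.rank, D.cartan i (D.simple j) = (A.getD i []).getD j 0)
    (T : List (Fin D.rank)) (C : List (List (Option (Fin D.rank)) × List (Option (Fin D.rank))))
    (hC : gchk A D.rank T C = true) {H : Subgroup (GL D.Idx F)} (hn : nL D F (List.finRange D.rank) ∈ H)
    (hT : ∀ a ∈ T, hG.s a ∈ KW hG H) (L1 L2 : List ℕ) (hL1 : L1.IsChain (adj D)) (hL2 : L2.IsChain (adj D))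
    (hcov : ∀ i < D.rank, i ∈ L1 ∨ i ∈ L2) (x y : ℕ) (hx : x ∈ L1) (hy : y ∈ L2) (hPx : P D F H (D.simple x)) (hPy : P D F H (D.simple y)) :
    D.group F ≤ H := by
  have hs := all_s hG hA T C hC (KW hG H) (wp_mem_KW hG hn) hT
  apply group_le' hG hs
  intro i hi
  rcases hcov i hi with h | h
  · exact P_walk' hG hs L1 hL1 x hx i h hPx
  · exact P_walk' hG hs L2 hL2 y hy i h hPy

end Cfsg.Agent.H16.Gen2
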