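import Mathlib
import Cfsg.Agent.H16.Gen2

/-! Generation of Chevalley groups by two elements, part 2. -/

set_option autoImplicit false
set_option linter.all false
set_option maxRecDepth 100000

namespace Cfsg.Agent.H16.Gen2

open Cfsg.Lie Cfsg.Agent.H6 Cfsg.Agent.H22 Cfsg.Agent.H16.ChMon Cfsg.Agent.H16.CoxC

section gen
variable {D : ChevalleyDatum} {N : ℕ} {η : ℕ → ℕ → ℤ} {rc : ℕ → ℕ → ℤ} {F : Type*} [Field F]

theorem nL_mem_group (hG : Good D N η rc) (L : List (Fin D.rank)) : nL D F L ∈ D.group F := by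
  induction L with
  | nil => simp [nL]
  | cons i L ih =>
    rw [nL_cons]
    exact mul_mem (hG.ngr_mem_group _ _) ih

theorem finish {G : Type*} [Group G] {K : Subgroup G} {a b : G} (ha : a ∈ K) (hb : b ∈ K) (h : K ≤ Subgroup.closure {a, b}) :
    ∃ a b : K, Subgroup.closure ({a, b} : Set K) = ⊤ := by
  refine ⟨⟨a, ha⟩, ⟨b, hb⟩, ?_⟩
  rw [eq_top_iff]
  intro x _
  have h1 := h x.2
  have h2 : Subgroup.closure ({a, b} : Set G) = (Subgroup.closure ({⟨a, ha⟩, ⟨b, hb⟩} : Set K)).map K.subtype := by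
    rw [MonoidHom.map_closure, Set.image_pair]; rfl
  rw [h2] at h1
  obtain ⟨y, hy, hyx⟩ := h1
  have : y = x := Subtype.ext hyx
  rw [← this]; exact hy

theorem finishT1 (hG : Good D N η rc) (L : List (Fin D.rank)) (c b d : ℕ) (z : Fˣ)
    (h : D.group F ≤ Subgroup.closure {hgr D F c (z : F) * xg D F b 1, xg D F d 1 * nL D F L}) :
    ∃ a b : ↥(D.group F), Subgroup.closure ({a, b} : Set ↥(D.group F)) = ⊤ :=
  finish (mul_mem (hG.hgr_mem_group _ _) (hG.xg_mem_group _ _)) (mul_mem (hG.xg_mem_group _ _) (nL_mem_group hG L)) h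

theorem finishT2 (hG : Good D N η rc) (L : List (Fin D.rank)) (c b : ℕ) (z : Fˣ)
    (h : D.group F ≤ Subgroup.closure {hgr D F c (z : F) * xg D F b 1, nL D F L}) :
    ∃ a b : ↥(D.group F), Subgroup.closure ({a, b} : Set ↥(D.group F)) = ⊤ :=
  finish (mul_mem (hG.hgr_mem_group _ _) (hG.xg_mem_group _ _)) (nL_mem_group hG L) h

theorem exists_z [Finite F] : ∃ z : Fˣ, ∀ x : Fˣ, x ∈ Subgroup.zpowers z := IsCyclic.exists_generator

theorem z_ne_one {z : Fˣ} (hz : ∀ x : Fˣ, x ∈ Subgroup.zpowers z) (h : ∃ x : F, x ≠ 0 ∧ x ≠ 1) : z ≠ 1 := by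
  rintro rfl
  obtain ⟨x, hx0, hx1⟩ := h
  have := hz (Units.mk0 x hx0)
  rw [Subgroup.zpowers_one_eq_bot, Subgroup.mem_bot] at this
  exact hx1 (congrArg Units.val this)

/-- `n_i` from the root and its negative in the `w`-orbit -/
theorem s_of_orbit (hG : Good D N η rc) {H : Subgroup (GL D.Idx F)} {L : List (Fin D.rank)} (hL : nL D F L ∈ H) (i : Fin D.rank) (k : ℕ)
    (hk : (rfw D L)^[k] (D.simple i) = D.neg (D.simple i)) (hP : P D F H (D.simple i)) : hG.s i ∈ KW hG H := by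
  apply s_mem_KW
  apply ng_mem_of hG hP
  rw [← hk]
  exact (P_iter hG hL (hG.simple_lt i i.2) k).1 hP

end gen

section two
variable {D : ChevalleyDatum} {N : ℕ} {η : ℕ → ℕ → ℤ} {rc : ℕ → ℕ → ℤ} {F : Type*} [Field F]

theorem cube {G : Type*} [Group G] {X Y : G} (hX : X * X = 1) (hY : Y * Y = 1) (h : X * Y * X * X * (X * Y * X)⁻¹ = Y) : (X * Y) ^ 3 = 1 := by
  have h1 : X * Y = Y * (X * Y * X) := by
    rw [mul_inv_eq_iff_eq_mul] at h
    rw [← h, mul_assoc (X * Y), hX, mul_one]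
  have h2 : X * Y * X = Y * X * Y := by
    have : Y * (X * Y) = Y * (Y * (X * Y * X)) := by rw [← h1]
    rw [← mul_assoc Y Y, hY, one_mul] at this
    rw [← this, mul_assoc]
  calc (X * Y) ^ 3 = (X * Y * X) * (Y * X * Y) := by rw [pow_succ, pow_two]; simp only [mul_assoc]
    _ = (Y * X * Y) * (Y * X * Y) := by rw [h2]
    _ = Y * X * (Y * Y) * X * Y := by group
    _ = Y * (X * X) * Y := by rw [hY]; group
    _ = 1 := by rw [hX, mul_one, hY]

/-- field of two elements -/
structure F2 (F : Type*) [Field F] : Prop where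
  h : ∀ x : F, x = 0 ∨ x = 1

theorem F2.neg (h : F2 F) : (-1 : F) = 1 := by
  rcases h.h (-1) with h1 | h1
  · exact absurd (neg_eq_zero.1 h1) one_ne_zero
  · exact h1

theorem F2.sq (h : F2 F) {a : F} (ha : a * a = 1) : a = 1 := by
  rcases h.h a with h1 | h1
  · rw [h1, zero_mul] at ha; exact absurd ha zero_ne_one
  · exact h1

theorem F2.P (h : F2 F) (hG : Good D N η rc) {H : Subgroup (GL D.Idx F)} {r : ℕ} (hx : xg D F r 1 ∈ H) : P D F H r := by
  intro t
  rcases h.h t with rfl | rfl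
  · rw [hG.xg_zero]; exact H.one_mem
  · exact hx

theorem F2.inv (h : F2 F) (hG : Good D N η rc) (r : ℕ) : (xg D F r 1)⁻¹ = xg D F r 1 := by
  rw [← hG.xg_neg, h.neg]

theorem F2.mul (h : F2 F) (hG : Good D N η rc) (r : ℕ) : xg D F r 1 * xg D F r 1 = 1 := by
  nth_rewrite 1 [← h.inv hG]
  exact inv_mul_cancel _

/-- the element of order three -/
noncomputable def uu (D : ChevalleyDatum) (F : Type*) [Field F] (j : ℕ) : GL D.Idx F := xg D F (D.simple j) 1 * xg D F (D.neg (D.simple j)) 1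

theorem ng_eq (h : F2 F) (hG : Good D N η rc) (j : ℕ) : ng D F j = uu D F j * xg D F (D.simple j) 1 := by
  unfold ng ngr uu
  rw [inv_one, h.neg]

theorem ng_conj1 (h : F2 F) (hG : Good D N η rc) {j r : ℕ} (hj : j < D.rank) (hr : r < D.nroots) :
    ng D F j * xg D F r 1 * (ng D F j)⁻¹ = xg D F (D.reflectRoot j r) 1 := by
  rw [hG.ng_conj hj hr, mul_one, h.sq (hG.etaF_sq (F := F) hj hr)]

theorem uu_cube (h : F2 F) (hG : Good D N η rc) {j : ℕ} (hj : j < D.rank) : uu D F j ^ 3 = 1 := by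
  have h1 := ng_conj1 h hG hj (hG.simple_lt j hj)
  rw [hG.w_simple, ng_eq h hG] at h1
  exact cube (h.mul hG _) (h.mul hG _) h1

theorem comm_nil (hG : Good D N η rc) (hE : Ext D rc) {r s : ℕ} (hr : r < D.nroots) (hs : s < D.nroots) (hrs : s ≠ r) (hneg : s ≠ D.neg r)
    (hc : D.commTerms r s = []) (t u : F) : xg D F s u * xg D F r t = xg D F r t * xg D F s u := by
  have h := hG.comm (F := F) hE hr hs hrs hneg t u
  have hw : wg D F (D.commWord F r s t u) = 1 := by
    unfold wg ChevalleyDatum.commWord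
    rw [hc]
    simp
  rw [hw, mul_one] at h
  exact h

theorem split2 (h : F2 F) (hG : Good D N η rc) (hE : Ext D rc) {j b : ℕ} (hj : j < D.rank) (hb : b < D.nroots)
    (h1 : b ≠ D.simple j) (h2 : b ≠ D.neg (D.simple j)) (h3 : b ≠ D.neg (D.neg (D.simple j))) (hc1 : D.commTerms (D.simple j) b = []) (hc2 : D.commTerms (D.neg (D.simple j)) b = [])
    {H : Subgroup (GL D.Idx F)} (hg : uu D F j * xg D F b 1 ∈ H) : uu D F j ∈ H ∧ xg D F b 1 ∈ H := by
  have hs := hG.simple_lt j hj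
  have e1 := comm_nil (F := F) hG hE hs hb h1 h2 hc1 1 1
  have e2 := comm_nil (F := F) hG hE (hG.neg_lt' hs) hb h2 h3 hc2 1 1
  have hcomm : Commute (uu D F j) (xg D F b 1) := by
    change uu D F j * xg D F b 1 = xg D F b 1 * uu D F j
    unfold uu
    rw [mul_assoc, ← e2, ← mul_assoc, ← e1, mul_assoc]
  have h4 : (uu D F j * xg D F b 1) ^ 3 = xg D F b 1 := by
    rw [hcomm.mul_pow, uu_cube h hG hj, one_mul, pow_succ, pow_two, h.mul hG, one_mul]
  have h5 : xg D F b 1 ∈ H := by rw [← h4]; exact H.pow_mem hg _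
  refine ⟨?_, h5⟩
  have h6 : uu D F j = uu D F j * xg D F b 1 * (xg D F b 1)⁻¹ := by group
  rw [h6]
  exact H.mul_mem hg (H.inv_mem h5)

/-- the check for the reflection -/
def chk2 (D : ChevalleyDatum) (j : ℕ) : Prop :=
  ∀ r < D.nroots, D.cartan j r = 0 ∨ r = D.simple j ∨ r = D.neg (D.simple j) ∨
    (D.commTerms (D.simple j) r = [] ∧ r ≠ D.simple j ∧ r ≠ D.neg (D.simple j)) ∨
    (D.commTerms (D.simple j) (D.reflectRoot j r) = [] ∧ D.reflectRoot j r ≠ D.simple j ∧ D.reflectRoot j r ≠ D.neg (D.simple j))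

instance (D : ChevalleyDatum) (j : ℕ) : Decidable (chk2 D j) := by unfold chk2; infer_instance

theorem s_mem_KW2 (h : F2 F) (hG : Good D N η rc) (hE : Ext D rc) (j : Fin D.rank) (hchk : chk2 D j) {H : Subgroup (GL D.Idx F)}
    (hu : uu D F j ∈ H) : hG.s j ∈ KW hG H := by
  have hs := hG.simple_lt j j.2
  have key : ∀ r < D.nroots, (D.commTerms (D.simple j) r = [] ∧ r ≠ D.simple j ∧ r ≠ D.neg (D.simple j)) →
      uu D F j * xg D F r 1 * (uu D F j)⁻¹ = xg D F (D.reflectRoot j r) 1 := by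
    rintro r hr ⟨h1, h2, h3⟩
    have e1 := comm_nil (F := F) hG hE hs hr h2 h3 h1 1 1
    rw [← ng_conj1 h hG j.2 hr, ng_eq h hG]
    have e2 : uu D F (j : ℕ) * xg D F (D.simple j) 1 * xg D F r 1 * (uu D F (j : ℕ) * xg D F (D.simple j) 1)⁻¹ =
        uu D F (j : ℕ) * (xg D F (D.simple j) 1 * xg D F r 1) * (xg D F (D.simple j) 1)⁻¹ * (uu D F (j : ℕ))⁻¹ := by group
    rw [e2, ← e1]; group
  have kiff : ∀ r < D.nroots, (D.commTerms (D.simple j) r = [] ∧ r ≠ D.simple j ∧ r ≠ D.neg (D.simple j)) →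
      (P D F H r ↔ P D F H (D.reflectRoot j r)) := by
    intro r hr hh
    have h1 := key r hr hh
    constructor
    · intro hP
      apply h.P hG
      rw [← h1]
      exact H.mul_mem (H.mul_mem hu (hP 1)) (H.inv_mem hu)
    · intro hP
      apply h.P hG
      have e2 : xg D F r 1 = (uu D F j)⁻¹ * xg D F (D.reflectRoot j r) 1 * uu D F j := by rw [← h1]; group
      rw [e2]
      exact H.mul_mem (H.mul_mem (H.inv_mem hu) (hP 1)) hu
  have kc : P D F H (D.simple j) ↔ P D F H (D.neg (D.simple j)) := by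
    constructor
    · intro hP
      apply h.P hG
      have e2 : xg D F (D.neg (D.simple j)) 1 = (xg D F (D.simple j) 1)⁻¹ * uu D F j := by unfold uu; group
      rw [e2]
      exact H.mul_mem (H.inv_mem (hP 1)) hu
    · intro hP
      apply h.P hG
      have e2 : xg D F (D.simple j) 1 = uu D F j * (xg D F (D.neg (D.simple j)) 1)⁻¹ := by unfold uu; group
      rw [e2]
      exact H.mul_mem hu (H.inv_mem (hP 1))
  intro r
  change P D F H (r : ℕ) ↔ P D F H (D.reflectRoot j r)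
  rcases hchk r r.2 with h0 | h0 | h0 | h0 | h0
  · rw [hG.w_eq_self j.2 r.2 h0]
  · rw [h0, hG.w_simple]; exact kc
  · have e1 := hG.w_w j j.2 (D.simple j) hs
    rw [hG.w_simple] at e1
    rw [h0, e1]; exact kc.symm
  · exact kiff r r.2 h0
  · have h1 := kiff _ (hG.w_lt j j.2 r r.2) h0
    rw [hG.w_w j j.2 r r.2] at h1
    exact h1.symm

end two

theorem mem1 {α : Type*} {p : α → Prop} {i : α} (h : p i) : ∀ a ∈ [i], p a := by
  intro a ha
  rw [List.mem_singleton] at ha
  rw [ha]; exact h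

theorem mem2 {α : Type*} {p : α → Prop} {i j : α} (h : p i) (h' : p j) : ∀ a ∈ [i, j], p a := by
  intro a ha
  rw [List.mem_cons, List.mem_singleton] at ha
  rcases ha with rfl | rfl
  · exact h
  · exact h'

variable {F : Type*} [Field F] [Finite F]

theorem genE6 : ∃ a b : ↥(chevE6.group F), Subgroup.closure ({a, b} : Set ↥(chevE6.group F)) = ⊤ := by
  letI := Fintype.ofFinite F
  obtain ⟨z, hz⟩ := exists_z (F := F)
  have hG := TE6.good
  obtain ⟨H, hH⟩ : ∃ H, H = Subgroup.closure {hgr chevE6 F 2 (z : F) * xg chevE6 F 56 1, nL chevE6 F (List.finRange chevE6.rank)} := ⟨_, rfl⟩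
  refine finishT2 hG (List.finRange chevE6.rank) 2 56 z ?_
  rw [← hH]
  have hL : nL chevE6 F (List.finRange chevE6.rank) ∈ H := by rw [hH]; exact Subgroup.subset_closure (Or.inr rfl)
  obtain ⟨hh, hx⟩ := split1 hG (by decide) (by decide) (by decide +kernel : chevE6.pairing 2 56 = 0) z
    (H := H) (by rw [hH]; exact Subgroup.subset_closure (Or.inl rfl))
  have hP : P chevE6 F H 56 := P_of_one hG hz (by decide : 2 < chevE6.nroots) (by decide) hL hh hx 1 (by decide +kernel)
  have hP' : P chevE6 F H (chevE6.simple (0 : Fin 6)) := hP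
  have e4 : (rfw chevE6 (List.finRange chevE6.rank))^[4] 56 = 52 := by decide +kernel
  have e8 : (rfw chevE6 (List.finRange chevE6.rank))^[8] 56 = 8 := by decide +kernel
  have p4 : P chevE6 F H 52 := by
    have := (P_iter hG hL (by decide : 56 < chevE6.nroots) 4).1 hP
    rwa [e4] at this
  have p8 : P chevE6 F H 8 := by
    have := (P_iter hG hL (by decide : 56 < chevE6.nroots) 8).1 hP
    rwa [e8] at this
  have p15 : P chevE6 F H 15 := P_comm hG TE6.ext (r := 52) (s := 8) (l := 15) (c := -1) (by decide) (by decide) (by decide) (by decide +kernel)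
    (by decide +kernel) (by simp) p4 p8
  have hs0 : hG.s (0 : Fin 6) ∈ KW hG H := s_mem_KW hG (ng_mem_of hG hP' (by
    have e : chevE6.neg (chevE6.simple ((0 : Fin 6) : ℕ)) = 15 := by decide +kernel
    rw [e]; exact p15))
  exact fin_main hG PE6.hA ([0] : List (Fin 6)) certE6 (by decide +kernel) hL (mem1 hs0) [0, 2, 3, 1, 3, 4, 5] [0] (by decide +kernel) (by decide +kernel) (by decide) 0 0 (by decide) (by decide) hP hP

theorem genE7 : ∃ a b : ↥(chevE7.group F), Subgroup.closure ({a, b} : Set ↥(chevE7.group F)) = ⊤ := by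
  letI := Fintype.ofFinite F
  obtain ⟨z, hz⟩ := exists_z (F := F)
  have hG := TE7.good
  obtain ⟨H, hH⟩ : ∃ H, H = Subgroup.closure {hgr chevE7 F 0 (z : F) * xg chevE7 F 78 1, nL chevE7 F (List.finRange chevE7.rank)} := ⟨_, rfl⟩
  refine finishT2 hG (List.finRange chevE7.rank) 0 78 z ?_
  rw [← hH]
  have hL : nL chevE7 F (List.finRange chevE7.rank) ∈ H := by rw [hH]; exact Subgroup.subset_closure (Or.inr rfl)
  obtain ⟨hh, hx⟩ := split1 hG (by decide) (by decide) (by decide +kernel : chevE7.pairing 0 78 = 0) z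
    (H := H) (by rw [hH]; exact Subgroup.subset_closure (Or.inl rfl))
  have hP : P chevE7 F H 78 := P_of_one hG hz (by decide : 0 < chevE7.nroots) (by decide) hL hh hx 1 (by decide +kernel)
  have hP' : P chevE7 F H (chevE7.simple (1 : Fin 7)) := hP
  have hs0 : hG.s (1 : Fin 7) ∈ KW hG H := s_of_orbit hG hL (1 : Fin 7) 9 (by decide +kernel) hP'
  exact fin_main hG PE7.hA ([1] : List (Fin 7)) certE7 (by decide +kernel) hL (mem1 hs0) [0, 2, 3, 1, 3, 4, 5, 6] [1] (by decide +kernel) (by decide +kernel) (by decide) 1 1 (by decide) (by decide) hP hP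

theorem genE8 : ∃ a b : ↥(chevE8.group F), Subgroup.closure ({a, b} : Set ↥(chevE8.group F)) = ⊤ := by
  letI := Fintype.ofFinite F
  obtain ⟨z, hz⟩ := exists_z (F := F)
  have hG := TE8.good
  obtain ⟨H, hH⟩ : ∃ H, H = Subgroup.closure {hgr chevE8 F 5 (z : F) * xg chevE8 F 162 1, nL chevE8 F (List.finRange chevE8.rank)} := ⟨_, rfl⟩
  refine finishT2 hG (List.finRange chevE8.rank) 5 162 z ?_
  rw [← hH]
  have hL : nL chevE8 F (List.finRange chevE8.rank) ∈ H := by rw [hH]; exact Subgroup.subset_closure (Or.inr rfl)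
  obtain ⟨hh, hx⟩ := split1 hG (by decide) (by decide) (by decide +kernel : chevE8.pairing 5 162 = 0) z
    (H := H) (by rw [hH]; exact Subgroup.subset_closure (Or.inl rfl))
  have hP : P chevE8 F H 162 := P_of_one hG hz (by decide : 5 < chevE8.nroots) (by decide) hL hh hx 1 (by decide +kernel)
  have hP' : P chevE8 F H (chevE8.simple (0 : Fin 8)) := hP
  have hs0 : hG.s (0 : Fin 8) ∈ KW hG H := s_of_orbit hG hL (0 : Fin 8) 15 (by decide +kernel) hP'
  exact fin_main hG PE8.hA ([0] : List (Fin 8)) certE8 (by decide +kernel) hL (mem1 hs0) [0, 2, 3, 1, 3, 4, 5, 6, 7] [0] (by decide +kernel) (by decide +kernel) (by decide) 0 0 (by decide) (by decide) hP hP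

theorem genD4_3 (h3 : ∃ x : F, x ≠ 0 ∧ x ≠ 1) : ∃ a b : ↥(chevD4.group F), Subgroup.closure ({a, b} : Set ↥(chevD4.group F)) = ⊤ := by
  letI := Fintype.ofFinite F
  obtain ⟨z, hz⟩ := exists_z (F := F)
  have hz1 := z_ne_one hz h3
  have hG := TD4.good
  obtain ⟨H, hH⟩ : ∃ H, H = Subgroup.closure {hgr chevD4 F 0 (z : F) * xg chevD4 F 18 1, xg chevD4 F 8 1 * nL chevD4 F (List.finRange chevD4.rank)} := ⟨_, rfl⟩
  refine finishT1 hG (List.finRange chevD4.rank) 0 18 8 z ?_
  rw [← hH]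
  obtain ⟨hh, hx, hPd, hL⟩ := T1 hG hz hz1 (List.finRange chevD4.rank) (c := 0) (b := 18) (d := 8) (by decide) (by decide) (by decide)
    (by decide +kernel) (by decide +kernel) (by decide +kernel) (H := H) (by rw [hH]; exact Subgroup.subset_closure (Or.inl rfl))
    (by rw [hH]; exact Subgroup.subset_closure (Or.inr rfl))
  have hP : P chevD4 F H 18 := P_of_one hG hz (by decide : 0 < chevD4.nroots) (by decide) hL hh hx 1 (by decide +kernel)
  have e2 : (rfw chevD4 (List.finRange chevD4.rank))^[2] 13 = 8 := by decide +kernel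
  have hP2 : P chevD4 F H 13 := (P_iter hG hL (by decide : 13 < chevD4.nroots) 2).2 (by rw [e2]; exact hPd)
  have hs0 : hG.s (0 : Fin 4) ∈ KW hG H := s_of_orbit hG hL (0 : Fin 4) 3 (by decide +kernel) hP
  have hs2 : hG.s (2 : Fin 4) ∈ KW hG H := s_of_orbit hG hL (2 : Fin 4) 3 (by decide +kernel) hP2
  exact fin_main hG PD4.hA ([0, 2] : List (Fin 4)) certD4 (by decide +kernel) hL (mem2 hs0 hs2) [0, 1, 2, 1, 3] [0] (by decide +kernel) (by decide +kernel) (by decide) 0 0 (by decide) (by decide) hP hP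

theorem genF4_3 (h3 : ∃ x : F, x ≠ 0 ∧ x ≠ 1) : ∃ a b : ↥(chevF4.group F), Subgroup.closure ({a, b} : Set ↥(chevF4.group F)) = ⊤ := by
  letI := Fintype.ofFinite F
  obtain ⟨z, hz⟩ := exists_z (F := F)
  have hz1 := z_ne_one hz h3
  have hG := TF4.good
  obtain ⟨H, hH⟩ : ∃ H, H = Subgroup.closure {hgr chevF4 F 2 (z : F) * xg chevF4 F 33 1, xg chevF4 F 25 1 * nL chevF4 F (List.finRange chevF4.rank)} := ⟨_, rfl⟩
  refine finishT1 hG (List.finRange chevF4.rank) 2 33 25 z ?_
  rw [← hH]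
  obtain ⟨hh, hx, hPd, hL⟩ := T1 hG hz hz1 (List.finRange chevF4.rank) (c := 2) (b := 33) (d := 25) (by decide) (by decide) (by decide)
    (by decide +kernel) (by decide +kernel) (by decide +kernel) (H := H) (by rw [hH]; exact Subgroup.subset_closure (Or.inl rfl))
    (by rw [hH]; exact Subgroup.subset_closure (Or.inr rfl))
  have hP : P chevF4 F H 33 := P_of_one hG hz (by decide : 2 < chevF4.nroots) (by decide) hL hh hx 1 (by decide +kernel)
  have hs0 : hG.s (0 : Fin 4) ∈ KW hG H := s_of_orbit hG hL (0 : Fin 4) 6 (by decide +kernel) hP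
  have hs2 : hG.s (2 : Fin 4) ∈ KW hG H := s_of_orbit hG hL (2 : Fin 4) 6 (by decide +kernel) hPd
  exact fin_main hG PF4.hA ([0, 2] : List (Fin 4)) certF4 (by decide +kernel) hL (mem2 hs0 hs2) [0, 1] [2, 3] (by decide +kernel) (by decide +kernel) (by decide) 0 2 (by decide) (by decide) hP hPd

theorem genG2_3 (h3 : ∃ x : F, x ≠ 0 ∧ x ≠ 1) : ∃ a b : ↥(chevG2.group F), Subgroup.closure ({a, b} : Set ↥(chevG2.group F)) = ⊤ := by
  letI := Fintype.ofFinite F
  obtain ⟨z, hz⟩ := exists_z (F := F)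
  have hz1 := z_ne_one hz h3
  have hG := TG2.good
  obtain ⟨H, hH⟩ : ∃ H, H = Subgroup.closure {hgr chevG2 F 0 (z : F) * xg chevG2 F 7 1, xg chevG2 F 1 1 * nL chevG2 F (List.finRange chevG2.rank)} := ⟨_, rfl⟩
  refine finishT1 hG (List.finRange chevG2.rank) 0 7 1 z ?_
  rw [← hH]
  obtain ⟨hh, hx, hPd, hL⟩ := T1 hG hz hz1 (List.finRange chevG2.rank) (c := 0) (b := 7) (d := 1) (by decide) (by decide) (by decide)
    (by decide +kernel) (by decide +kernel) (by decide +kernel) (H := H) (by rw [hH]; exact Subgroup.subset_closure (Or.inl rfl))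
    (by rw [hH]; exact Subgroup.subset_closure (Or.inr rfl))
  have hP : P chevG2 F H 7 := P_of_one hG hz (by decide : 0 < chevG2.nroots) (by decide) hL hh hx 1 (by decide +kernel)
  have e2 : (rfw chevG2 (List.finRange chevG2.rank))^[1] 6 = 1 := by decide +kernel
  have hP2 : P chevG2 F H 6 := (P_iter hG hL (by decide : 6 < chevG2.nroots) 1).2 (by rw [e2]; exact hPd)
  have hs0 : hG.s (0 : Fin 2) ∈ KW hG H := s_of_orbit hG hL (0 : Fin 2) 3 (by decide +kernel) hP
  exact fin_main hG PG2.hA ([0] : List (Fin 2)) certG2 (by decide +kernel) hL (mem1 hs0) [0] [1] (by decide +kernel) (by decide +kernel) (by decide) 0 1 (by decide) (by decide) hP hP2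

theorem genB2_3 (h3 : ∃ x : F, x ≠ 0 ∧ x ≠ 1) : ∃ a b : ↥(chevB2.group F), Subgroup.closure ({a, b} : Set ↥(chevB2.group F)) = ⊤ := by
  letI := Fintype.ofFinite F
  obtain ⟨z, hz⟩ := exists_z (F := F)
  have hz1 := z_ne_one hz h3
  have hG := TB2.good
  obtain ⟨H, hH⟩ : ∃ H, H = Subgroup.closure {hgr chevB2 F 0 (z : F) * xg chevB2 F 4 1, xg chevB2 F 5 1 * nL chevB2 F (List.finRange chevB2.rank)} := ⟨_, rfl⟩
  refine finishT1 hG (List.finRange chevB2.rank) 0 4 5 z ?_
  rw [← hH]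
  obtain ⟨hh, hx, hPd, hL⟩ := T1 hG hz hz1 (List.finRange chevB2.rank) (c := 0) (b := 4) (d := 5) (by decide) (by decide) (by decide)
    (by decide +kernel) (by decide +kernel) (by decide +kernel) (H := H) (by rw [hH]; exact Subgroup.subset_closure (Or.inl rfl))
    (by rw [hH]; exact Subgroup.subset_closure (Or.inr rfl))
  have hs0 : hG.s (0 : Fin 2) ∈ KW hG H := s_of_orbit hG hL (0 : Fin 2) 2 (by decide +kernel) hPd
  have hP4 : P chevB2 F H 4 := by
    by_cases h2 : (2 : F) = 0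
    · -- characteristic two
      have hsq : ∀ x : Fˣ, ∃ y : Fˣ, y ^ (2 : ℤ) = x := by
        intro x
        haveI : CharP F 2 := CharTwo.of_one_ne_zero_of_two_eq_zero one_ne_zero h2
        obtain ⟨y, hy⟩ := (FiniteField.isSquare_of_char_two (ringChar.eq F 2) (x : F))
        have hy0 : y ≠ 0 := by
          rintro rfl
          rw [mul_zero] at hy
          exact x.ne_zero hy
        refine ⟨Units.mk0 y hy0, ?_⟩
        apply Units.ext
        rw [zpow_ofNat, Units.val_pow_eq_pow_val, Units.val_mk0, hy, pow_two]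
      obtain ⟨a', ha', hx'⟩ := x_iter hG hL (by decide : 4 < chevB2.nroots) one_ne_zero hx 1
      exact (P_iter hG hL (by decide : 4 < chevB2.nroots) 1).2 (P_field2 hG hz hsq (by decide : 0 < chevB2.nroots)
        (iter_lt hG _ (by decide : 4 < chevB2.nroots) 1) (by decide +kernel) hh ha' hx')
    · have e1 : (rfw chevB2 (List.finRange chevB2.rank))^[1] 5 = 6 := by decide +kernel
      have p6 : P chevB2 F H 6 := by
        have := (P_iter hG hL (by decide : 5 < chevB2.nroots) 1).1 hPd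
        rwa [e1] at this
      have p7 : P chevB2 F H 7 := P_comm hG TB2.ext (r := 5) (s := 6) (l := 7) (c := 2) (by decide) (by decide) (by decide) (by decide +kernel)
        (by decide +kernel) (by exact_mod_cast h2) hPd p6
      have e2 : (rfw chevB2 (List.finRange chevB2.rank))^[1] 7 = 4 := by decide +kernel
      have := (P_iter hG hL (by decide : 7 < chevB2.nroots) 1).1 p7
      rwa [e2] at this
  exact fin_main hG PB2.hA ([0] : List (Fin 2)) certB2 (by decide +kernel) hL (mem1 hs0) [0] [1] (by decide +kernel) (by decide +kernel) (by decide) 0 1 (by decide) (by decide) hPd hP4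

theorem genD4_2 (h2 : F2 F) : ∃ a b : ↥(chevD4.group F), Subgroup.closure ({a, b} : Set ↥(chevD4.group F)) = ⊤ := by
  have hG := TD4.good
  obtain ⟨H, hH⟩ : ∃ H, H = Subgroup.closure {uu chevD4 F 2 * xg chevD4 F 18 1, nL chevD4 F (List.finRange chevD4.rank)} := ⟨_, rfl⟩
  refine finish (a := uu chevD4 F 2 * xg chevD4 F 18 1) (b := nL chevD4 F (List.finRange chevD4.rank))
    (mul_mem (mul_mem (hG.xg_mem_group _ _) (hG.xg_mem_group _ _)) (hG.xg_mem_group _ _)) (nL_mem_group hG _) ?_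
  rw [← hH]
  have hL : nL chevD4 F (List.finRange chevD4.rank) ∈ H := by rw [hH]; exact Subgroup.subset_closure (Or.inr rfl)
  obtain ⟨hu, hx⟩ := split2 h2 hG TD4.ext (j := 2) (b := 18) (by decide) (by decide) (by decide +kernel) (by decide +kernel) (by decide +kernel)
    (by decide +kernel) (by decide +kernel) (H := H) (by rw [hH]; exact Subgroup.subset_closure (Or.inl rfl))
  have hP : P chevD4 F H 18 := h2.P hG hx
  have hs0 : hG.s (0 : Fin 4) ∈ KW hG H := s_of_orbit hG hL (0 : Fin 4) 3 (by decide +kernel) hP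
  have hs2 : hG.s (2 : Fin 4) ∈ KW hG H := s_mem_KW2 h2 hG TD4.ext (2 : Fin 4) (by decide +kernel) hu
  exact fin_main hG PD4.hA ([0, 2] : List (Fin 4)) certD4 (by decide +kernel) hL (mem2 hs0 hs2) [0, 1, 2, 1, 3] [0] (by decide +kernel) (by decide +kernel) (by decide) 0 0 (by decide) (by decide) hP hP

theorem genF4_2 (h2 : F2 F) : ∃ a b : ↥(chevF4.group F), Subgroup.closure ({a, b} : Set ↥(chevF4.group F)) = ⊤ := by
  have hG := TF4.good
  obtain ⟨H, hH⟩ : ∃ H, H = Subgroup.closure {uu chevF4 F 2 * xg chevF4 F 33 1, nL chevF4 F (List.finRange chevF4.rank)} := ⟨_, rfl⟩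
  refine finish (a := uu chevF4 F 2 * xg chevF4 F 33 1) (b := nL chevF4 F (List.finRange chevF4.rank))
    (mul_mem (mul_mem (hG.xg_mem_group _ _) (hG.xg_mem_group _ _)) (hG.xg_mem_group _ _)) (nL_mem_group hG _) ?_
  rw [← hH]
  have hL : nL chevF4 F (List.finRange chevF4.rank) ∈ H := by rw [hH]; exact Subgroup.subset_closure (Or.inr rfl)
  obtain ⟨hu, hx⟩ := split2 h2 hG TF4.ext (j := 2) (b := 33) (by decide) (by decide) (by decide +kernel) (by decide +kernel) (by decide +kernel)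
    (by decide +kernel) (by decide +kernel) (H := H) (by rw [hH]; exact Subgroup.subset_closure (Or.inl rfl))
  have hP : P chevF4 F H 33 := h2.P hG hx
  have hs0 : hG.s (0 : Fin 4) ∈ KW hG H := s_of_orbit hG hL (0 : Fin 4) 6 (by decide +kernel) hP
  have hs2 : hG.s (2 : Fin 4) ∈ KW hG H := s_mem_KW2 h2 hG TF4.ext (2 : Fin 4) (by decide +kernel) hu
  have hs := all_s hG PF4.hA ([0, 2] : List (Fin 4)) certF4 (by decide +kernel) (KW hG H) (wp_mem_KW hG hL) (mem2 hs0 hs2)
  have hP1 : P chevF4 F H 27 := P_walk' hG hs [0, 1] (by decide +kernel) 0 (by decide) 1 (by decide) hP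
  have hP28 : P chevF4 F H 28 := by
    have h1 := (hs2 ⟨27, by decide⟩).1 hP1
    have e : ((((hG.s (2 : Fin 4)) : hG.W).1 ⟨27, by decide⟩ : Fin chevF4.nroots) : ℕ) = 28 := by
      have e1 : chevF4.reflectRoot 2 27 = 28 := by decide +kernel
      exact e1
    rwa [e] at h1
  -- the commutator
  have hc := hG.comm (F := F) TF4.ext (r := 25) (s := 27) (by decide) (by decide) (by decide) (by decide +kernel) 1 1
  have hw : wg chevF4 F (chevF4.commWord F 25 27 1 1) = xg chevF4 F 28 1 * xg chevF4 F 30 1 := by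
    unfold wg ChevalleyDatum.commWord
    have e : chevF4.commTerms 25 27 = [(28, 1, 1, 1), (30, -1, 1, 2)] := by decide +kernel
    rw [e]
    simp only [List.map_cons, List.map_nil, List.prod_cons, List.prod_nil, mul_one, pow_one, one_pow, Int.cast_one, Int.cast_neg, h2.neg]
  rw [hw] at hc
  have hX : uu chevF4 F 2 = xg chevF4 F 25 1 * xg chevF4 F (chevF4.neg 25) 1 := rfl
  have hYc := comm_nil (F := F) hG TF4.ext (r := chevF4.neg 25) (s := 27) (by decide +kernel) (by decide) (by decide +kernel) (by decide +kernel) (by decide +kernel) 1 1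
  have hW : xg chevF4 F 28 1 * xg chevF4 F 30 1 ∈ H := by
    have e1 : xg chevF4 F 28 1 * xg chevF4 F 30 1 = (xg chevF4 F 27 1)⁻¹ * ((xg chevF4 F 25 1)⁻¹ * (xg chevF4 F 27 1 * xg chevF4 F 25 1)) := by
      rw [hc]; group
    have e2 : (xg chevF4 F 25 1)⁻¹ * (xg chevF4 F 27 1 * xg chevF4 F 25 1) = uu chevF4 F 2 * xg chevF4 F 27 1 * (uu chevF4 F 2)⁻¹ := by
      rw [h2.inv hG]
      have e3 : uu chevF4 F 2 * xg chevF4 F 27 1 * (uu chevF4 F 2)⁻¹ =
          xg chevF4 F 25 1 * (xg chevF4 F (chevF4.neg 25) 1 * xg chevF4 F 27 1) * (xg chevF4 F (chevF4.neg 25) 1)⁻¹ * (xg chevF4 F 25 1)⁻¹ := by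
        rw [hX]; group
      rw [e3, ← hYc, h2.inv hG 25]; group
    rw [e1, e2]
    exact H.mul_mem (H.inv_mem (hP1 1)) (H.mul_mem (H.mul_mem hu (hP1 1)) (H.inv_mem hu))
  have hx30 : xg chevF4 F 30 1 ∈ H := by
    have e1 : xg chevF4 F 30 1 = (xg chevF4 F 28 1)⁻¹ * (xg chevF4 F 28 1 * xg chevF4 F 30 1) := by group
    rw [e1]
    exact H.mul_mem (H.inv_mem (hP28 1)) hW
  have hP25 : P chevF4 F H 25 := by
    have h1 := (hs (1 : Fin 4) ⟨25, by decide⟩)
    have e : ((((hG.s (1 : Fin 4)) : hG.W).1 ⟨25, by decide⟩ : Fin chevF4.nroots) : ℕ) = 30 := by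
      have e1 : chevF4.reflectRoot 1 25 = 30 := by decide +kernel
      exact e1
    rw [e] at h1
    exact h1.2 (h2.P hG hx30)
  exact fin_main hG PF4.hA ([0, 2] : List (Fin 4)) certF4 (by decide +kernel) hL (mem2 hs0 hs2) [0, 1] [2, 3] (by decide +kernel) (by decide +kernel) (by decide) 0 2 (by decide) (by decide) hP hP25

theorem main2405 (D : Cfsg.Lie.ChevalleyDatum) (hD : D ∈ [Cfsg.Lie.chevG2, Cfsg.Lie.chevB2, Cfsg.Lie.chevD4, Cfsg.Lie.chevF4, Cfsg.Lie.chevE6, Cfsg.Lie.chevE7, Cfsg.Lie.chevE8])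
    (hF : D ∈ [Cfsg.Lie.chevB2, Cfsg.Lie.chevG2] → ∃ x : F, x ≠ 0 ∧ x ≠ 1) :
    ∃ a b : ↥(D.group F), Subgroup.closure ({a, b} : Set ↥(D.group F)) = ⊤ := by
  simp only [List.mem_cons, List.not_mem_nil, or_false] at hD
  rcases hD with rfl | rfl | rfl | rfl | rfl | rfl | rfl
  · exact genG2_3 (hF (by simp))
  · exact genB2_3 (hF (by simp))
  · by_cases h3 : ∃ x : F, x ≠ 0 ∧ x ≠ 1
    · exact genD4_3 h3
    · exact genD4_2 ⟨fun x => by
        by_contra hx
        push Not at hx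
        exact h3 ⟨x, hx.1, hx.2⟩⟩
  · by_cases h3 : ∃ x : F, x ≠ 0 ∧ x ≠ 1
    · exact genF4_3 h3
    · exact genF4_2 ⟨fun x => by
        by_contra hx
        push Not at hx
        exact h3 ⟨x, hx.1, hx.2⟩⟩
  · exact genE6
  · exact genE7
  · exact genE8

end Cfsg.Agent.H16.Gen2
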