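import Mathlib
import Cfsg.Agent.H16.CoxA

set_option autoImplicit false
set_option linter.all false
set_option maxHeartbeats 400000

/-! Generic Hecke algebras: left and right multiplication operators. -/

namespace Cfsg.Agent.H16.GenH

open Cfsg.Agent.H6 Cfsg.Agent.H16.BNS
open scoped ComplexConjugate

variable {W ι : Type*} [Group W] [Fintype W] [DecidableEq W] {s : ι → W}

/-- weights -/
structure Wt (s : ι → W) (ν : W → ℝ) : Prop where
  pos : ∀ w, 0 < ν w
  mul : ∀ x y, len s (x * y) = len s x + len s y → ν (x * y) = ν x * ν y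

open Classical in
/-- left multiplication -/
noncomputable def Lm (s : ι → W) (ν : W → ℝ) (i : ι) : (W → ℂ) →ₗ[ℂ] (W → ℂ) where
  toFun f w := if len s (s i * w) < len s w then f (s i * w) + ((ν (s i) : ℂ) - 1) * f w else (ν (s i) : ℂ) * f (s i * w)
  map_add' f g := by ext w; simp only [Pi.add_apply]; split_ifs <;> ring
  map_smul' c f := by ext w; simp only [Pi.smul_apply, smul_eq_mul, RingHom.id_apply]; split_ifs <;> ring

open Classical in
/-- right multiplication -/
noncomputable def Rm (s : ι → W) (ν : W → ℝ) (i : ι) : (W → ℂ) →ₗ[ℂ] (W → ℂ) where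
  toFun f w := if len s (w * s i) < len s w then f (w * s i) + ((ν (s i) : ℂ) - 1) * f w else (ν (s i) : ℂ) * f (w * s i)
  map_add' f g := by ext w; simp only [Pi.add_apply]; split_ifs <;> ring
  map_smul' c f := by ext w; simp only [Pi.smul_apply, smul_eq_mul, RingHom.id_apply]; split_ifs <;> ring

open Classical in
omit [Fintype W] [DecidableEq W] in
theorem Lm_apply (ν : W → ℝ) (i : ι) (f : W → ℂ) (w : W) : Lm s ν i f w =
    if len s (s i * w) < len s w then f (s i * w) + ((ν (s i) : ℂ) - 1) * f w else (ν (s i) : ℂ) * f (s i * w) := rfl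

open Classical in
omit [Fintype W] [DecidableEq W] in
theorem Rm_apply (ν : W → ℝ) (i : ι) (f : W → ℂ) (w : W) : Rm s ν i f w =
    if len s (w * s i) < len s w then f (w * s i) + ((ν (s i) : ℂ) - 1) * f w else (ν (s i) : ℂ) * f (w * s i) := rfl

section
variable (hs : GenInv s) (hex : Exchange s) (hne : ∀ i w, len s (s i * w) ≠ len s w)

include hs hex in
omit [Fintype W] [DecidableEq W] in
theorem key1 {i j : ι} {w : W} (h1 : len s w < len s (s i * w)) (h2 : len s w < len s (w * s j)) (h3 : len s (s i * w * s j) ≤ len s w) :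
    s i * w = w * s j := by
  obtain ⟨L, hL, rfl⟩ := hs.exists_isRed w
  have hL' : len s (wp s L) = L.length := hL
  have e1 : wp s (L ++ [j]) = wp s L * s j := by rw [wp_append, wp_cons, wp_nil, mul_one]
  have hLj : IsRed s (L ++ [j]) := by
    unfold IsRed
    rw [e1, List.length_append, List.length_singleton]
    have := hs.len_mul_s_le j (wp s L)
    omega
  have hle : len s (s i * wp s (L ++ [j])) ≤ len s (wp s (L ++ [j])) := by
    rw [e1, ← mul_assoc]; omega
  obtain ⟨L₁, L₂, k, h4, h5⟩ := hex i (L ++ [j]) hLj hle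
  rcases List.eq_nil_or_concat L₂ with h6 | ⟨L₃, b, h6⟩
  · rw [h6] at h4
    have h7 := List.append_inj' h4 rfl
    obtain ⟨h8, h9⟩ := h7
    have h10 : j = k := by simpa using h9
    rw [h8, h10]; exact h5
  · exfalso
    rw [h6, List.concat_eq_append] at h4
    have h7 : L ++ [j] = (L₁ ++ k :: L₃) ++ [b] := by rw [h4]; simp
    have h8 := (List.append_inj' h7 rfl).1
    rw [h8] at h1 hL'
    rw [hs.exchange_iff h5] at h1
    have h9 := len_le (s := s) (L₁ ++ L₃)
    rw [hL'] at h1
    simp only [List.length_append, List.length_cons] at h1 h9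
    omega

include hs hex hne in
omit [Fintype W] [DecidableEq W] in
/-- lengths behave uniformly unless `s w = w t` -/
theorem key2 {i j : ι} {w : W} (h : s i * w ≠ w * s j) :
    (len s (s i * w * s j) < len s (s i * w) ↔ len s (w * s j) < len s w) ∧
    (len s (s i * (w * s j)) < len s (w * s j) ↔ len s (s i * w) < len s w) := by
  have a1 := hne i w
  have a2 := hneR hs hne j w
  have a3 := hneR hs hne j (s i * w)
  have a4 := hne i (w * s j)
  have e : s i * (w * s j) = s i * w * s j := by rw [mul_assoc]
  rw [e] at a4 ⊢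
  have b1 := hs.len_smul_le i w
  have b2 := hs.len_le_smul i w
  have b3 := hs.len_mul_s_le j w
  have b4 := hs.len_le_mul_s j w
  have b5 := hs.len_mul_s_le j (s i * w)
  have b6 := hs.len_le_mul_s j (s i * w)
  have b7 := hs.len_smul_le i (w * s j)
  have b8 := hs.len_le_smul i (w * s j)
  rw [e] at b7 b8
  have k1 : ¬ (len s w < len s (s i * w) ∧ len s w < len s (w * s j) ∧ len s (s i * w * s j) ≤ len s w) :=
    fun ⟨h1, h2, h3⟩ => h (key1 hs hex h1 h2 h3)
  have k2 : ¬ (len s (s i * w) < len s w ∧ len s (w * s j) < len s w ∧ len s w ≤ len s (s i * w * s j)) := by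
    rintro ⟨h1, h2, h3⟩
    have h4 : s i * (w * s j) = (w * s j) * s j := by
      apply key1 hs hex
      · rw [e]; omega
      · rw [hs.cancel']; exact h2
      · rw [mul_assoc, hs.cancel']; omega
    rw [hs.cancel'] at h4
    apply h
    have : s i * w = s i * (s i * (w * s j)) := by rw [h4]
    rw [this, hs.cancel]
  constructor <;> constructor <;> intro h5 <;> by_contra h6 <;> omega

variable {ν : W → ℝ} (hν : Wt s ν)
include hs hν in
omit [Fintype W] [DecidableEq W] in
theorem wt_up {i : ι} {w : W} (hne : ∀ i w, len s (s i * w) ≠ len s w) (h : len s w < len s (s i * w)) : ν (s i * w) = ν (s i) * ν w := by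
  apply hν.mul
  have h1 := hs.len_smul_le i w
  have h2 := hs.len_s_le i
  have h3 : len s (s i) ≠ 0 := by
    intro h0
    have := hne i 1
    rw [mul_one, h0, hs.len_one] at this
    exact this rfl
  omega

include hs hν in
omit [Fintype W] [DecidableEq W] in
theorem wt_upR {i : ι} {w : W} (hne : ∀ i w, len s (s i * w) ≠ len s w) (h : len s w < len s (w * s i)) : ν (w * s i) = ν w * ν (s i) := by
  apply hν.mul
  have h1 := hs.len_mul_s_le i w
  have h2 := hs.len_s_le i
  have h3 : len s (s i) ≠ 0 := by
    intro h0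
    have := hne i 1
    rw [mul_one, h0, hs.len_one] at this
    exact this rfl
  omega

include hs hν hne in
omit [Fintype W] [DecidableEq W] in
theorem wt_eq {i j : ι} {w : W} (h : s i * w = w * s j) : ν (s i) = ν (s j) := by
  have hw := hν.pos w
  have hw' := hν.pos (s i * w)
  rcases lt_or_gt_of_ne (hne i w) with h1 | h1
  · have e1 : ν w = ν (s i) * ν (s i * w) := by
      have := wt_up hs hν (i := i) (w := s i * w) hne (by rw [hs.cancel]; exact h1)
      rwa [hs.cancel] at this
    have e2 : ν w = ν (w * s j) * ν (s j) := by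
      have := wt_upR hs hν (i := j) (w := w * s j) hne (by rw [hs.cancel', ← h]; exact h1)
      rwa [hs.cancel'] at this
    rw [← h] at e2
    have : ν (s i) * ν (s i * w) = ν (s j) * ν (s i * w) := by rw [← e1, e2]; ring
    exact mul_right_cancel₀ hw'.ne' this
  · have e1 := wt_up hs hν hne h1
    have e2 := wt_upR hs hν (i := j) (w := w) hne (by rw [← h]; exact h1)
    rw [← h, e1] at e2
    have : ν (s i) * ν w = ν (s j) * ν w := by rw [e2]; ring
    exact mul_right_cancel₀ hw.ne' this

include hs hex hne hν in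
omit [Fintype W] [DecidableEq W] in
/-- left and right multiplications commute -/
theorem LR_comm (i j : ι) (f : W → ℂ) : Lm s ν i (Rm s ν j f) = Rm s ν j (Lm s ν i f) := by
  classical
  ext w
  by_cases h : s i * w = w * s j
  · have hν' := wt_eq hs hne hν h
    have e1 : s i * w * s j = w := by rw [h, hs.cancel']
    have e2 : s i * (w * s j) = w := by rw [← h, hs.cancel]
    rw [Lm_apply, Rm_apply, Rm_apply, Rm_apply, Lm_apply, Lm_apply, e1, e2, ← h, ← hν']
  · obtain ⟨k1, k2⟩ := key2 hs hex hne h
    have e : s i * (w * s j) = s i * w * s j := by rw [mul_assoc]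
    rw [Lm_apply, Rm_apply, Rm_apply, Rm_apply, Lm_apply, Lm_apply]
    simp only [k1, k2]
    rw [e]
    by_cases h1 : len s (s i * w) < len s w <;> by_cases h2 : len s (w * s j) < len s w <;> simp only [h1, h2, if_true, if_false] <;> ring

end

end Cfsg.Agent.H16.GenH
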