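import Mathlib
import Cfsg.Agent.H16.GenHA

set_option autoImplicit false
set_option linter.all false
set_option maxHeartbeats 400000

/-! Generic Hecke algebras: the centre as the image of a projection. -/

namespace Cfsg.Agent.H16.GenH

open Cfsg.Agent.H6 Cfsg.Agent.H16.BNS
open scoped ComplexConjugate

variable {W ι : Type*} [Group W] [Fintype W] [DecidableEq W] {s : ι → W}

abbrev EE (W : Type*) := Module.End ℂ (W → ℂ)

/-- basis vectors -/
def eb (w : W) : W → ℂ := Pi.single w 1

/-- a reduced word -/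
noncomputable def wd (hs : GenInv s) (w : W) : List ι := (hs.exists_isRed w).choose
omit [Fintype W] [DecidableEq W] in
theorem wd_red (hs : GenInv s) (w : W) : IsRed s (wd hs w) := (hs.exists_isRed w).choose_spec.1
omit [Fintype W] [DecidableEq W] in
theorem wd_wp (hs : GenInv s) (w : W) : wp s (wd hs w) = w := (hs.exists_isRed w).choose_spec.2

noncomputable def PL (s : ι → W) (ν : W → ℝ) (L : List ι) : EE W := (L.map (fun i => (Lm s ν i : EE W))).prod
noncomputable def PR (s : ι → W) (ν : W → ℝ) (L : List ι) : EE W := (L.reverse.map (fun i => (Rm s ν i : EE W))).prod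
noncomputable def LL (hs : GenInv s) (ν : W → ℝ) (w : W) : EE W := PL s ν (wd hs w)
noncomputable def RR (hs : GenInv s) (ν : W → ℝ) (w : W) : EE W := PR s ν (wd hs w)

omit [Fintype W] [DecidableEq W] in
theorem PL_cons (ν : W → ℝ) (i : ι) (L : List ι) : PL s ν (i :: L) = (Lm s ν i : EE W) * PL s ν L := by
  unfold PL; rw [List.map_cons, List.prod_cons]
omit [Fintype W] [DecidableEq W] in
theorem PR_cons (ν : W → ℝ) (i : ι) (L : List ι) : PR s ν (i :: L) = PR s ν L * (Rm s ν i : EE W) := by
  unfold PR; rw [List.reverse_cons, List.map_append, List.prod_append, List.map_singleton, List.prod_singleton]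
omit [Fintype W] [DecidableEq W] in
theorem PR_concat (ν : W → ℝ) (i : ι) (L : List ι) : PR s ν (L ++ [i]) = (Rm s ν i : EE W) * PR s ν L := by
  unfold PR; rw [List.reverse_append, List.reverse_singleton, List.singleton_append, List.map_cons, List.prod_cons]

section
variable (hs : GenInv s) (hex : Exchange s) (hne : ∀ i w, len s (s i * w) ≠ len s w) {ν : W → ℝ} (hν : Wt s ν)

include hs hne in
omit [Fintype W] in
theorem Lm_up {i : ι} {w : W} (h : len s w < len s (s i * w)) : Lm s ν i (eb w) = eb (s i * w) := by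
  classical
  ext x
  rw [Lm_apply]
  unfold eb
  simp only [Pi.single_apply]
  by_cases h1 : x = s i * w
  · subst h1
    have h2 : s i * w ≠ w := by intro h3; rw [h3] at h; exact lt_irrefl _ h
    rw [hs.cancel, if_pos h, if_pos rfl, if_neg h2, if_pos rfl]; ring
  · have h3 : s i * x ≠ w := by
      intro h4; apply h1; rw [← h4, hs.cancel]
    rw [if_neg h1, if_neg h3]
    by_cases h4 : x = w
    · subst h4
      rw [if_neg (by omega)]; ring
    · rw [if_neg h4]; simp

include hs hne in
omit [Fintype W] in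
theorem Lm_down {i : ι} {w : W} (h : len s (s i * w) < len s w) : Lm s ν i (eb w) = (ν (s i) : ℂ) • eb (s i * w) + ((ν (s i) : ℂ) - 1) • eb w := by
  classical
  ext x
  rw [Lm_apply]
  unfold eb
  simp only [Pi.single_apply, Pi.add_apply, Pi.smul_apply, smul_eq_mul]
  have h2 : s i * w ≠ w := by intro h3; rw [h3] at h; exact lt_irrefl _ h
  by_cases h1 : x = s i * w
  · subst h1
    rw [hs.cancel, if_neg (by omega), if_pos rfl, if_pos rfl, if_neg h2]; ring
  · have h3 : s i * x ≠ w := by
      intro h4; apply h1; rw [← h4, hs.cancel]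
    rw [if_neg h1, if_neg h3]
    by_cases h4 : x = w
    · subst h4
      rw [if_pos h, if_pos rfl]; ring
    · rw [if_neg h4]; simp

include hs hne in
omit [Fintype W] in
theorem Rm_up {i : ι} {w : W} (h : len s w < len s (w * s i)) : Rm s ν i (eb w) = eb (w * s i) := by
  classical
  ext x
  rw [Rm_apply]
  unfold eb
  simp only [Pi.single_apply]
  by_cases h1 : x = w * s i
  · subst h1
    have h2 : w * s i ≠ w := by intro h3; rw [h3] at h; exact lt_irrefl _ h
    rw [hs.cancel', if_pos h, if_pos rfl, if_neg h2, if_pos rfl]; ring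
  · have h3 : x * s i ≠ w := by
      intro h4; apply h1; rw [← h4, hs.cancel']
    rw [if_neg h1, if_neg h3]
    by_cases h4 : x = w
    · subst h4
      rw [if_neg (by omega)]; ring
    · rw [if_neg h4]; simp

include hs hne in
omit [Fintype W] in
theorem Rm_down {i : ι} {w : W} (h : len s (w * s i) < len s w) : Rm s ν i (eb w) = (ν (s i) : ℂ) • eb (w * s i) + ((ν (s i) : ℂ) - 1) • eb w := by
  classical
  ext x
  rw [Rm_apply]
  unfold eb
  simp only [Pi.single_apply, Pi.add_apply, Pi.smul_apply, smul_eq_mul]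
  have h2 : w * s i ≠ w := by intro h3; rw [h3] at h; exact lt_irrefl _ h
  by_cases h1 : x = w * s i
  · subst h1
    rw [hs.cancel', if_neg (by omega), if_pos rfl, if_pos rfl, if_neg h2]; ring
  · have h3 : x * s i ≠ w := by
      intro h4; apply h1; rw [← h4, hs.cancel']
    rw [if_neg h1, if_neg h3]
    by_cases h4 : x = w
    · subst h4
      rw [if_pos h, if_pos rfl]; ring
    · rw [if_neg h4]; simp

include hs hne in
omit [Fintype W] in
theorem PL_eb {L : List ι} (h : IsRed s L) : PL s ν L (eb 1) = eb (wp s L) := by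
  induction L with
  | nil => rfl
  | cons i L ih =>
    rw [PL_cons]
    change Lm s ν i (PL s ν L (eb 1)) = _
    rw [ih (hs.red_tail h), wp_cons]
    apply Lm_up hs hne
    have h1 : len s (wp s (i :: L)) = (i :: L).length := h
    have h2 := len_le (s := s) L
    rw [wp_cons, List.length_cons] at h1
    omega

include hs hne in
omit [Fintype W] in
theorem PR_eb {L : List ι} (h : IsRed s L) : PR s ν L (eb 1) = eb (wp s L) := by
  induction L using List.reverseRecOn with
  | nil => rfl
  | append_singleton L i ih =>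
    rw [PR_concat]
    change Rm s ν i (PR s ν L (eb 1)) = _
    rw [ih (hs.red_of_append_left h), wp_append, wp_cons, wp_nil, mul_one]
    apply Rm_up hs hne
    have h1 : len s (wp s (L ++ [i])) = (L ++ [i]).length := h
    have h2 := len_le (s := s) L
    rw [wp_append, wp_cons, wp_nil, mul_one, List.length_append, List.length_singleton] at h1
    omega

include hs hne in
omit [Fintype W] in
theorem LL_eb (w : W) : LL hs ν w (eb 1) = eb w := by
  unfold LL; rw [PL_eb hs hne (wd_red hs w), wd_wp]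
include hs hne in
omit [Fintype W] in
theorem RR_eb (w : W) : RR hs ν w (eb 1) = eb w := by
  unfold RR; rw [PR_eb hs hne (wd_red hs w), wd_wp]

/-- operators commuting with right multiplications -/
def CR (s : ι → W) (ν : W → ℝ) (X : EE W) : Prop := ∀ j f, X (Rm s ν j f) = Rm s ν j (X f)
def CL (s : ι → W) (ν : W → ℝ) (X : EE W) : Prop := ∀ j f, X (Lm s ν j f) = Lm s ν j (X f)

omit [Fintype W] [DecidableEq W] in
theorem CR.mul {X Y : EE W} (h : CR s ν X) (h' : CR s ν Y) : CR s ν (X * Y) := fun j f => by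
  change X (Y (Rm s ν j f)) = Rm s ν j (X (Y f)); rw [h', h]
omit [Fintype W] [DecidableEq W] in
theorem CL.mul {X Y : EE W} (h : CL s ν X) (h' : CL s ν Y) : CL s ν (X * Y) := fun j f => by
  change X (Y (Lm s ν j f)) = Lm s ν j (X (Y f)); rw [h', h]
omit [Fintype W] [DecidableEq W] in
theorem CR.add {X Y : EE W} (h : CR s ν X) (h' : CR s ν Y) : CR s ν (X + Y) := fun j f => by
  rw [LinearMap.add_apply, LinearMap.add_apply, map_add, h, h']
omit [Fintype W] [DecidableEq W] in
theorem CL.add {X Y : EE W} (h : CL s ν X) (h' : CL s ν Y) : CL s ν (X + Y) := fun j f => by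
  rw [LinearMap.add_apply, LinearMap.add_apply, map_add, h, h']
omit [Fintype W] [DecidableEq W] in
theorem CR.smul {X : EE W} (h : CR s ν X) (c : ℂ) : CR s ν (c • X) := fun j f => by
  rw [LinearMap.smul_apply, LinearMap.smul_apply, map_smul, h]
omit [Fintype W] [DecidableEq W] in
theorem CL.smul {X : EE W} (h : CL s ν X) (c : ℂ) : CL s ν (c • X) := fun j f => by
  rw [LinearMap.smul_apply, LinearMap.smul_apply, map_smul, h]

include hs hex hne hν in
omit [Fintype W] [DecidableEq W] in
theorem CR_PL (L : List ι) : CR s ν (PL s ν L) := by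
  induction L with
  | nil => intro j f; rfl
  | cons i L ih => rw [PL_cons]; exact CR.mul (fun j f => LR_comm hs hex hne hν i j f) ih
include hs hex hne hν in
omit [Fintype W] [DecidableEq W] in
theorem CL_PR (L : List ι) : CL s ν (PR s ν L) := by
  induction L with
  | nil => intro j f; rfl
  | cons i L ih => rw [PR_cons]; exact CL.mul ih (fun j f => (LR_comm hs hex hne hν j i f).symm)

omit [Fintype W] [DecidableEq W] in
theorem CR.PR {X : EE W} (h : CR s ν X) (L : List ι) (f : W → ℂ) : X (PR s ν L f) = PR s ν L (X f) := by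
  induction L generalizing f with
  | nil => rfl
  | cons i L ih =>
    rw [PR_cons]
    change X (GenH.PR s ν L (Rm s ν i f)) = GenH.PR s ν L (Rm s ν i (X f))
    rw [ih, h]
omit [Fintype W] [DecidableEq W] in
theorem CL.PL {X : EE W} (h : CL s ν X) (L : List ι) (f : W → ℂ) : X (PL s ν L f) = PL s ν L (X f) := by
  induction L generalizing f with
  | nil => rfl
  | cons i L ih =>
    rw [PL_cons]
    change X (Lm s ν i (GenH.PL s ν L f)) = Lm s ν i (GenH.PL s ν L (X f))
    rw [h, ih]

include hs hne in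
theorem CR_unique {X Y : EE W} (hX : CR s ν X) (hY : CR s ν Y) (h : X (eb 1) = Y (eb 1)) : X = Y := by
  apply (Pi.basisFun ℂ W).ext
  intro w
  rw [Pi.basisFun_apply]
  change X (eb w) = Y (eb w)
  rw [← RR_eb (ν := ν) hs hne w]
  unfold RR
  rw [hX.PR, hY.PR, h]
include hs hne in
theorem CL_unique {X Y : EE W} (hX : CL s ν X) (hY : CL s ν Y) (h : X (eb 1) = Y (eb 1)) : X = Y := by
  apply (Pi.basisFun ℂ W).ext
  intro w
  rw [Pi.basisFun_apply]
  change X (eb w) = Y (eb w)
  rw [← LL_eb (ν := ν) hs hne w]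
  unfold LL
  rw [hX.PL, hY.PL, h]

open Classical in
noncomputable def ca (s : ι → W) (ν : W → ℝ) (i : ι) (w : W) : ℂ := if len s (s i * w) < len s w then (ν (s i) : ℂ) else 1
open Classical in
noncomputable def cb (s : ι → W) (ν : W → ℝ) (i : ι) (w : W) : ℂ := if len s (s i * w) < len s w then (ν (s i) : ℂ) - 1 else 0

include hs hex hne hν in
theorem Lm_LL (i : ι) (w : W) : (Lm s ν i : EE W) * LL hs ν w = ca s ν i w • LL hs ν (s i * w) + cb s ν i w • LL hs ν w := by
  have h0 := CR_PL hs hex hne hν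
  apply CR_unique hs hne (ν := ν)
  · exact CR.mul (fun j f => LR_comm hs hex hne hν i j f) (h0 _)
  · exact CR.add (CR.smul (h0 _) _) (CR.smul (h0 _) _)
  · change Lm s ν i (LL hs ν w (eb 1)) = ca s ν i w • LL hs ν (s i * w) (eb 1) + cb s ν i w • LL hs ν w (eb 1)
    rw [LL_eb hs hne, LL_eb hs hne]
    unfold ca cb
    by_cases h : len s (s i * w) < len s w
    · rw [if_pos h, if_pos h, Lm_down hs hne h]
    · rw [if_neg h, if_neg h, one_smul, zero_smul, add_zero]
      exact Lm_up hs hne (by have := hne i w; omega)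

include hs hex hne hν in
theorem Rm_RR (i : ι) (w : W) : (Rm s ν i : EE W) * RR hs ν w⁻¹ = ca s ν i w • RR hs ν (s i * w)⁻¹ + cb s ν i w • RR hs ν w⁻¹ := by
  have h0 := CL_PR hs hex hne hν
  have hinv : (s i * w)⁻¹ = w⁻¹ * s i := by rw [mul_inv_rev, hs.inv_eq]
  have hl1 : len s (w⁻¹ * s i) = len s (s i * w) := by rw [← hinv, hs.len_inv]
  have hl2 : len s w⁻¹ = len s w := hs.len_inv w
  apply CL_unique hs hne (ν := ν)
  · exact CL.mul (fun j f => (LR_comm hs hex hne hν j i f).symm) (h0 _)
  · exact CL.add (CL.smul (h0 _) _) (CL.smul (h0 _) _)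
  · change Rm s ν i (RR hs ν w⁻¹ (eb 1)) = ca s ν i w • RR hs ν (s i * w)⁻¹ (eb 1) + cb s ν i w • RR hs ν w⁻¹ (eb 1)
    rw [RR_eb hs hne, RR_eb hs hne, hinv]
    unfold ca cb
    by_cases h : len s (s i * w) < len s w
    · rw [if_pos h, if_pos h, Rm_down hs hne (by rw [hl1, hl2]; exact h)]
    · rw [if_neg h, if_neg h, one_smul, zero_smul, add_zero]
      exact Rm_up hs hne (by rw [hl1, hl2]; have := hne i w; omega)

/-- the averaging operator -/
noncomputable def PP (hs : GenInv s) (ν : W → ℝ) : EE W := ∑ w, ((ν w : ℂ)⁻¹) • (LL hs ν w * RR hs ν w⁻¹)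
noncomputable def DD (hs : GenInv s) (ν : W → ℝ) : EE W := ∑ w, ((ν w : ℂ)⁻¹) • (LL hs ν w * LL hs ν w⁻¹)

include hs hne hν in
omit [Fintype W] [DecidableEq W] in
theorem ca_swap (i : ι) (w : W) : (ν w : ℂ)⁻¹ * ca s ν i w = (ν (s i * w) : ℂ)⁻¹ * ca s ν i (s i * w) := by
  have hi := (hν.pos (s i)).ne'
  have hw := (hν.pos w).ne'
  have hw' := (hν.pos (s i * w)).ne'
  unfold ca
  rw [hs.cancel]
  rcases lt_or_gt_of_ne (hne i w) with h | h
  · rw [if_pos h, if_neg (by omega)]
    have e : ν w = ν (s i) * ν (s i * w) := by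
      have := wt_up hs hν (i := i) (w := s i * w) hne (by rw [hs.cancel]; exact h)
      rwa [hs.cancel] at this
    rw [e]
    push_cast
    have h1 : (ν (s i) : ℂ) ≠ 0 := by exact_mod_cast hi
    have h2 : (ν (s i * w) : ℂ) ≠ 0 := by exact_mod_cast hw'
    field_simp
  · rw [if_neg (by omega), if_pos h, wt_up hs hν hne h]
    push_cast
    have h1 : (ν (s i) : ℂ) ≠ 0 := by exact_mod_cast hi
    have h2 : (ν w : ℂ) ≠ 0 := by exact_mod_cast hw
    field_simp

include hs hex hne hν in
theorem PP_central (i : ι) : (Lm s ν i : EE W) * PP hs ν = (Rm s ν i : EE W) * PP hs ν := by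
  unfold PP
  rw [Finset.mul_sum, Finset.mul_sum]
  have e1 : ∀ w, (Lm s ν i : EE W) * (((ν w : ℂ)⁻¹) • (LL hs ν w * RR hs ν w⁻¹)) =
      ((ν w : ℂ)⁻¹ * ca s ν i w) • (LL hs ν (s i * w) * RR hs ν w⁻¹) + ((ν w : ℂ)⁻¹ * cb s ν i w) • (LL hs ν w * RR hs ν w⁻¹) := by
    intro w
    rw [mul_smul_comm, ← mul_assoc, Lm_LL hs hex hne hν, add_mul, smul_mul_assoc, smul_mul_assoc, smul_add, smul_smul, smul_smul]
  have e2 : ∀ w, (Rm s ν i : EE W) * (((ν w : ℂ)⁻¹) • (LL hs ν w * RR hs ν w⁻¹)) =
      ((ν w : ℂ)⁻¹ * ca s ν i w) • (LL hs ν w * RR hs ν (s i * w)⁻¹) + ((ν w : ℂ)⁻¹ * cb s ν i w) • (LL hs ν w * RR hs ν w⁻¹) := by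
    intro w
    have hc : (Rm s ν i : EE W) * LL hs ν w = LL hs ν w * (Rm s ν i : EE W) := by
      apply LinearMap.ext
      intro f
      exact (CR_PL hs hex hne hν (wd hs w) i f).symm
    rw [mul_smul_comm, ← mul_assoc, hc, mul_assoc, Rm_RR hs hex hne hν, mul_add, mul_smul_comm, mul_smul_comm, smul_add, smul_smul, smul_smul]
  rw [Finset.sum_congr rfl fun w _ => e1 w, Finset.sum_congr rfl fun w _ => e2 w, Finset.sum_add_distrib, Finset.sum_add_distrib]
  congr 1
  refine Finset.sum_bij (fun w _ => s i * w) (fun _ _ => Finset.mem_univ _) (fun a _ b _ h => mul_left_cancel h)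
    (fun b _ => ⟨s i * b, Finset.mem_univ _, hs.cancel i b⟩) ?_
  intro w _
  rw [ca_swap hs hne hν, hs.cancel]

/-- the centre -/
def Zc (s : ι → W) (ν : W → ℝ) : Submodule ℂ (W → ℂ) where
  carrier := {f | ∀ i, Lm s ν i f = Rm s ν i f}
  zero_mem' := fun i => by rw [map_zero, map_zero]
  add_mem' := fun {f g} hf hg i => by rw [map_add, map_add, hf, hg]
  smul_mem' := fun c f hf i => by rw [map_smul, map_smul, hf]

include hs hex hne hν in
theorem PP_mem (f : W → ℂ) : PP hs ν f ∈ Zc s ν := by
  intro i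
  have := congrArg (fun X : EE W => X f) (PP_central hs hex hne hν i)
  exact this

include hs hex hne hν in
omit [Fintype W] [DecidableEq W] in
theorem PR_eq_PL (L : List ι) {z : W → ℂ} (hz : z ∈ Zc s ν) : PR s ν L z = PL s ν L z := by
  induction L with
  | nil => rfl
  | cons i L ih =>
    rw [PR_cons, PL_cons]
    change PR s ν L (Rm s ν i z) = Lm s ν i (PL s ν L z)
    rw [← hz i, CL_PR hs hex hne hν L i z, ih]

include hs hex hne hν in
theorem PP_eq_DD {z : W → ℂ} (hz : z ∈ Zc s ν) : PP hs ν z = DD hs ν z := by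
  unfold PP DD
  rw [LinearMap.sum_apply, LinearMap.sum_apply]
  apply Finset.sum_congr rfl
  intro w _
  rw [LinearMap.smul_apply, LinearMap.smul_apply]
  congr 1
  change LL hs ν w (RR hs ν w⁻¹ z) = LL hs ν w (LL hs ν w⁻¹ z)
  unfold RR
  rw [PR_eq_PL hs hex hne hν _ hz]
  rfl

end

end Cfsg.Agent.H16.GenH
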