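import Mathlib
import Cfsg.Agent.H16.GenHB

set_option autoImplicit false
set_option linter.all false
set_option maxHeartbeats 400000

/-! Generic Hecke algebras: positivity and the trace of the projection. -/

namespace Cfsg.Agent.H16.GenH

open Cfsg.Agent.H6 Cfsg.Agent.H16.BNS
open scoped ComplexConjugate

variable {W ι : Type*} [Group W] [Fintype W] [DecidableEq W] {s : ι → W}

/-- the positive form -/
noncomputable def bb (ν : W → ℝ) (f g : W → ℂ) : ℂ := ∑ w, (ν w : ℂ) * (conj (f w) * g w)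

omit [Group W] [DecidableEq W] in
theorem bb_self_re (ν : W → ℝ) (f : W → ℂ) : (bb ν f f).re = ∑ w, ν w * Complex.normSq (f w) := by
  unfold bb
  rw [Complex.re_sum]
  apply Finset.sum_congr rfl
  intro w _
  rw [← Complex.normSq_eq_conj_mul_self, ← Complex.ofReal_mul, Complex.ofReal_re]

omit [Group W] [DecidableEq W] in
theorem bb_add (ν : W → ℝ) (f g h : W → ℂ) : bb ν f (g + h) = bb ν f g + bb ν f h := by
  unfold bb; rw [← Finset.sum_add_distrib]; apply Finset.sum_congr rfl; intro w _; rw [Pi.add_apply]; ring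
omit [Group W] [DecidableEq W] in
theorem bb_smul (ν : W → ℝ) (c : ℂ) (f g : W → ℂ) : bb ν f (c • g) = c * bb ν f g := by
  unfold bb; rw [Finset.mul_sum]; apply Finset.sum_congr rfl; intro w _; rw [Pi.smul_apply, smul_eq_mul]; ring
omit [Group W] [DecidableEq W] in
theorem bb_sum (ν : W → ℝ) (f : W → ℂ) {κ : Type*} (S : Finset κ) (g : κ → W → ℂ) : bb ν f (∑ k ∈ S, g k) = ∑ k ∈ S, bb ν f (g k) := by
  classical
  induction S using Finset.induction_on with
  | empty => unfold bb; simp
  | insert a S ha ih => rw [Finset.sum_insert ha, Finset.sum_insert ha, bb_add, ih]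

section
variable (hs : GenInv s) (hex : Exchange s) (hne : ∀ i w, len s (s i * w) ≠ len s w) {ν : W → ℝ} (hν : Wt s ν)

include hs hne hν in
omit [DecidableEq W] in
theorem bb_Lm (i : ι) (f g : W → ℂ) : bb ν (Lm s ν i f) g = bb ν f (Lm s ν i g) := by
  classical
  let a : W → ℝ := fun w => if len s (s i * w) < len s w then 1 else ν (s i)
  let b : W → ℝ := fun w => if len s (s i * w) < len s w then ν (s i) - 1 else 0
  have hL : ∀ (f : W → ℂ) w, Lm s ν i f w = (a w : ℂ) * f (s i * w) + (b w : ℂ) * f w := by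
    intro f w
    rw [Lm_apply]
    change _ = (((if len s (s i * w) < len s w then (1:ℝ) else ν (s i)) : ℝ) : ℂ) * _ + (((if len s (s i * w) < len s w then ν (s i) - 1 else (0:ℝ)) : ℝ) : ℂ) * _
    by_cases h : len s (s i * w) < len s w
    · simp only [if_pos h]; push_cast; ring
    · simp only [if_neg h]; push_cast; ring
  have hk : ∀ w, ν (s i * w) * a (s i * w) = ν w * a w := by
    intro w
    change ν (s i * w) * (if len s (s i * (s i * w)) < len s (s i * w) then (1:ℝ) else ν (s i)) = ν w * (if len s (s i * w) < len s w then (1:ℝ) else ν (s i))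
    rw [hs.cancel]
    rcases lt_or_gt_of_ne (hne i w) with h | h
    · rw [if_neg (by omega), if_pos h]
      have := wt_up hs hν (i := i) (w := s i * w) hne (by rw [hs.cancel]; exact h)
      rw [hs.cancel] at this
      rw [this]; ring
    · rw [if_pos h, if_neg (by omega), wt_up hs hν hne h]; ring
  unfold bb
  have e1 : ∀ w, (ν w : ℂ) * (conj (Lm s ν i f w) * g w) = ((ν w * a w : ℝ) : ℂ) * (conj (f (s i * w)) * g w) + ((ν w * b w : ℝ) : ℂ) * (conj (f w) * g w) := by
    intro w
    rw [hL, map_add, map_mul, map_mul, Complex.conj_ofReal, Complex.conj_ofReal]; push_cast; ring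
  have e2 : ∀ w, (ν w : ℂ) * (conj (f w) * Lm s ν i g w) = ((ν w * a w : ℝ) : ℂ) * (conj (f w) * g (s i * w)) + ((ν w * b w : ℝ) : ℂ) * (conj (f w) * g w) := by
    intro w
    rw [hL]; push_cast; ring
  rw [Finset.sum_congr rfl fun w _ => e1 w, Finset.sum_congr rfl fun w _ => e2 w, Finset.sum_add_distrib, Finset.sum_add_distrib]
  congr 1
  refine Finset.sum_bij (fun w _ => s i * w) (fun _ _ => Finset.mem_univ _) (fun a _ b _ h => mul_left_cancel h)
    (fun b _ => ⟨s i * b, Finset.mem_univ _, hs.cancel i b⟩) ?_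
  intro w _
  rw [hk, hs.cancel]

include hs hne hν in
omit [DecidableEq W] in
theorem bb_PL (L : List ι) (f g : W → ℂ) : bb ν (PL s ν L f) g = bb ν f (PL s ν L.reverse g) := by
  induction L generalizing f g with
  | nil => rfl
  | cons i L ih =>
    rw [PL_cons]
    change bb ν (Lm s ν i (PL s ν L f)) g = _
    rw [bb_Lm hs hne hν, ih]
    congr 1
    unfold PL
    rw [List.reverse_cons, List.map_append, List.prod_append, List.map_singleton, List.prod_singleton]
    rfl

include hs hex hne hν in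
theorem PL_rev (w : W) : PL s ν (wd hs w).reverse = LL hs ν w⁻¹ := by
  apply CR_unique hs hne (ν := ν) (CR_PL hs hex hne hν _) (CR_PL hs hex hne hν _)
  rw [PL_eb hs hne (wd_red hs w⁻¹), PL_eb hs hne (hs.red_reverse (wd_red hs w)), hs.wp_reverse, wd_wp, wd_wp]

include hs hex hne hν in
theorem bb_LL (w : W) (f g : W → ℂ) : bb ν (LL hs ν w f) g = bb ν f (LL hs ν w⁻¹ g) := by
  unfold LL
  rw [bb_PL hs hne hν, PL_rev hs hex hne hν]
  rfl

include hs hex hne hν in
theorem bb_DD (f : W → ℂ) : bb ν f (DD hs ν f) = ∑ w, ((ν w)⁻¹ : ℝ) * bb ν (LL hs ν w⁻¹ f) (LL hs ν w⁻¹ f) := by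
  unfold DD
  rw [LinearMap.sum_apply, bb_sum]
  apply Finset.sum_congr rfl
  intro w _
  rw [LinearMap.smul_apply, bb_smul, bb_LL hs hex hne hν, inv_inv]
  push_cast
  rfl

omit [Fintype W] [DecidableEq W] in
theorem wd_one (hs : GenInv s) : wd hs 1 = [] := by
  have h := wd_red hs 1
  unfold IsRed at h
  rw [wd_wp, hs.len_one] at h
  exact List.length_eq_zero_iff.1 h.symm

include hs hex hne hν in
theorem DD_inj : Function.Injective (DD hs ν) := by
  rw [injective_iff_map_eq_zero]
  intro f hf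
  have h1 := bb_DD hs hex hne hν f
  rw [hf] at h1
  have h0 : bb ν f 0 = 0 := by unfold bb; simp
  rw [h0] at h1
  have h2 := congrArg Complex.re h1
  rw [Complex.re_sum, Complex.zero_re] at h2
  have h3 : ∀ w, ((((ν w)⁻¹ : ℝ) : ℂ) * bb ν (LL hs ν w⁻¹ f) (LL hs ν w⁻¹ f)).re = (ν w)⁻¹ * ∑ x, ν x * Complex.normSq (LL hs ν w⁻¹ f x) := by
    intro w
    rw [Complex.re_ofReal_mul, bb_self_re]
  rw [Finset.sum_congr rfl fun w _ => h3 w] at h2
  have h4 : ∀ w, 0 ≤ (ν w)⁻¹ * ∑ x, ν x * Complex.normSq (LL hs ν w⁻¹ f x) := fun w =>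
    mul_nonneg (inv_nonneg.2 (hν.pos w).le) (Finset.sum_nonneg fun x _ => mul_nonneg (hν.pos x).le (Complex.normSq_nonneg _))
  have h5 := (Finset.sum_eq_zero_iff_of_nonneg (fun w _ => h4 w)).1 h2.symm 1 (Finset.mem_univ _)
  rw [inv_one] at h5
  have h6 : LL hs ν 1 f = f := by unfold LL; rw [wd_one]; rfl
  rw [h6] at h5
  have h7 : ∑ x, ν x * Complex.normSq (f x) = 0 := (mul_eq_zero.1 h5).resolve_left (inv_ne_zero (hν.pos 1).ne')
  have h8 := (Finset.sum_eq_zero_iff_of_nonneg (fun x _ => mul_nonneg (hν.pos x).le (Complex.normSq_nonneg _))).1 h7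
  funext x
  have h9 := h8 x (Finset.mem_univ _)
  exact Complex.normSq_eq_zero.1 ((mul_eq_zero.1 h9).resolve_left (hν.pos x).ne')

include hs hex hne hν in
theorem DD_surj_Zc {z : W → ℂ} (hz : z ∈ Zc s ν) : ∃ z' ∈ Zc s ν, DD hs ν z' = z := by
  have hmaps : ∀ x ∈ Zc s ν, DD hs ν x ∈ Zc s ν := fun x hx => by
    rw [← PP_eq_DD hs hex hne hν hx]; exact PP_mem hs hex hne hν x
  let D' : Zc s ν →ₗ[ℂ] Zc s ν := (DD hs ν).restrict hmaps
  have hinj : Function.Injective D' := by
    intro x y hxy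
    apply Subtype.ext
    apply DD_inj hs hex hne hν
    exact congrArg Subtype.val hxy
  obtain ⟨z', hz'⟩ := (LinearMap.injective_iff_surjective.1 hinj) ⟨z, hz⟩
  exact ⟨z'.1, z'.2, congrArg Subtype.val hz'⟩

/-- matrices -/
noncomputable def MM (X : EE W) : Matrix W W ℂ := LinearMap.toMatrix' X

include hs hex hne hν in
theorem det_DD : (MM (DD hs ν)).det ≠ 0 := by
  unfold MM
  rw [LinearMap.det_toMatrix']
  have h := DD_inj hs hex hne hν
  have h1 : IsUnit (DD hs ν) := by
    rw [LinearMap.isUnit_iff_ker_eq_bot]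
    exact LinearMap.ker_eq_bot.2 h
  exact (LinearMap.isUnit_iff_isUnit_det _).1 h1 |>.ne_zero

include hs hex hne hν in
theorem trace_proj : ((MM (DD hs ν))⁻¹ * MM (PP hs ν)).trace = (Module.finrank ℂ (Zc s ν) : ℂ) := by
  have hdet : IsUnit (MM (DD hs ν)).det := (det_DD hs hex hne hν).isUnit
  let X : EE W := Matrix.toLin' ((MM (DD hs ν))⁻¹ * MM (PP hs ν))
  have hX : DD hs ν * X = PP hs ν := by
    apply (LinearMap.toMatrix' (R := ℂ) (m := W) (n := W)).injective
    rw [LinearMap.toMatrix'_mul]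
    change MM (DD hs ν) * LinearMap.toMatrix' (Matrix.toLin' ((MM (DD hs ν))⁻¹ * MM (PP hs ν))) = MM (PP hs ν)
    rw [LinearMap.toMatrix'_toLin', ← Matrix.mul_assoc, Matrix.mul_nonsing_inv _ hdet, Matrix.one_mul]
  have hproj : LinearMap.IsProj (Zc s ν) X := by
    constructor
    · intro f
      obtain ⟨z', h1, h2⟩ := DD_surj_Zc hs hex hne hν (PP_mem hs hex hne hν f)
      have h3 : DD hs ν (X f) = PP hs ν f := congrArg (fun Y : EE W => Y f) hX
      rw [← h2] at h3
      rw [DD_inj hs hex hne hν h3]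
      exact h1
    · intro z hz
      have h3 : DD hs ν (X z) = PP hs ν z := congrArg (fun Y : EE W => Y z) hX
      rw [PP_eq_DD hs hex hne hν hz] at h3
      exact DD_inj hs hex hne hν h3
  have h := hproj.trace
  rw [← h, LinearMap.trace_eq_matrix_trace ℂ (Pi.basisFun ℂ W)]
  congr 1
  change _ = LinearMap.toMatrix (Pi.basisFun ℂ W) (Pi.basisFun ℂ W) (Matrix.toLin' _)
  rw [LinearMap.toMatrix_eq_toMatrix', LinearMap.toMatrix'_toLin']

end

end Cfsg.Agent.H16.GenH
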