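import Mathlib
import Cfsg.Agent.H16.GenHC

set_option autoImplicit false
set_option linter.all false
set_option maxHeartbeats 400000

/-! Generic Hecke algebras: deformation invariance of the dimension of the centre. -/

namespace Cfsg.Agent.H16.GenH

open Cfsg.Agent.H6 Cfsg.Agent.H16.BNS
open scoped ComplexConjugate

variable {W ι : Type*} [Group W] [Fintype W] [DecidableEq W] {s : ι → W}

section
variable (hs : GenInv s) (hex : Exchange s) (hne : ∀ i w, len s (s i * w) ≠ len s w) {ν : W → ℝ} (hν : Wt s ν)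

/-- deformed weight -/
noncomputable def nt (ν : W → ℝ) (θ : ℝ) : W → ℝ := fun w => (ν w) ^ θ

include hν in
omit [Fintype W] [DecidableEq W] in
theorem wt_nt (θ : ℝ) : Wt s (nt ν θ) where
  pos w := Real.rpow_pos_of_pos (hν.pos w) θ
  mul x y h := by unfold nt; rw [hν.mul x y h, Real.mul_rpow (hν.pos x).le (hν.pos y).le]

include hν in
omit [Fintype W] [DecidableEq W] in
theorem cont_nt (w : W) : Continuous fun θ : ℝ => nt ν θ w := by
  unfold nt
  exact Continuous.rpow continuous_const continuous_id (fun _ => Or.inl (hν.pos w).ne')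

include hν in
theorem cont_Lm (i : ι) : Continuous fun θ : ℝ => LinearMap.toMatrix' (Lm s (nt ν θ) i) := by
  classical
  have hc : Continuous fun θ : ℝ => ((nt ν θ (s i) : ℝ) : ℂ) := Complex.continuous_ofReal.comp (cont_nt hν (s i))
  refine continuous_matrix fun a b => ?_
  simp only [LinearMap.toMatrix'_apply, Lm_apply]
  split_ifs
  · exact continuous_const.add ((hc.sub continuous_const).mul continuous_const)
  · exact hc.mul continuous_const

include hν in
theorem cont_Rm (i : ι) : Continuous fun θ : ℝ => LinearMap.toMatrix' (Rm s (nt ν θ) i) := by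
  classical
  have hc : Continuous fun θ : ℝ => ((nt ν θ (s i) : ℝ) : ℂ) := Complex.continuous_ofReal.comp (cont_nt hν (s i))
  refine continuous_matrix fun a b => ?_
  simp only [LinearMap.toMatrix'_apply, Rm_apply]
  split_ifs
  · exact continuous_const.add ((hc.sub continuous_const).mul continuous_const)
  · exact hc.mul continuous_const

include hν in
theorem cont_PL (L : List ι) : Continuous fun θ : ℝ => LinearMap.toMatrix' (PL s (nt ν θ) L) := by
  induction L with
  | nil =>
    have : (fun θ : ℝ => LinearMap.toMatrix' (PL s (nt ν θ) ([] : List ι))) = fun _ : ℝ => (LinearMap.toMatrix' (1 : EE W) : Matrix W W ℂ) := rfl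
    rw [this]
    exact continuous_const
  | cons i L ih =>
    have : (fun θ : ℝ => LinearMap.toMatrix' (PL s (nt ν θ) (i :: L))) = fun θ : ℝ => LinearMap.toMatrix' (Lm s (nt ν θ) i) * LinearMap.toMatrix' (PL s (nt ν θ) L) := by
      funext θ
      rw [PL_cons, LinearMap.toMatrix'_mul]
    rw [this]
    exact (cont_Lm hν i).matrix_mul ih

include hν in
theorem cont_PR (L : List ι) : Continuous fun θ : ℝ => LinearMap.toMatrix' (PR s (nt ν θ) L) := by
  induction L with
  | nil =>
    have : (fun θ : ℝ => LinearMap.toMatrix' (PR s (nt ν θ) ([] : List ι))) = fun _ : ℝ => (LinearMap.toMatrix' (1 : EE W) : Matrix W W ℂ) := rfl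
    rw [this]
    exact continuous_const
  | cons i L ih =>
    have : (fun θ : ℝ => LinearMap.toMatrix' (PR s (nt ν θ) (i :: L))) = fun θ : ℝ => LinearMap.toMatrix' (PR s (nt ν θ) L) * LinearMap.toMatrix' (Rm s (nt ν θ) i) := by
      funext θ
      rw [PR_cons, LinearMap.toMatrix'_mul]
    rw [this]
    exact ih.matrix_mul (cont_Rm hν i)

include hν in
theorem cont_PP : Continuous fun θ : ℝ => MM (PP hs (nt ν θ)) := by
  have : (fun θ : ℝ => MM (PP hs (nt ν θ))) = fun θ : ℝ => ∑ w, ((nt ν θ w : ℂ)⁻¹) • (LinearMap.toMatrix' (LL hs (nt ν θ) w) * LinearMap.toMatrix' (RR hs (nt ν θ) w⁻¹)) := by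
    funext θ
    unfold MM PP
    rw [map_sum]
    apply Finset.sum_congr rfl
    intro w _
    rw [map_smul, LinearMap.toMatrix'_mul]
  rw [this]
  refine continuous_finset_sum _ fun w _ => ?_
  have hc : Continuous fun θ : ℝ => ((nt ν θ w : ℂ)⁻¹) := by
    refine Continuous.inv₀ (Complex.continuous_ofReal.comp (cont_nt hν w)) fun θ => ?_
    exact_mod_cast ((wt_nt hν θ).pos w).ne'
  exact hc.smul ((cont_PL hν (wd hs w)).matrix_mul (cont_PR hν (wd hs w⁻¹)))

include hν in
theorem cont_DD : Continuous fun θ : ℝ => MM (DD hs (nt ν θ)) := by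
  have : (fun θ : ℝ => MM (DD hs (nt ν θ))) = fun θ : ℝ => ∑ w, ((nt ν θ w : ℂ)⁻¹) • (LinearMap.toMatrix' (LL hs (nt ν θ) w) * LinearMap.toMatrix' (LL hs (nt ν θ) w⁻¹)) := by
    funext θ
    unfold MM DD
    rw [map_sum]
    apply Finset.sum_congr rfl
    intro w _
    rw [map_smul, LinearMap.toMatrix'_mul]
  rw [this]
  refine continuous_finset_sum _ fun w _ => ?_
  have hc : Continuous fun θ : ℝ => ((nt ν θ w : ℂ)⁻¹) := by
    refine Continuous.inv₀ (Complex.continuous_ofReal.comp (cont_nt hν w)) fun θ => ?_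
    exact_mod_cast ((wt_nt hν θ).pos w).ne'
  exact hc.smul ((cont_PL hν (wd hs w)).matrix_mul (cont_PL hν (wd hs w⁻¹)))

include hs hex hne hν in
theorem finrank_const (θ θ' : ℝ) : Module.finrank ℂ (Zc s (nt ν θ)) = Module.finrank ℂ (Zc s (nt ν θ')) := by
  let F : ℝ → ℕ := fun θ => Module.finrank ℂ (Zc s (nt ν θ))
  have h1 : Continuous fun θ : ℝ => ((MM (DD hs (nt ν θ)))⁻¹ * MM (PP hs (nt ν θ))).trace := by
    have : (fun θ : ℝ => ((MM (DD hs (nt ν θ)))⁻¹ * MM (PP hs (nt ν θ))).trace) =
        fun θ : ℝ => (((MM (DD hs (nt ν θ))).det⁻¹ • (MM (DD hs (nt ν θ))).adjugate) * MM (PP hs (nt ν θ))).trace := by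
      funext θ
      rw [Matrix.inv_def, Ring.inverse_eq_inv']
    rw [this]
    have hd : Continuous fun θ : ℝ => ((MM (DD hs (nt ν θ))).det⁻¹ : ℂ) :=
      Continuous.inv₀ (cont_DD hs hν).matrix_det fun θ => det_DD hs hex hne (wt_nt hν θ)
    have ha : Continuous fun θ : ℝ => (MM (DD hs (nt ν θ))).adjugate := (cont_DD hs hν).matrix_adjugate
    have hda : Continuous fun θ : ℝ => (MM (DD hs (nt ν θ))).det⁻¹ • (MM (DD hs (nt ν θ))).adjugate := hd.smul ha
    exact Continuous.matrix_trace (Continuous.matrix_mul hda (cont_PP hs hν))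
  have h2 : Continuous fun θ : ℝ => (F θ : ℂ) := by
    have : (fun θ : ℝ => (F θ : ℂ)) = fun θ : ℝ => ((MM (DD hs (nt ν θ)))⁻¹ * MM (PP hs (nt ν θ))).trace := by
      funext θ
      exact (trace_proj hs hex hne (wt_nt hν θ)).symm
    rw [this]; exact h1
  have h3 : Continuous fun θ : ℝ => (F θ : ℝ) := by
    have : (fun θ : ℝ => (F θ : ℝ)) = fun θ : ℝ => ((F θ : ℂ)).re := by
      funext θ; rw [Complex.natCast_re]
    rw [this]; exact Complex.continuous_re.comp h2
  have h4 : Continuous F := Nat.isClosedEmbedding_coe_real.isInducing.continuous_iff.2 h3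
  exact PreconnectedSpace.constant inferInstance h4

include hs in
omit [Fintype W] [DecidableEq W] in
theorem mem_Zc_one (f : W → ℂ) : f ∈ Zc s (fun _ => (1:ℝ)) ↔ ∀ x w, f (x * w * x⁻¹) = f w := by
  have hL : ∀ i w, Lm s (fun _ => (1:ℝ)) i f w = f (s i * w) := by
    intro i w; rw [Lm_apply]; split_ifs <;> simp
  have hR : ∀ i w, Rm s (fun _ => (1:ℝ)) i f w = f (w * s i) := by
    intro i w; rw [Rm_apply]; split_ifs <;> simp
  constructor
  · intro hf
    have h1 : ∀ i w, f (s i * w * (s i)⁻¹) = f w := by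
      intro i w
      have := congrFun (hf i) (w * s i)
      rw [hL, hR, hs.cancel', ← mul_assoc] at this
      rw [hs.inv_eq]; exact this
    intro x
    obtain ⟨L, _, rfl⟩ := hs.exists_isRed x
    induction L with
    | nil => intro w; simp
    | cons i L ih =>
      intro w
      have : wp s (i :: L) * w * (wp s (i :: L))⁻¹ = s i * (wp s L * w * (wp s L)⁻¹) * (s i)⁻¹ := by
        rw [wp_cons]; group
      rw [this, h1, ih (hs.red_tail ‹_›)]
  · intro h i
    funext w
    rw [hL, hR, ← h (s i) (w * s i), ← mul_assoc, mul_inv_cancel_right]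

open Classical in
include hs in
omit [DecidableEq W] in
theorem finrank_Zc_one : Module.finrank ℂ (Zc s (fun _ : W => (1:ℝ))) = Nat.card (ConjClasses W) := by
  let e : Zc s (fun _ : W => (1:ℝ)) ≃ₗ[ℂ] (ConjClasses W → ℂ) :=
    { toFun := fun f c => Quotient.liftOn c f.1 (fun a b hab => by
        obtain ⟨x, hx⟩ := isConj_iff.1 hab
        rw [← hx]; exact ((mem_Zc_one hs f.1).1 f.2 x a).symm)
      map_add' := fun f g => by
        funext c; obtain ⟨a, rfl⟩ := ConjClasses.exists_rep c; rfl
      map_smul' := fun r f => by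
        funext c; obtain ⟨a, rfl⟩ := ConjClasses.exists_rep c; rfl
      invFun := fun g => ⟨fun w => g (ConjClasses.mk w), (mem_Zc_one hs _).2 fun x w => by
        congr 1
        exact ConjClasses.mk_eq_mk_iff_isConj.2 (isConj_iff.2 ⟨x⁻¹, by group⟩)⟩
      left_inv := fun f => rfl
      right_inv := fun g => by
        funext c; obtain ⟨a, rfl⟩ := ConjClasses.exists_rep c; rfl }
  rw [e.finrank_eq, Module.finrank_fintype_fun_eq_card, Nat.card_eq_fintype_card]

include hs hex hne hν in
/-- the dimension of the centre -/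
theorem finrank_Zc : Module.finrank ℂ (Zc s ν) = Nat.card (ConjClasses W) := by
  have h := finrank_const hs hex hne hν 1 0
  have e1 : nt ν 1 = ν := by funext w; exact Real.rpow_one _
  have e0 : nt ν 0 = fun _ => (1:ℝ) := by funext w; exact Real.rpow_zero _
  rw [e1, e0, finrank_Zc_one hs] at h
  exact h

end

end Cfsg.Agent.H16.GenH
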