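import Mathlib
import Cfsg.Agent.H16.GenHD
import Cfsg.Agent.H16.HkD

set_option autoImplicit false
set_option linter.all false
set_option maxHeartbeats 400000

/-! Hecke operators for the Borel subgroup. -/

namespace Cfsg.Agent.H16.GenH

open Cfsg Cfsg.Agent.H6 Cfsg.Agent.H6.BN Cfsg.Agent.H16.BNS
open scoped ComplexConjugate

variable {G : Type*} [Group G] {P : Cfsg.BNPair G} [Fintype G]
variable {k : ℕ} (ρ : Representation ℂ G (Fin k → ℂ))

local notation "e" => avg ρ P.B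

lemma avg_mid {H : Subgroup G} {X Y Z : Module.End ℂ (Fin k → ℂ)} (h : ∀ b ∈ H, X * ρ b * Y = Z) : X * avg ρ H * Y = Z := by
  classical
  rw [avg_def, mul_smul_comm, smul_mul_assoc, Finset.mul_sum, Finset.sum_mul, Finset.sum_congr rfl fun g hg => h g (Finset.mem_filter.1 hg).2, Finset.sum_const, card_filter_sub,
    ← Nat.cast_smul_eq_nsmul ℂ, smul_smul, inv_mul_cancel₀ (Nat.cast_ne_zero.2 Nat.card_pos.ne'), one_smul]

lemma avg_mid_sum {H : Subgroup G} [Fintype H] (X Y : Module.End ℂ (Fin k → ℂ)) : X * avg ρ H * Y = (Nat.card H : ℂ)⁻¹ • ∑ b : H, X * ρ b * Y := by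
  classical
  rw [avg_def, mul_smul_comm, smul_mul_assoc, Finset.mul_sum, Finset.sum_mul]
  congr 1
  exact Finset.sum_subtype (Finset.univ.filter (fun g : G => g ∈ H)) (p := fun g => g ∈ H) (fun g => by simp) _

lemma eCe {w : Wl P} {g h : G} (hg : g ∈ C P w) (hh : h ∈ C P w) : e * ρ g * e = e * ρ h * e := by
  obtain ⟨b, hb, b', hb', rfl⟩ := C_rel P hg hh
  rw [map_mul, map_mul]
  calc e * (ρ b * ρ h * ρ b') * e = (e * ρ b) * ρ h * (ρ b' * e) := by simp only [mul_assoc]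
    _ = _ := by rw [avg_right ρ hb, avg_left ρ hb']

noncomputable def rp (w : Wl P) : G := (C_nonempty P w).choose
omit [Fintype G] in
lemma rp_mem (w : Wl P) : rp w ∈ C P w := (C_nonempty P w).choose_spec

/-- Hecke operators -/
noncomputable def TB (w : Wl P) : Module.End ℂ (Fin k → ℂ) := (ind P w : ℂ) • (e * ρ (rp w) * e)

lemma TB_eq {w : Wl P} {g : G} (hg : g ∈ C P w) : TB ρ w = (ind P w : ℂ) • (e * ρ g * e) := by
  unfold TB; rw [eCe ρ (rp_mem w) hg]

lemma ind_ne (w : Wl P) : (ind P w : ℂ) ≠ 0 := Nat.cast_ne_zero.2 (ind_pos w).ne'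

lemma eCe_eq {w : Wl P} {g : G} (hg : g ∈ C P w) : e * ρ g * e = (ind P w : ℂ)⁻¹ • TB ρ w := by
  rw [TB_eq ρ hg, smul_smul, inv_mul_cancel₀ (ind_ne w), one_smul]

lemma TB_one : TB ρ (1 : Wl P) = e := by
  have : (1 : G) ∈ C P (1 : Wl P) := by rw [C_one]; exact P.B.one_mem
  rw [TB_eq ρ this, ind_one, map_one, mul_one, avg_sq, Nat.cast_one, one_smul]

lemma TB_left (w : Wl P) : e * TB ρ w = TB ρ w := by
  unfold TB; rw [mul_smul_comm, ← mul_assoc, ← mul_assoc, avg_sq]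
lemma TB_right (w : Wl P) : TB ρ w * e = TB ρ w := by
  unfold TB; rw [smul_mul_assoc, mul_assoc, avg_sq]

lemma TB_mul {x y : Wl P} (h : len (sm P) (x * y) = len (sm P) x + len (sm P) y) : TB ρ x * TB ρ y = TB ρ (x * y) := by
  have hz : ∀ b ∈ P.B, rp x * b * rp y ∈ C P (x * y) := fun b hb => C_mul P h (C_mul_right P (rp_mem x) hb) (rp_mem y)
  unfold TB
  rw [smul_mul_smul_comm]
  have h1 : e * ρ (rp x) * e * (e * ρ (rp y) * e) = (e * ρ (rp x)) * e * (ρ (rp y) * e) := by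
    calc e * ρ (rp x) * e * (e * ρ (rp y) * e) = e * ρ (rp x) * (e * e) * (ρ (rp y) * e) := by simp only [mul_assoc]
      _ = _ := by rw [avg_sq]
  have h2 : (e * ρ (rp x)) * e * (ρ (rp y) * e) = e * ρ (rp (x * y)) * e := by
    apply avg_mid
    intro b hb
    calc (e * ρ (rp x)) * ρ b * (ρ (rp y) * e) = e * (ρ (rp x) * ρ b * ρ (rp y)) * e := by simp only [mul_assoc]
      _ = e * ρ (rp x * b * rp y) * e := by rw [map_mul, map_mul]
      _ = _ := eCe ρ (hz b hb) (rp_mem _)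
  rw [h1, h2, ind_mul h]
  push_cast
  rfl

omit [Fintype G] in
lemma sm_sq (i : P.S) : sm P i * sm P i = 1 := by
  have := (hsG P).cancel i 1
  rwa [mul_one] at this

omit [Fintype G] in
lemma ii_mem (i : P.S) : (i : G) * i ∈ P.B := by
  have h := (pr_eq_one_iff P (n := ⟨i, P.subset i.2⟩ * ⟨i, P.subset i.2⟩)).1 (by rw [map_mul]; exact sm_sq i)
  exact h

omit [Fintype G] in
lemma ibi_iff (i : P.S) (b : G) : (i : G) * b * i ∈ P.B ↔ (i : G)⁻¹ * b * i ∈ P.B := by
  have e1 : (i : G) * b * i = (i * i) * ((i : G)⁻¹ * b * i) := by group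
  rw [e1]
  exact Subgroup.mul_mem_cancel_left _ (ii_mem i)

lemma card_ibi (i : P.S) : ind P (sm P i) * Nat.card {b : P.B // (i : G) * b * i ∈ P.B} = Nat.card P.B := by
  classical
  let y₀ : G ⧸ P.B := ((i : G) : G ⧸ P.B)
  have : Fintype (MulAction.orbit P.B y₀) := Fintype.ofFinite _
  have : Fintype (MulAction.stabilizer P.B y₀) := Fintype.ofFinite _
  have : Fintype P.B := Fintype.ofFinite _
  have h := MulAction.card_orbit_mul_card_stabilizer_eq_card_group P.B y₀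
  rw [← Nat.card_eq_fintype_card, ← Nat.card_eq_fintype_card, ← Nat.card_eq_fintype_card] at h
  rw [← h]
  congr 1
  · unfold ind
    apply Nat.card_congr
    refine Equiv.subtypeEquivRight fun y => ?_
    rw [MulAction.mem_orbit_iff]
    constructor
    · intro hy
      induction y using QuotientGroup.induction_on with
      | H g =>
        rw [tyQ_mk] at hy
        have h1 := ty_mem P g
        rw [hy] at h1
        obtain ⟨b, hb, b', hb', rfl⟩ := C_rel P h1 (sm_mem_C P i)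
        refine ⟨⟨b, hb⟩, ?_⟩
        change ((b * i : G) : G ⧸ P.B) = ((b * i * b' : G) : G ⧸ P.B)
        rw [QuotientGroup.eq, inv_mul_cancel_left]
        exact hb'
    · rintro ⟨b, rfl⟩
      change tyQ P ((b * i : G) : G ⧸ P.B) = sm P i
      rw [tyQ_mk]
      exact ty_eq P (C_mul_left P (sm_mem_C P i) b.2)
  · apply Nat.card_congr
    refine Equiv.subtypeEquivRight fun b => ?_
    rw [MulAction.mem_stabilizer_iff, ibi_iff]
    change (i : G)⁻¹ * b * i ∈ P.B ↔ ((b * i : G) : G ⧸ P.B) = ((i : G) : G ⧸ P.B)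
    rw [QuotientGroup.eq, ← P.B.inv_mem_iff]
    have : ((i : G)⁻¹ * b * i)⁻¹ = (b * i : G)⁻¹ * i := by group
    rw [this]

lemma TB_sq (i : P.S) : TB ρ (sm P i) * TB ρ (sm P i) = (ind P (sm P i) : ℂ) • e + ((ind P (sm P i) : ℂ) - 1) • TB ρ (sm P i) := by
  classical
  have hi := sm_mem_C P i
  have hν := ind_ne (sm P i)
  nth_rewrite 1 [TB_eq ρ hi]
  nth_rewrite 1 [TB_eq ρ hi]
  rw [smul_mul_smul_comm]
  have h1 : e * ρ (i : G) * e * (e * ρ (i : G) * e) = (e * ρ (i : G)) * e * (ρ (i : G) * e) := by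
    calc e * ρ (i : G) * e * (e * ρ (i : G) * e) = e * ρ (i : G) * (e * e) * (ρ (i : G) * e) := by simp only [mul_assoc]
      _ = _ := by rw [avg_sq]
  rw [h1]
  have h2 : (e * ρ (i : G)) * e * (ρ (i : G) * e) = (Nat.card P.B : ℂ)⁻¹ • ∑ b : P.B, e * ρ ((i : G) * b * i) * e := by
    rw [avg_mid_sum]
    congr 1
    apply Finset.sum_congr rfl
    intro b _
    rw [map_mul, map_mul]
    simp only [mul_assoc]
  have h3 : ∀ b : P.B, e * ρ ((i : G) * b * i) * e = if (i : G) * b * i ∈ P.B then e else (ind P (sm P i) : ℂ)⁻¹ • TB ρ (sm P i) := by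
    intro b
    by_cases hb : (i : G) * b * i ∈ P.B
    · rw [if_pos hb, avg_right ρ hb, avg_sq]
    · rw [if_neg hb]
      have h4 : (i : G) * b * i ∈ C P (sm P i) := by
        rcases C_smul P (C_mul_right P hi b.2) hi with h5 | h5
        · rw [sm_sq, C_one] at h5; exact absurd h5 hb
        · exact h5
      exact eCe_eq ρ h4
  rw [h2, Finset.sum_congr rfl fun b _ => h3 b, Finset.sum_ite, Finset.sum_const, Finset.sum_const]
  have hc := card_ibi i
  have h5 : (Finset.univ.filter (fun b : P.B => (i : G) * b * i ∈ P.B)).card = Nat.card {b : P.B // (i : G) * b * i ∈ P.B} := by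
    rw [Nat.card_eq_fintype_card, Fintype.card_subtype]
  have h6 : (Finset.univ.filter (fun b : P.B => ¬ (i : G) * b * i ∈ P.B)).card + Nat.card {b : P.B // (i : G) * b * i ∈ P.B} = Nat.card P.B := by
    rw [← h5, add_comm, Finset.card_filter_add_card_filter_not, Finset.card_univ, Nat.card_eq_fintype_card]
  rw [h5]
  set N := Nat.card {b : P.B // (i : G) * b * i ∈ P.B}
  set M := (Finset.univ.filter (fun b : P.B => ¬ (i : G) * b * i ∈ P.B)).card
  have hB : (Nat.card P.B : ℂ) ≠ 0 := Nat.cast_ne_zero.2 Nat.card_pos.ne'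
  have hc' : (ind P (sm P i) : ℂ) * N = Nat.card P.B := by exact_mod_cast hc
  have h6' : (M : ℂ) + N = Nat.card P.B := by exact_mod_cast h6
  rw [← Nat.cast_smul_eq_nsmul ℂ, ← Nat.cast_smul_eq_nsmul ℂ, smul_add, smul_add, smul_smul, smul_smul, smul_smul, smul_smul, smul_smul]
  have hM : (M : ℂ) = Nat.card P.B - N := by rw [← h6']; ring
  have hN : (N : ℂ) ≠ 0 := by
    intro h0; rw [h0, mul_zero] at hc'; exact hB hc'.symm
  congr 2
  · rw [← hc']; field_simp
  · rw [hM, ← hc']; field_simp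

lemma len_sm_add {i : P.S} {w : Wl P} (h : len (sm P) w < len (sm P) (sm P i * w)) : len (sm P) (sm P i * w) = len (sm P) (sm P i) + len (sm P) w := by
  have h1 := (hsG P).len_smul_le i w
  have h2 := (hsG P).len_s_le i
  have h3 : len (sm P) (sm P i) ≠ 0 := by
    intro h0
    have := hneG P i 1
    rw [mul_one, h0, (hsG P).len_one] at this
    exact this rfl
  omega

lemma len_sm_add' {i : P.S} {w : Wl P} (h : len (sm P) w < len (sm P) (w * sm P i)) : len (sm P) (w * sm P i) = len (sm P) w + len (sm P) (sm P i) := by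
  have h1 := (hsG P).len_mul_s_le i w
  have h2 := (hsG P).len_s_le i
  have h3 : len (sm P) (sm P i) ≠ 0 := by
    intro h0
    have := hneG P i 1
    rw [mul_one, h0, (hsG P).len_one] at this
    exact this rfl
  omega

lemma TB_down {i : P.S} {w : Wl P} (h : len (sm P) (sm P i * w) < len (sm P) w) :
    TB ρ (sm P i) * TB ρ w = (ind P (sm P i) : ℂ) • TB ρ (sm P i * w) + ((ind P (sm P i) : ℂ) - 1) • TB ρ w := by
  have h1 : TB ρ w = TB ρ (sm P i) * TB ρ (sm P i * w) := by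
    rw [TB_mul ρ (len_sm_add (by rw [(hsG P).cancel]; exact h)), (hsG P).cancel]
  calc TB ρ (sm P i) * TB ρ w = TB ρ (sm P i) * (TB ρ (sm P i) * TB ρ (sm P i * w)) := by rw [← h1]
    _ = TB ρ (sm P i) * TB ρ (sm P i) * TB ρ (sm P i * w) := by rw [mul_assoc]
    _ = _ := by rw [TB_sq, add_mul, smul_mul_assoc, smul_mul_assoc, TB_left, ← h1]

lemma TB_down' {i : P.S} {w : Wl P} (h : len (sm P) (w * sm P i) < len (sm P) w) :
    TB ρ w * TB ρ (sm P i) = (ind P (sm P i) : ℂ) • TB ρ (w * sm P i) + ((ind P (sm P i) : ℂ) - 1) • TB ρ w := by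
  have h1 : TB ρ w = TB ρ (w * sm P i) * TB ρ (sm P i) := by
    rw [TB_mul ρ (len_sm_add' (by rw [(hsG P).cancel']; exact h)), (hsG P).cancel']
  calc TB ρ w * TB ρ (sm P i) = (TB ρ (w * sm P i) * TB ρ (sm P i)) * TB ρ (sm P i) := by rw [← h1]
    _ = TB ρ (w * sm P i) * (TB ρ (sm P i) * TB ρ (sm P i)) := by rw [mul_assoc]
    _ = _ := by rw [TB_sq, mul_add, mul_smul_comm, mul_smul_comm, TB_right, ← h1]

/-- the weight -/
noncomputable def nu (P : Cfsg.BNPair G) : Wl P → ℝ := fun w => (ind P w : ℝ)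

lemma nu_wt : Wt (sm P) (nu P) where
  pos w := Nat.cast_pos.2 (ind_pos w)
  mul x y h := by unfold nu; rw [ind_mul h]; push_cast; rfl

variable [Fintype (Wl P)] [DecidableEq (Wl P)]

/-- the map from the generic algebra to operators -/
noncomputable def Th : (Wl P → ℂ) →ₗ[ℂ] Module.End ℂ (Fin k → ℂ) :=
  ∑ w : Wl P, (LinearMap.proj w : (Wl P → ℂ) →ₗ[ℂ] ℂ).smulRight (TB ρ w)

omit [DecidableEq (Wl P)] in
lemma Th_apply (f : Wl P → ℂ) : Th ρ f = ∑ w : Wl P, f w • TB ρ w := by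
  unfold Th
  rw [LinearMap.sum_apply]
  rfl

lemma Th_eb (w : Wl P) : Th ρ (eb w) = TB ρ w := by
  rw [Th_apply, Finset.sum_eq_single w]
  · unfold eb; rw [Pi.single_eq_same, one_smul]
  · intro x _ hx; unfold eb; rw [Pi.single_eq_of_ne hx, zero_smul]
  · intro h; exact absurd (Finset.mem_univ _) h

lemma Th_Lm (i : P.S) (f : Wl P → ℂ) : Th ρ (Lm (sm P) (nu P) i f) = TB ρ (sm P i) * Th ρ f := by
  have h : (Th (P := P) ρ) ∘ₗ (Lm (sm P) (nu P) i) = (LinearMap.mulLeft ℂ (TB ρ (sm P i))) ∘ₗ (Th ρ) := by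
    apply (Pi.basisFun ℂ (Wl P)).ext
    intro w
    rw [Pi.basisFun_apply]
    change Th ρ (Lm (sm P) (nu P) i (eb w)) = TB ρ (sm P i) * Th ρ (eb w)
    rw [Th_eb]
    rcases lt_or_gt_of_ne (hneG P i w) with h1 | h1
    · rw [Lm_down (hsG P) (hneG P) h1, map_add, map_smul, map_smul, Th_eb, Th_eb, TB_down ρ h1]
      unfold nu; push_cast; rfl
    · rw [Lm_up (hsG P) (hneG P) h1, Th_eb, TB_mul ρ (len_sm_add h1)]
  exact congrArg (fun X : (Wl P → ℂ) →ₗ[ℂ] Module.End ℂ (Fin k → ℂ) => X f) h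

lemma Th_Rm (i : P.S) (f : Wl P → ℂ) : Th ρ (Rm (sm P) (nu P) i f) = Th ρ f * TB ρ (sm P i) := by
  have h : (Th (P := P) ρ) ∘ₗ (Rm (sm P) (nu P) i) = (LinearMap.mulRight ℂ (TB ρ (sm P i))) ∘ₗ (Th ρ) := by
    apply (Pi.basisFun ℂ (Wl P)).ext
    intro w
    rw [Pi.basisFun_apply]
    change Th ρ (Rm (sm P) (nu P) i (eb w)) = Th ρ (eb w) * TB ρ (sm P i)
    rw [Th_eb]
    rcases lt_or_gt_of_ne (hneR (hsG P) (hneG P) i w) with h1 | h1
    · rw [Rm_down (hsG P) (hneG P) h1, map_add, map_smul, map_smul, Th_eb, Th_eb, TB_down' ρ h1]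
      unfold nu; push_cast; rfl
    · rw [Rm_up (hsG P) (hneG P) h1, Th_eb, TB_mul ρ (len_sm_add' h1)]
  exact congrArg (fun X : (Wl P → ℂ) →ₗ[ℂ] Module.End ℂ (Fin k → ℂ) => X f) h

omit [DecidableEq (Wl P)] in
lemma Th_left (f : Wl P → ℂ) : e * Th ρ f = Th ρ f := by
  rw [Th_apply, Finset.mul_sum]
  exact Finset.sum_congr rfl fun w _ => by rw [mul_smul_comm, TB_left]

omit [DecidableEq (Wl P)] in
lemma Th_right (f : Wl P → ℂ) : Th ρ f * e = Th ρ f := by
  rw [Th_apply, Finset.sum_mul]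
  exact Finset.sum_congr rfl fun w _ => by rw [smul_mul_assoc, TB_right]

/-- central elements commute with all Hecke operators -/
lemma Th_comm {f : Wl P → ℂ} (hf : f ∈ Zc (sm P) (nu P)) (w : Wl P) : TB ρ w * Th ρ f = Th ρ f * TB ρ w := by
  obtain ⟨L, hL, rfl⟩ := (hsG P).exists_isRed w
  induction L with
  | nil => rw [wp_nil, TB_one, Th_left, Th_right]
  | cons i L ih =>
    have hL' := (hsG P).red_tail hL
    have h1 : len (sm P) (wp (sm P) L) < len (sm P) (sm P i * wp (sm P) L) := by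
      have h2 : len (sm P) (wp (sm P) (i :: L)) = (i :: L).length := hL
      have h3 := len_le (s := sm P) L
      rw [wp_cons, List.length_cons] at h2
      omega
    rw [wp_cons, ← TB_mul ρ (len_sm_add h1), mul_assoc, ih hL', ← mul_assoc, ← mul_assoc, ← Th_Lm, ← Th_Rm, hf i]

lemma Th_comm' {f : Wl P → ℂ} (hf : f ∈ Zc (sm P) (nu P)) (g : G) : (e * ρ g * e) * Th ρ f = Th ρ f * (e * ρ g * e) := by
  rw [eCe_eq ρ (ty_mem P g), smul_mul_assoc, mul_smul_comm, Th_comm ρ hf]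

end Cfsg.Agent.H16.GenH
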