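import Mathlib
import Cfsg.Agent.H16.GenHE
import Cfsg.Agent.H3.Core4
import Cfsg.Agent.H27.CentralChar

set_option autoImplicit false
set_option linter.all false
set_option maxHeartbeats 400000

/-! Constituents of the permutation character on the Borel subgroup. -/

namespace Cfsg.Agent.H16.GenH

open Cfsg Cfsg.Agent.H6 Cfsg.Agent.H6.BN Cfsg.Agent.H16.BNS
open scoped ComplexConjugate

variable {G : Type*} [Group G] {P : Cfsg.BNPair G} [Fintype G]

section one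
variable {k : ℕ} (ρ : Representation ℂ G (Fin k → ℂ))

local notation "e" => avg ρ P.B
local notation "tr" => LinearMap.trace ℂ (Fin _ → ℂ)

lemma avg_zero (h : LinearMap.trace ℂ (Fin k → ℂ) e = 0) : e = 0 := by
  have hp : LinearMap.IsProj (LinearMap.range e) e := by
    constructor
    · intro x; exact ⟨x, rfl⟩
    · rintro _ ⟨y, rfl⟩
      exact congrArg (fun X : Module.End ℂ (Fin k → ℂ) => X y) (avg_sq ρ P.B)
  rw [hp.trace] at h
  have h1 : Module.finrank ℂ (LinearMap.range e) = 0 := by exact_mod_cast h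
  have h2 := Submodule.finrank_eq_zero.1 h1
  exact LinearMap.range_eq_bot.1 h2

variable [Fintype (Wl P)] [DecidableEq (Wl P)]

/-- central elements act as scalars -/
lemma Th_scalar [ρ.IsIrreducible] {f : Wl P → ℂ} (hf : f ∈ Zc (sm P) (nu P)) : ∃ c : ℂ, Th ρ f = c • e := by
  by_cases h0 : LinearMap.trace ℂ (Fin k → ℂ) e = 0
  · refine ⟨0, ?_⟩
    rw [zero_smul, ← Th_right, avg_zero ρ h0, mul_zero]
  set Y := Th ρ f with hY
  have hYl : e * Y = Y := Th_left ρ f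
  have hYr : Y * e = Y := Th_right ρ f
  have hconj : ∀ (Z : Module.End ℂ (Fin k → ℂ)), ∀ h : G, (∑ g : G, ρ g * Z * ρ g⁻¹) * ρ h = ρ h * ∑ g : G, ρ g * Z * ρ g⁻¹ := by
    intro Z h
    rw [Finset.sum_mul, Finset.mul_sum]
    refine Fintype.sum_equiv (Equiv.mulLeft h⁻¹) _ _ fun x => ?_
    simp only [Equiv.coe_mulLeft]
    rw [mul_inv_rev, inv_inv, map_mul, map_mul]
    have : ρ h * (ρ h⁻¹ * ρ x * Z * (ρ x⁻¹ * ρ h)) = (ρ h * ρ h⁻¹) * (ρ x * Z * ρ x⁻¹ * ρ h) := by simp only [mul_assoc]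
    rw [this, ← map_mul, mul_inv_cancel, map_one, one_mul]
  have hX := Cfsg.Agent.H27.schur_scalar ρ _ (hconj Y)
  have hX' := Cfsg.Agent.H27.schur_scalar ρ _ (hconj e)
  have htr : LinearMap.trace ℂ (Fin k → ℂ) (∑ g : G, ρ g * e * ρ g⁻¹) = (Fintype.card G : ℂ) * LinearMap.trace ℂ (Fin k → ℂ) e := by
    rw [map_sum]
    have : ∀ g : G, LinearMap.trace ℂ (Fin k → ℂ) (ρ g * e * ρ g⁻¹) = LinearMap.trace ℂ (Fin k → ℂ) e := by
      intro g
      rw [LinearMap.trace_mul_comm, ← mul_assoc, ← map_mul, inv_mul_cancel, map_one, one_mul]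
    rw [Finset.sum_congr rfl fun g _ => this g, Finset.sum_const, Finset.card_univ, nsmul_eq_mul]
  set μ := LinearMap.trace ℂ (Fin k → ℂ) (∑ g : G, ρ g * Y * ρ g⁻¹) / (Module.finrank ℂ (Fin k → ℂ) : ℂ) with hμ
  set c := LinearMap.trace ℂ (Fin k → ℂ) (∑ g : G, ρ g * e * ρ g⁻¹) / (Module.finrank ℂ (Fin k → ℂ) : ℂ) with hc
  have hk : (Module.finrank ℂ (Fin k → ℂ) : ℂ) ≠ 0 := by
    rw [Module.finrank_fin_fun]
    intro hk0
    have hk1 : k = 0 := by exact_mod_cast hk0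
    subst hk1
    apply h0
    have : (avg ρ P.B : Module.End ℂ (Fin 0 → ℂ)) = 0 := by
      apply LinearMap.ext; intro x; exact Subsingleton.elim _ _
    rw [this, map_zero]
  have hc0 : c ≠ 0 := by
    rw [hc, htr]
    exact div_ne_zero (mul_ne_zero (Nat.cast_ne_zero.2 Fintype.card_ne_zero) h0) hk
  have h1 : e * (∑ g : G, ρ g * Y * ρ g⁻¹) * e = μ • e := by
    rw [hX, mul_smul_comm, smul_mul_assoc, mul_one, avg_sq]
  have h2 : e * (∑ g : G, ρ g * e * ρ g⁻¹) * e = c • e := by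
    rw [hX', mul_smul_comm, smul_mul_assoc, mul_one, avg_sq]
  have h3 : e * (∑ g : G, ρ g * Y * ρ g⁻¹) * e = Y * (e * (∑ g : G, ρ g * e * ρ g⁻¹) * e) := by
    rw [Finset.mul_sum, Finset.sum_mul, Finset.mul_sum, Finset.sum_mul, Finset.mul_sum]
    apply Finset.sum_congr rfl
    intro g _
    have a1 : e * (ρ g * Y * ρ g⁻¹) * e = ((e * ρ g * e) * Y) * (ρ g⁻¹ * e) := by
      calc e * (ρ g * Y * ρ g⁻¹) * e = e * ρ g * Y * (ρ g⁻¹ * e) := by simp only [mul_assoc]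
        _ = e * ρ g * (e * Y) * (ρ g⁻¹ * e) := by rw [hYl]
        _ = _ := by simp only [mul_assoc]
    have a2 : Y * (e * (ρ g * e * ρ g⁻¹) * e) = (Y * (e * ρ g * e)) * (ρ g⁻¹ * e) := by simp only [mul_assoc]
    rw [a1, a2, hY, Th_comm' ρ hf]
  rw [h1, h2, mul_smul_comm, hYr] at h3
  refine ⟨c⁻¹ * μ, ?_⟩
  rw [← smul_smul, h3, smul_smul, inv_mul_cancel₀ hc0, one_smul]

/-- multiplicities -/
noncomputable def cw (w : Wl P) : ℂ := (Nat.card {g : G // ty P g = w} : ℂ) * (ind P w : ℂ)⁻¹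

omit [Fintype (Wl P)] [DecidableEq (Wl P)] in
lemma cw_ne (w : Wl P) : cw w ≠ 0 := by
  unfold cw
  refine mul_ne_zero (Nat.cast_ne_zero.2 ?_) (inv_ne_zero (ind_ne w))
  have : Nonempty {g : G // ty P g = w} := ⟨⟨rp w, ty_eq P (rp_mem w)⟩⟩
  exact Nat.card_pos.ne'

omit [DecidableEq (Wl P)] in
lemma sum_ty (f : Wl P → ℂ) : ∑ g : G, f (ty P g) • ρ g = Th ρ (fun w => cw w * f w) := by
  classical
  set S := ∑ g : G, f (ty P g) • ρ g with hS
  have hl : e * S = S := by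
    apply avg_mul_of_left
    intro b hb
    rw [hS, Finset.mul_sum]
    refine Fintype.sum_equiv (Equiv.mulLeft b) _ _ fun x => ?_
    rw [Equiv.coe_mulLeft, ty_mul_left P x hb, mul_smul_comm, map_mul]
  have hr : S * e = S := by
    apply avg_mul_of_right
    intro b hb
    rw [hS, Finset.sum_mul]
    refine Fintype.sum_equiv (Equiv.mulRight b) _ _ fun x => ?_
    rw [Equiv.coe_mulRight, ty_mul_right P x hb, smul_mul_assoc, map_mul]
  have h1 : S = ∑ g : G, f (ty P g) • (e * ρ g * e) := by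
    rw [← hr, ← hl, hS, Finset.mul_sum, Finset.sum_mul]
    exact Finset.sum_congr rfl fun g _ => by rw [mul_smul_comm, smul_mul_assoc]
  rw [h1, Th_apply, ← Finset.sum_fiberwise (s := Finset.univ) (g := fun g : G => ty P g)]
  apply Finset.sum_congr rfl
  intro w _
  have h2 : ∀ g ∈ Finset.univ.filter (fun g : G => ty P g = w), f (ty P g) • (e * ρ g * e) = (f w * (ind P w : ℂ)⁻¹) • TB ρ w := by
    intro g hg
    have hg' := (Finset.mem_filter.1 hg).2
    have h3 := ty_mem P g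
    rw [hg'] at h3
    rw [hg', eCe_eq ρ h3, smul_smul]
  rw [Finset.sum_congr rfl h2, Finset.sum_const, ← Nat.cast_smul_eq_nsmul ℂ, smul_smul]
  congr 1
  unfold cw
  rw [Nat.card_eq_fintype_card, Fintype.card_subtype]
  ring

end one

section all

variable (P)

noncomputable def dg (χ : IrrCharacter G) : ℕ := χ.2.choose
noncomputable def rh (χ : IrrCharacter G) : Representation ℂ G (Fin (dg χ) → ℂ) := χ.2.choose_spec.choose
omit [Fintype G] in
lemma rh_irr (χ : IrrCharacter G) : (rh χ).IsIrreducible := χ.2.choose_spec.choose_spec.1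
omit [Fintype G] in
lemma rh_char (χ : IrrCharacter G) : (rh χ).character = χ := χ.2.choose_spec.choose_spec.2

/-- multiplicity of `χ` in the permutation character -/
noncomputable def mm (χ : IrrCharacter G) : ℂ := LinearMap.trace ℂ (Fin (dg χ) → ℂ) (avg (rh χ) P.B)

variable [Fintype (Wl P)] [DecidableEq (Wl P)]

lemma Th_joint {f : Wl P → ℂ} (h : ∀ χ : IrrCharacter G, Th (rh χ) f = 0) : f = 0 := by
  classical
  haveI : Fintype (IrrCharacter G) := Fintype.ofFinite _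
  let f' : Wl P → ℂ := fun w => (cw w)⁻¹ * f w
  have h1 : ∀ χ : IrrCharacter G, ∑ g : G, f' (ty P g) • rh χ g = 0 := by
    intro χ
    rw [sum_ty (rh χ) f']
    have : (fun w => cw w * f' w) = f := by
      funext w
      change cw w * ((cw w)⁻¹ * f w) = f w
      rw [← mul_assoc, mul_inv_cancel₀ (cw_ne w), one_mul]
    rw [this]; exact h χ
  have h2 : ∀ (x : G), f' (ty P x) = 0 := by
    intro x
    have h3 : ∀ χ : IrrCharacter G, ∑ g : G, f' (ty P g) * (χ : G → ℂ) (g * x⁻¹) = 0 := by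
      intro χ
      have h4 := congrArg (fun X : Module.End ℂ (Fin (dg χ) → ℂ) => LinearMap.trace ℂ (Fin (dg χ) → ℂ) (X * rh χ x⁻¹)) (h1 χ)
      simp only [Finset.sum_mul, smul_mul_assoc, map_sum, map_smul, zero_mul, map_zero, ← map_mul] at h4
      rw [← h4]
      apply Finset.sum_congr rfl
      intro g _
      rw [← rh_char χ]
      rfl
    have h5 : ∑ g : G, f' (ty P g) * (∑ χ : IrrCharacter G, (χ : G → ℂ) 1 * (χ : G → ℂ) (g * x⁻¹)) = 0 := by
      have : ∀ g : G, f' (ty P g) * (∑ χ : IrrCharacter G, (χ : G → ℂ) 1 * (χ : G → ℂ) (g * x⁻¹)) = ∑ χ : IrrCharacter G, (χ : G → ℂ) 1 * (f' (ty P g) * (χ : G → ℂ) (g * x⁻¹)) := by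
        intro g
        rw [Finset.mul_sum]
        exact Finset.sum_congr rfl fun χ _ => by ring
      rw [Finset.sum_congr rfl fun g _ => this g, Finset.sum_comm]
      apply Finset.sum_eq_zero
      intro χ _
      rw [← Finset.mul_sum, h3 χ, mul_zero]
    have h6 : ∀ g : G, f' (ty P g) * (∑ χ : IrrCharacter G, (χ : G → ℂ) 1 * (χ : G → ℂ) (g * x⁻¹)) = if g = x then f' (ty P x) * (Nat.card G : ℂ) else 0 := by
      intro g
      rw [Cfsg.Agent.H3.sum_degree_mul]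
      by_cases hg : g = x
      · subst hg; rw [if_pos (mul_inv_cancel g), if_pos rfl]
      · rw [if_neg (fun h' => hg (mul_inv_eq_one.1 h')), if_neg hg, mul_zero]
    rw [Finset.sum_congr rfl fun g _ => h6 g, Finset.sum_ite_eq' , if_pos (Finset.mem_univ _)] at h5
    exact (mul_eq_zero.1 h5).resolve_right (Nat.cast_ne_zero.2 Nat.card_pos.ne')
  funext w
  have h7 := h2 (rp w)
  rw [ty_eq P (rp_mem w)] at h7
  exact (mul_eq_zero.1 h7).resolve_left (inv_ne_zero (cw_ne w))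

/-- the functions attached to characters -/
noncomputable def fz (ψ : IrrCharacter G) (g : G) : ℂ := LinearMap.trace ℂ (Fin (dg ψ) → ℂ) (rh ψ g⁻¹ * avg (rh ψ) P.B)

omit [Fintype (Wl P)] [DecidableEq (Wl P)] in
lemma fz_eq (ψ : IrrCharacter G) {g h : G} {w : Wl P} (hg : g ∈ C P w) (hh : h ∈ C P w) : fz P ψ g = fz P ψ h := by
  unfold fz
  rw [← tr_avg, ← tr_avg, eCe (rh ψ) (C_inv P hg) (C_inv P hh)]

noncomputable def zz (ψ : IrrCharacter G) : Wl P → ℂ := fun w => cw w * fz P ψ (rp w)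

omit [DecidableEq (Wl P)] in
lemma Th_zz {k : ℕ} (ρ : Representation ℂ G (Fin k → ℂ)) (ψ : IrrCharacter G) : Th ρ (zz P ψ) = ∑ g : G, fz P ψ g • ρ g := by
  unfold zz
  rw [← sum_ty ρ (fun w => fz P ψ (rp w))]
  apply Finset.sum_congr rfl
  intro g _
  rw [fz_eq P ψ (rp_mem (ty P g)) (ty_mem P g)]

omit [DecidableEq (Wl P)] in
lemma Th_zz_scalar {k : ℕ} (ρ : Representation ℂ G (Fin k → ℂ)) [ρ.IsIrreducible] (ψ : IrrCharacter G) : ∃ c : ℂ, Th ρ (zz P ψ) = c • avg ρ P.B := by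
  classical
  have h1 := Cfsg.Agent.H27.schur_classFun ρ (fun g => (ψ : G → ℂ) g⁻¹) (by
    intro g x
    have : (x * g * x⁻¹)⁻¹ = x * g⁻¹ * x⁻¹ := by group
    rw [this]
    exact Cfsg.Agent.H27.isCharacter_conj (Cfsg.Agent.H27.isIrr_isCharacter ψ.2) _ _)
  set c := (∑ g : G, (ψ : G → ℂ) g⁻¹ * ρ.character g) / (Module.finrank ℂ (Fin k → ℂ) : ℂ)
  refine ⟨c, ?_⟩
  rw [Th_zz]
  have h2 : ∀ g : G, fz P ψ g = (Nat.card P.B : ℂ)⁻¹ * ∑ u ∈ Finset.univ.filter (fun u : G => u ∈ P.B), (ψ : G → ℂ) (g⁻¹ * u) := by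
    intro g
    unfold fz
    rw [tr_mul_avg, rh_char]
  have h3 : ∑ g : G, fz P ψ g • ρ g = (Nat.card P.B : ℂ)⁻¹ • ∑ u ∈ Finset.univ.filter (fun u : G => u ∈ P.B), ∑ g : G, (ψ : G → ℂ) (g⁻¹ * u) • ρ g := by
    rw [Finset.sum_comm, Finset.smul_sum]
    apply Finset.sum_congr rfl
    intro g _
    rw [h2, ← Finset.sum_smul, smul_smul]
  have h4 : ∀ u : G, ∑ g : G, (ψ : G → ℂ) (g⁻¹ * u) • ρ g = ρ u * ∑ g : G, (ψ : G → ℂ) g⁻¹ • ρ g := by
    intro u
    rw [Finset.mul_sum]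
    refine Fintype.sum_equiv (Equiv.mulLeft u⁻¹) _ _ fun x => ?_
    rw [Equiv.coe_mulLeft, mul_smul_comm, ← map_mul, mul_inv_cancel_left, mul_inv_rev, inv_inv]
  rw [h3, Finset.sum_congr rfl fun u _ => h4 u, ← Finset.sum_mul, h1, mul_smul_comm, mul_one, smul_comm, ← avg_def]

lemma zz_mem (ψ : IrrCharacter G) : zz P ψ ∈ Zc (sm P) (nu P) := by
  intro i
  rw [← sub_eq_zero]
  apply Th_joint P
  intro χ
  haveI := rh_irr χ
  obtain ⟨c, hc⟩ := Th_zz_scalar P (rh χ) ψ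
  rw [map_sub, Th_Lm, Th_Rm, hc, mul_smul_comm, smul_mul_assoc, TB_left, TB_right, sub_self]

omit [DecidableEq (Wl P)] in
open Classical in
lemma tr_Th_zz (χ ψ : IrrCharacter G) : LinearMap.trace ℂ (Fin (dg χ) → ℂ) (Th (rh χ) (zz P ψ)) =
    (if χ = ψ then (Nat.card G : ℂ) else 0) * mm P ψ / (ψ : G → ℂ) 1 := by
  rw [← Th_right, Th_zz, Finset.sum_mul, map_sum]
  have h1 := sum_avg (rh χ) (rh ψ) (by rw [rh_char]; exact χ.2) (by rw [rh_char]; exact ψ.2) P.B
  rw [rh_char, rh_char] at h1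
  have h2 : (if (χ : G → ℂ) = (ψ : G → ℂ) then (Nat.card G : ℂ) else 0) = if χ = ψ then (Nat.card G : ℂ) else 0 := by
    by_cases h : χ = ψ
    · rw [if_pos h, if_pos (congrArg Subtype.val h)]
    · rw [if_neg h, if_neg (fun h' => h (Subtype.ext h'))]
  rw [h2] at h1
  rw [mm, ← h1]
  apply Finset.sum_congr rfl
  intro g _
  rw [smul_mul_assoc, map_smul, smul_eq_mul, mul_comm]
  rfl

open Classical in
theorem finrank_Zc_eq : Module.finrank ℂ (Zc (sm P) (nu P)) = Nat.card {χ : IrrCharacter G // mm P χ ≠ 0} := by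
  haveI : Fintype (IrrCharacter G) := Fintype.ofFinite _
  let T : Zc (sm P) (nu P) →ₗ[ℂ] ({χ : IrrCharacter G // mm P χ ≠ 0} → ℂ) :=
    LinearMap.pi fun χ => (LinearMap.trace ℂ (Fin (dg χ.1) → ℂ)) ∘ₗ (Th (P := P) (rh χ.1)) ∘ₗ (Zc (sm P) (nu P)).subtype
  have hT : ∀ f χ, T f χ = LinearMap.trace ℂ (Fin (dg χ.1) → ℂ) (Th (P := P) (rh χ.1) f.1) := fun _ _ => rfl
  have hinj : Function.Injective T := by
    rw [injective_iff_map_eq_zero]
    intro f hf
    apply Subtype.ext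
    apply Th_joint P
    intro χ
    haveI := rh_irr χ
    by_cases h0 : mm P χ = 0
    · have := avg_zero (P := P) (rh χ) h0
      rw [← Th_right, this, mul_zero]
    · obtain ⟨c, hc⟩ := Th_scalar (P := P) (rh χ) f.2
      have h1 := congrFun hf ⟨χ, h0⟩
      rw [hT] at h1
      change LinearMap.trace ℂ (Fin (dg χ) → ℂ) (Th (P := P) (rh χ) f.1) = 0 at h1
      rw [hc, map_smul, smul_eq_mul] at h1
      rw [hc, (mul_eq_zero.1 h1).resolve_right h0, zero_smul]
  have hsurj : Function.Surjective T := by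
    intro v
    refine ⟨∑ ψ : {χ : IrrCharacter G // mm P χ ≠ 0}, (v ψ * (((Nat.card G : ℂ) * mm P ψ.1 / (ψ.1 : G → ℂ) 1)⁻¹)) • ⟨zz P ψ.1, zz_mem P ψ.1⟩, ?_⟩
    rw [map_sum]
    funext χ
    rw [Finset.sum_apply, Finset.sum_eq_single χ]
    · rw [map_smul, Pi.smul_apply, hT]
      change _ • LinearMap.trace ℂ (Fin (dg χ.1) → ℂ) (Th (rh χ.1) (zz P χ.1)) = v χ
      rw [tr_Th_zz, if_pos rfl, smul_eq_mul, mul_assoc, inv_mul_cancel₀, mul_one]
      exact div_ne_zero (mul_ne_zero (Nat.cast_ne_zero.2 Nat.card_pos.ne') χ.2) (Cfsg.Agent.H27.isIrr_one_ne_zero χ.1.2)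
    · intro ψ _ hψ
      rw [map_smul, Pi.smul_apply, hT]
      change _ • LinearMap.trace ℂ (Fin (dg χ.1) → ℂ) (Th (rh χ.1) (zz P ψ.1)) = 0
      rw [tr_Th_zz, if_neg (fun h' => hψ (Subtype.ext h'.symm)), zero_mul, zero_div, smul_zero]
    · intro h; exact absurd (Finset.mem_univ _) h
  rw [(LinearEquiv.ofBijective T ⟨hinj, hsurj⟩).finrank_eq, Module.finrank_fintype_fun_eq_card, Nat.card_eq_fintype_card]

/-- the number of constituents is the class number of the Weyl group -/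
theorem card_mm : Nat.card {χ : IrrCharacter G // mm P χ ≠ 0} = Nat.card (ConjClasses (Wl P)) := by
  rw [← finrank_Zc_eq P]
  exact finrank_Zc (hsG P) (hexG P) (hneG P) nu_wt

end all

end Cfsg.Agent.H16.GenH
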