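import Mathlib
import Cfsg.Agent.H16.GenHF
import Cfsg.Agent.H16.FlagI
import Cfsg.Agent.H3.Basic2

set_option autoImplicit false
set_option linter.all false
set_option maxHeartbeats 400000

/-! Constituents of the permutation character on the Borel subgroup: the count. -/

namespace Cfsg.Agent.H16.GenH

open Cfsg Cfsg.Agent.H6 Cfsg.Agent.H6.BN Cfsg.Agent.H16.BNS
open scoped ComplexConjugate

variable {G : Type*} [Group G] {P : Cfsg.BNPair G} [Fintype G]

variable (P) in
lemma inner_eq (χ : IrrCharacter G) : classInner (fixedPointCharacter P.B) (χ : G → ℂ) = conj (mm P χ) := by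
  classical
  haveI : Fintype P.B := Fintype.ofFinite _
  have h0 : fixedPointCharacter P.B = indFun P.B (fun _ => (1 : ℂ)) := funext (fixedPointCharacter_eq P.B)
  rw [h0, Cfsg.Agent.H3.frobenius_reciprocity P.B _ (Cfsg.Agent.H3.irr_classFun χ.2)]
  unfold mm classInner
  have h1 := tr_mul_avg (rh χ) P.B 1
  rw [map_one, one_mul] at h1
  rw [h1, rh_char, map_mul, map_inv₀, Complex.conj_natCast, map_sum]
  congr 1
  rw [Finset.sum_subtype (Finset.univ.filter (fun g : G => g ∈ P.B)) (p := fun g => g ∈ P.B) (fun g => by simp)]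
  apply Finset.sum_congr rfl
  intro b _
  rw [one_mul, one_mul]

variable (P) in
lemma mm_iff (χ : IrrCharacter G) : (∃ φ : G → ℂ, IsCharacter G φ ∧ fixedPointCharacter P.B = (χ : G → ℂ) + φ) ↔ mm P χ ≠ 0 := by
  have h := inner_eq P χ
  constructor
  · rintro ⟨φ, hφ, e⟩ h0
    rw [h0, map_zero, e, Cfsg.Agent.H3.classInner_add_left, Cfsg.Agent.H3.classInner_self_of_irr χ.2] at h
    obtain ⟨n, hn⟩ := Cfsg.Agent.H3.classInner_char_nat hφ (Cfsg.Agent.H3.irr_isChar χ.2)
    rw [hn] at h
    have : (1 + n : ℕ) = 0 := by exact_mod_cast h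
    omega
  · intro h0
    refine ⟨fixedPointCharacter P.B - (χ : G → ℂ), ?_, by abel⟩
    apply Cfsg.Agent.H3.isChar_sub_irr (fpc_isChar P.B) χ.2
    rw [h]
    exact fun h1 => h0 ((map_eq_zero _).1 h1)

variable (P) in
theorem card_constituents : Nat.card {χ : IrrCharacter G // ∃ φ : G → ℂ, IsCharacter G φ ∧ fixedPointCharacter P.B = (χ : G → ℂ) + φ} =
    Nat.card (ConjClasses (Wl P)) := by
  classical
  haveI : Finite (Wl P) := Finite.of_surjective _ (pr_surj P)
  haveI : Fintype (Wl P) := Fintype.ofFinite _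
  rw [← card_mm P]
  exact Nat.card_congr (Equiv.subtypeEquivRight fun χ => mm_iff P χ)

theorem card_conj_congr {A B : Type*} [Group A] [Group B] (φ : A ≃* B) : Nat.card (ConjClasses A) = Nat.card (ConjClasses B) := by
  apply Nat.card_congr
  refine ⟨ConjClasses.map φ.toMonoidHom, ConjClasses.map φ.symm.toMonoidHom, ?_, ?_⟩
  · intro c
    obtain ⟨a, rfl⟩ := ConjClasses.exists_rep c
    change ConjClasses.mk (φ.symm (φ a)) = ConjClasses.mk a
    rw [φ.symm_apply_apply]
  · intro c
    obtain ⟨a, rfl⟩ := ConjClasses.exists_rep c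
    change ConjClasses.mk (φ (φ.symm a)) = ConjClasses.mk a
    rw [φ.apply_symm_apply]

end Cfsg.Agent.H16.GenH
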