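import Mathlib
import Cfsg.Agent.H16.SSim2

set_option autoImplicit false
set_option linter.all false

/-! Involutions of `PGL_n(q)`. -/

namespace Cfsg.Agent.H16.InvP

open Module Matrix Polynomial

lemma card_classes' {G T : Type*} [Group G] (P : G → Prop) (J : T → G) (h1 : ∀ t, P (J t)) (h2 : ∀ g, P g → ∃ t, IsConj (J t) g)
    (h3 : ∀ t t', IsConj (J t) (J t') → t = t') : Nat.card {c : ConjClasses G // ∃ g, ConjClasses.mk g = c ∧ P g} = Nat.card T := by
  symm
  let f : T → {c : ConjClasses G // ∃ g, ConjClasses.mk g = c ∧ P g} := fun t => ⟨ConjClasses.mk (J t), J t, rfl, h1 t⟩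
  apply Nat.card_congr (Equiv.ofBijective f ⟨?_, ?_⟩)
  · intro t t' h
    exact h3 t t' (ConjClasses.mk_eq_mk_iff_isConj.1 (congrArg Subtype.val h))
  · rintro ⟨C, g, rfl, hg⟩
    obtain ⟨t, ht⟩ := h2 g hg
    exact ⟨t, Subtype.ext (ConjClasses.mk_eq_mk_iff_isConj.2 ht)⟩

section lin
variable {F V W : Type*} [Field F] [AddCommGroup V] [Module F V] [FiniteDimensional F V] [AddCommGroup W] [Module F W] [FiniteDimensional F W]

lemma range_eq_ker (h2 : (2 : F) ≠ 0) {f : Module.End F V} (hf : f * f = 1) : LinearMap.range (f + 1) = LinearMap.ker (f - 1) := by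
  have hff : ∀ x, f (f x) = x := fun x => LinearMap.congr_fun hf x
  apply le_antisymm
  · rintro _ ⟨x, rfl⟩
    rw [LinearMap.mem_ker]
    simp only [LinearMap.sub_apply, LinearMap.add_apply, Module.End.one_apply, map_add, hff]
    abel
  · intro x hx
    rw [LinearMap.mem_ker, LinearMap.sub_apply, Module.End.one_apply, sub_eq_zero] at hx
    refine ⟨(2 : F)⁻¹ • x, ?_⟩
    rw [LinearMap.add_apply, map_smul, hx, Module.End.one_apply, ← add_smul]
    have : (2 : F)⁻¹ + 2⁻¹ = 1 := by field_simp; norm_num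
    rw [this, one_smul]

lemma finrank_add (h2 : (2 : F) ≠ 0) {f : Module.End F V} (hf : f * f = 1) :
    finrank F (LinearMap.range (f - 1)) + finrank F (LinearMap.range (f + 1)) = finrank F V := by
  rw [range_eq_ker h2 hf]
  exact LinearMap.finrank_range_add_finrank_ker (f - 1)

lemma isCompl_ker (h2 : (2 : F) ≠ 0) {f : Module.End F V} (hf : f * f = 1) : IsCompl (LinearMap.ker (f - 1)) (LinearMap.ker (f + 1)) := by
  have hff : ∀ x, f (f x) = x := fun x => LinearMap.congr_fun hf x
  constructor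
  · rw [Submodule.disjoint_def]
    intro x hx hy
    rw [LinearMap.mem_ker, LinearMap.sub_apply, Module.End.one_apply, sub_eq_zero] at hx
    rw [LinearMap.mem_ker, LinearMap.add_apply, Module.End.one_apply, hx, ← two_smul F] at hy
    exact (smul_eq_zero.1 hy).resolve_left h2
  · rw [codisjoint_iff, eq_top_iff]
    intro x _
    have h3 : x = (2 : F)⁻¹ • (f x + x) + (2 : F)⁻¹ • (x - f x) := by
      rw [← smul_add, show f x + x + (x - f x) = (2 : F) • x by rw [two_smul]; abel, smul_smul, inv_mul_cancel₀ h2, one_smul]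
    rw [h3]
    apply Submodule.add_mem_sup
    · apply Submodule.smul_mem
      rw [LinearMap.mem_ker, LinearMap.sub_apply, Module.End.one_apply, map_add, hff]; abel
    · apply Submodule.smul_mem
      rw [LinearMap.mem_ker, LinearMap.add_apply, Module.End.one_apply, map_sub, hff]; abel

lemma inv_similar (h2 : (2 : F) ≠ 0) {f : Module.End F V} (hf : f * f = 1) {g : Module.End F W} (hg : g * g = 1) (hn : finrank F V = finrank F W)
    (hr : finrank F (LinearMap.range (f - 1)) = finrank F (LinearMap.range (g - 1))) : ∃ e : V ≃ₗ[F] W, ∀ x, e (f x) = g (e x) := by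
  have a1 := LinearMap.finrank_range_add_finrank_ker (f - 1)
  have a2 := LinearMap.finrank_range_add_finrank_ker (g - 1)
  have a3 := finrank_add h2 hf
  have a4 := finrank_add h2 hg
  have a5 := LinearMap.finrank_range_add_finrank_ker (f + 1)
  have a6 := LinearMap.finrank_range_add_finrank_ker (g + 1)
  let e1 : LinearMap.ker (f - 1) ≃ₗ[F] LinearMap.ker (g - 1) := LinearEquiv.ofFinrankEq _ _ (by omega)
  let e2 : LinearMap.ker (f + 1) ≃ₗ[F] LinearMap.ker (g + 1) := LinearEquiv.ofFinrankEq _ _ (by omega)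
  let e : V ≃ₗ[F] W := (Submodule.prodEquivOfIsCompl _ _ (isCompl_ker h2 hf)).symm.trans ((LinearEquiv.prodCongr e1 e2).trans (Submodule.prodEquivOfIsCompl _ _ (isCompl_ker h2 hg)))
  have he : ∀ (a : LinearMap.ker (f - 1)) (b : LinearMap.ker (f + 1)), e ((a : V) + (b : V)) = (e1 a : W) + (e2 b : W) := by
    intro a b
    have h1 : (Submodule.prodEquivOfIsCompl _ _ (isCompl_ker h2 hf)).symm ((a : V) + (b : V)) = (a, b) := by
      rw [LinearEquiv.symm_apply_eq]; rfl
    show (Submodule.prodEquivOfIsCompl _ _ (isCompl_ker h2 hg)) ((LinearEquiv.prodCongr e1 e2) ((Submodule.prodEquivOfIsCompl _ _ (isCompl_ker h2 hf)).symm ((a : V) + (b : V)))) = _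
    rw [h1]; rfl
  have k1 : ∀ (a : LinearMap.ker (f - 1)), f a = a := fun a => by
    have := a.2
    rw [LinearMap.mem_ker, LinearMap.sub_apply, Module.End.one_apply, sub_eq_zero] at this
    exact this
  have k2 : ∀ (a : LinearMap.ker (f + 1)), f a = -a := fun a => by
    have := a.2
    rw [LinearMap.mem_ker, LinearMap.add_apply, Module.End.one_apply] at this
    exact eq_neg_of_add_eq_zero_left this
  have k3 : ∀ (a : LinearMap.ker (g - 1)), g a = a := fun a => by
    have := a.2
    rw [LinearMap.mem_ker, LinearMap.sub_apply, Module.End.one_apply, sub_eq_zero] at this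
    exact this
  have k4 : ∀ (a : LinearMap.ker (g + 1)), g a = -a := fun a => by
    have := a.2
    rw [LinearMap.mem_ker, LinearMap.add_apply, Module.End.one_apply] at this
    exact eq_neg_of_add_eq_zero_left this
  refine ⟨e, fun x => ?_⟩
  obtain ⟨⟨a, b⟩, hab⟩ := (Submodule.prodEquivOfIsCompl _ _ (isCompl_ker h2 hf)).surjective x
  have hx : x = (a : V) + (b : V) := hab.symm
  have hf1 : f ((a : V) + (b : V)) = (a : V) + ((-b : LinearMap.ker (f + 1)) : V) := by
    rw [map_add, k1, k2]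
  have hg1 : g ((e1 a : W) + (e2 b : W)) = (e1 a : W) + ((-(e2 b) : LinearMap.ker (g + 1)) : W) := by
    rw [map_add, k3, k4]
  rw [hx, he, hf1, he, hg1, map_neg]

end lin

/-- an endomorphism killed by an irreducible polynomial has characteristic polynomial a power of it -/
lemma cp_prim {F : Type*} [Field F] {π : F[X]} (hm : π.Monic) (hπ : Irreducible π) : ∀ (n : ℕ) {M : Type*} [AddCommGroup M] [Module F M] [Module F[X] M]
    [IsScalarTower F F[X] M] [FiniteDimensional F M] [IsSemisimpleModule F[X] M], finrank F M = n → (∀ x : M, π • x = 0) →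
    ∃ k : ℕ, SSim.cp (F := F) M = π ^ k := by
  intro n
  induction n using Nat.strong_induction_on with
  | _ n ih =>
    intro M _ _ _ _ _ _ hn h0
    rcases subsingleton_or_nontrivial M with hs | hnt
    · refine ⟨0, ?_⟩
      have h1 := SSim.cp_natDegree (F := F) (M := M)
      rw [finrank_zero_of_subsingleton] at h1
      rw [pow_zero]
      exact (SSim.cp_monic (F := F) (M := M)).natDegree_eq_zero.1 h1
    · obtain ⟨q, hqm, hq, N, ⟨e⟩⟩ := SSim.exists_simple (F := F) (M := M)
      haveI := SSim.finite_QQ hqm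
      haveI : FiniteDimensional F N := inferInstanceAs (FiniteDimensional F (N.restrictScalars F))
      have h1 : SSim.cp (F := F) M = q * SSim.cp (F := F) N := by rw [SSim.cp_congr e, SSim.cp_prod, SSim.cp_QQ hqm]
      have hqπ : q = π := by
        have h2 := h0 (e.symm (Submodule.Quotient.mk (1 : F[X]), 0))
        rw [← map_smul] at h2
        have h3 := (LinearEquiv.map_eq_zero_iff e.symm).1 h2
        have h4 : π • (Submodule.Quotient.mk (1 : F[X]) : F[X] ⧸ Ideal.span {q}) = 0 := congrArg Prod.fst h3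
        rw [← Submodule.Quotient.mk_smul, smul_eq_mul, mul_one, Submodule.Quotient.mk_eq_zero, Ideal.mem_span_singleton] at h4
        exact eq_of_monic_of_associated hqm hm (hq.associated_of_dvd hπ h4)
      subst hqπ
      have h4 : finrank F N < n := by
        rw [← hn, ← SSim.cp_natDegree (F := F) (M := M), ← SSim.cp_natDegree (F := F) (M := N), h1, (hqm.natDegree_mul (SSim.cp_monic (F := F) (M := N)))]
        have := hq.natDegree_pos
        omega
      obtain ⟨k, hk⟩ := ih _ h4 (M := N) rfl (fun x => Subtype.ext (h0 x.1))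
      exact ⟨k + 1, by rw [h1, hk, pow_succ']⟩

lemma prim_similar {F V W : Type*} [Field F] [AddCommGroup V] [Module F V] [FiniteDimensional F V] [AddCommGroup W] [Module F W] [FiniteDimensional F W]
    {π : F[X]} (hm : π.Monic) (hπ : Irreducible π) {f : Module.End F V} {g : Module.End F W} (hf : aeval f π = 0) (hg : aeval g π = 0)
    (hn : finrank F V = finrank F W) : ∃ e : V ≃ₗ[F] W, ∀ x, e (f x) = g (e x) := by
  have hfs : f.IsSemisimple := Module.End.isSemisimple_of_squarefree_aeval_eq_zero hπ.squarefree hf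
  have hgs : g.IsSemisimple := Module.End.isSemisimple_of_squarefree_aeval_eq_zero hπ.squarefree hg
  apply SSim.similar_of_charpoly hfs hgs
  haveI : IsSemisimpleModule F[X] (AEval' f) := hfs
  haveI : IsSemisimpleModule F[X] (AEval' g) := hgs
  haveI : FiniteDimensional F (AEval' f) := (AEval'.of f).finiteDimensional
  haveI : FiniteDimensional F (AEval' g) := (AEval'.of g).finiteDimensional
  obtain ⟨k, hk⟩ := cp_prim hm hπ _ (M := AEval' f) rfl (fun x => by
    obtain ⟨v, rfl⟩ := (AEval'.of f).surjective x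
    rw [← AEval.of_aeval_smul, hf]; simp)
  obtain ⟨l, hl⟩ := cp_prim hm hπ _ (M := AEval' g) rfl (fun x => by
    obtain ⟨v, rfl⟩ := (AEval'.of g).surjective x
    rw [← AEval.of_aeval_smul, hg]; simp)
  rw [SSim.cp_aeval] at hk hl
  rw [hk, hl]
  have h1 := f.charpoly_natDegree
  have h2 := g.charpoly_natDegree
  rw [hk, hm.natDegree_pow] at h1
  rw [hl, hm.natDegree_pow] at h2
  have h3 := hπ.natDegree_pos
  have : k = l := Nat.eq_of_mul_eq_mul_right h3 (by rw [h1, h2, hn])
  rw [this]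

section pgl
variable {F : Type*} [Field F] {n : ℕ}

abbrev Mn (n : ℕ) (F : Type*) [Field F] := Matrix (Fin n) (Fin n) F
abbrev PG (n : ℕ) (F : Type*) [Field F] := GL (Fin n) F ⧸ Subgroup.center (GL (Fin n) F)
def pr : GL (Fin n) F →* PG n F := QuotientGroup.mk' _
lemma pr_surj : Function.Surjective (pr (F := F) (n := n)) := QuotientGroup.mk'_surjective _
lemma pr_one_iff (g : GL (Fin n) F) : pr g = 1 ↔ ∃ c : F, (g : Mn n F) = c • 1 := by
  have h1 : pr g = 1 ↔ g ∈ Subgroup.center (GL (Fin n) F) := QuotientGroup.eq_one_iff g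
  rw [h1, Matrix.GeneralLinearGroup.mem_center_iff_val_mem_range_scalar]
  constructor
  · rintro ⟨c, hc⟩
    refine ⟨c, ?_⟩
    show g.val = _
    rw [← hc]; ext i j; simp [Matrix.scalar_apply, Matrix.diagonal_apply, Matrix.one_apply]
  · rintro ⟨c, hc⟩
    refine ⟨c, ?_⟩
    show _ = (g : Mn n F)
    rw [hc]; ext i j; simp [Matrix.scalar_apply, Matrix.diagonal_apply, Matrix.one_apply]

lemma conj_pr (g h : GL (Fin n) F) (hn : 0 < n) : IsConj (pr g) (pr h) ↔ ∃ P : GL (Fin n) F, ∃ c : F, c ≠ 0 ∧ (P : Mn n F) * g = c • ((h : Mn n F) * P) := by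
  haveI : Nonempty (Fin n) := ⟨⟨0, hn⟩⟩
  rw [isConj_iff]
  constructor
  · rintro ⟨x, hx⟩
    obtain ⟨P, rfl⟩ := pr_surj x
    have h1 : pr ((h * P)⁻¹ * (P * g)) = 1 := by
      rw [map_mul, map_inv, map_mul, map_mul, ← hx]; group
    obtain ⟨c, hc⟩ := (pr_one_iff _).1 h1
    have h2 : P * g = (h * P) * ((h * P)⁻¹ * (P * g)) := by group
    have h3 : (P : Mn n F) * g = ((h : Mn n F) * P) * (((h * P)⁻¹ * (P * g) : GL (Fin n) F) : Mn n F) :=
      congrArg (fun x : GL (Fin n) F => (x : Mn n F)) h2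
    rw [hc, Matrix.mul_smul, Matrix.mul_one] at h3
    refine ⟨P, c, ?_, h3⟩
    rintro rfl
    have h4 : ((P * g : GL (Fin n) F) : Mn n F).det = 0 := by
      show ((P : Mn n F) * (g : Mn n F)).det = 0
      rw [h3, zero_smul, det_zero]
    exact (P * g).det_ne_zero h4
  · rintro ⟨P, c, hc, hP⟩
    refine ⟨pr P, ?_⟩
    rw [mul_inv_eq_iff_eq_mul, ← map_mul, ← map_mul]
    have h1 : pr ((h * P)⁻¹ * (P * g)) = 1 := by
      rw [pr_one_iff]
      refine ⟨c, ?_⟩
      have h2 : (((h * P)⁻¹ * (P * g) : GL (Fin n) F) : Mn n F) = (((h * P)⁻¹ : GL (Fin n) F) : Mn n F) * ((P : Mn n F) * g) := rfl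
      rw [h2, hP, Matrix.mul_smul]
      have h3 : (((h * P)⁻¹ : GL (Fin n) F) : Mn n F) * ((h : Mn n F) * P) = 1 :=
        congrArg (fun x : GL (Fin n) F => (x : Mn n F)) (inv_mul_cancel (h * P))
      rw [h3]
    rw [map_mul, map_inv, inv_mul_eq_one] at h1
    exact h1.symm

lemma sim_gl {g h : GL (Fin n) F} (e : (Fin n → F) ≃ₗ[F] (Fin n → F)) (c : F)
    (he : ∀ v, e ((g : Mn n F) *ᵥ v) = c • ((h : Mn n F) *ᵥ (e v))) : ∃ P : GL (Fin n) F, (P : Mn n F) * g = c • ((h : Mn n F) * P) := by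
  let P : GL (Fin n) F := ⟨LinearMap.toMatrix' e.toLinearMap, LinearMap.toMatrix' e.symm.toLinearMap, by
    rw [← LinearMap.toMatrix'_comp]; simp, by rw [← LinearMap.toMatrix'_comp]; simp⟩
  refine ⟨P, ?_⟩
  apply Matrix.toLin'.injective
  show toLin' (LinearMap.toMatrix' e.toLinearMap * (g : Matrix (Fin n) (Fin n) F)) = toLin' (c • ((h : Matrix (Fin n) (Fin n) F) * LinearMap.toMatrix' e.toLinearMap))
  apply LinearMap.ext
  intro v
  rw [map_smul, toLin'_mul, toLin'_mul, toLin'_toMatrix']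
  simp only [LinearMap.comp_apply, toLin'_apply, LinearMap.smul_apply]
  exact he v

/-- square-one elements with the same `rank (g - 1)` -/
lemma sq_conj (h2 : (2 : F) ≠ 0) {g h : GL (Fin n) F} (hg : (g : Mn n F) * g = 1) (hh : (h : Mn n F) * h = 1)
    (hr : ((g : Mn n F) - 1).rank = ((h : Mn n F) - 1).rank) : ∃ P : GL (Fin n) F, (P : Mn n F) * g = (1 : F) • ((h : Mn n F) * P) := by
  have e1 : ∀ g : GL (Fin n) F, (g : Mn n F) * g = 1 → (toLin' (g : Mn n F)) * (toLin' (g : Mn n F)) = 1 := by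
    intro g hg
    rw [Module.End.mul_eq_comp, ← toLin'_mul, hg, toLin'_one]; rfl
  have e2 : ∀ g : GL (Fin n) F, finrank F (LinearMap.range (toLin' (g : Mn n F) - 1)) = ((g : Mn n F) - 1).rank := by
    intro g
    have : toLin' (g : Mn n F) - 1 = toLin' ((g : Mn n F) - 1) := by rw [map_sub, toLin'_one]; rfl
    rw [this]; rfl
  obtain ⟨e, he⟩ := inv_similar h2 (e1 g hg) (e1 h hh) rfl (by rw [e2, e2, hr])
  exact sim_gl e 1 (fun v => by rw [one_smul]; exact he v)

lemma rank_sum (h2 : (2 : F) ≠ 0) {g : GL (Fin n) F} (hg : (g : Mn n F) * g = 1) : ((g : Mn n F) - 1).rank + ((g : Mn n F) + 1).rank = n := by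
  have e1 : (toLin' (g : Mn n F)) * (toLin' (g : Mn n F)) = 1 := by
    rw [Module.End.mul_eq_comp, ← toLin'_mul, hg, toLin'_one]; rfl
  have := finrank_add h2 e1
  rw [finrank_fintype_fun_eq_card, Fintype.card_fin] at this
  have e2 : toLin' (g : Mn n F) - 1 = toLin' ((g : Mn n F) - 1) := by rw [map_sub, toLin'_one]; rfl
  have e3 : toLin' (g : Mn n F) + 1 = toLin' ((g : Mn n F) + 1) := by rw [map_add, toLin'_one]; rfl
  rw [e2, e3] at this
  exact this

noncomputable def negGL (g : GL (Fin n) F) : GL (Fin n) F := -g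
lemma negGL_coe (g : GL (Fin n) F) : (negGL g : Mn n F) = -(g : Mn n F) := rfl

/-- diagonal sign matrices -/
lemma exists_diag (h2 : (2 : F) ≠ 0) (i : ℕ) (hi : i ≤ n) : ∃ g : GL (Fin n) F, (g : Mn n F) * g = 1 ∧ ((g : Mn n F) - 1).rank = i := by
  classical
  let d : Fin n → F := fun j => if j.val < i then -1 else 1
  have hd : diagonal d * diagonal d = 1 := by
    rw [diagonal_mul_diagonal]
    ext a b
    rw [diagonal_apply, one_apply]
    split_ifs
    · simp only [d]; split_ifs <;> ring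
    · rfl
  refine ⟨⟨diagonal d, diagonal d, hd, hd⟩, hd, ?_⟩
  show (diagonal d - 1).rank = i
  have h3 : diagonal d - 1 = diagonal (fun j => d j - 1) := by
    rw [← diagonal_one, diagonal_sub]
  rw [h3, rank_diagonal]
  have h4 : ∀ j : Fin n, d j - 1 ≠ 0 ↔ j.val < i := by
    intro j
    simp only [d]
    split_ifs with h5
    · simp only [h5, iff_true]
      intro h6; apply h2; linear_combination -h6
    · simp [h5]
  rw [Fintype.card_congr (Equiv.subtypeEquivRight h4), Fintype.card_subtype]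
  have h5 : (Finset.univ.filter (fun j : Fin n => j.val < i)) = (Finset.univ : Finset (Fin i)).map (Fin.castLEEmb hi) := by
    ext j
    simp only [Finset.mem_filter, Finset.mem_univ, true_and, Finset.mem_map]
    constructor
    · intro h6; exact ⟨⟨j.val, h6⟩, rfl⟩
    · rintro ⟨a, rfl⟩; exact a.2
  rw [h5, Finset.card_map, Finset.card_univ, Fintype.card_fin]

lemma exists_nonsq (hn : Even n) (c : F) (hc : c ≠ 0) : ∃ g : GL (Fin n) F, (g : Mn n F) * g = c • 1 := by
  obtain ⟨m, rfl⟩ := hn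
  let M : Matrix (Fin m ⊕ Fin m) (Fin m ⊕ Fin m) F := fromBlocks 0 (c • 1) 1 0
  have hM : M * M = c • 1 := by
    simp only [M]
    rw [fromBlocks_multiply, ← fromBlocks_one, fromBlocks_smul]
    simp
  let E := reindexAlgEquiv F F (finSumFinEquiv : Fin m ⊕ Fin m ≃ Fin (m + m))
  have hE : E M * E M = c • 1 := by rw [← map_mul, hM, map_smul, map_one]
  have h1 : E M * (c⁻¹ • E M) = 1 := by rw [Matrix.mul_smul, hE, smul_smul, inv_mul_cancel₀ hc, one_smul]
  have h2 : (c⁻¹ • E M) * E M = 1 := by rw [Matrix.smul_mul, hE, smul_smul, inv_mul_cancel₀ hc, one_smul]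
  exact ⟨⟨E M, c⁻¹ • E M, h1, h2⟩, hE⟩

lemma nonsq_conj {c : F} (hc : ¬ IsSquare c) {g h : GL (Fin n) F} (hg : (g : Mn n F) * g = c • 1) (hh : (h : Mn n F) * h = c • 1) :
    ∃ P : GL (Fin n) F, (P : Mn n F) * g = (1 : F) • ((h : Mn n F) * P) := by
  have hirr : Irreducible (X ^ 2 - C c : F[X]) := by
    rw [X_pow_sub_C_irreducible_iff_of_prime Nat.prime_two]
    intro b hb
    exact hc ⟨b, by rw [← hb]; ring⟩
  have hm : (X ^ 2 - C c : F[X]).Monic := monic_X_pow_sub_C c two_ne_zero
  have e1 : ∀ g : GL (Fin n) F, (g : Mn n F) * g = c • 1 → aeval (toLin' (g : Mn n F)) (X ^ 2 - C c : F[X]) = 0 := by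
    intro g hg
    rw [map_sub, map_pow, aeval_X, aeval_C, pow_two, Module.End.mul_eq_comp, ← toLin'_mul, hg, map_smul, toLin'_one]
    apply LinearMap.ext; intro x; simp [Algebra.algebraMap_eq_smul_one]
  obtain ⟨e, he⟩ := prim_similar hm hirr (e1 g hg) (e1 h hh) rfl
  exact sim_gl e 1 (fun v => by rw [one_smul]; exact he v)

/-- scaling an element of `GL` -/
noncomputable def scl (d : F) (hd : d ≠ 0) (g : GL (Fin n) F) : GL (Fin n) F :=
  ⟨d • (g : Mn n F), d⁻¹ • ((g⁻¹ : GL (Fin n) F) : Mn n F), by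
    rw [Matrix.smul_mul, Matrix.mul_smul, smul_smul, mul_inv_cancel₀ hd, one_smul]
    exact congrArg (fun x : GL (Fin n) F => (x : Mn n F)) (mul_inv_cancel g), by
    rw [Matrix.smul_mul, Matrix.mul_smul, smul_smul, inv_mul_cancel₀ hd, one_smul]
    exact congrArg (fun x : GL (Fin n) F => (x : Mn n F)) (inv_mul_cancel g)⟩
lemma scl_coe (d : F) (hd : d ≠ 0) (g : GL (Fin n) F) : (scl d hd g : Mn n F) = d • (g : Mn n F) := rfl

lemma smul_one_inj (hn : 0 < n) {a b : F} (h : (a • 1 : Mn n F) = b • 1) : a = b := by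
  have := congrFun (congrFun h ⟨0, hn⟩) ⟨0, hn⟩
  simpa using this

lemma smul_gl_inj (hn : 0 < n) {a b : F} (P : GL (Fin n) F) (h : a • (P : Mn n F) = b • (P : Mn n F)) : a = b := by
  apply smul_one_inj hn
  have h1 := congrArg (fun M : Mn n F => M * ((P⁻¹ : GL (Fin n) F) : Mn n F)) h
  simp only [Matrix.smul_mul] at h1
  have h3 : (P : Mn n F) * ((P⁻¹ : GL (Fin n) F) : Mn n F) = 1 := congrArg (fun x : GL (Fin n) F => (x : Mn n F)) (mul_inv_cancel P)
  rwa [h3] at h1

lemma not_scalar {g : GL (Fin n) F} {i : ℕ} (h1 : 1 ≤ i) (hi : i < n) (hr : ((g : Mn n F) - 1).rank = i) : ¬ ∃ c : F, (g : Mn n F) = c • 1 := by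
  rintro ⟨c, hc⟩
  rw [hc] at hr
  rcases eq_or_ne c 1 with rfl | hc1
  · rw [one_smul, sub_self, rank_zero] at hr; omega
  · have h2 : (c • (1 : Mn n F) - 1) = (c - 1) • 1 := by rw [sub_smul, one_smul]
    rw [h2, Matrix.rank_smul_of_mem_nonZeroDivisors _ (mem_nonZeroDivisors_of_ne_zero (sub_ne_zero.2 hc1)), rank_one, Fintype.card_fin] at hr
    omega

lemma mul_sq {g h P : Mn n F} {a b c : F} (hg : g * g = a • 1) (hh : h * h = b • 1) (hP : P * g = c • (h * P)) : a • P = (c * c * b) • P := by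
  have h1 : P * g * g = (c * c * b) • P := by
    rw [hP, Matrix.smul_mul, Matrix.mul_assoc, hP, Matrix.mul_smul, ← Matrix.mul_assoc, hh, Matrix.smul_mul, Matrix.one_mul, smul_smul, smul_smul]
  rw [← h1, Matrix.mul_assoc, hg, Matrix.mul_smul, Matrix.mul_one]

lemma rank_zero_iff' (M : Mn n F) : M.rank = 0 ↔ M = 0 := by
  constructor
  · intro h
    rw [Matrix.rank] at h
    have h1 := Submodule.finrank_eq_zero.1 h
    rw [LinearMap.range_eq_bot] at h1
    apply Matrix.toLin'.injective
    rw [map_zero]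
    exact h1
  · rintro rfl; exact rank_zero

lemma rank_conj {g h : Mn n F} (P : GL (Fin n) F) {c : F} (hc : c ≠ 0) (e : (P : Mn n F) * g = c • (h * (P : Mn n F))) : g.rank = h.rank := by
  have hP : IsUnit ((P : Mn n F).det) := (Matrix.isUnit_iff_isUnit_det _).1 P.isUnit
  rw [← Matrix.rank_mul_eq_right_of_isUnit_det (P : Mn n F) g hP, e, Matrix.rank_smul_of_mem_nonZeroDivisors _ (mem_nonZeroDivisors_of_ne_zero hc),
    Matrix.rank_mul_eq_left_of_isUnit_det (P : Mn n F) h hP]

theorem count [Fintype F] {q : ℕ} (hF : Fintype.card F = q) (hq : Odd q) (hn : 2 ≤ n) :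
    Nat.card {C : ConjClasses (PG n F) // ∃ g : PG n F, ConjClasses.mk g = C ∧ orderOf g = 2} = n / 2 + (if Even n then 1 else 0) := by
  classical
  have hch : ringChar F ≠ 2 := by
    intro h
    rw [FiniteField.even_card_iff_char_two] at h
    rw [hF] at h
    rcases hq with ⟨k, rfl⟩
    omega
  have h2 : (2 : F) ≠ 0 := Ring.two_ne_zero hch
  have hn0 : 0 < n := by omega
  obtain ⟨c0, hc0⟩ := FiniteField.exists_nonsquare hch
  have hc00 : c0 ≠ 0 := by rintro rfl; exact hc0 ⟨0, by simp⟩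
  let T := {i : ℕ // 1 ≤ i ∧ 2 * i ≤ n} ⊕ {u : Unit // Even n}
  have hT : Nat.card T = n / 2 + (if Even n then 1 else 0) := by
    haveI : Finite {i : ℕ // 1 ≤ i ∧ 2 * i ≤ n} := Finite.of_injective (fun i : {i : ℕ // 1 ≤ i ∧ 2 * i ≤ n} => (⟨i.1, by have := i.2; omega⟩ : Fin (n + 1)))
      (fun a b h => Subtype.ext (by simpa using h))
    rw [Nat.card_sum]
    congr 1
    · have e : {i : ℕ // 1 ≤ i ∧ 2 * i ≤ n} ≃ {i : ℕ // i ∈ Finset.Icc 1 (n / 2)} :=
        Equiv.subtypeEquivRight (fun i => by rw [Finset.mem_Icc]; omega)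
      rw [Nat.card_congr e, Nat.card_eq_fintype_card, Fintype.card_coe, Nat.card_Icc]; omega
    · split_ifs with hev
      · haveI : Unique {u : Unit // Even n} := ⟨⟨⟨(), hev⟩⟩, fun x => Subsingleton.elim _ _⟩
        exact Nat.card_unique
      · haveI : IsEmpty {u : Unit // Even n} := ⟨fun x => hev x.2⟩
        exact Nat.card_of_isEmpty
  choose dg hdg1 hdg2 using fun i : {i : ℕ // 1 ≤ i ∧ 2 * i ≤ n} => exists_diag (n := n) (F := F) h2 i.1 (by omega)
  choose ns hns using fun u : {u : Unit // Even n} => exists_nonsq (n := n) (F := F) u.2 c0 hc00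
  let J : T → PG n F := Sum.elim (fun i => pr (dg i)) (fun u => pr (ns u))
  rw [← hT]
  have hsq : ∀ g : GL (Fin n) F, ∀ c : F, (g : Mn n F) * g = c • 1 → (pr g) ^ 2 = 1 := by
    intro g c hg
    rw [pow_two, ← map_mul, pr_one_iff]
    exact ⟨c, hg⟩
  apply card_classes' (fun x : PG n F => orderOf x = 2) J
  · rintro (i | u)
    · apply orderOf_eq_prime (hsq _ 1 (by rw [one_smul]; exact hdg1 i))
      show pr (dg i) ≠ 1
      rw [Ne, pr_one_iff]
      exact not_scalar i.2.1 (by have := i.2; omega) (hdg2 i)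
    · apply orderOf_eq_prime (hsq _ c0 (hns u))
      show pr (ns u) ≠ 1
      rw [Ne, pr_one_iff]
      rintro ⟨c, hc⟩
      apply hc0
      refine ⟨c, ?_⟩
      have := hns u
      rw [hc, Matrix.smul_mul, Matrix.one_mul, smul_smul] at this
      exact (smul_one_inj hn0 this).symm
  · intro x hx
    obtain ⟨g, rfl⟩ := pr_surj x
    have hx1 : pr g ≠ 1 := by
      intro h; rw [h, orderOf_one] at hx; omega
    have hx2 : pr (g * g) = 1 := by rw [map_mul, ← pow_two, ← hx, pow_orderOf_eq_one]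
    obtain ⟨c, hc⟩ := (pr_one_iff _).1 hx2
    have hc : (g : Mn n F) * g = c • 1 := hc
    have hcn : c ≠ 0 := by
      rintro rfl
      rw [zero_smul] at hc
      have : ((g * g : GL (Fin n) F) : Mn n F).det = 0 := by
        show ((g : Mn n F) * (g : Mn n F)).det = 0
        haveI : Nonempty (Fin n) := ⟨⟨0, hn0⟩⟩
        rw [hc, det_zero]
      exact (g * g).det_ne_zero this
    by_cases hsqc : IsSquare c
    · obtain ⟨d, hd⟩ := hsqc
      have hdn : d ≠ 0 := by rintro rfl; apply hcn; rw [hd, mul_zero]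
      have key : ∀ e : F, ∀ he : e ≠ 0, e * e * c = 1 → 2 * (((scl e he g : GL (Fin n) F) : Mn n F) - 1).rank ≤ n → ∃ t, IsConj (J t) (pr g) := by
        intro e he hec hr
        have hsc : ((scl e he g : GL (Fin n) F) : Mn n F) * (scl e he g : GL (Fin n) F) = 1 := by
          rw [scl_coe, Matrix.smul_mul, Matrix.mul_smul, hc, smul_smul, smul_smul, hec, one_smul]
        have h1 : 1 ≤ (((scl e he g : GL (Fin n) F) : Mn n F) - 1).rank := by
          by_contra hcon
          have h0 : (((scl e he g : GL (Fin n) F) : Mn n F) - 1).rank = 0 := by omega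
          rw [rank_zero_iff', sub_eq_zero, scl_coe] at h0
          apply hx1
          rw [pr_one_iff]
          refine ⟨e⁻¹, ?_⟩
          rw [← h0, smul_smul, inv_mul_cancel₀ he, one_smul]
        refine ⟨Sum.inl ⟨_, h1, hr⟩, ?_⟩
        show IsConj (pr (dg _)) (pr g)
        obtain ⟨P, hP⟩ := sq_conj h2 (hdg1 ⟨_, h1, hr⟩) hsc (hdg2 ⟨_, h1, hr⟩)
        rw [conj_pr _ _ hn0]
        refine ⟨P, e, he, ?_⟩
        rw [hP, one_smul, scl_coe, Matrix.smul_mul]
      have hdi : d⁻¹ * d⁻¹ * c = 1 := by rw [hd]; field_simp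
      by_cases hle : 2 * (((scl d⁻¹ (inv_ne_zero hdn) g : GL (Fin n) F) : Mn n F) - 1).rank ≤ n
      · exact key _ _ hdi hle
      · apply key (-d⁻¹) (neg_ne_zero.2 (inv_ne_zero hdn)) (by rw [← hdi]; ring)
        have h3 := rank_sum h2 (g := scl d⁻¹ (inv_ne_zero hdn) g) (by
          rw [scl_coe, Matrix.smul_mul, Matrix.mul_smul, hc, smul_smul, smul_smul, hdi, one_smul])
        have h4 : (((scl (-d⁻¹) (neg_ne_zero.2 (inv_ne_zero hdn)) g : GL (Fin n) F) : Mn n F) - 1) =
            (-1 : F) • (((scl d⁻¹ (inv_ne_zero hdn) g : GL (Fin n) F) : Mn n F) + 1) := by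
          rw [scl_coe, scl_coe, smul_add, smul_smul]; rw [neg_one_smul F (1 : Mn n F), neg_one_mul]; abel
        rw [h4, Matrix.rank_smul_of_mem_nonZeroDivisors _ (mem_nonZeroDivisors_of_ne_zero (neg_ne_zero.2 one_ne_zero))]
        omega
    · have hev : Even n := by
        by_contra hodd
        rw [Nat.not_even_iff_odd] at hodd
        obtain ⟨k, hk⟩ := hodd
        apply hsqc
        have h3 : (g : Mn n F).det * (g : Mn n F).det = c ^ n := by
          rw [← det_mul, hc, det_smul, det_one, mul_one, Fintype.card_fin]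
        refine ⟨(g : Mn n F).det / c ^ k, ?_⟩
        rw [div_mul_div_comm, h3, hk, eq_div_iff (mul_ne_zero (pow_ne_zero _ hcn) (pow_ne_zero _ hcn))]
        ring
      have hq1 : quadraticChar F (c * c0) = 1 := by
        rw [map_mul, quadraticChar_neg_one_iff_not_isSquare.2 hsqc, quadraticChar_neg_one_iff_not_isSquare.2 hc0]; norm_num
      rw [quadraticChar_one_iff_isSquare (mul_ne_zero hcn hc00)] at hq1
      obtain ⟨d, hd⟩ := hq1
      have hdn : d ≠ 0 := by rintro rfl; rw [mul_zero] at hd; exact mul_ne_zero hcn hc00 hd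
      have he : c0 / d ≠ 0 := div_ne_zero hc00 hdn
      refine ⟨Sum.inr ⟨(), hev⟩, ?_⟩
      show IsConj (pr (ns _)) (pr g)
      have hsc : ((scl (c0 / d) he g : GL (Fin n) F) : Mn n F) * (scl (c0 / d) he g : GL (Fin n) F) = c0 • 1 := by
        rw [scl_coe, Matrix.smul_mul, Matrix.mul_smul, hc, smul_smul, smul_smul]
        congr 1
        field_simp
        rw [pow_two, ← hd]; ring
      obtain ⟨P, hP⟩ := nonsq_conj hc0 (hns ⟨(), hev⟩) hsc
      rw [conj_pr _ _ hn0]
      refine ⟨P, c0 / d, he, ?_⟩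
      rw [hP, one_smul, scl_coe, Matrix.smul_mul]
  · have hmix : ∀ i u, ¬ IsConj (pr (dg i)) (pr (ns u)) := by
      intro i u h
      rw [conj_pr _ _ hn0] at h
      obtain ⟨P, c, hc, hP⟩ := h
      have h3 := mul_sq (a := 1) (b := c0) (by rw [one_smul]; exact hdg1 i) (hns u) hP
      have h4 := smul_gl_inj hn0 P h3
      apply hc0
      refine ⟨c⁻¹, ?_⟩
      field_simp
      rw [pow_two]; linear_combination -h4
    rintro (i | u) (j | v) h
    · have h : IsConj (pr (dg i)) (pr (dg j)) := h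
      rw [conj_pr _ _ hn0] at h
      obtain ⟨P, c, hc, hP⟩ := h
      have h3 := mul_sq (a := 1) (b := 1) (by rw [one_smul]; exact hdg1 i) (by rw [one_smul]; exact hdg1 j) hP
      have h4 := smul_gl_inj hn0 P h3
      have h5 : c = 1 ∨ c = -1 := by
        have : (c - 1) * (c + 1) = 0 := by linear_combination -h4
        rcases mul_eq_zero.1 this with h | h
        · left; exact sub_eq_zero.1 h
        · right; exact eq_neg_of_add_eq_zero_left h
      congr 1
      apply Subtype.ext
      rcases h5 with rfl | rfl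
      · have h6 : (P : Mn n F) * ((dg i : Mn n F) - 1) = (1 : F) • (((dg j : Mn n F) - 1) * (P : Mn n F)) := by
          rw [Matrix.mul_sub, hP, Matrix.sub_mul, Matrix.mul_one, Matrix.one_mul, one_smul, one_smul]
        have h7 := rank_conj P one_ne_zero h6
        rw [hdg2, hdg2] at h7
        exact h7
      · have h6 : (P : Mn n F) * ((dg i : Mn n F) - 1) = (-1 : F) • (((dg j : Mn n F) + 1) * (P : Mn n F)) := by
          rw [Matrix.mul_sub, hP, Matrix.add_mul, Matrix.mul_one, Matrix.one_mul, smul_add, neg_one_smul F (P : Mn n F)]; abel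
        have h7 := rank_conj P (neg_ne_zero.2 one_ne_zero) h6
        have h8 := rank_sum h2 (hdg1 j)
        rw [hdg2] at h7 h8
        have := i.2; have := j.2
        omega
    · exact absurd h (hmix i v)
    · exact absurd h.symm (hmix j u)
    · congr 1
      exact Subsingleton.elim _ _

end pgl

end Cfsg.Agent.H16.InvP
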