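import Mathlib

set_option autoImplicit false
set_option linter.all false

namespace Cfsg.Agent.H16.Kro

open Matrix

/-- the affine group `F_p^3 ⋊ {±1}` -/
@[ext] structure HH (p : ℕ) : Type where
  v : Fin 3 → ZMod p
  s : ℤˣ

variable {p : ℕ}

def cc (p : ℕ) (e : ℤˣ) : ZMod p := ((e : ℤ) : ZMod p)
lemma cc_mul (e d : ℤˣ) : cc p (e * d) = cc p e * cc p d := by simp [cc]
lemma cc_one : cc p 1 = 1 := by simp [cc]
lemma cc_inv_mul (e : ℤˣ) : cc p e⁻¹ * cc p e = 1 := by rw [← cc_mul, inv_mul_cancel, cc_one]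
lemma cc_sq (e : ℤˣ) : cc p e * cc p e = 1 := by
  rw [← cc_mul, Int.units_mul_self, cc_one]

instance : Mul (HH p) := ⟨fun x y => ⟨x.1 + cc p x.2 • y.1, x.2 * y.2⟩⟩
instance : One (HH p) := ⟨⟨(0 : Fin 3 → ZMod p), (1 : ℤˣ)⟩⟩
instance : Inv (HH p) := ⟨fun x => ⟨-(cc p x.2⁻¹ • x.1), x.2⁻¹⟩⟩

lemma mul_def (x y : HH p) : x * y = ⟨x.1 + cc p x.2 • y.1, x.2 * y.2⟩ := rfl
lemma one_def : (1 : HH p) = ⟨(0 : Fin 3 → ZMod p), (1 : ℤˣ)⟩ := rfl
lemma inv_def (x : HH p) : x⁻¹ = ⟨-(cc p x.2⁻¹ • x.1), x.2⁻¹⟩ := rfl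

instance : Group (HH p) := Group.ofLeftAxioms
  (by
    rintro ⟨a, e⟩ ⟨b, d⟩ ⟨c, f⟩
    simp only [mul_def, cc_mul, smul_add, smul_smul, mul_assoc, add_assoc])
  (by
    rintro ⟨a, e⟩
    simp only [mul_def, one_def, cc_one, one_smul, zero_add, one_mul])
  (by
    rintro ⟨a, e⟩
    simp only [mul_def, one_def, inv_def, neg_add_cancel, inv_mul_cancel])

def eqv : HH p ≃ (Fin 3 → ZMod p) × ℤˣ where
  toFun x := (x.v, x.s)
  invFun y := ⟨y.1, y.2⟩
  left_inv x := rfl
  right_inv y := rfl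

instance [NeZero p] : Finite (HH p) := Finite.of_equiv _ eqv.symm

lemma card_HH [NeZero p] : Nat.card (HH p) = 2 * p ^ 3 := by
  rw [Nat.card_congr eqv, Nat.card_prod, Nat.card_fun, Nat.card_zmod]
  simp [mul_comm]

variable {m : ℕ}

abbrev II (m : ℕ) := Fin m ⊕ Fin (m + 1)

def A1 (p m : ℕ) : Matrix (Fin (m + 1)) (Fin m) (ZMod p) := of fun i j => if i = j.castSucc then 1 else 0
def A2 (p m : ℕ) : Matrix (Fin (m + 1)) (Fin m) (ZMod p) := of fun i j => if i = j.succ then 1 else 0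
def A3 (p m : ℕ) : Matrix (Fin (m + 1)) (Fin m) (ZMod p) := of fun i j => if i.val = 0 ∧ j.val + 1 = m then 1 else 0

def BB (m : ℕ) (a : Fin 3 → ZMod p) : Matrix (Fin (m + 1)) (Fin m) (ZMod p) := a 0 • A1 p m + a 1 • A2 p m + a 2 • A3 p m

lemma BB_add (a b : Fin 3 → ZMod p) : BB m (a + b) = BB m a + BB m b := by
  simp only [BB, Pi.add_apply, add_smul]; abel
lemma BB_smul (c : ZMod p) (a : Fin 3 → ZMod p) : BB m (c • a) = c • BB m a := by
  simp only [BB, Pi.smul_apply, smul_eq_mul, mul_smul, smul_add]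
lemma BB_zero : BB m (0 : Fin 3 → ZMod p) = 0 := by
  simp [BB]

lemma BB_inj (hm : 2 ≤ m) {a : Fin 3 → ZMod p} (h : BB m a = 0) : a = 0 := by
  obtain ⟨k, rfl⟩ := Nat.exists_eq_add_of_le' hm
  have h1 := congrFun (congrFun h (Fin.castSucc 0)) 0
  have h2 := congrFun (congrFun h (Fin.succ 0)) 0
  have h3 := congrFun (congrFun h 0) (Fin.last _)
  simp only [BB, Matrix.add_apply, Matrix.smul_apply, smul_eq_mul, Matrix.zero_apply] at h1 h2 h3
  have a11 : A1 p (k + 2) (Fin.castSucc 0) 0 = 1 := by simp [A1]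
  have a12 : A2 p (k + 2) (Fin.castSucc 0) 0 = 0 := by simp [A2]
  have a13 : A3 p (k + 2) (Fin.castSucc 0) 0 = 0 := by simp [A3]
  have a21 : A1 p (k + 2) (Fin.succ 0) 0 = 0 := by simp [A1]
  have a22 : A2 p (k + 2) (Fin.succ 0) 0 = 1 := by simp [A2]
  have a23 : A3 p (k + 2) (Fin.succ 0) 0 = 0 := by simp [A3]
  have a31 : A1 p (k + 2) 0 (Fin.last (k + 1)) = 0 := by
    simp only [A1, of_apply]
    rw [if_neg]
    intro h; rw [Fin.ext_iff] at h; simp at h
  have a32 : A2 p (k + 2) 0 (Fin.last (k + 1)) = 0 := by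
    simp only [A2, of_apply]
    rw [if_neg (Fin.succ_ne_zero _).symm]
  have a33 : A3 p (k + 2) 0 (Fin.last (k + 1)) = 1 := by simp [A3]
  rw [a11, a12, a13] at h1
  rw [a21, a22, a23] at h2
  rw [a31, a32, a33] at h3
  simp only [mul_one, mul_zero, add_zero, zero_add] at h1 h2 h3
  funext i
  fin_cases i
  · exact h1
  · exact h2
  · exact h3

def rho (m : ℕ) (x : HH p) : Matrix (II m) (II m) (ZMod p) := fromBlocks 1 0 (BB m x.1) (cc p x.2 • 1)

lemma rho_mul (x y : HH p) : rho m (x * y) = rho m x * rho m y := by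
  unfold rho
  rw [fromBlocks_multiply]
  simp only [mul_def, Matrix.one_mul, Matrix.zero_mul, Matrix.mul_one, Matrix.mul_zero, add_zero, zero_add, BB_add, BB_smul,
    smul_mul_assoc, cc_mul, smul_smul, Matrix.mul_one, Matrix.smul_mul, Matrix.mul_smul, smul_zero]

lemma rho_one : rho m (1 : HH p) = 1 := by
  unfold rho
  rw [one_def]
  simp only [BB_zero, cc_one, one_smul]
  exact fromBlocks_one

lemma rho_det (hm : Odd m) (x : HH p) : (rho m x).det = 1 := by
  unfold rho
  rw [det_fromBlocks_zero₁₂, det_one, one_mul, det_smul, det_one, mul_one, Fintype.card_fin]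
  obtain ⟨k, rfl⟩ := hm
  rw [show 2 * k + 1 + 1 = 2 * (k + 1) by ring, pow_mul, pow_two, cc_sq, one_pow]

lemma rho_trace (hm : p ∣ m) (x : HH p) : (rho m x).trace = cc p x.2 := by
  unfold rho
  have : (m : ZMod p) = 0 := (ZMod.natCast_eq_zero_iff m p).2 hm
  rw [trace, Fintype.sum_sum_type]
  simp [this]

section
variable [Fact p.Prime] (hp : p ≠ 2)

include hp in
lemma two_ne : (2 : ZMod p) ≠ 0 := by
  intro h
  have : ((2 : ℕ) : ZMod p) = 0 := by exact_mod_cast h
  rw [ZMod.natCast_eq_zero_iff] at this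
  exact hp ((Nat.prime_dvd_prime_iff_eq (Fact.out) Nat.prime_two).1 this)

lemma toeplitz {X : Matrix (Fin m) (Fin m) (ZMod p)} {Y : Matrix (Fin (m + 1)) (Fin (m + 1)) (ZMod p)}
    (h1 : Y * A1 p m = A1 p m * X) (h2 : Y * A2 p m = A2 p m * X) : X = (Y 0 0) • 1 ∧ Y = (Y 0 0) • 1 := by
  have hYA1 : ∀ i j, (Y * A1 p m) i j = Y i j.castSucc := by
    intro i j; simp [mul_apply, A1]
  have hYA2 : ∀ i j, (Y * A2 p m) i j = Y i j.succ := by
    intro i j; simp [mul_apply, A2]
  have hA1X : ∀ i j, (A1 p m * X) i.castSucc j = X i j := by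
    intro i j; simp [mul_apply, A1]
  have hA1X' : ∀ j, (A1 p m * X) (Fin.last m) j = 0 := by
    intro j; rw [mul_apply]; apply Finset.sum_eq_zero; intro k _
    simp [A1, (Fin.castSucc_lt_last k).ne']
  have hA2X : ∀ i j, (A2 p m * X) i.succ j = X i j := by
    intro i j; simp [mul_apply, A2]
  have hA2X' : ∀ j, (A2 p m * X) 0 j = 0 := by
    intro j; rw [mul_apply]; apply Finset.sum_eq_zero; intro k _
    simp [A2, (Fin.succ_ne_zero k).symm]
  have F1 : ∀ i j, Y (Fin.castSucc i) (Fin.castSucc j) = X i j := fun i j => by rw [← hYA1, h1, hA1X]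
  have F2 : ∀ j, Y (Fin.last m) (Fin.castSucc j) = 0 := fun j => by rw [← hYA1, h1, hA1X']
  have F3 : ∀ i j, Y (Fin.succ i) (Fin.succ j) = X i j := fun i j => by rw [← hYA2, h2, hA2X]
  have F4 : ∀ j, Y 0 (Fin.succ j) = 0 := fun j => by rw [← hYA2, h2, hA2X']
  have step : ∀ i j (hi : i < m) (hj : j < m), Y ⟨i + 1, by omega⟩ ⟨j + 1, by omega⟩ = Y ⟨i, by omega⟩ ⟨j, by omega⟩ := by
    intro i j hi hj
    exact (F3 ⟨i, hi⟩ ⟨j, hj⟩).trans (F1 ⟨i, hi⟩ ⟨j, hj⟩).symm
  have hlt : ∀ i j (hi : i < m + 1) (hj : j < m + 1), i < j → Y ⟨i, hi⟩ ⟨j, hj⟩ = 0 := by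
    intro i
    induction i with
    | zero =>
      intro j hi hj hij
      obtain ⟨j, rfl⟩ := Nat.exists_eq_add_of_lt hij
      have := F4 ⟨0 + j, by omega⟩
      exact this
    | succ i ih =>
      intro j hi hj hij
      obtain ⟨j, rfl⟩ : ∃ k, j = k + 1 := ⟨j - 1, by omega⟩
      rw [step i j (by omega) (by omega)]
      exact ih j _ _ (by omega)
  have hgt : ∀ d i j (hi : i < m + 1) (hj : j < m + 1), i + d = m → j < i → Y ⟨i, hi⟩ ⟨j, hj⟩ = 0 := by
    intro d
    induction d with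
    | zero =>
      intro i j hi hj him hij
      obtain rfl : i = m := by omega
      exact F2 ⟨j, by omega⟩
    | succ d ih =>
      intro i j hi hj him hij
      rw [← step i j (by omega) (by omega)]
      exact ih _ _ _ _ (by omega) (by omega)
  have heq : ∀ i (hi : i < m + 1), Y ⟨i, hi⟩ ⟨i, hi⟩ = Y 0 0 := by
    intro i
    induction i with
    | zero => intro hi; rfl
    | succ i ih => intro hi; rw [step i i (by omega) (by omega)]; exact ih _
  have hY : Y = (Y 0 0) • 1 := by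
    ext ⟨i, hi⟩ ⟨j, hj⟩
    rw [Matrix.smul_apply, one_apply]
    rcases lt_trichotomy i j with h | h | h
    · rw [hlt i j hi hj h, if_neg (by intro h'; rw [Fin.mk.injEq] at h'; omega), smul_zero]
    · subst h; rw [if_pos rfl, heq i hi]; simp
    · rw [hgt (m - i) i j hi hj (by omega) h, if_neg (by intro h'; rw [Fin.mk.injEq] at h'; omega), smul_zero]
  refine ⟨?_, hY⟩
  ext i j
  rw [← F1, hY, Matrix.smul_apply, Matrix.smul_apply, one_apply, one_apply]
  simp

include hp in
lemma scalar_of_commute {G : Matrix (II m) (II m) (ZMod p)} (h : ∀ x : HH p, G * rho m x = rho m x * G) : ∃ c : ZMod p, G = c • 1 := by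
  have hG := (fromBlocks_toBlocks G).symm
  set X := G.toBlocks₁₁
  set P := G.toBlocks₁₂
  set Q := G.toBlocks₂₁
  set Y := G.toBlocks₂₂
  have h2 := two_ne hp
  have ht := h ⟨(0 : Fin 3 → ZMod p), (-1 : ℤˣ)⟩
  have hcc : cc p (-1 : ℤˣ) = -1 := by simp [cc]
  rw [hG] at ht
  unfold rho at ht
  simp only [BB_zero, hcc] at ht
  rw [fromBlocks_multiply, fromBlocks_multiply, fromBlocks_inj] at ht
  simp only [Matrix.mul_one, Matrix.one_mul, Matrix.mul_zero, Matrix.zero_mul, add_zero, zero_add, Matrix.mul_smul, Matrix.smul_mul] at ht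
  obtain ⟨-, hP, hQ, -⟩ := ht
  have hP0 : P = 0 := by
    ext i j
    have := congrFun (congrFun hP i) j
    rw [Matrix.smul_apply, smul_eq_mul] at this
    have : (2 : ZMod p) * P i j = 0 := by linear_combination -this
    exact (mul_eq_zero.1 this).resolve_left h2
  have hQ0 : Q = 0 := by
    ext i j
    have := congrFun (congrFun hQ i) j
    rw [Matrix.smul_apply, smul_eq_mul] at this
    have : (2 : ZMod p) * Q i j = 0 := by linear_combination this
    exact (mul_eq_zero.1 this).resolve_left h2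
  have hcomm : ∀ a : Fin 3 → ZMod p, Y * BB m a = BB m a * X := by
    intro a
    have h3 := h ⟨a, (1 : ℤˣ)⟩
    rw [hG] at h3
    unfold rho at h3
    simp only [cc_one, one_smul] at h3
    rw [fromBlocks_multiply, fromBlocks_multiply, fromBlocks_inj] at h3
    simp only [Matrix.mul_one, Matrix.one_mul, Matrix.mul_zero, Matrix.zero_mul, add_zero, zero_add, hP0, hQ0] at h3
    exact h3.2.2.1
  have e1 : BB m (Pi.single 0 1 : Fin 3 → ZMod p) = A1 p m := by simp [BB]
  have e2 : BB m (Pi.single 1 1 : Fin 3 → ZMod p) = A2 p m := by simp [BB]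
  obtain ⟨hX, hY⟩ := toeplitz (by rw [← e1]; exact hcomm _) (by rw [← e2]; exact hcomm _)
  refine ⟨Y 0 0, ?_⟩
  rw [hG, hP0, hQ0, ← fromBlocks_one, fromBlocks_smul, smul_zero, smul_zero, ← hX, ← hY]

abbrev nn (m : ℕ) := m + (m + 1)

noncomputable def EE (p m : ℕ) : Matrix (II m) (II m) (ZMod p) ≃ₐ[ZMod p] Matrix (Fin (nn m)) (Fin (nn m)) (ZMod p) :=
  reindexAlgEquiv (ZMod p) (ZMod p) finSumFinEquiv

lemma EE_det (M : Matrix (II m) (II m) (ZMod p)) : (EE p m M).det = M.det := det_reindexAlgEquiv _ _ _ _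

noncomputable def ff (hm : Odd m) : HH p →* Matrix.SpecialLinearGroup (Fin (nn m)) (ZMod p) where
  toFun x := ⟨EE p m (rho m x), by rw [EE_det, rho_det hm]⟩
  map_one' := by apply Subtype.ext; show EE p m (rho m 1) = 1; rw [rho_one, map_one]
  map_mul' x y := by apply Subtype.ext; show EE p m (rho m (x * y)) = EE p m (rho m x) * EE p m (rho m y); rw [rho_mul, map_mul]

lemma ff_coe (hm : Odd m) (x : HH p) : ((ff hm x : Matrix.SpecialLinearGroup (Fin (nn m)) (ZMod p)) : Matrix _ _ (ZMod p)) = EE p m (rho m x) := rfl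

lemma scalar_eq (c : ZMod p) {n : ℕ} : (scalar (Fin n)) c = c • (1 : Matrix (Fin n) (Fin n) (ZMod p)) := by
  ext i j; simp [Matrix.scalar_apply, Matrix.diagonal_apply, Matrix.one_apply]

include hp in
theorem main (hm : Odd m) (hpm : p ∣ m) (hm2 : 2 ≤ m) :
    Function.Injective ((QuotientGroup.mk' (Subgroup.center (Matrix.SpecialLinearGroup (Fin (nn m)) (ZMod p)))).comp (ff hm)) ∧
    Subgroup.centralizer ((((QuotientGroup.mk' (Subgroup.center (Matrix.SpecialLinearGroup (Fin (nn m)) (ZMod p)))).comp (ff hm)).range :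
      Subgroup (Matrix.ProjectiveSpecialLinearGroup (Fin (nn m)) (ZMod p))) : Set (Matrix.ProjectiveSpecialLinearGroup (Fin (nn m)) (ZMod p))) = ⊥ := by
  have hker : ∀ z, QuotientGroup.mk' (Subgroup.center (Matrix.SpecialLinearGroup (Fin (nn m)) (ZMod p))) z = 1 ↔
    z ∈ Subgroup.center (Matrix.SpecialLinearGroup (Fin (nn m)) (ZMod p)) := fun z => QuotientGroup.eq_one_iff z
  constructor
  · rw [injective_iff_map_eq_one]
    rintro ⟨a, e⟩ hx
    rw [MonoidHom.comp_apply, hker, Matrix.SpecialLinearGroup.mem_center_iff] at hx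
    obtain ⟨c, -, hc⟩ := hx
    rw [ff_coe, scalar_eq] at hc
    have h1 : c • (1 : Matrix (II m) (II m) (ZMod p)) = rho m ⟨a, e⟩ := by
      apply (EE p m).injective
      rw [map_smul, map_one]; exact hc
    unfold rho at h1
    rw [← fromBlocks_one, fromBlocks_smul, fromBlocks_inj] at h1
    obtain ⟨h2, -, h3, h4⟩ := h1
    rw [smul_zero] at h3
    have ha := BB_inj hm2 h3.symm
    have hc1 : c = 1 := by
      have := congrFun (congrFun h2 ⟨0, by omega⟩) ⟨0, by omega⟩
      simpa using this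
    have he : cc p e = 1 := by
      have := congrFun (congrFun h4 0) 0
      rw [hc1] at this
      simpa using this.symm
    have he1 : e = 1 := by
      rcases Int.units_eq_one_or e with h | h
      · exact h
      · exfalso
        rw [h] at he
        simp only [cc] at he
        apply two_ne hp
        push_cast at he
        linear_combination -he
    simp only at ha
    subst ha; subst he1; rfl
  · rw [eq_bot_iff]
    intro x hx
    rw [Subgroup.mem_bot]
    obtain ⟨g, rfl⟩ := QuotientGroup.mk'_surjective _ x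
    rw [Subgroup.mem_centralizer_iff] at hx
    obtain ⟨G, hGe⟩ := (EE p m).surjective (g : Matrix _ _ (ZMod p))
    obtain ⟨G', hGe'⟩ := (EE p m).surjective ((g⁻¹ : Matrix.SpecialLinearGroup (Fin (nn m)) (ZMod p)) : Matrix _ _ (ZMod p))
    have hGG : G * G' = 1 := by
      apply (EE p m).injective
      rw [map_mul, hGe, hGe', ← Matrix.SpecialLinearGroup.coe_mul, mul_inv_cancel, map_one]; rfl
    have hG'G : G' * G = 1 := by
      apply (EE p m).injective
      rw [map_mul, hGe, hGe', ← Matrix.SpecialLinearGroup.coe_mul, inv_mul_cancel, map_one]; rfl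
    have hcomm : ∀ h : HH p, G * rho m h = rho m h * G := by
      intro h
      have h1 := hx _ ⟨h, rfl⟩
      rw [MonoidHom.comp_apply, ← map_mul, ← map_mul] at h1
      have h2 : ∃ z ∈ Subgroup.center (Matrix.SpecialLinearGroup (Fin (nn m)) (ZMod p)), ff hm h * g * z = g * ff hm h := by
        refine ⟨(ff hm h * g)⁻¹ * (g * ff hm h), ?_, by group⟩
        rw [← hker, map_mul, map_inv, h1, inv_mul_cancel]
      obtain ⟨z, hz, h3⟩ := h2
      obtain ⟨c, -, hc⟩ := Matrix.SpecialLinearGroup.mem_center_iff.1 hz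
      have h4 := congrArg (fun y : Matrix.SpecialLinearGroup (Fin (nn m)) (ZMod p) => (y : Matrix (Fin (nn m)) (Fin (nn m)) (ZMod p))) h3
      simp only [Matrix.SpecialLinearGroup.coe_mul] at h4
      rw [← hc, scalar_eq, ff_coe, ← hGe, Matrix.mul_smul, Matrix.mul_one, ← map_mul, ← map_mul, ← map_smul] at h4
      have h5 := (EE p m).injective h4
      have h6 : (G * rho m h * G').trace = (rho m h).trace := by
        rw [trace_mul_comm, ← mul_assoc, hG'G, one_mul]
      rw [← h5, Matrix.smul_mul, trace_smul, mul_assoc, hGG, mul_one, smul_eq_mul, rho_trace hpm] at h6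
      have hc1 : c = 1 := by
        have h7 := cc_sq (p := p) h.2
        have h8 : (c - 1) * cc p h.2 = 0 := by linear_combination h6
        have h9 : cc p h.2 ≠ 0 := by intro h0; rw [h0, mul_zero] at h7; exact zero_ne_one h7
        exact sub_eq_zero.1 ((mul_eq_zero.1 h8).resolve_right h9)
      rw [← h5, hc1, one_smul]
    obtain ⟨c, hc⟩ := scalar_of_commute hp hcomm
    rw [hker, Matrix.SpecialLinearGroup.mem_center_iff]
    refine ⟨c, ?_, ?_⟩
    · have := g.2
      rw [← hGe, hc, map_smul, map_one, det_smul, det_one, mul_one] at this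
      exact this
    · rw [← hGe, hc, map_smul, map_one, scalar_eq]

end

end Cfsg.Agent.H16.Kro
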