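import Mathlib
import Cfsg.Agent.H5.Vec
import Cfsg.Agent.H16.TvA

set_option autoImplicit false
set_option linter.all false

namespace Cfsg.Agent.H16.L34

open Matrix

variable {K : Type*} [Field K]

abbrev M3 (K : Type*) [Field K] := Matrix (Fin 3) (Fin 3) K
abbrev S3 (K : Type*) [Field K] := Matrix.SpecialLinearGroup (Fin 3) K
abbrev P3 (K : Type*) [Field K] := Matrix.ProjectiveSpecialLinearGroup (Fin 3) K

lemma rank_le_one_of_sq {N : M3 K} (h : N * N = 0) : N.rank ≤ 1 := by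
  have h1 : LinearMap.range N.mulVecLin ≤ LinearMap.ker N.mulVecLin := by
    rintro _ ⟨x, rfl⟩
    rw [LinearMap.mem_ker, mulVecLin_apply, mulVecLin_apply, mulVec_mulVec, h, zero_mulVec]
  have h2 := Submodule.finrank_mono h1
  have h3 := LinearMap.finrank_range_add_finrank_ker N.mulVecLin
  rw [Module.finrank_fintype_fun_eq_card, Fintype.card_fin] at h3
  unfold Matrix.rank
  omega

lemma vmv_mul_self (u φ : Fin 3 → K) : vecMulVec u φ * vecMulVec u φ = (φ ⬝ᵥ u) • vecMulVec u φ := by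
  rw [vecMulVec_mul_vecMulVec]
  ext i j
  simp [vecMulVec_apply, mul_comm, mul_assoc, mul_left_comm]

lemma eig_of_comm {S : M3 K} {u φ : Fin 3 → K} (hu : u ≠ 0) (hφ : φ ≠ 0) (h : S * vecMulVec u φ = vecMulVec u φ * S) :
    ∃ l : K, S *ᵥ u = l • u ∧ φ ᵥ* S = l • φ := by
  have h1 : ∀ i j, (S *ᵥ u) i * φ j = u i * (φ ᵥ* S) j := by
    intro i j
    have := congrFun (congrFun h i) j
    rw [mul_vecMulVec, vecMulVec_mul, vecMulVec_apply, vecMulVec_apply] at this
    exact this
  obtain ⟨j, hj⟩ := Function.ne_iff.1 hφ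
  obtain ⟨i, hi⟩ := Function.ne_iff.1 hu
  simp only [Pi.zero_apply] at hi hj
  refine ⟨(φ ᵥ* S) j / φ j, ?_, ?_⟩
  · ext k
    rw [Pi.smul_apply, smul_eq_mul]
    have := h1 k j
    field_simp
    linear_combination this
  · ext k
    rw [Pi.smul_apply, smul_eq_mul]
    have h2 := h1 i k
    have h3 := h1 i j
    field_simp
    apply mul_left_cancel₀ hi
    linear_combination φ k * h3 - φ j * h2

/-- if `A` kills `u`, is killed by `φ`, `φ u = 0`, and satisfies `A^3+A^2+A=0` then `rank A ≤ 1` -/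
lemma rank_le_one_of {A : M3 K} {u φ : Fin 3 → K} (hu : u ≠ 0) (hφ : φ ≠ 0) (huφ : φ ⬝ᵥ u = 0) (h1 : A *ᵥ u = 0)
    (h2 : φ ᵥ* A = 0) (h3 : A * A * A + A * A + A = 0) : A.rank ≤ 1 := by
  let f : (Fin 3 → K) →ₗ[K] K := { toFun := fun v => φ ⬝ᵥ v, map_add' := fun a b => dotProduct_add _ _ _, map_smul' := fun c a => by simp }
  have hf : Module.finrank K (LinearMap.ker f) ≤ 2 := by
    have h4 := LinearMap.finrank_range_add_finrank_ker f
    rw [Module.finrank_fintype_fun_eq_card, Fintype.card_fin] at h4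
    have h5 : 0 < Module.finrank K (LinearMap.range f) := by
      rw [Module.finrank_pos_iff_exists_ne_zero]
      obtain ⟨j, hj⟩ := Function.ne_iff.1 hφ
      refine ⟨⟨f (Pi.single j 1), ⟨_, rfl⟩⟩, ?_⟩
      intro h
      apply hj
      have := congrArg Subtype.val h
      simpa [f] using this
    omega
  have hR : u ∉ LinearMap.range A.mulVecLin := by
    rintro ⟨y, hy⟩
    rw [mulVecLin_apply] at hy
    have h4 := congrArg (fun M => M *ᵥ y) h3
    simp only [add_mulVec, ← mulVec_mulVec, zero_mulVec] at h4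
    rw [hy, h1, mulVec_zero, zero_add, zero_add] at h4
    exact hu h4
  have hle : LinearMap.range A.mulVecLin ⊔ Submodule.span K {u} ≤ LinearMap.ker f := by
    apply sup_le
    · rintro _ ⟨x, rfl⟩
      rw [LinearMap.mem_ker, mulVecLin_apply]
      show φ ⬝ᵥ A *ᵥ x = 0
      rw [dotProduct_mulVec, h2, zero_dotProduct]
    · rw [Submodule.span_singleton_le_iff_mem, LinearMap.mem_ker]
      exact huφ
  have h5 := Submodule.finrank_mono hle
  have h6 := Submodule.finrank_sup_add_finrank_inf_eq (LinearMap.range A.mulVecLin) (Submodule.span K {u})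
  have h7 : LinearMap.range A.mulVecLin ⊓ Submodule.span K {u} = ⊥ := by
    rw [eq_bot_iff]
    rintro x ⟨hx1, hx2⟩
    obtain ⟨c, rfl⟩ := Submodule.mem_span_singleton.1 hx2
    rw [Submodule.mem_bot]
    by_contra hne
    have hc : c ≠ 0 := by rintro rfl; simp at hne
    apply hR
    have := Submodule.smul_mem _ c⁻¹ hx1
    rwa [smul_smul, inv_mul_cancel₀ hc, one_smul] at this
  rw [h7, finrank_bot, finrank_span_singleton hu] at h6
  unfold Matrix.rank
  omega

lemma det_one_add_vmv (v ψ : Fin 3 → K) : (1 + vecMulVec v ψ).det = 1 + ψ ⬝ᵥ v := by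
  rw [vecMulVec_eq (Fin 1)]
  exact det_one_add_replicateCol_mul_replicateRow v ψ

lemma rank_one_cases {A : M3 K} (h : A.rank ≤ 1) : A = 0 ∨ ∃ u w : Fin 3 → K, u ≠ 0 ∧ w ≠ 0 ∧ A = vecMulVec u w := by
  rcases Nat.lt_or_ge A.rank 1 with h1 | h1
  · left
    have h2 : Module.finrank K (LinearMap.range A.mulVecLin) = 0 := by
      have : A.rank = Module.finrank K (LinearMap.range A.mulVecLin) := rfl
      omega
    rw [Submodule.finrank_eq_zero, LinearMap.range_eq_bot] at h2
    ext i j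
    have := congrFun (LinearMap.congr_fun h2 (Pi.single j 1)) i
    simpa using this
  · right
    exact Cfsg.Agent.H5.exists_vecMulVec_of_rank_eq_one (by omega)

/-- main linear algebra statement -/
lemma scalar_of {K : Type*} [Field K] [CharP K 2] {S T : M3 K} (hS : S.det = 1) (hT1 : T ≠ 1) (hTT : T * T = 1)
    (hST : S * T = T * S) {ζ : K} (hζ : S * S * S = ζ • 1) (hcube : ∀ x : K, x ≠ 0 → x ^ 3 = 1) : ∃ l : K, S = l • 1 := by
  have h2 : (2 : K) = 0 := CharTwo.two_eq_zero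
  have hadd : ∀ x : M3 K, x + x = 0 := fun x => by ext i j; rw [Matrix.add_apply]; exact CharTwo.add_self_eq_zero _
  set N := T - 1 with hN
  have hNN : N * N = 0 := by
    have : N * N = T * T - (T + T) + 1 := by rw [hN]; noncomm_ring
    rw [this, hadd, hTT, sub_zero, hadd]
  have hN0 : N ≠ 0 := fun h => hT1 (sub_eq_zero.1 h)
  obtain ⟨u, φ, hu, hφ, hNe⟩ := (rank_one_cases (rank_le_one_of_sq hNN)).resolve_left hN0
  have huφ : φ ⬝ᵥ u = 0 := by
    rw [hNe, vmv_mul_self, ← hNe] at hNN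
    exact (smul_eq_zero.1 hNN).resolve_right hN0
  have hSN : S * vecMulVec u φ = vecMulVec u φ * S := by
    rw [← hNe, hN, mul_sub, sub_mul, hST, mul_one, one_mul]
  obtain ⟨l, hl1, hl2⟩ := eig_of_comm hu hφ hSN
  have hl0 : l ≠ 0 := by
    rintro rfl
    rw [zero_smul] at hl1
    have := Matrix.exists_mulVec_eq_zero_iff.1 ⟨u, hu, hl1⟩
    rw [hS] at this
    exact one_ne_zero this
  have hζ1 : ζ = 1 := by
    have h3 := congrArg (fun M => M *ᵥ u) hζ
    simp only [← mulVec_mulVec, hl1, mulVec_smul, smul_mulVec, one_mulVec] at h3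
    rw [smul_smul, smul_smul, ← sub_eq_zero, ← sub_smul] at h3
    have h4 := (smul_eq_zero.1 h3).resolve_right hu
    have h5 := hcube l hl0
    linear_combination -h4 + h5
  rw [hζ1, one_smul] at hζ
  set A := l⁻¹ • S - 1 with hA
  have hlc : l⁻¹ ^ 3 = 1 := hcube _ (inv_ne_zero hl0)
  have hS' : (l⁻¹ • S) * (l⁻¹ • S) * (l⁻¹ • S) = 1 := by
    simp only [smul_mul_assoc, mul_smul_comm, smul_smul]
    rw [hζ, show l⁻¹ * (l⁻¹ * l⁻¹) = 1 by rw [← hlc]; ring, one_smul]
  have h3 : A * A * A + A * A + A = 0 := by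
    have e1 : (l⁻¹ • S) = 1 + A := by rw [hA]; abel
    rw [e1] at hS'
    have e2 : (1 + A) * (1 + A) * (1 + A) = 1 + (A * A * A + A * A + A) + ((A + A) + (A * A + A * A)) := by noncomm_ring
    rw [e2, hadd, hadd, add_zero, add_zero] at hS'
    simpa using hS'
  have hAu : A *ᵥ u = 0 := by
    rw [hA, sub_mulVec, smul_mulVec, hl1, one_mulVec, smul_smul, inv_mul_cancel₀ hl0, one_smul, sub_self]
  have hφA : φ ᵥ* A = 0 := by
    rw [hA, vecMul_sub, vecMul_smul, hl2, vecMul_one, smul_smul, inv_mul_cancel₀ hl0, one_smul, sub_self]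
  have hA0 : A = 0 := by
    rcases rank_one_cases (rank_le_one_of hu hφ huφ hAu hφA h3) with h | ⟨v, ψ, hv, hψ, hAe⟩
    · exact h
    · have hdet : (1 + A).det = 1 := by
        have : 1 + A = l⁻¹ • S := by rw [hA]; abel
        rw [this, det_smul, hS, mul_one]
        simpa using hlc
      rw [hAe, det_one_add_vmv] at hdet
      have h0 : ψ ⬝ᵥ v = 0 := by linear_combination hdet
      have h5 : A * A = 0 := by rw [hAe, vmv_mul_self, h0, zero_smul]
      rw [h5, zero_mul, zero_add, zero_add] at h3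
      exact h3
  refine ⟨l, ?_⟩
  have h6 : l⁻¹ • S = 1 := sub_eq_zero.1 hA0
  rw [← h6, smul_smul, mul_inv_cancel₀ hl0, one_smul]

lemma center_cube {z : S3 K} (hz : z ∈ Subgroup.center (S3 K)) : z ^ 3 = 1 := by
  obtain ⟨r, hr, h⟩ := Matrix.SpecialLinearGroup.mem_center_iff.1 hz
  apply Subtype.ext
  rw [Matrix.SpecialLinearGroup.coe_pow, ← h, ← map_pow, Matrix.SpecialLinearGroup.coe_one]
  have : r ^ 3 = 1 := by simpa using hr
  rw [this, map_one]

theorem no_six [Fintype K] (hK : Fintype.card K = 4) {x y : P3 K} (hx : x ^ 3 = 1) (hy : y ^ 2 = 1) (hxy : x * y = y * x) (hy1 : y ≠ 1) :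
    x = 1 := by
  haveI : CharP K 2 := by
    haveI : Fact (Nat.Prime 2) := ⟨Nat.prime_two⟩
    exact charP_of_card_eq_prime_pow (f := 2) (by rw [hK]; norm_num)
  obtain ⟨T0, rfl⟩ := QuotientGroup.mk'_surjective _ y
  obtain ⟨S, rfl⟩ := QuotientGroup.mk'_surjective _ x
  set π := QuotientGroup.mk' (Subgroup.center (S3 K)) with hπ
  have hker : ∀ z, π z = 1 ↔ z ∈ Subgroup.center (S3 K) := fun z => QuotientGroup.eq_one_iff z
  let T := T0 ^ 3
  have hTe : π T = π T0 := by
    show π (T0 ^ 3) = _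
    rw [map_pow, pow_succ, hy, one_mul]
  have hTT : T * T = 1 := by
    show T0 ^ 3 * T0 ^ 3 = 1
    rw [← pow_add, show 3 + 3 = 2 * 3 by rfl, pow_mul]
    apply center_cube
    rw [← hker, map_pow, hy]
  have hT1 : T ≠ 1 := by
    intro h; apply hy1; rw [← hTe, h, map_one]
  -- commute
  have hc : (S * T * S⁻¹ * T⁻¹) ∈ Subgroup.center (S3 K) := by
    rw [← hker]
    simp only [map_mul, map_inv]
    rw [hTe, hxy]; group
  have hTi : T⁻¹ = T := inv_eq_of_mul_eq_one_right hTT
  have hc2 : (S * T * S⁻¹ * T⁻¹) * (S * T * S⁻¹ * T⁻¹) = 1 := by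
    have hcc := Subgroup.mem_center_iff.1 hc
    have h1 : (S * T * S⁻¹ * T⁻¹) * (S * T * S⁻¹ * T⁻¹) = (S * T * S⁻¹) * ((S * T * S⁻¹ * T⁻¹) * T⁻¹) := by
      rw [← hcc T⁻¹]; group
    rw [h1, hTi]
    calc S * T * S⁻¹ * (S * T * S⁻¹ * T * T) = S * (T * T) * S⁻¹ * (T * T) := by group
      _ = 1 := by rw [hTT]; group
  have hc1 : S * T * S⁻¹ * T⁻¹ = 1 := by
    have h3 := center_cube hc
    rw [pow_succ, pow_two, hc2, one_mul] at h3
    exact h3
  have hST : S * T = T * S := by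
    have := hc1
    rw [mul_inv_eq_one, mul_inv_eq_iff_eq_mul] at this
    exact this
  have hS3 : S ^ 3 ∈ Subgroup.center (S3 K) := by rw [← hker, map_pow, hx]
  obtain ⟨ζ, -, hζ⟩ := Matrix.SpecialLinearGroup.mem_center_iff.1 hS3
  obtain ⟨l, hl⟩ := scalar_of (S := (S : M3 K)) (T := (T : M3 K)) S.2 (fun h => hT1 (Subtype.ext h))
    (by rw [← Matrix.SpecialLinearGroup.coe_mul, hTT, Matrix.SpecialLinearGroup.coe_one])
    (by rw [← Matrix.SpecialLinearGroup.coe_mul, hST, Matrix.SpecialLinearGroup.coe_mul]) (ζ := ζ) (by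
      rw [← pow_two, ← pow_succ, ← Matrix.SpecialLinearGroup.coe_pow, ← hζ]
      ext i j; simp [Matrix.scalar_apply, Matrix.diagonal_apply, Matrix.one_apply]) (by
      intro x hx
      have := FiniteField.pow_card_sub_one_eq_one x hx
      rwa [hK] at this)
  rw [hker, Matrix.SpecialLinearGroup.mem_center_iff]
  refine ⟨l, ?_, ?_⟩
  · have := S.2
    rw [hl, det_smul, det_one, mul_one] at this
    exact this
  · rw [hl]
    ext i j; simp [Matrix.scalar_apply, Matrix.diagonal_apply, Matrix.one_apply]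

end Cfsg.Agent.H16.L34
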