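import Mathlib
import Cfsg.Agent.H16.JNil2

set_option autoImplicit false
set_option linter.all false

/-! Number of nilpotent endomorphisms (Fine-Herstein). -/

namespace Cfsg.Agent.H16.NilC

open Module Matrix

section
variable {F : Type*} [Field F]

abbrev U (F : Type*) [Field F] (k : ℕ) := Fin k → F

variable {V : Type*} [AddCommGroup V] [Module F V]

def Spl {k m : ℕ} (T : Module.End F V) (e : (U F k × U F m) ≃ₗ[F] V) : Prop :=
  ∃ N : Module.End F (U F k), ∃ A : Module.End F (U F m), IsNilpotent N ∧ IsUnit A ∧ ∀ u, T (e u) = e (N u.1, A u.2)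

def K (T : Module.End F V) : Submodule F V := ⨆ j, LinearMap.ker (T ^ j)

lemma mem_K {T : Module.End F V} {v : V} : v ∈ K T ↔ ∃ j, (T ^ j) v = 0 := by
  unfold K
  have hmono : Monotone (fun j => LinearMap.ker (T ^ j)) := by
    intro a b hab x hx
    rw [LinearMap.mem_ker] at hx ⊢
    rw [← Nat.sub_add_cancel hab, pow_add, Module.End.mul_apply, hx, map_zero]
  rw [Submodule.mem_iSup_of_directed _ hmono.directed_le]
  exact Iff.rfl

noncomputable def ka (T : Module.End F V) : ℕ := finrank F (K T)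

lemma pow_apply' {k m : ℕ} {T : Module.End F V} {e : (U F k × U F m) ≃ₗ[F] V} {N : Module.End F (U F k)} {A : Module.End F (U F m)}
    (h : ∀ u, T (e u) = e (N u.1, A u.2)) (j : ℕ) (u : U F k × U F m) : (T ^ j) (e u) = e ((N ^ j) u.1, (A ^ j) u.2) := by
  induction j generalizing u with
  | zero => simp
  | succ j ih =>
    rw [pow_succ, Module.End.mul_apply, h, ih, pow_succ, pow_succ, Module.End.mul_apply, Module.End.mul_apply]

lemma unit_inj {m : ℕ} {A : Module.End F (U F m)} (hA : IsUnit A) : Function.Injective A := by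
  obtain ⟨u, rfl⟩ := hA
  intro x y h
  have := congrArg (u⁻¹.val : Module.End F (U F m)) h
  rw [← Module.End.mul_apply, ← Module.End.mul_apply, Units.inv_mul] at this
  exact this

lemma mem_K_iff {k m : ℕ} {T : Module.End F V} {e : (U F k × U F m) ≃ₗ[F] V} (h : Spl T e) (u : U F k × U F m) :
    e u ∈ K T ↔ u.2 = 0 := by
  obtain ⟨N, A, ⟨l, hN⟩, hA, h⟩ := h
  rw [mem_K]
  constructor
  · rintro ⟨j, hj⟩
    rw [pow_apply' h, LinearEquiv.map_eq_zero_iff] at hj
    have h1 : (A ^ j) u.2 = 0 := congrArg Prod.snd hj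
    exact (unit_inj (hA.pow j)) (by rw [h1, map_zero])
  · intro hu
    refine ⟨l, ?_⟩
    rw [pow_apply' h, hN, hu, map_zero, LinearMap.zero_apply]
    exact map_zero e

lemma ka_eq {k m : ℕ} {T : Module.End F V} {e : (U F k × U F m) ≃ₗ[F] V} (h : Spl T e) : ka T = k := by
  have h1 : K T = LinearMap.range (e.toLinearMap ∘ₗ LinearMap.inl F (U F k) (U F m)) := by
    ext v
    obtain ⟨u, rfl⟩ := e.surjective v
    rw [mem_K_iff h, LinearMap.mem_range]
    constructor
    · intro hu
      refine ⟨u.1, ?_⟩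
      show e (u.1, 0) = e u
      rw [← hu]
    · rintro ⟨y, hy⟩
      have : e (y, 0) = e u := hy
      rw [← e.injective this]
  unfold ka
  have h2 : Function.Injective (e.toLinearMap ∘ₗ LinearMap.inl F (U F k) (U F m)) := by
    rw [LinearMap.coe_comp]; exact e.injective.comp LinearMap.inl_injective
  rw [h1, LinearMap.finrank_range_of_inj h2]
  simp

lemma exists_spl [FiniteDimensional F V] (T : Module.End F V) : ∃ k m, k + m = finrank F V ∧ ∃ e : (U F k × U F m) ≃ₗ[F] V, Spl T e := by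
  have h := (LinearMap.eventually_isCompl_ker_pow_range_pow T).and (Filter.eventually_ge_atTop 1)
  obtain ⟨j, hj, hj1⟩ := h.exists
  set K := LinearMap.ker (T ^ j) with hK
  set R := LinearMap.range (T ^ j) with hR
  have hTK : ∀ x ∈ K, T x ∈ K := by
    intro x hx
    rw [hK, LinearMap.mem_ker] at hx ⊢
    rw [← Module.End.mul_apply, ← pow_succ, pow_succ', Module.End.mul_apply, hx, map_zero]
  have hTR : ∀ x ∈ R, T x ∈ R := by
    rintro _ ⟨y, rfl⟩
    exact ⟨T y, by rw [← Module.End.mul_apply, ← Module.End.mul_apply, ← pow_succ, ← pow_succ']⟩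
  let e0 : U F (finrank F K) ≃ₗ[F] K := LinearEquiv.ofFinrankEq _ _ (by simp)
  let e1 : U F (finrank F R) ≃ₗ[F] R := LinearEquiv.ofFinrankEq _ _ (by simp)
  let e : (U F (finrank F K) × U F (finrank F R)) ≃ₗ[F] V := (LinearEquiv.prodCongr e0 e1).trans (Submodule.prodEquivOfIsCompl K R hj)
  have he : ∀ u, e u = (e0 u.1 : V) + (e1 u.2 : V) := fun u => rfl
  let TK : Module.End F K := T.restrict hTK
  let TR : Module.End F R := T.restrict hTR
  refine ⟨finrank F K, finrank F R, Submodule.finrank_add_eq_of_isCompl hj, e, ?_⟩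
  refine ⟨e0.symm.toLinearMap ∘ₗ TK ∘ₗ e0.toLinearMap, e1.symm.toLinearMap ∘ₗ TR ∘ₗ e1.toLinearMap, ⟨j, ?_⟩, ?_, ?_⟩
  · apply LinearMap.ext
    intro u
    have h1 : ∀ i : ℕ, ∀ u, ((e0.symm.toLinearMap ∘ₗ TK ∘ₗ e0.toLinearMap) ^ i) u = e0.symm ((TK ^ i) (e0 u)) := by
      intro i
      induction i with
      | zero => intro u; simp
      | succ i ih =>
        intro u
        rw [pow_succ, Module.End.mul_apply, ih]
        simp only [LinearMap.comp_apply, LinearEquiv.coe_coe, LinearEquiv.apply_symm_apply]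
        rw [← Module.End.mul_apply, ← pow_succ]
    rw [h1, LinearMap.zero_apply, LinearEquiv.map_eq_zero_iff]
    apply Subtype.ext
    have h2 : ∀ i : ℕ, ∀ x : K, (((TK ^ i) x : K) : V) = (T ^ i) x := by
      intro i
      induction i with
      | zero => intro x; simp
      | succ i ih =>
        intro x
        rw [pow_succ, Module.End.mul_apply, ih, pow_succ, Module.End.mul_apply]; rfl
    rw [h2]
    exact (e0 u).2
  · have hinj : Function.Injective TR := by
      rw [injective_iff_map_eq_zero]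
      intro x hx
      have h1 : T (x : V) = 0 := congrArg Subtype.val hx
      have h2 : (x : V) ∈ K := by
        rw [hK, LinearMap.mem_ker]
        rw [show j = (j - 1) + 1 by omega, pow_succ, Module.End.mul_apply, h1, map_zero]
      have h3 : (x : V) ∈ K ⊓ R := ⟨h2, x.2⟩
      rw [hj.inf_eq_bot, Submodule.mem_bot] at h3
      exact Subtype.ext h3
    have hinj2 : Function.Injective (e1.symm.toLinearMap ∘ₗ TR ∘ₗ e1.toLinearMap) := by
      rw [LinearMap.coe_comp, LinearMap.coe_comp]
      exact e1.symm.injective.comp (hinj.comp e1.injective)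
    exact (LinearMap.isUnit_iff_ker_eq_bot _).2 (LinearMap.ker_eq_bot.2 hinj2)
  · intro u
    rw [he, he, map_add]
    simp only [LinearMap.comp_apply, LinearEquiv.coe_coe, LinearEquiv.apply_symm_apply]
    rfl

noncomputable def ga (F : Type*) [Field F] (k : ℕ) : ℕ := Nat.card (U F k ≃ₗ[F] U F k)
noncomputable def na (F : Type*) [Field F] (k : ℕ) : ℕ := Nat.card {N : Module.End F (U F k) // IsNilpotent N}

lemma card_units_end (k : ℕ) : Nat.card (Module.End F (U F k))ˣ = ga F k :=
  Nat.card_congr (LinearMap.GeneralLinearGroup.generalLinearEquiv F (U F k)).toEquiv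

lemma card_iso {k m : ℕ} (e : (U F k × U F m) ≃ₗ[F] V) (e' : U F (k + m) ≃ₗ[F] V) : Nat.card ((U F k × U F m) ≃ₗ[F] V) = ga F (k + m) := by
  unfold ga
  let f : U F (k + m) ≃ₗ[F] (U F k × U F m) := e'.trans e.symm
  exact Nat.card_congr
    { toFun := fun g => (f.trans g).trans e'.symm
      invFun := fun g => (f.symm.trans g).trans e'
      left_inv := fun g => by ext x; simp
      right_inv := fun g => by ext x; simp }

/-- first count -/
lemma count1 {k m : ℕ} (e' : U F (k + m) ≃ₗ[F] V) [FiniteDimensional F V] :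
    Nat.card {x : Module.End F V × ((U F k × U F m) ≃ₗ[F] V) // Spl x.1 x.2} = ga F (k + m) * (na F k * ga F m) := by
  have e : (U F k × U F m) ≃ₗ[F] V := LinearEquiv.ofFinrankEq _ _ (by rw [← e'.finrank_eq]; simp)
  rw [← card_iso e e', ← card_units_end m, na, ← Nat.card_prod, ← Nat.card_prod]
  symm
  let f : (((U F k × U F m) ≃ₗ[F] V) × ({N : Module.End F (U F k) // IsNilpotent N} × (Module.End F (U F m))ˣ)) →
      {x : Module.End F V × ((U F k × U F m) ≃ₗ[F] V) // Spl x.1 x.2} := fun y =>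
    ⟨(y.1.toLinearMap ∘ₗ (LinearMap.prodMap y.2.1.1 (y.2.2 : Module.End F (U F m))) ∘ₗ y.1.symm.toLinearMap, y.1),
      y.2.1.1, y.2.2, y.2.1.2, y.2.2.isUnit, fun u => by simp⟩
  apply Nat.card_congr (Equiv.ofBijective f ⟨?_, ?_⟩)
  · rintro ⟨g, N, A⟩ ⟨g', N', A'⟩ h
    have h1 := congrArg Subtype.val h
    simp only [f, Prod.mk.injEq] at h1
    obtain ⟨h1, rfl⟩ := h1
    have h2 : ∀ u : U F k × U F m, (N.1 u.1, A.1 u.2) = (N'.1 u.1, A'.1 u.2) := by
      intro u
      have := LinearMap.congr_fun h1 (g u)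
      simp only [LinearMap.comp_apply, LinearEquiv.coe_coe, LinearEquiv.symm_apply_apply, LinearMap.prodMap_apply] at this
      exact g.injective this
    congr 1
    congr 1
    · apply Subtype.ext; apply LinearMap.ext; intro x
      exact congrArg Prod.fst (h2 (x, 0))
    · apply Units.ext; apply LinearMap.ext; intro x
      exact congrArg Prod.snd (h2 (0, x))
  · rintro ⟨⟨T, g⟩, N, A, hN, hA, h⟩
    obtain ⟨A, rfl⟩ := hA
    refine ⟨(g, ⟨N, hN⟩, A), ?_⟩
    apply Subtype.ext
    show (_, g) = (T, g)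
    congr 1
    apply LinearMap.ext
    intro v
    obtain ⟨u, rfl⟩ := g.surjective v
    rw [h]
    simp

/-- second count -/
lemma count2 {k m : ℕ} [FiniteDimensional F V] (hn : k + m = finrank F V) :
    Nat.card {x : Module.End F V × ((U F k × U F m) ≃ₗ[F] V) // Spl x.1 x.2} = Nat.card {T : Module.End F V // ka T = k} * (ga F k * ga F m) := by
  have hex : ∀ T : {T : Module.End F V // ka T = k}, ∃ e : (U F k × U F m) ≃ₗ[F] V, Spl T.1 e := by
    rintro ⟨T, rfl⟩
    obtain ⟨k', m', h1, e, he⟩ := exists_spl T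
    have := ka_eq he
    subst this
    have : m = m' := by omega
    subst this
    exact ⟨e, he⟩
  choose e0 he0 using hex
  unfold ga
  rw [← Nat.card_prod, ← Nat.card_prod]
  symm
  let f : ({T : Module.End F V // ka T = k} × ((U F k ≃ₗ[F] U F k) × (U F m ≃ₗ[F] U F m))) →
      {x : Module.End F V × ((U F k × U F m) ≃ₗ[F] V) // Spl x.1 x.2} := fun y =>
    ⟨(y.1.1, (LinearEquiv.prodCongr y.2.1 y.2.2).trans (e0 y.1)), by
      obtain ⟨N, A, hN, hA, h⟩ := he0 y.1
      refine ⟨y.2.1.symm.toLinearMap ∘ₗ N ∘ₗ y.2.1.toLinearMap, y.2.2.symm.toLinearMap ∘ₗ A ∘ₗ y.2.2.toLinearMap, ?_, ?_, ?_⟩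
      · obtain ⟨l, hl⟩ := hN
        refine ⟨l, ?_⟩
        have h1 : ∀ i : ℕ, ((y.2.1.symm.toLinearMap ∘ₗ N ∘ₗ y.2.1.toLinearMap) ^ i) = y.2.1.symm.toLinearMap ∘ₗ (N ^ i) ∘ₗ y.2.1.toLinearMap := by
          intro i
          induction i with
          | zero => ext; simp
          | succ i ih =>
            rw [pow_succ, ih]
            apply LinearMap.ext; intro x
            simp only [Module.End.mul_apply, LinearMap.comp_apply, LinearEquiv.coe_coe, LinearEquiv.apply_symm_apply, pow_succ]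
        rw [h1, hl]; ext; simp
      · apply (LinearMap.isUnit_iff_ker_eq_bot _).2 (LinearMap.ker_eq_bot.2 _)
        rw [LinearMap.coe_comp, LinearMap.coe_comp]
        exact y.2.2.symm.injective.comp ((unit_inj hA).comp y.2.2.injective)
      · intro u
        simp only [LinearEquiv.trans_apply, LinearEquiv.prodCongr_apply, LinearMap.comp_apply, LinearEquiv.coe_coe, LinearEquiv.apply_symm_apply]
        exact h _⟩
  apply Nat.card_congr (Equiv.ofBijective f ⟨?_, ?_⟩)
  · rintro ⟨T, g, h⟩ ⟨T', g', h'⟩ heq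
    have h1 := congrArg Subtype.val heq
    simp only [f, Prod.mk.injEq] at h1
    obtain ⟨h1, h2⟩ := h1
    have h1 := Subtype.ext h1
    subst h1
    have h3 : ∀ u : U F k × U F m, (g u.1, h u.2) = (g' u.1, h' u.2) := by
      intro u
      have := LinearEquiv.congr_fun h2 u
      simp only [LinearEquiv.trans_apply, LinearEquiv.prodCongr_apply] at this
      exact (e0 T).injective this
    congr 1
    congr 1
    · ext1 x
      exact congrArg Prod.fst (h3 (x, 0))
    · ext1 x
      exact congrArg Prod.snd (h3 (0, x))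
  · rintro ⟨⟨T, e⟩, hTe⟩
    have hTe : Spl T e := hTe
    have hka := ka_eq hTe
    obtain ⟨N', A', ⟨l', hN'⟩, hA', h'⟩ := id hTe
    obtain ⟨N, A, ⟨l, hN⟩, hA, h⟩ := he0 ⟨T, hka⟩
    set b := e0 ⟨T, hka⟩ with hb
    have h1 : ∀ x : U F k, (b.symm (e (x, 0))).2 = 0 := by
      intro x
      rw [← mem_K_iff (he0 ⟨T, hka⟩)]
      rw [← hb, LinearEquiv.apply_symm_apply]
      exact (mem_K_iff hTe (x, 0)).2 rfl
    have h2 : ∀ w : U F m, (b.symm (e (0, w))).1 = 0 := by
      intro w
      have hA'u : IsUnit (A' ^ l) := hA'.pow l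
      obtain ⟨a, ha⟩ := hA'u
      have h3 : w = (A' ^ l) ((a⁻¹.val : Module.End F (U F m)) w) := by
        rw [← ha, ← Module.End.mul_apply, Units.mul_inv]; rfl
      have h4 : e (0, w) = (T ^ l) (e (0, (a⁻¹.val : Module.End F (U F m)) w)) := by
        rw [pow_apply' h', ← h3, map_zero]
      rw [h4]
      obtain ⟨u, hu⟩ := b.surjective (e (0, (a⁻¹.val : Module.End F (U F m)) w))
      rw [← hu, pow_apply' h, LinearEquiv.symm_apply_apply, hN]; rfl
    let g0 : U F k →ₗ[F] U F k := LinearMap.fst F _ _ ∘ₗ b.symm.toLinearMap ∘ₗ e.toLinearMap ∘ₗ LinearMap.inl F _ _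
    let h0 : U F m →ₗ[F] U F m := LinearMap.snd F _ _ ∘ₗ b.symm.toLinearMap ∘ₗ e.toLinearMap ∘ₗ LinearMap.inr F _ _
    have hg0 : Function.Injective g0 := by
      rw [injective_iff_map_eq_zero]
      intro x hx
      have h5 : b.symm (e (x, 0)) = 0 := Prod.ext hx (h1 x)
      rw [LinearEquiv.map_eq_zero_iff, LinearEquiv.map_eq_zero_iff] at h5
      exact congrArg Prod.fst h5
    have hh0 : Function.Injective h0 := by
      rw [injective_iff_map_eq_zero]
      intro x hx
      have h5 : b.symm (e (0, x)) = 0 := Prod.ext (h2 x) hx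
      rw [LinearEquiv.map_eq_zero_iff, LinearEquiv.map_eq_zero_iff] at h5
      exact congrArg Prod.snd h5
    refine ⟨(⟨T, hka⟩, LinearEquiv.ofInjectiveEndo g0 hg0, LinearEquiv.ofInjectiveEndo h0 hh0), ?_⟩
    apply Subtype.ext
    show (T, _) = (T, e)
    congr 1
    apply LinearEquiv.ext
    rintro ⟨x, w⟩
    show b (g0 x, h0 w) = e (x, w)
    have h6 : (x, w) = (x, (0 : U F m)) + ((0 : U F k), w) := by simp
    have h7 : (g0 x, h0 w) = b.symm (e (x, w)) := by
      rw [h6, map_add, map_add]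
      apply Prod.ext
      · show g0 x = (b.symm (e (x, 0))).1 + (b.symm (e (0, w))).1
        rw [h2, add_zero]; rfl
      · show h0 w = (b.symm (e (x, 0))).2 + (b.symm (e (0, w))).2
        rw [h1, zero_add]; rfl
    rw [h7, LinearEquiv.apply_symm_apply]

variable [Fintype F]

lemma ga_pos (k : ℕ) : 0 < ga F k := by
  haveI : Finite (U F k ≃ₗ[F] U F k) := Finite.of_injective (fun e => (e : U F k → U F k)) DFunLike.coe_injective
  exact Nat.card_pos

lemma ga_eq (k : ℕ) : ga F k = ∏ i : Fin k, (Fintype.card F ^ k - Fintype.card F ^ (i : ℕ)) := by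
  rw [← card_units_end, ← Matrix.card_GL_field]
  exact Nat.card_congr (Matrix.GeneralLinearGroup.toLin (n := Fin k) (R := F)).toEquiv.symm

lemma ga_succ (k : ℕ) : ga F (k + 1) = (Fintype.card F ^ (k + 1) - 1) * Fintype.card F ^ k * ga F k := by
  rw [ga_eq, ga_eq, Fin.prod_univ_succ, Fin.val_zero, pow_zero, mul_assoc]
  congr 1
  have : ∀ i : Fin k, Fintype.card F ^ (k + 1) - Fintype.card F ^ (i.succ : ℕ) = Fintype.card F * (Fintype.card F ^ k - Fintype.card F ^ (i : ℕ)) := by
    intro i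
    rw [Fin.val_succ, pow_succ', pow_succ', Nat.mul_sub]
  rw [Finset.prod_congr rfl (fun i _ => this i), Finset.prod_mul_distrib, Finset.prod_const, Finset.card_univ, Fintype.card_fin]

lemma X_mul {n k : ℕ} (hk : k ≤ n) : ga F n * na F k = Nat.card {T : Module.End F (U F n) // ka T = k} * ga F k := by
  obtain ⟨m, rfl⟩ := Nat.exists_eq_add_of_le hk
  have h1 := count1 (F := F) (V := U F (k + m)) (k := k) (m := m) (LinearEquiv.refl F _)
  have h2 := count2 (F := F) (V := U F (k + m)) (k := k) (m := m) (by simp)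
  rw [h1, ← mul_assoc, ← mul_assoc] at h2
  exact Nat.eq_of_mul_eq_mul_right (ga_pos m) h2

lemma sum_X (n : ℕ) : ∑ k ∈ Finset.range (n + 1), Nat.card {T : Module.End F (U F n) // ka T = k} = Fintype.card F ^ (n * n) := by
  classical
  haveI : Finite (Module.End F (U F n)) := Finite.of_injective (fun e => (e : U F n → U F n)) DFunLike.coe_injective
  haveI : Fintype (Module.End F (U F n)) := Fintype.ofFinite _
  have h1 : Fintype.card (Module.End F (U F n)) = Fintype.card F ^ (n * n) := by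
    rw [Fintype.card_congr (Matrix.toLin' (R := F) (m := Fin n) (n := Fin n)).toEquiv.symm]
    rw [← Nat.card_eq_fintype_card]
    show Nat.card (Fin n → Fin n → F) = _
    rw [Nat.card_eq_fintype_card, Fintype.card_fun, Fintype.card_fun, Fintype.card_fin, ← pow_mul]
  rw [← h1, ← Finset.card_univ, Finset.card_eq_sum_card_fiberwise (f := ka) (t := Finset.range (n + 1))]
  · apply Finset.sum_congr rfl
    intro k _
    rw [Nat.card_eq_fintype_card, Fintype.card_subtype]
  · intro T _
    rw [Finset.coe_range, Set.mem_Iio]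
    have := Submodule.finrank_le (K T)
    simp only [finrank_fintype_fun_eq_card, Fintype.card_fin] at this
    unfold ka
    omega

lemma sum_na (n : ℕ) : ∑ k ∈ Finset.range (n + 1), (na F k : ℚ) / ga F k = (Fintype.card F : ℚ) ^ (n * n) / ga F n := by
  have h := congrArg (fun x : ℕ => (x : ℚ)) (sum_X (F := F) n)
  simp only [Nat.cast_sum, Nat.cast_pow] at h
  rw [← h, Finset.sum_div]
  apply Finset.sum_congr rfl
  intro k hk
  have h1 := X_mul (F := F) (n := n) (k := k) (by rw [Finset.mem_range] at hk; omega)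
  have h2 : (ga F n : ℚ) * na F k = (Nat.card {T : Module.End F (U F n) // ka T = k} : ℚ) * ga F k := by exact_mod_cast h1
  have h3 : (ga F n : ℚ) ≠ 0 := by exact_mod_cast (ga_pos n).ne'
  have h4 : (ga F k : ℚ) ≠ 0 := by exact_mod_cast (ga_pos k).ne'
  field_simp
  linear_combination h2

theorem na_eq (n : ℕ) : na F n = Fintype.card F ^ (n * (n - 1)) := by
  rcases n with _ | n
  · have h := sum_na (F := F) 0
    have h4 : (ga F 0 : ℚ) ≠ 0 := by exact_mod_cast (ga_pos 0).ne'
    simp only [zero_add, Finset.sum_range_one] at h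
    rw [div_left_inj' h4] at h
    have h5 : (na F 0 : ℚ) = ((Fintype.card F ^ (0 * 0) : ℕ) : ℚ) := by rw [h]; push_cast; rfl
    have := Nat.cast_injective h5
    rw [this]
  · have h := sum_na (F := F) (n + 1)
    rw [Finset.sum_range_succ, sum_na (F := F) n] at h
    have h3 : (ga F (n + 1) : ℚ) ≠ 0 := by exact_mod_cast (ga_pos _).ne'
    have h4 : (ga F n : ℚ) ≠ 0 := by exact_mod_cast (ga_pos n).ne'
    have h1q : 1 ≤ Fintype.card F ^ (n + 1) := Nat.one_le_pow _ _ Fintype.card_pos
    have h5 : (ga F (n + 1) : ℚ) = ((Fintype.card F : ℚ) ^ (n + 1) - 1) * (Fintype.card F : ℚ) ^ n * ga F n := by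
      rw [ga_succ]; push_cast [Nat.cast_sub h1q]; ring
    have h6 : (na F (n + 1) : ℚ) = (Fintype.card F : ℚ) ^ ((n + 1) * (n + 1)) - (Fintype.card F : ℚ) ^ (n * n) * (((Fintype.card F : ℚ) ^ (n + 1) - 1) * (Fintype.card F : ℚ) ^ n) := by
      have h7 : (na F (n + 1) : ℚ) / ga F (n + 1) = (Fintype.card F : ℚ) ^ ((n + 1) * (n + 1)) / ga F (n + 1) - (Fintype.card F : ℚ) ^ (n * n) / ga F n := by
        linear_combination h
      have h8 : (Fintype.card F : ℚ) ^ (n * n) / ga F n = (Fintype.card F : ℚ) ^ (n * n) * (((Fintype.card F : ℚ) ^ (n + 1) - 1) * (Fintype.card F : ℚ) ^ n) / ga F (n + 1) := by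
        rw [div_eq_div_iff h4 h3, h5]; ring
      rw [h8, ← sub_div, div_left_inj' h3] at h7
      exact h7
    have h9 : (na F (n + 1) : ℚ) = ((Fintype.card F ^ ((n + 1) * (n + 1 - 1)) : ℕ) : ℚ) := by
      rw [h6]; push_cast
      have e1 : (n + 1) * (n + 1) = n * n + (n + 1) + n := by ring
      have e2 : (n + 1) * n = n * n + n := by ring
      rw [e1, e2, pow_add, pow_add, pow_add]; ring
    exact Nat.cast_injective h9

theorem count_unip (p : ℕ) [Fact p.Prime] [CharP F p] (n : ℕ) :
    Nat.card {g : GL (Fin n) F // ∃ k : ℕ, orderOf g = p ^ k} = Fintype.card F ^ (n * (n - 1)) := by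
  rw [← na_eq]
  unfold na
  let f : {g : GL (Fin n) F // ∃ k : ℕ, orderOf g = p ^ k} → {N : Module.End F (U F n) // IsNilpotent N} := fun g =>
    ⟨JNil.Ng g.1, (JNil.nilp_iff p g.1).1 g.2⟩
  apply Nat.card_congr (Equiv.ofBijective f ⟨?_, ?_⟩)
  · intro g h hgh
    have h1 : JNil.Ng g.1 = JNil.Ng h.1 := congrArg Subtype.val hgh
    unfold JNil.Ng at h1
    apply Subtype.ext
    apply Units.ext
    exact sub_left_injective (Matrix.toLin'.injective h1)
  · rintro ⟨N, hN⟩
    have h1 : IsNilpotent (LinearMap.toMatrix' N) := by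
      obtain ⟨l, hl⟩ := hN
      refine ⟨l, ?_⟩
      apply Matrix.toLin'.injective
      rw [Matrix.toLin'_pow, Matrix.toLin'_toMatrix', hl, map_zero]
    have h2 : IsUnit (1 + LinearMap.toMatrix' N) := h1.isUnit_one_add
    obtain ⟨g, hg⟩ := h2
    have h3 : JNil.Ng g = N := by
      unfold JNil.Ng
      rw [hg, add_sub_cancel_left, Matrix.toLin'_toMatrix']
    exact ⟨⟨g, (JNil.nilp_iff p g).2 (h3 ▸ hN)⟩, Subtype.ext h3⟩

end

end Cfsg.Agent.H16.NilC
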