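import Mathlib
import Cfsg.Agent.H17.PolOm2
import Cfsg.Agent.H16.RegF

set_option autoImplicit false
set_option linter.all false
set_option maxHeartbeats 400000

/-! Two-generation of orthogonal groups: frames, and the core of the argument. -/

namespace Cfsg.Agent.H16.OrTwoA

open Cfsg.Agent.H17 Cfsg.Agent.H17.Pol

variable {F V G PG : Type*} [Field F] [AddCommGroup V] [Module F V] [Group G] [Group PG]
  {O : Pol F V G PG}

/-- the vectors `w` orthogonal to the singular vector `x` whose Siegel element lies in `K` -/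
def W (hO : O.OType) (K : Subgroup G) {x : V} (hx : O.N x = 0) : AddSubgroup V where
  carrier := {w | O.B x w = 0 ∧ O.E x w ∈ K}
  zero_mem' := ⟨O.br_zero x, by rw [E_zero hO hx]; exact K.one_mem⟩
  add_mem' := by
    rintro a b ⟨ha, ha'⟩ ⟨hb, hb'⟩
    exact ⟨by rw [O.br_add, ha, hb, add_zero], by rw [← E_mul hO hx ha hb]; exact K.mul_mem ha' hb'⟩
  neg_mem' := by
    rintro a ⟨ha, ha'⟩
    exact ⟨by rw [O.br_neg, ha, neg_zero], by rw [← E_inv hO hx ha]; exact K.inv_mem ha'⟩

theorem mem_W (hO : O.OType) {K : Subgroup G} {x w : V} (hx : O.N x = 0) : w ∈ W hO K hx ↔ O.B x w = 0 ∧ O.E x w ∈ K := Iff.rfl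

/-- all the multiples of `w` are in `W` -/
def RR (O : Pol F V G PG) (K : Subgroup G) (x w : V) : Prop := O.B x w = 0 ∧ ∀ c : F, O.E x (c • w) ∈ K

section
variable {K : Subgroup G} (hO : O.OType)
include hO

theorem RR.mem {x w : V} (h : RR O K x w) (hx : O.N x = 0) (c : F) : c • w ∈ W hO K hx :=
  ⟨by rw [O.br_smul, h.1, mul_zero], h.2 c⟩

theorem RR_of {x w : V} (hx : O.N x = 0) (h : ∀ c : F, c • w ∈ W hO K hx) : RR O K x w :=
  ⟨by have := (h 1).1; rwa [one_smul] at this, fun c => (h c).2⟩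

theorem RR.symm {x w : V} (h : RR O K x w) (hx : O.N x = 0) (hw : O.N w = 0) : RR O K w x := by
  refine ⟨by rw [hO.sy]; exact h.1, fun c => ?_⟩
  have h1 := h.2 (-c)
  have hwx : O.B w x = 0 := by rw [hO.sy]; exact h.1
  have e : O.E w (c • x) = O.E x ((-c) • w) := by
    apply O.act_inj
    intro v
    rw [E_act hO hw (by rw [O.br_smul, hwx, mul_zero]), E_act hO hx (by rw [O.br_smul, h.1, mul_zero]),
      hO.smul, hO.smul, hx, hw, hO.bl, hO.bl]
    module
  rw [e]; exact h1

theorem RR.smul_left {x w : V} (h : RR O K x w) (hx : O.N x = 0) (c : F) : RR O K (c • x) w := by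
  refine ⟨by rw [hO.bl, h.1, mul_zero], fun d => ?_⟩
  have e : O.E (c • x) (d • w) = O.E x ((c * d) • w) := by
    apply O.act_inj
    intro v
    rw [E_act hO (by rw [hO.smul, hx, mul_zero]) (by rw [O.br_smul, hO.bl, h.1, mul_zero, mul_zero]),
      E_act hO hx (by rw [O.br_smul, h.1, mul_zero]), hO.smul, hO.smul, hO.bl, hO.bl, hO.bl]
    module
  rw [e]; exact h.2 _

theorem RR.smul_right {x w : V} (h : RR O K x w) (c : F) : RR O K x (c • w) := by
  refine ⟨by rw [O.br_smul, h.1, mul_zero], fun d => ?_⟩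
  rw [smul_smul]; exact h.2 _

theorem RR.unsmul_left {x w : V} {c : F} (hc : c ≠ 0) (h : RR O K (c • x) w) (hx : O.N x = 0) : RR O K x w := by
  have := h.smul_left hO (by rw [hO.smul, hx, mul_zero]) c⁻¹
  rwa [smul_smul, inv_mul_cancel₀ hc, one_smul] at this

theorem RR.unsmul_right {x w : V} {c : F} (hc : c ≠ 0) (h : RR O K x (c • w)) : RR O K x w := by
  have := h.smul_right hO c⁻¹
  rwa [smul_smul, inv_mul_cancel₀ hc, one_smul] at this

theorem RR.act {x w : V} (h : RR O K x w) (hx : O.N x = 0) {g : G} (hg : g ∈ K) : RR O K (O.act g x) (O.act g w) := by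
  refine ⟨by rw [O.act_B, h.1], fun c => ?_⟩
  rw [← map_smul, ← E_conj hO hx (by rw [O.br_smul, h.1, mul_zero])]
  exact K.mul_mem (K.mul_mem hg (h.2 c)) (K.inv_mem hg)

theorem RR.add {x w w' : V} (h : RR O K x w) (h' : RR O K x w') (hx : O.N x = 0) : RR O K x (w + w') := by
  apply RR_of hO hx
  intro c
  rw [smul_add]
  exact (W hO K hx).add_mem (h.mem hO hx c) (h'.mem hO hx c)

theorem RR.sub {x w w' : V} (h : RR O K x w) (h' : RR O K x w') (hx : O.N x = 0) : RR O K x (w - w') := by
  apply RR_of hO hx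
  intro c
  rw [smul_sub]
  exact (W hO K hx).sub_mem (h.mem hO hx c) (h'.mem hO hx c)

/-- transitivity -/
theorem RR.trans {x w w' z : V} (h : RR O K x w) (h' : RR O K w' z) (hx : O.N x = 0) (hw : O.N w = 0) (hw' : O.N w' = 0) (hz : O.N z = 0)
    (hww : O.B w w' = 1) (hxw : O.B x w' = 0) (hxz : O.B x z = 0) (hwz : O.B w z = 0) : RR O K x z := by
  have h1 := h'.symm hO hw' hz
  apply RR.symm hO _ hz hx
  have h2 : O.E x ((-1 : F) • w) ∈ K := h.2 (-1)
  have hxw1 : O.B x ((-1 : F) • w) = 0 := by rw [O.br_smul, h.1, mul_zero]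
  have h3 := h1.act hO hz h2
  rw [E_act hO hx hxw1, E_act hO hx hxw1, hxz, hxw, hO.bl, hO.bl, hwz, hww] at h3
  have e1 : z + (0 : F) • (-1 : F) • w - (O.N ((-1 : F) • w) * 0 + -1 * 0) • x = z := by module
  have e2 : w' + (0 : F) • (-1 : F) • w - (O.N ((-1 : F) • w) * 0 + -1 * 1) • x = w' + x := by module
  rw [e1, e2] at h3
  have h4 := h3.sub hO h1 hz
  rwa [add_sub_cancel_left] at h4

end

/-- a frame: hyperbolic pairs and a complement -/
structure Fr (O : Pol F V G PG) (r : ℕ) (u : Bool → ℕ → V) (A : Submodule F V) : Prop where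
  N0 : ∀ b i, i < r → O.N (u b i) = 0
  Bu : ∀ b c i j, i < r → j < r → O.B (u b i) (u c j) = if i = j ∧ b ≠ c then 1 else 0
  BA : ∀ b i, i < r → ∀ a ∈ A, O.B (u b i) a = 0
  sp : ∀ v, ∃ (x : Bool → ℕ → F), ∃ a ∈ A, v = ∑ i ∈ Finset.range r, (x true i • u true i + x false i • u false i) + a

section
variable {r : ℕ} {u : Bool → ℕ → V} {A : Submodule F V} (hF : Fr O r u A) (hO : O.OType) {K : Subgroup G}
include hF

theorem Fr.Bne {b c : Bool} {i j : ℕ} (hi : i < r) (hj : j < r) (h : i ≠ j) : O.B (u b i) (u c j) = 0 := by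
  rw [hF.Bu b c i j hi hj, if_neg (fun h' => h h'.1)]

theorem Fr.Bsame {b : Bool} {i j : ℕ} (hi : i < r) (hj : j < r) : O.B (u b i) (u b j) = 0 := by
  rw [hF.Bu b b i j hi hj, if_neg (fun h' => h'.2 rfl)]

theorem Fr.Bopp {b : Bool} {i : ℕ} (hi : i < r) : O.B (u b i) (u (!b) i) = 1 := by
  rw [hF.Bu b (!b) i i hi hi, if_pos ⟨rfl, by cases b <;> decide⟩]

theorem Fr.Bopp' {b : Bool} {i : ℕ} (hi : i < r) : O.B (u (!b) i) (u b i) = 1 := by
  rw [hF.Bu (!b) b i i hi hi, if_pos ⟨rfl, by cases b <;> decide⟩]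

include hO

theorem Fr.BA' {b : Bool} {i : ℕ} (hi : i < r) {a : V} (ha : a ∈ A) : O.B a (u b i) = 0 := by
  rw [hO.sy]; exact hF.BA b i hi a ha

theorem Fr.ext {g h : G} (h1 : ∀ b i, i < r → O.act g (u b i) = O.act h (u b i)) (h2 : ∀ a ∈ A, O.act g a = O.act h a) : g = h := by
  apply O.act_inj
  intro v
  obtain ⟨x, a, ha, rfl⟩ := hF.sp v
  rw [map_add, map_add, map_sum, map_sum, h2 a ha]
  congr 1
  apply Finset.sum_congr rfl
  intro i hi
  rw [Finset.mem_range] at hi
  rw [map_add, map_add, map_smul, map_smul, map_smul, map_smul, h1 true i hi, h1 false i hi]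

/-- the first step: everything inside the hyperbolic part -/
theorem Fr.all (hr : 3 ≤ r) {c : G} (hcK : c ∈ K) (hc1 : ∀ b i, i + 1 < r → O.act c (u b i) = u b (i + 1))
    (hc2 : ∀ b, ∃ μ : F, μ ≠ 0 ∧ O.act c (u b (r - 1)) = μ • u (!b) 0) (ht : RR O K (u true 1) (u false 2)) :
    ∀ b c i j, i < r → j < r → i ≠ j → RR O K (u b i) (u c j) := by
  -- the orbit of `t` under `c`
  have a1 : ∀ i, i + 2 < r → RR O K (u true (i + 1)) (u false (i + 2)) := by
    intro i
    induction i with
    | zero => intro _; exact ht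
    | succ n ih =>
      intro hn
      have h1 := (ih (by omega)).act hO (hF.N0 _ _ (by omega)) hcK
      rwa [hc1 _ _ (by omega), hc1 _ _ (by omega)] at h1
  have a2 : RR O K (u true (r - 1)) (u true 0) := by
    have h1 := (a1 (r - 3) (by omega)).act hO (hF.N0 _ _ (by omega)) hcK
    obtain ⟨μ, hμ, h2⟩ := hc2 false
    have e1 : r - 3 + 2 = r - 1 := by omega
    rw [hc1 _ _ (by omega), e1, h2, e1.symm.trans rfl] at h1
    have h3 := h1.unsmul_right hO hμ
    have e2 : r - 3 + 1 + 1 = r - 1 := by omega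
    rwa [e2] at h3
  have a3 : RR O K (u false 0) (u true 1) := by
    have h1 := a2.act hO (hF.N0 _ _ (by omega)) hcK
    obtain ⟨μ, hμ, h2⟩ := hc2 true
    rw [h2, hc1 _ _ (by omega)] at h1
    exact h1.unsmul_left hO hμ (hF.N0 _ _ (by omega))
  have a4 : ∀ i, i + 1 < r → RR O K (u false i) (u true (i + 1)) := by
    intro i
    induction i with
    | zero => intro _; exact a3
    | succ n ih =>
      intro hn
      have h1 := (ih (by omega)).act hO (hF.N0 _ _ (by omega)) hcK
      rwa [hc1 _ _ (by omega), hc1 _ _ (by omega)] at h1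
  have a5 : RR O K (u false (r - 1)) (u false 0) := by
    have h1 := (a4 (r - 2) (by omega)).act hO (hF.N0 _ _ (by omega)) hcK
    obtain ⟨μ, hμ, h2⟩ := hc2 true
    have e1 : r - 2 + 1 = r - 1 := by omega
    rw [hc1 _ _ (by omega), e1, h2] at h1
    exact h1.unsmul_right hO hμ
  have a6 : RR O K (u true 0) (u false 1) := by
    have h1 := a5.act hO (hF.N0 _ _ (by omega)) hcK
    obtain ⟨μ, hμ, h2⟩ := hc2 false
    rw [h2, hc1 _ _ (by omega)] at h1
    exact h1.unsmul_left hO hμ (hF.N0 _ _ (by omega))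
  have a7 : ∀ i, i + 1 < r → RR O K (u true i) (u false (i + 1)) := by
    intro i hi
    rcases Nat.eq_zero_or_pos i with h | h
    · subst h; exact a6
    · have := a1 (i - 1) (by omega)
      have e1 : i - 1 + 1 = i := by omega
      have e2 : i - 1 + 2 = i + 1 := by omega
      rwa [e1, e2] at this
  have b1 : ∀ b i, i + 1 < r → RR O K (u b i) (u (!b) (i + 1)) := by
    intro b i hi
    cases b with
    | true => exact a7 i hi
    | false => exact a4 i hi
  have b2 : ∀ b, RR O K (u b (r - 1)) (u b 0) := by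
    intro b
    cases b with
    | true => exact a2
    | false => exact a5
  have b3 : ∀ d b i, i + 1 + d < r → RR O K (u b i) (u (!b) (i + 1 + d)) := by
    intro d
    induction d with
    | zero => intro b i hi; exact b1 b i hi
    | succ n ih =>
      intro b i hi
      have h1 := ih b i (by omega)
      have h2 := b1 b (i + 1 + n) (by omega)
      exact h1.trans hO h2 (hF.N0 _ _ (by omega)) (hF.N0 _ _ (by omega)) (hF.N0 _ _ (by omega)) (hF.N0 _ _ (by omega))
        (hF.Bopp' (by omega)) (hF.Bne (by omega) (by omega) (by omega)) (hF.Bne (by omega) (by omega) (by omega))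
        (hF.Bne (by omega) (by omega) (by omega))
  have b4 : ∀ b i j, i < r → j < r → i ≠ j → RR O K (u b i) (u (!b) j) := by
    intro b i j hi hj hij
    rcases Nat.lt_or_gt_of_ne hij with h | h
    · have := b3 (j - i - 1) b i (by omega)
      have e : i + 1 + (j - i - 1) = j := by omega
      rwa [e] at this
    · have := b3 (i - j - 1) (!b) j (by omega)
      have e : j + 1 + (i - j - 1) = i := by omega
      rw [e, Bool.not_not] at this
      exact this.symm hO (hF.N0 _ _ hj) (hF.N0 _ _ hi)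
  have b5 : ∀ b i, i < r → i ≠ 0 → RR O K (u b i) (u b 0) := by
    intro b i hi hi0
    by_cases h : i = r - 1
    · rw [h]; exact b2 b
    · have h1 := b4 b i (r - 1) hi (by omega) h
      exact h1.trans hO (b2 b) (hF.N0 _ _ (by omega)) (hF.N0 _ _ (by omega)) (hF.N0 _ _ (by omega)) (hF.N0 _ _ (by omega))
        (hF.Bopp' (by omega)) (hF.Bne (by omega) (by omega) (by omega)) (hF.Bne (by omega) (by omega) (by omega))
        (hF.Bne (by omega) (by omega) (by omega))
  have b6 : ∀ b i j, i < r → j < r → i ≠ j → RR O K (u b i) (u b j) := by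
    intro b i j hi hj hij
    by_cases h0 : j = 0
    · subst h0; exact b5 b i hi hij
    · by_cases h1 : i = 0
      · subst h1
        exact (b5 b j hj h0).symm hO (hF.N0 _ _ hj) (hF.N0 _ _ hi)
      · have h2 := b5 b i hi h1
        have h3 := b4 (!b) 0 j (by omega) hj (Ne.symm h0)
        rw [Bool.not_not] at h3
        exact h2.trans hO h3 (hF.N0 _ _ (by omega)) (hF.N0 _ _ (by omega)) (hF.N0 _ _ (by omega)) (hF.N0 _ _ (by omega))
          (hF.Bopp (by omega)) (hF.Bne (by omega) (by omega) (by omega)) (hF.Bne (by omega) (by omega) (by omega))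
          (hF.Bne (by omega) (by omega) (by omega))
  intro b c i j hi hj hij
  by_cases hbc : c = b
  · subst hbc; exact b6 _ i j hi hj hij
  · have : c = !b := by cases b <;> cases c <;> simp_all
    subst this; exact b4 b i j hi hj hij

/-- moving vectors of `A` around -/
theorem Fr.transfer (hall : ∀ b c i j, i < r → j < r → i ≠ j → RR O K (u b i) (u c j)) {b c : Bool} {i j : ℕ} (hi : i < r) (hj : j < r)
    (hij : i ≠ j) {a : V} (ha : a ∈ A) (h : RR O K (u b i) a) : RR O K (u c j) a := by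
  apply RR_of hO (hF.N0 c j hj)
  intro l
  have h1 : O.E (u b i) (l • a) ∈ K := h.2 l
  have hb1 : O.B (u b i) (l • a) = 0 := hF.BA _ _ hi _ (A.smul_mem _ ha)
  have h2 := hall c (!b) j i hj hi (Ne.symm hij)
  have h3 := h2.act hO (hF.N0 _ _ hj) h1
  rw [E_act hO (hF.N0 _ _ hi) hb1, E_act hO (hF.N0 _ _ hi) hb1, hF.Bne hi hj hij, hO.bl, hO.bl, hF.BA' hO hj ha, hF.BA' hO hi ha,
    hF.Bopp hi] at h3
  have e1 : u c j + (0 : F) • l • a - (O.N (l • a) * 0 + l * 0) • u b i = u c j := by module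
  rw [e1] at h3
  have h4 := h3.sub hO h2 (hF.N0 _ _ hj)
  have h5 := h4.add hO ((hall c b j i hj hi (Ne.symm hij)).smul_right hO (O.N (l • a))) (hF.N0 _ _ hj)
  have e2 : u (!b) i + (1 : F) • l • a - (O.N (l • a) * 1 + l * 0) • u b i - u (!b) i + O.N (l • a) • u b i = l • a := by module
  rw [e2] at h5
  have h6 := h5.mem hO (hF.N0 c j hj) 1
  rwa [one_smul] at h6

/-- the core statement -/
theorem Fr.core (hr : 3 ≤ r) {c : G} (hcK : c ∈ K) (hc1 : ∀ b i, i + 1 < r → O.act c (u b i) = u b (i + 1))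
    (hc2 : ∀ b, ∃ μ : F, μ ≠ 0 ∧ O.act c (u b (r - 1)) = μ • u (!b) 0) (hcA : ∀ a ∈ A, O.act c a ∈ A)
    (ht : RR O K (u true 1) (u false 2)) {h : G} (hhK : h ∈ K) (hh1 : ∀ b i, 1 ≤ i → i < r → O.act h (u b i) = u b i)
    {b₀ : Bool} {α β : F} {a' : V} (ha' : a' ∈ A) (hh2 : O.act h (u b₀ 0) = α • u true 0 + β • u false 0 + a')
    (hsp : ∀ M : Submodule F V, a' ∈ M → (∀ x ∈ M, x ∈ A → O.act c x ∈ M) → A ≤ M) (b : Bool) (w : V) (hw : O.B (u b 0) w = 0) :
    O.E (u b 0) w ∈ K := by
  have hall := hF.all hO hr hcK hc1 hc2 ht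
  -- mixing
  have m1 : ∀ b i, 1 ≤ i → i < r → RR O K (u b i) a' := by
    intro b i h1 hi
    have h2 := (hall b b₀ i 0 hi (by omega) (by omega)).act hO (hF.N0 _ _ hi) hhK
    rw [hh1 b i h1 hi, hh2] at h2
    have h3 := (h2.sub hO ((hall b true i 0 hi (by omega) (by omega)).smul_right hO α) (hF.N0 _ _ hi)).sub hO
      ((hall b false i 0 hi (by omega) (by omega)).smul_right hO β) (hF.N0 _ _ hi)
    have e : α • u true 0 + β • u false 0 + a' - α • u true 0 - β • u false 0 = a' := by module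
    rwa [e] at h3
  have tr : ∀ {b c : Bool} {i j : ℕ}, i < r → j < r → ∀ {a : V}, a ∈ A → RR O K (u b i) a → RR O K (u c j) a := by
    intro b c i j hi hj a ha h
    by_cases hij : i = j
    · subst hij
      obtain ⟨k, hk, hki⟩ : ∃ k, k < r ∧ i ≠ k := by
        by_cases h0 : i = 0
        · exact ⟨1, by omega, by omega⟩
        · exact ⟨0, by omega, h0⟩
      exact hF.transfer hO hall hk hi (Ne.symm hki) ha (hF.transfer (c := c) hO hall hi hk hki ha h)
    · exact hF.transfer hO hall hi hj hij ha h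
  let M : Submodule F V :=
    { carrier := {a | a ∈ A ∧ ∀ b i, i < r → RR O K (u b i) a}
      zero_mem' := ⟨A.zero_mem, fun b i hi => ⟨O.br_zero _, fun c => by rw [smul_zero, E_zero hO (hF.N0 _ _ hi)]; exact K.one_mem⟩⟩
      add_mem' := by
        rintro x y ⟨hx, hx'⟩ ⟨hy, hy'⟩
        exact ⟨A.add_mem hx hy, fun b i hi => (hx' b i hi).add hO (hy' b i hi) (hF.N0 _ _ hi)⟩
      smul_mem' := by
        rintro l x ⟨hx, hx'⟩
        exact ⟨A.smul_mem _ hx, fun b i hi => (hx' b i hi).smul_right hO l⟩ }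
  have hM : A ≤ M := by
    apply hsp
    · exact ⟨ha', fun b i hi => tr (show 1 < r by omega) hi ha' (m1 true 1 le_rfl (by omega))⟩
    · rintro x ⟨hx, hx'⟩ _
      refine ⟨hcA x hx, fun b i hi => ?_⟩
      have h1 := (hx' true 1 (by omega)).act hO (hF.N0 _ _ (by omega)) hcK
      rw [hc1 _ _ (by omega)] at h1
      exact tr (by omega) hi (hcA x hx) h1
  -- final step
  obtain ⟨x, a, ha, rfl⟩ := hF.sp w
  have h0 : O.N (u b 0) = 0 := hF.N0 _ _ (by omega)
  suffices h : ∑ i ∈ Finset.range r, (x true i • u true i + x false i • u false i) + a ∈ W hO K h0 from h.2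
  have ha1 : a ∈ W hO K h0 := by
    have := ((hM ha).2 b 0 (by omega)).mem hO h0 1
    rwa [one_smul] at this
  have hself : ∀ l : F, l • u b 0 ∈ W hO K h0 := by
    intro l
    refine ⟨by rw [O.br_smul, hF.Bsame (by omega) (by omega), mul_zero], ?_⟩
    have : O.E (u b 0) (l • u b 0) = 1 := by
      apply O.act_inj
      intro v
      rw [E_act hO h0 (by rw [O.br_smul, hF.Bsame (by omega) (by omega), mul_zero]), act_one, hO.smul, h0, hO.bl]
      module
    rw [this]; exact K.one_mem
  have hco : x (!b) 0 = 0 := by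
    rw [O.br_add, hF.BA _ _ (by omega) _ ha, map_sum, Finset.sum_eq_single 0, O.br_add, O.br_smul, O.br_smul] at hw
    · cases b with
      | true =>
        have e1 : O.B (u true 0) (u false 0) = 1 := hF.Bopp (b := true) (by omega)
        rw [hF.Bsame (by omega) (by omega), e1] at hw
        simpa using hw
      | false =>
        have e1 : O.B (u false 0) (u true 0) = 1 := hF.Bopp (b := false) (by omega)
        rw [hF.Bsame (b := false) (by omega) (by omega), e1] at hw
        simpa using hw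
    · intro i hi hi0
      rw [Finset.mem_range] at hi
      rw [O.br_add, O.br_smul, O.br_smul, hF.Bne (by omega) hi (Ne.symm hi0), hF.Bne (by omega) hi (Ne.symm hi0)]
      simp
    · intro h; exact absurd (Finset.mem_range.2 (by omega)) h
  refine (W hO K h0).add_mem ((W hO K h0).sum_mem fun i hi => ?_) ha1
  rw [Finset.mem_range] at hi
  by_cases hi0 : i = 0
  · subst hi0
    cases b with
    | true =>
      have h1 : x false 0 = 0 := hco
      rw [h1, zero_smul, add_zero]
      exact hself _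
    | false =>
      have h1 : x true 0 = 0 := hco
      rw [h1, zero_smul, zero_add]
      exact hself _
  · exact (W hO K h0).add_mem ((hall b true 0 i (by omega) hi (Ne.symm hi0)).mem hO h0 _)
      ((hall b false 0 i (by omega) hi (Ne.symm hi0)).mem hO h0 _)

end

end Cfsg.Agent.H16.OrTwoA
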