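import Cfsg.Agent.H16.ReeG

set_option autoImplicit false
set_option linter.all false

/-! `²G₂(q)` is generated by two elements. -/

namespace Cfsg.Agent.H16.ReeH

open Cfsg.Lie Cfsg.Agent.H6 Cfsg.Agent.H6.WG2 Cfsg.Agent.H16.ReeG Cfsg.Agent.H16.RegF
open scoped Matrix

theorem gen2_of_le {A : Type*} [Group A] {G : Subgroup A} {t y : A} (ht : t ∈ G) (hy : y ∈ G) (h : G ≤ Subgroup.closure {t, y}) :
    ∃ a b : ↥G, Subgroup.closure ({a, b} : Set ↥G) = ⊤ := by
  refine ⟨⟨t, ht⟩, ⟨y, hy⟩, ?_⟩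
  rw [eq_top_iff]
  intro g _
  have h1 := h g.2
  have e1 : Subgroup.closure {t, y} = (Subgroup.closure ({⟨t, ht⟩, ⟨y, hy⟩} : Set ↥G)).map G.subtype := by
    rw [MonoidHom.map_closure, Set.image_pair]; rfl
  rw [e1] at h1
  obtain ⟨g', hg', he⟩ := h1
  have : g' = g := Subtype.ext he
  rw [← this]; exact hg'

theorem closure_order {F : Type*} [Field F] [Fintype F] {μ : Fˣ} (h : Fintype.card F - 1 ≤ 2 * orderOf μ) :
    Subring.closure ({(μ : F)} : Set F) = ⊤ := by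
  classical
  set R := Subring.closure ({(μ : F)} : Set F) with hR
  let K : Subfield F :=
    { R with
      inv_mem' := by
        intro x hx
        change x⁻¹ ∈ R
        by_cases h : x = 0
        · subst h; rw [_root_.inv_zero]; exact R.zero_mem
        · have h1 : x ^ (Fintype.card F - 2) = x⁻¹ := by
            apply eq_inv_of_mul_eq_one_left
            rw [← pow_succ]
            have h2 : Fintype.card F - 2 + 1 = Fintype.card F - 1 := by
              have := Fintype.one_lt_card (α := F); omega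
            rw [h2]; exact FiniteField.pow_card_sub_one_eq_one x h
          rw [← h1]; exact R.pow_mem hx _ }
  have hK : ∀ x, x ∈ K ↔ x ∈ R := fun x => Iff.rfl
  have hc3 : (μ : F) ∈ K := (hK _).2 (Subring.subset_closure (Set.mem_singleton _))
  have hcard := Module.card_eq_pow_finrank (K := K) (V := F)
  set d := Module.finrank K F with hd
  set m := Fintype.card K with hm
  have hm1 : 1 < m := Fintype.one_lt_card
  have hpw : μ ^ (m - 1) = 1 := by
    have h1 := FiniteField.pow_card_sub_one_eq_one (⟨(μ : F), hc3⟩ : K) (by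
      intro h; apply μ.ne_zero; exact congrArg Subtype.val h)
    have h2 := congrArg Subtype.val h1
    ext
    rw [Units.val_pow_eq_pow_val]
    simpa using h2
  have hdvd := orderOf_dvd_of_pow_eq_one hpw
  have hle := Nat.le_of_dvd (by omega) hdvd
  have hd1 : d = 1 ∨ 2 ≤ d := by
    have : 0 < d := by
      rcases Nat.eq_zero_or_pos d with h | h
      · rw [h, pow_zero] at hcard
        have := Fintype.one_lt_card (α := F); omega
      · exact h
    omega
  rcases hd1 with hd1 | hd2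
  · rw [hd1, pow_one] at hcard
    rw [eq_top_iff]
    intro x _
    rw [← hK]
    have hinj : Function.Injective (Subtype.val : K → F) := Subtype.val_injective
    have hbij := (Fintype.bijective_iff_injective_and_card (Subtype.val : K → F)).2 ⟨hinj, hcard.symm⟩
    obtain ⟨y, hy⟩ := hbij.2 x
    rw [← hy]; exact y.2
  · exfalso
    have h5 : m ^ 2 ≤ Fintype.card F := by rw [hcard]; exact Nat.pow_le_pow_right (by omega) hd2
    obtain ⟨x, hx⟩ : ∃ x, m = x + 2 := ⟨m - 2, by omega⟩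
    rw [hx] at h5 hle
    have h6 : (x + 2) ^ 2 = x * x + 4 * x + 4 := by ring
    rw [h6] at h5
    have h7 : 2 * orderOf μ ≤ 2 * (x + 1) := by omega
    have h8 : x * x + 4 * x + 3 ≤ 2 * (x + 1) := by omega
    nlinarith [h8]

section
variable {K : Type*} [Field K] {e : ℕ}

theorem ca6 : chevG2.cartan 0 6 = -3 ∧ chevG2.cartan 1 6 = 2 := by decide +kernel
theorem ca7 : chevG2.cartan 0 7 = 2 ∧ chevG2.cartan 1 7 = -1 := by decide +kernel
theorem ca8 : chevG2.cartan 0 8 = -1 ∧ chevG2.cartan 1 8 = 1 := by decide +kernel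
theorem ca9 : chevG2.cartan 0 9 = 1 ∧ chevG2.cartan 1 9 = 0 := by decide +kernel
theorem ca10 : chevG2.cartan 0 10 = 3 ∧ chevG2.cartan 1 10 = -1 := by decide +kernel
theorem ca11 : chevG2.cartan 0 11 = 0 ∧ chevG2.cartan 1 11 = 1 := by decide +kernel

theorem hh_act (x : Kˣ) {s : ℕ} (hs : s < 12) {a b : ℤ} (hc : chevG2.cartan 0 s = a ∧ chevG2.cartan 1 s = b) (t : K) :
    hh K e x * xg chevG2 K s t * (hh K e x)⁻¹ = xg chevG2 K s ((((x ^ e) ^ a * x ^ b : Kˣ) : K) * t) := by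
  have h := (TG2.good.mon_PhiH (![x ^ e, x] : Fin 2 → Kˣ)).act ⟨s, by rw [nr]; exact hs⟩ t
  change hh K e x * xg chevG2 K s t * (hh K e x)⁻¹ = xg chevG2 K s (((∏ k : Fin 2, (![x ^ e, x] : Fin 2 → Kˣ) k ^ chevG2.cartan k s : Kˣ) : K) * t) at h
  rw [h, Fin.prod_univ_two]
  change xg chevG2 K s ((((x ^ e) ^ chevG2.cartan 0 s * x ^ chevG2.cartan 1 s : Kˣ) : K) * t) = _
  rw [hc.1, hc.2]

variable {σ : ↥(chevG2.group K) →* ↥(chevG2.group K)} (h : Ctx K e σ) (hf : Fl K e)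
include h hf

theorem hh_conj (x : Kˣ) (hx : hh K e x ∈ twistedG2 K e) (t u v : K) : hh K e x * RE K e true t u v * (hh K e x)⁻¹ =
    RE K e true ((((x ^ e) ^ (-3 : ℤ) * x ^ (2 : ℤ) : Kˣ) : K) * t) ((((x ^ e) ^ (3 : ℤ) * x ^ (-1 : ℤ) : Kˣ) : K) * u)
      ((((x ^ e) ^ (0 : ℤ) * x ^ (1 : ℤ) : Kˣ) : K) * v) := by
  have hp : ∀ x0 y p q r s : K, hh K e x * NF K true x0 y p q r s * (hh K e x)⁻¹ = NF K true
      ((((x ^ e) ^ (2 : ℤ) * x ^ (-1 : ℤ) : Kˣ) : K) * x0) ((((x ^ e) ^ (-3 : ℤ) * x ^ (2 : ℤ) : Kˣ) : K) * y)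
      ((((x ^ e) ^ (-1 : ℤ) * x ^ (1 : ℤ) : Kˣ) : K) * p) ((((x ^ e) ^ (1 : ℤ) * x ^ (0 : ℤ) : Kˣ) : K) * q)
      ((((x ^ e) ^ (3 : ℤ) * x ^ (-1 : ℤ) : Kˣ) : K) * r) ((((x ^ e) ^ (0 : ℤ) * x ^ (1 : ℤ) : Kˣ) : K) * s) := by
    intro x0 y p q r s
    change hh K e x * (xg chevG2 K 7 x0 * xg chevG2 K 6 y * (xg chevG2 K 8 p * xg chevG2 K 9 q * xg chevG2 K 10 r * xg chevG2 K 11 s)) * (hh K e x)⁻¹ =
      xg chevG2 K 7 _ * xg chevG2 K 6 _ * (xg chevG2 K 8 _ * xg chevG2 K 9 _ * xg chevG2 K 10 _ * xg chevG2 K 11 _)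
    rw [← hh_act x (by norm_num) ca7, ← hh_act x (by norm_num) ca6, ← hh_act x (by norm_num) ca8, ← hh_act x (by norm_num) ca9,
      ← hh_act x (by norm_num) ca10, ← hh_act x (by norm_num) ca11]
    group
  have h1 : hh K e x * RE K e true t u v * (hh K e x)⁻¹ ∈ chevG2.posUnipotent K ⊓ fixS σ := by
    refine Subgroup.mem_inf.2 ⟨?_, ?_⟩
    · unfold RE; rw [hp]; exact NF_mem hf.three _ _ _ _ _ _
    · exact mul_mem (mul_mem (WG2.le_fix h hf hx) (NF_fix h hf true t u v)) (inv_mem (WG2.le_fix h hf hx))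
  obtain ⟨a, b, c, habc⟩ := (fix_iff h hf).1 h1
  rw [habc]
  unfold RE at habc
  rw [hp] at habc
  obtain ⟨-, h2, -, -, h3, h4⟩ := NF_inj hf.three habc
  rw [h2, h3, h4]

theorem RE_zero : RE K e true 0 0 0 = 1 := by
  have h1 := RE_mul h hf 0 0 0 0 0 0
  have e0 : (0 : K) ^ (3 * e) = 0 := zero_pow (by have := e_ne hf; omega)
  rw [e0] at h1
  simp only [add_zero, zero_mul, sub_zero, mul_zero] at h1
  exact mul_eq_left.1 h1

theorem RE_inv (t u v : K) : ∃ a b, (RE K e true t u v)⁻¹ = RE K e true (-t) a b := by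
  have h1 : (RE K e true t u v)⁻¹ ∈ chevG2.posUnipotent K ⊓ fixS σ := inv_mem ((fix_iff h hf).2 ⟨_, _, _, rfl⟩)
  obtain ⟨a, b, c, habc⟩ := (fix_iff h hf).1 h1
  have h2 : RE K e true t u v * RE K e true a b c = RE K e true 0 0 0 := by rw [← habc, mul_inv_cancel, RE_zero h hf]
  rw [RE_mul h hf] at h2
  have h3 := (RE_inj hf h2).1
  have : a = -t := by linear_combination h3
  exact ⟨b, c, by rw [habc, this]⟩

theorem full_U [Fintype K] {m : ℕ} (hm : 1 ≤ m) (he : e = 3 ^ m) (hK : Fintype.card K = 3 ^ (2 * m + 1)) {ζ : Kˣ} (hζ : ∀ x, x ∈ Subgroup.zpowers ζ)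
    {H : Subgroup (GL chevG2.Idx K)} (hz : hh K e ζ ∈ H) {t₁ u₁ v₁ : K} (ht₁ : t₁ ≠ 0) (h1 : RE K e true t₁ u₁ v₁ ∈ H) :
    ∀ t u v : K, RE K e true t u v ∈ H := by
  classical
  have hord : orderOf ζ = 3 * e * e - 1 := by
    rw [orderOf_eq_card_of_forall_mem_zpowers hζ, Nat.card_units, Nat.card_eq_fintype_card, hK, he]
    congr 1; ring
  have hq : Fintype.card K = 3 * e * e := by rw [hK, he]; ring
  have he3 : 3 ≤ e := by
    rw [he]
    calc 3 = 3 ^ 1 := rfl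
      _ ≤ 3 ^ m := Nat.pow_le_pow_right (by norm_num) hm
  have hzt : hh K e ζ ∈ twistedG2 K e := hh_mem hK hf ζ
  have conj := hh_conj h hf ζ hzt
  have e0 : (0 : K) ^ (3 * e) = 0 := zero_pow (by omega)
  -- orders
  obtain ⟨f, hf1⟩ : ∃ f, e = f + 1 := ⟨e - 1, by omega⟩
  have g1 : Nat.gcd (3 * e * e - 1) (3 * e - 2) = 1 := by
    rw [Nat.eq_one_iff_not_exists_prime_dvd]
    intro p hp hpd
    have a1 : p ∣ 3 * e * e - 1 := hpd.trans (Nat.gcd_dvd_left _ _)
    have a2 : p ∣ 3 * e - 2 := hpd.trans (Nat.gcd_dvd_right _ _)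
    have b1 : (p : ℤ) ∣ 3 * e * e - 1 := by
      have := Int.natCast_dvd_natCast.2 a1
      rwa [Nat.cast_sub (by nlinarith), Nat.cast_mul, Nat.cast_mul, Nat.cast_one] at this
    have b2 : (p : ℤ) ∣ 3 * e - 2 := by
      have := Int.natCast_dvd_natCast.2 a2
      rwa [Nat.cast_sub (by omega), Nat.cast_mul] at this
    have b3 : (p : ℤ) ∣ 1 := by
      have : (1 : ℤ) = 3 * (3 * e * e - 1) - (3 * e + 2) * (3 * e - 2) := by ring
      rw [this]
      exact dvd_sub (dvd_mul_of_dvd_right b1 _) (dvd_mul_of_dvd_right b2 _)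
    have := Int.natCast_dvd_natCast.1 (by simpa using b3 : ((p : ℕ) : ℤ) ∣ ((1 : ℕ) : ℤ))
    exact hp.one_lt.ne' (Nat.dvd_one.1 this)
  have g2 : Nat.gcd (3 * e * e - 1) (3 * e - 1) ∣ 2 := by
    have a1 := Nat.gcd_dvd_left (3 * e * e - 1) (3 * e - 1)
    have a2 := Nat.gcd_dvd_right (3 * e * e - 1) (3 * e - 1)
    set g := Nat.gcd (3 * e * e - 1) (3 * e - 1)
    have b1 : (g : ℤ) ∣ 3 * e * e - 1 := by
      have := Int.natCast_dvd_natCast.2 a1
      rwa [Nat.cast_sub (by nlinarith), Nat.cast_mul, Nat.cast_mul, Nat.cast_one] at this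
    have b2 : (g : ℤ) ∣ 3 * e - 1 := by
      have := Int.natCast_dvd_natCast.2 a2
      rwa [Nat.cast_sub (by omega), Nat.cast_mul, Nat.cast_one] at this
    have b3 : (g : ℤ) ∣ 2 := by
      have : (2 : ℤ) = (3 * e + 1) * (3 * e - 1) - 3 * (3 * e * e - 1) := by ring
      rw [this]
      exact dvd_sub (dvd_mul_of_dvd_right b2 _) (dvd_mul_of_dvd_right b1 _)
    exact_mod_cast b3
  have k1 : (ζ ^ e) ^ (-3 : ℤ) * ζ ^ (2 : ℤ) = (ζ ^ (3 * e - 2))⁻¹ := by
    rw [← zpow_natCast ζ e, ← zpow_mul, ← zpow_add, ← zpow_natCast ζ (3 * e - 2), ← zpow_neg, Nat.cast_sub (by omega)]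
    congr 1; push_cast; ring
  have k2 : (ζ ^ e) ^ (3 : ℤ) * ζ ^ (-1 : ℤ) = ζ ^ (3 * e - 1) := by
    rw [← zpow_natCast ζ e, ← zpow_mul, ← zpow_add, ← zpow_natCast ζ (3 * e - 1), Nat.cast_sub (by omega)]
    congr 1; push_cast; ring
  have c1 : Subring.closure ({((((ζ ^ e) ^ (-3 : ℤ) * ζ ^ (2 : ℤ) : Kˣ)) : K)} : Set K) = ⊤ := by
    apply closure_order
    rw [k1, orderOf_inv, orderOf_pow, hord, g1, hq, Nat.div_one]
    omega
  have c2 : Subring.closure ({((((ζ ^ e) ^ (3 : ℤ) * ζ ^ (-1 : ℤ) : Kˣ)) : K)} : Set K) = ⊤ := by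
    apply closure_order
    rw [k2, orderOf_pow, hord, hq]
    have h3 := Nat.gcd_dvd_left (3 * e * e - 1) (3 * e - 1)
    have h4 := Nat.le_of_dvd (by norm_num) g2
    have h5 : 0 < Nat.gcd (3 * e * e - 1) (3 * e - 1) := Nat.gcd_pos_of_pos_right _ (by omega)
    calc 3 * e * e - 1 = Nat.gcd (3 * e * e - 1) (3 * e - 1) * ((3 * e * e - 1) / Nat.gcd (3 * e * e - 1) (3 * e - 1)) := (Nat.mul_div_cancel' h3).symm
      _ ≤ _ := Nat.mul_le_mul_right _ h4
  -- all `t`
  have hT : ∀ t : K, ∃ u v, RE K e true t u v ∈ H := by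
    let A : AddSubgroup K :=
      { carrier := {t | ∃ u v, RE K e true t u v ∈ H}
        zero_mem' := ⟨0, 0, by rw [RE_zero h hf]; exact H.one_mem⟩
        add_mem' := by
          rintro a b ⟨u, v, hu⟩ ⟨u', v', hu'⟩
          have h9 := H.mul_mem hu hu'
          rw [RE_mul h hf] at h9
          exact ⟨_, _, h9⟩
        neg_mem' := by
          rintro a ⟨u, v, hu⟩
          obtain ⟨b, c, hbc⟩ := RE_inv h hf a u v
          exact ⟨b, c, by rw [← hbc]; exact H.inv_mem hu⟩ }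
    intro t
    refine add_full A c1 ?_ ht₁ ⟨u₁, v₁, h1⟩ t
    rintro a ⟨u, v, hu⟩
    exact ⟨_, _, by rw [← conj a u v]; exact H.mul_mem (H.mul_mem hz hu) (H.inv_mem hz)⟩
  -- an element with `t = 0`, `u ≠ 0`
  have hu0 : ∃ U V : K, U ≠ 0 ∧ RE K e true 0 U V ∈ H := by
    obtain ⟨a, b, hab⟩ := hT 1
    obtain ⟨a', b', hab'⟩ := hT (ζ : K)
    have p1 := H.mul_mem hab hab'
    have p2 := H.mul_mem hab' hab
    rw [RE_mul h hf] at p1 p2
    rw [one_pow] at p2
    set u1 := a + a' - (ζ : K) ^ (3 * e) * 1 with hu1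
    set u2 := a' + a - 1 * (ζ : K) with hu2
    set v1 := b + b' - (ζ : K) ^ (3 * e) * 1 ^ 2 - (ζ : K) * (a - (ζ : K) ^ (3 * e) * 1) with hv1
    set v2 := b' + b - 1 * (ζ : K) ^ 2 - 1 * (a' - 1 * (ζ : K)) with hv2
    have e1 : RE K e true 0 (u1 - u2) (v1 - v2 + ((ζ : K) + 1) * (u1 - u2)) * RE K e true ((ζ : K) + 1) u2 v2 = RE K e true (1 + (ζ : K)) u1 v1 := by
      rw [RE_mul h hf]
      congr 1 <;> ring
    refine ⟨u1 - u2, v1 - v2 + ((ζ : K) + 1) * (u1 - u2), ?_, ?_⟩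
    · intro h0
      have : (ζ : K) ^ (3 * e) = (ζ : K) := by rw [hu1, hu2] at h0; linear_combination -h0
      have h2 : ζ ^ (3 * e) = ζ := by ext; rw [Units.val_pow_eq_pow_val]; exact this
      have h3 : ζ ^ (3 * e - 1) = 1 := by
        have : ζ ^ (3 * e - 1) * ζ = 1 * ζ := by rw [← pow_succ, Nat.sub_add_cancel (by omega), h2, one_mul]
        exact mul_right_cancel this
      have h4 := Nat.le_of_dvd (by omega) (orderOf_dvd_of_pow_eq_one h3)
      rw [hord] at h4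
      have : 3 * e < 3 * e * e := by nlinarith
      omega
    · have : RE K e true 0 (u1 - u2) (v1 - v2 + ((ζ : K) + 1) * (u1 - u2)) = RE K e true (1 + (ζ : K)) u1 v1 * (RE K e true ((ζ : K) + 1) u2 v2)⁻¹ := by
        rw [← e1, mul_inv_cancel_right]
      rw [this]
      exact H.mul_mem p1 (H.inv_mem p2)
  obtain ⟨U, V, hU0, hUV⟩ := hu0
  have hv : ∀ v : K, RE K e true 0 0 v ∈ H := by
    intro v
    obtain ⟨a, b, hab⟩ := hT (-(v / U))
    have p1 := H.mul_mem hUV hab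
    have p2 := H.mul_mem hab hUV
    have e1 : RE K e true 0 0 v * (RE K e true (-(v / U)) a b * RE K e true 0 U V) = RE K e true 0 U V * RE K e true (-(v / U)) a b := by
      rw [RE_mul h hf, RE_mul h hf, RE_mul h hf, e0]
      congr 1
      · ring
      · ring
      · field_simp; ring
    have : RE K e true 0 0 v = (RE K e true 0 U V * RE K e true (-(v / U)) a b) * (RE K e true (-(v / U)) a b * RE K e true 0 U V)⁻¹ := by
      rw [← e1, mul_inv_cancel_right]
    rw [this]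
    exact H.mul_mem p1 (H.inv_mem p2)
  have hu : ∀ u : K, RE K e true 0 u 0 ∈ H := by
    let A : AddSubgroup K :=
      { carrier := {u | RE K e true 0 u 0 ∈ H}
        zero_mem' := by
          show RE K e true 0 0 0 ∈ H
          rw [RE_zero h hf]; exact H.one_mem
        add_mem' := by
          intro a b ha hb
          show RE K e true 0 (a + b) 0 ∈ H
          have := H.mul_mem (show RE K e true 0 a 0 ∈ H from ha) (show RE K e true 0 b 0 ∈ H from hb)
          rw [RE_mul h hf, e0] at this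
          simpa using this
        neg_mem' := by
          intro a ha
          show RE K e true 0 (-a) 0 ∈ H
          have e1 : RE K e true 0 a 0 * RE K e true 0 (-a) 0 = 1 := by
            rw [RE_mul h hf, e0, ← RE_zero h hf]; congr 1 <;> ring
          rw [← inv_eq_of_mul_eq_one_right e1]
          exact H.inv_mem ha }
    intro u
    refine add_full A c2 ?_ hU0 ?_ u
    · intro c hc
      have h2 : RE K e true 0 c 0 ∈ H := hc
      have h3 := H.mul_mem (H.mul_mem hz h2) (H.inv_mem hz)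
      rw [conj, mul_zero, mul_zero] at h3
      exact h3
    · show RE K e true 0 U 0 ∈ H
      have := H.mul_mem hUV (hv (-V))
      rw [RE_mul h hf, e0] at this
      simpa using this
  intro t u v
  obtain ⟨a, b, hab⟩ := hT t
  have := H.mul_mem (H.mul_mem (hu (u - a)) (hv (v - b + t * (u - a)))) hab
  rw [RE_mul h hf, RE_mul h hf, e0] at this
  convert this using 1
  congr 1 <;> ring

theorem two_gen [Fintype K] {m : ℕ} (hm : 1 ≤ m) (he : e = 3 ^ m) (hK : Fintype.card K = 3 ^ (2 * m + 1)) :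
    ∃ a b : ↥(twistedG2 K e), Subgroup.closure ({a, b} : Set ↥(twistedG2 K e)) = ⊤ := by
  classical
  obtain ⟨ζ, hζ⟩ := IsCyclic.exists_generator (α := Kˣ)
  have hT := grp h hf
  obtain ⟨n, hn, χ, hmon⟩ := hT.rep 0
  have hzt : hh K e ζ ∈ twistedG2 K e := hh_mem hK hf ζ
  have hzd : hh K e ζ ∈ chevG2.diagonalSubgroup K ⊓ twistedG2 K e := (diag_iff h hf hK).2 ⟨ζ, rfl⟩
  have hu1 : RE K e true 1 0 0 ∈ twistedG2 K e := RE_mem true 1 0 0
  apply gen2_of_le hzt (mul_mem hu1 hn.2)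
  set H := Subgroup.closure ({hh K e ζ, RE K e true 1 0 0 * n} : Set (GL chevG2.Idx K)) with hH
  have hz : hh K e ζ ∈ H := Subgroup.subset_closure (by simp)
  have hy : RE K e true 1 0 0 * n ∈ H := Subgroup.subset_closure (by simp)
  let φ : Kˣ →* GL chevG2.Idx K := MonoidHom.mk' (hh K e) hh_mul
  have hall : ∀ x : Kˣ, hh K e x ∈ H := by
    intro x
    obtain ⟨k, hk⟩ := hζ x
    have : hh K e x = (hh K e ζ) ^ k := by
      rw [← hk]
      exact map_zpow φ ζ k
    rw [this]; exact H.zpow_mem hz k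
  obtain ⟨x, hx⟩ := (diag_iff h hf hK).1 (hT.diag₁_conj hn hzd)
  have he3 : 3 ≤ e := by
    rw [he]
    calc 3 = 3 ^ 1 := rfl
      _ ≤ 3 ^ m := Nat.pow_le_pow_right (by norm_num) hm
  have hord : orderOf ζ = 3 * e * e - 1 := by
    rw [orderOf_eq_card_of_forall_mem_zpowers hζ, Nat.card_units, Nat.card_eq_fintype_card, hK, he]
    congr 1; ring
  have hinj : ∀ x y : Kˣ, hh K e x = hh K e y → x = y := by
    intro x y hxy
    have := congrFun (WG2.PhiH_inj hxy) 1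
    exact this
  have h1 : hh K e 1 = 1 := map_one φ
  have hx1 : x ≠ 1 := by
    rintro rfl
    rw [h1, mul_inv_eq_one] at hx
    have h2 : hh K e ζ = 1 := mul_eq_left.1 hx
    have h3 := hinj ζ 1 (h2.trans h1.symm)
    rw [h3, orderOf_one] at hord
    have : 9 ≤ e * e := Nat.mul_le_mul he3 he3
    have h5 : 3 * e * e = 3 * (e * e) := by ring
    omega
  have hxG : hh K e x ∈ twistedG2 K e := hh_mem hK hf x
  -- the commutator
  have hc : RE K e true 1 0 0 * hh K e x * (RE K e true 1 0 0)⁻¹ ∈ H := by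
    have := H.mul_mem (H.mul_mem hy hz) (H.inv_mem hy)
    have e1 : RE K e true 1 0 0 * n * hh K e ζ * (RE K e true 1 0 0 * n)⁻¹ = RE K e true 1 0 0 * (n * hh K e ζ * n⁻¹) * (RE K e true 1 0 0)⁻¹ := by group
    rw [e1, hx] at this
    exact this
  have hc2 : (hh K e x * RE K e true 1 0 0 * (hh K e x)⁻¹) * (RE K e true 1 0 0)⁻¹ ∈ H := by
    have := H.mul_mem (hall x) (H.inv_mem hc)
    have e1 : hh K e x * (RE K e true 1 0 0 * hh K e x * (RE K e true 1 0 0)⁻¹)⁻¹ = (hh K e x * RE K e true 1 0 0 * (hh K e x)⁻¹) * (RE K e true 1 0 0)⁻¹ := by group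
    rw [e1] at this
    exact this
  rw [hh_conj h hf x hxG] at hc2
  obtain ⟨a, b, hab⟩ := RE_inv h hf 1 0 0
  rw [hab, RE_mul h hf, mul_one] at hc2
  have ht1 : ((((x ^ e) ^ (-3 : ℤ) * x ^ (2 : ℤ) : Kˣ)) : K) + -1 ≠ 0 := by
    intro h0
    have h2 : (x ^ e) ^ (-3 : ℤ) * x ^ (2 : ℤ) = 1 := by
      ext
      rw [Units.val_one]
      linear_combination h0
    have k1 : (x ^ e) ^ (-3 : ℤ) * x ^ (2 : ℤ) = (x ^ (3 * e - 2))⁻¹ := by
      rw [← zpow_natCast x e, ← zpow_mul, ← zpow_add, ← zpow_natCast x (3 * e - 2), ← zpow_neg, Nat.cast_sub (by omega)]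
      congr 1; push_cast; ring
    rw [k1, inv_eq_one] at h2
    have h3 := orderOf_dvd_of_pow_eq_one h2
    have h4 : orderOf x ∣ 3 * e * e - 1 := by
      rw [← hord]
      exact orderOf_dvd_of_mem_zpowers (hζ x)
    apply hx1
    rw [← orderOf_eq_one_iff]
    have b1 : (orderOf x : ℤ) ∣ 3 * e * e - 1 := by
      have := Int.natCast_dvd_natCast.2 h4
      rwa [Nat.cast_sub (by nlinarith), Nat.cast_mul, Nat.cast_mul, Nat.cast_one] at this
    have b2 : (orderOf x : ℤ) ∣ 3 * e - 2 := by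
      have := Int.natCast_dvd_natCast.2 h3
      rwa [Nat.cast_sub (by omega), Nat.cast_mul] at this
    have b3 : (orderOf x : ℤ) ∣ 1 := by
      have : (1 : ℤ) = 3 * (3 * e * e - 1) - (3 * e + 2) * (3 * e - 2) := by ring
      rw [this]
      exact dvd_sub (dvd_mul_of_dvd_right b1 _) (dvd_mul_of_dvd_right b2 _)
    exact Nat.dvd_one.1 (by exact_mod_cast b3)
  have hU := full_U h hf hm he hK hζ hz ht1 hc2
  have hUp : chevG2.posUnipotent K ⊓ twistedG2 K e ≤ H := by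
    intro g hg
    obtain ⟨t, u, v, rfl⟩ := (fix_iff h hf).1 (Subgroup.mem_inf.2 ⟨hg.1, WG2.le_fix h hf hg.2⟩)
    exact hU t u v
  have hnH : n ∈ H := by
    have := H.mul_mem (H.inv_mem (hU 1 0 0)) hy
    rwa [inv_mul_cancel_left] at this
  have hD : chevG2.diagonalSubgroup K ⊓ twistedG2 K e ≤ H := by
    intro g hg
    obtain ⟨x, rfl⟩ := (diag_iff h hf hK).1 hg
    exact hall x
  intro g hg
  obtain ⟨u₁, hu₁, n', hn', w, χ', hw, hm', u₂, hu₂, rfl⟩ := hT.canon₁ hg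
  have hn'H : n' ∈ H := by
    rcases (mem_Wr_iff h).1 hw with rfl | rfl
    · exact hD (Subgroup.mem_inf.2 ⟨TG2.good.mem_diagonal_of_mon TG2.ext hn'.1 hm', hn'.2⟩)
    · have h3 := hmon.inv.mul hm'
      rw [inv_mul_cancel] at h3
      have h4 : n⁻¹ * n' ∈ H := hD (Subgroup.mem_inf.2 ⟨TG2.good.mem_diagonal_of_mon TG2.ext (mul_mem (inv_mem hn.1) hn'.1) h3, mul_mem (inv_mem hn.2) hn'.2⟩)
      have := H.mul_mem hnH h4
      rwa [mul_inv_cancel_left] at this
  refine H.mul_mem (H.mul_mem (hUp hu₁) hn'H) (hUp (Subgroup.mem_inf.2 ⟨?_, hu₂.2⟩))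
  rw [TG2.good.posUnipotent_eq_US]
  exact US_mono (S := TG2.good.Um w) (T := posS chevG2 6) (by rintro r ⟨hr1, hr2, _⟩; exact ⟨hr2, hr1⟩) hu₂.1

end

end Cfsg.Agent.H16.ReeH
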