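import Cfsg.Agent.H6.TwF4E
import Cfsg.Agent.H16.ReeH

set_option autoImplicit false
set_option linter.all false
set_option maxHeartbeats 400000

/-! General lemmas for generation of twisted groups by two elements. -/

namespace Cfsg.Agent.H16.TwGen

open Cfsg.Lie Cfsg.Agent.H6
open scoped Matrix

section
variable {D : ChevalleyDatum} {N : ℕ} {η : ℕ → ℕ → ℤ} {rc : ℕ → ℕ → ℤ} {F : Type*} [Field F]

theorem conj_torus_neg (hG : Good D N η rc) (hE : Ext D rc) {n k : GL D.Idx F} (hn : n ∈ D.group F) (hk : k ∈ D.group F)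
    {w : hG.W} {χ ψ : Fin D.nroots → Fˣ} (hm : Mon hG (xg D F) n w χ) (hw : ∀ r, w.1 r = hG.ngf r)
    (hmk : Mon hG (xg D F) k 1 ψ) : n * k * n⁻¹ = k⁻¹ := by
  have hcen : n * k * n⁻¹ * k = 1 := by
    apply hG.central_eq_one hE (mul_mem (mul_mem (mul_mem hn hk) (inv_mem hn)) hk)
    intro r hr t
    have e1 : k * xg D F r t * k⁻¹ = xg D F r ((ψ ⟨r, hr⟩ : F) * t) := hmk.act ⟨r, hr⟩ t
    have e2 : ∀ s : F, n * xg D F (hG.ngf ⟨r, hr⟩ : ℕ) ((((χ (hG.ngf ⟨r, hr⟩))⁻¹ : Fˣ) : F) * s) * n⁻¹ = xg D F r s := by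
      intro s
      rw [hm.act, hw, hG.ngf_ngf, ← mul_assoc, Units.mul_inv, one_mul]
    have e3 : ∀ s : F, k * xg D F (hG.ngf ⟨r, hr⟩ : ℕ) s * k⁻¹ = xg D F (hG.ngf ⟨r, hr⟩ : ℕ) ((((ψ ⟨r, hr⟩)⁻¹ : Fˣ) : F) * s) := by
      intro s
      rw [← hmk.neg]
      exact hmk.act (hG.ngf ⟨r, hr⟩) s
    calc n * k * n⁻¹ * k * xg D F r t * (n * k * n⁻¹ * k)⁻¹ = n * k * n⁻¹ * (k * xg D F r t * k⁻¹) * n * k⁻¹ * n⁻¹ := by group
      _ = n * k * n⁻¹ * (n * xg D F (hG.ngf ⟨r, hr⟩ : ℕ) ((((χ (hG.ngf ⟨r, hr⟩))⁻¹ : Fˣ) : F) * ((ψ ⟨r, hr⟩ : F) * t)) * n⁻¹) * n * k⁻¹ * n⁻¹ := by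
          rw [e1, e2]
      _ = n * (k * xg D F (hG.ngf ⟨r, hr⟩ : ℕ) ((((χ (hG.ngf ⟨r, hr⟩))⁻¹ : Fˣ) : F) * ((ψ ⟨r, hr⟩ : F) * t)) * k⁻¹) * n⁻¹ := by group
      _ = n * xg D F (hG.ngf ⟨r, hr⟩ : ℕ) ((((χ (hG.ngf ⟨r, hr⟩))⁻¹ : Fˣ) : F) * t) * n⁻¹ := by
          rw [e3]
          have : (((ψ ⟨r, hr⟩)⁻¹ : Fˣ) : F) * ((((χ (hG.ngf ⟨r, hr⟩))⁻¹ : Fˣ) : F) * ((ψ ⟨r, hr⟩ : F) * t)) = (((χ (hG.ngf ⟨r, hr⟩))⁻¹ : Fˣ) : F) * t := by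
            have h1 : (((ψ ⟨r, hr⟩)⁻¹ : Fˣ) : F) * (ψ ⟨r, hr⟩ : F) = 1 := Units.inv_mul _
            linear_combination ((((χ (hG.ngf ⟨r, hr⟩))⁻¹ : Fˣ) : F) * t) * h1
          rw [this]
      _ = xg D F r t := e2 t
  exact eq_inv_of_mul_eq_one_left hcen

end

section
variable {D : ChevalleyDatum} {N : ℕ} {η : ℕ → ℕ → ℤ} {rc : ℕ → ℕ → ℤ} {F : Type*} [Field F]
  {m : ℕ} {rho inv lam pi : ℕ → ℕ} {ep : ℕ → ℤ} {e : ℕ} {σ : ↥(D.group F) →* ↥(D.group F)}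
  {ι : Type} {L : ι → List (Fin D.rank)}
  {h : TwCtx D N η rc F m rho inv lam pi ep e σ} {G₁ : Subgroup (GL D.Idx F)} (hT : TwGrp h L G₁)
include hT

/-- the opposite root groups, with a representative of the longest element -/
theorem neg_le {H : Subgroup (GL D.Idx F)} {n : GL D.Idx F} (hn : n ∈ fixS σ) (hnH : n ∈ H) {w : h.G.W} {χ : Fin D.nroots → Fˣ}
    (hm : Mon h.G (xg D F) n w χ) (hw : ∀ r, w.1 r = h.G.ngf r) {j : ι} (hX : US (xg D F) (h.G.Um (h.wJ L j)) ⊓ fixS σ ≤ H)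
    {g : GL D.Idx F} (hg : g ∈ US (xg D F) {r | ∃ hr : r < D.nroots, (h.G.ngf ⟨r, hr⟩ : ℕ) ∈ h.G.Um (h.wJ L j)}) (hg' : g ∈ fixS σ) :
    g ∈ H := by
  have hwi : ∀ r, (w⁻¹).1 r = h.G.ngf r := by
    intro r
    have h1 : w.1 ((w⁻¹).1 r) = w.1 (h.G.ngf r) := by
      rw [hw (h.G.ngf r), h.G.ngf_ngf]
      exact Equiv.apply_symm_apply w.1 r
    exact w.1.injective h1
  have h1 := hT.conj_fix (inv_mem hn) hm.inv (S := {r | ∃ hr : r < D.nroots, (h.G.ngf ⟨r, hr⟩ : ℕ) ∈ h.G.Um (h.wJ L j)})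
    (T := h.G.Um (h.wJ L j)) (fun r hr => hr.1) (fun r hr => by
      obtain ⟨hr1, hr2⟩ := hr
      rw [hwi]; exact hr2) (Subgroup.mem_inf.2 ⟨hg, hg'⟩)
  have h2 := mul_mem (mul_mem hnH (hX h1)) (inv_mem hnH)
  have h3 : n * (n⁻¹ * g * n⁻¹⁻¹) * n⁻¹ = g := by group
  rwa [h3] at h2

/-- all the `pw` in a subgroup -/
theorem pw_le {H : Subgroup (GL D.Idx F)} {n : GL D.Idx F} (hn : n ∈ fixS σ) (hnH : n ∈ H) {w : h.G.W} {χ : Fin D.nroots → Fˣ}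
    (hm : Mon h.G (xg D F) n w χ) (hw : ∀ r, w.1 r = h.G.ngf r) {j : ι} (hX : US (xg D F) (h.G.Um (h.wJ L j)) ⊓ fixS σ ≤ H)
    (hc : COrb D F (L j)) (b : Bool) {f : ℕ → F}
    (hf : ∀ i ∈ L j, f (pi i) = f i ^ (lam (D.simple i) * e)) : pw D F b (L j) f ∈ H := by
  have h1 := h.pw_fix hc (hT.orb.orb' j) b hf
  cases b with
  | true =>
    apply hX
    refine Subgroup.mem_inf.2 ⟨?_, h1⟩
    apply Subgroup.list_prod_mem
    intro x hx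
    rw [List.mem_map] at hx
    obtain ⟨i, hi, rfl⟩ := hx
    exact mem_US ((h.simple_mem_Um_wJ hT.orb).2 hi) _
  | false =>
    apply neg_le hT hn hnH hm hw hX _ h1
    apply Subgroup.list_prod_mem
    intro x hx
    rw [List.mem_map] at hx
    obtain ⟨i, hi, rfl⟩ := hx
    refine mem_US ?_ _
    refine ⟨h.G.neg_lt' (h.G.simple_lt i i.2), ?_⟩
    change D.neg (D.neg (D.simple i)) ∈ _
    rw [h.G.neg_neg' (h.G.simple_lt i i.2)]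
    exact (h.simple_mem_Um_wJ hT.orb).2 hi

end

/-- separating commuting elements of coprime order -/
theorem split_mem {A : Type*} [Group A] {t x : A} (hc : t * x = x * t) {m n : ℕ} (ht : t ^ m = 1) (hx : x ^ n = 1) (hmn : Nat.Coprime m n) :
    t ∈ Subgroup.zpowers (t * x) ∧ x ∈ Subgroup.zpowers (t * x) := by
  have hC : Commute t x := hc
  -- exponent `k` with `k ≡ 1 mod m`, `k ≡ 0 mod n`
  obtain ⟨k, hk1, hk2⟩ := Nat.chineseRemainder hmn 1 0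
  have h1 : t ^ k = t := by
    rw [pow_eq_pow_mod k ht, hk1, ← pow_eq_pow_mod 1 ht, pow_one]
  have h2 : x ^ k = 1 := by
    rw [pow_eq_pow_mod k hx, hk2, ← pow_eq_pow_mod 0 hx, pow_zero]
  have h3 : (t * x) ^ k = t := by rw [hC.mul_pow, h1, h2, mul_one]
  have h4 : t ∈ Subgroup.zpowers (t * x) := ⟨(k : ℤ), by simpa using h3⟩
  refine ⟨h4, ?_⟩
  have := mul_mem (inv_mem h4) (Subgroup.mem_zpowers (t * x))
  rwa [inv_mul_cancel_left] at this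

end Cfsg.Agent.H16.TwGen
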