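import Mathlib
import Cfsg.Agent.H16.OrTwoA
import Cfsg.Agent.H16.TwGen

set_option autoImplicit false
set_option linter.all false
set_option maxHeartbeats 400000

/-! Two-generation of orthogonal groups: the elements. -/

namespace Cfsg.Agent.H16.OrTwoA

open Cfsg.Agent.H17 Cfsg.Agent.H17.Pol Cfsg.Agent.H16

variable {F V G PG : Type*} [Field F] [AddCommGroup V] [Module F V] [Group G] [Group PG]
  {O : Pol F V G PG}

/-- exchanging two hyperbolic pairs -/
noncomputable def nn (O : Pol F V G PG) (x x' w w' : V) : G := O.E x w' * O.E x' w * O.E x w'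

/-- reflection type elements -/
noncomputable def nA (O : Pol F V G PG) (e f a : V) : G := O.E e a * O.E f ((O.N a)⁻¹ • a) * O.E e a

section
variable (hO : O.OType)
include hO

theorem nn_act {x x' w w' : V} (h1 : O.N x = 0) (h2 : O.N x' = 0) (h3 : O.N w = 0) (h4 : O.N w' = 0) (h5 : O.B x x' = 1)
    (h6 : O.B w w' = 1) (h7 : O.B x w = 0) (h8 : O.B x w' = 0) (h9 : O.B x' w = 0) (h10 : O.B x' w' = 0) (v : V) :
    O.act (nn O x x' w w') v = v + (O.B x v - O.B w v) • w' - (O.B w' v + O.B x' v) • x + (O.B x' v - O.B w' v) • w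
      - (O.B w v + O.B x v) • x' := by
  have s1 : O.B x' x = 1 := by rw [hO.sy]; exact h5
  have s2 : O.B w' w = 1 := by rw [hO.sy]; exact h6
  have s3 : O.B w x = 0 := by rw [hO.sy]; exact h7
  have s4 : O.B w' x = 0 := by rw [hO.sy]; exact h8
  have s5 : O.B w x' = 0 := by rw [hO.sy]; exact h9
  have s6 : O.B w' x' = 0 := by rw [hO.sy]; exact h10
  have s7 := O.B_self h1
  have s8 := O.B_self h2
  have s9 := O.B_self h3
  have s10 := O.B_self h4
  unfold nn
  rw [act_mul, act_mul, E_act hO h1 h8, E_act hO h2 h9, E_act hO h1 h8, h3, h4]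
  simp only [O.br_add, O.br_sub, O.br_smul, h5, h6, h7, h8, h9, h10, s1, s2, s3, s4, s5, s6, s7, s8, s9, s10]
  module

theorem nA_act {e f a : V} (h1 : O.N e = 0) (h2 : O.N f = 0) (h3 : O.B e f = 1) (h4 : O.B e a = 0) (h5 : O.B f a = 0) (h6 : O.N a ≠ 0) (v : V) :
    O.act (nA O e f a) v = v - (O.B e v + O.B f v * (O.N a)⁻¹) • f - (O.B f v + O.B e v * O.N a) • e - ((O.N a)⁻¹ * O.B a v) • a := by
  have s1 : O.B f e = 1 := by rw [hO.sy]; exact h3
  have s2 : O.B a e = 0 := by rw [hO.sy]; exact h4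
  have s3 : O.B a f = 0 := by rw [hO.sy]; exact h5
  have s4 := hO.self a
  have s5 := O.B_self h1
  have s6 := O.B_self h2
  have s7 : O.B f ((O.N a)⁻¹ • a) = 0 := by rw [O.br_smul, h5, mul_zero]
  unfold nA
  rw [act_mul, act_mul, E_act hO h1 h4, E_act hO h2 s7, E_act hO h1 h4]
  simp only [O.br_add, O.br_sub, O.br_smul, hO.bl, hO.smul, h3, h4, h5, s1, s2, s3, s4, s5, s6]
  have e1 : (O.N a)⁻¹ * (O.N a)⁻¹ * O.N a = (O.N a)⁻¹ := by rw [mul_assoc, inv_mul_cancel₀ h6, mul_one]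
  rw [e1]
  match_scalars <;> field_simp <;> ring

end

section
variable {r : ℕ} {u : Bool → ℕ → V} {A : Submodule F V} (hF : Fr O r u A) (hO : O.OType)

/-- the Coxeter-like element -/
noncomputable def CC (O : Pol F V G PG) (u : Bool → ℕ → V) : ℕ → G
  | 0 => 1
  | k + 1 => CC O u k * nn O (u true k) (u false k) (u true (k + 1)) (u false (k + 1))

include hF hO

theorem Fr.nn_act {k : ℕ} (hk : k + 1 < r) (v : V) :
    O.act (nn O (u true k) (u false k) (u true (k + 1)) (u false (k + 1))) v = v + (O.B (u true k) v - O.B (u true (k + 1)) v) • u false (k + 1)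
      - (O.B (u false (k + 1)) v + O.B (u false k) v) • u true k + (O.B (u false k) v - O.B (u false (k + 1)) v) • u true (k + 1)
      - (O.B (u true (k + 1)) v + O.B (u true k) v) • u false k :=
  OrTwoA.nn_act hO (hF.N0 _ _ (by omega)) (hF.N0 _ _ (by omega)) (hF.N0 _ _ (by omega)) (hF.N0 _ _ (by omega))
    (hF.Bopp (b := true) (by omega)) (hF.Bopp (b := true) (by omega)) (hF.Bne (by omega) (by omega) (by omega))
    (hF.Bne (by omega) (by omega) (by omega)) (hF.Bne (by omega) (by omega) (by omega)) (hF.Bne (by omega) (by omega) (by omega)) v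

theorem Fr.nn1 {k : ℕ} (hk : k + 1 < r) (b : Bool) :
    O.act (nn O (u true k) (u false k) (u true (k + 1)) (u false (k + 1))) (u b k) = u b (k + 1) := by
  have hk0 : k < r := by omega
  have e1 : O.B (u true k) (u false k) = 1 := hF.Bopp (b := true) hk0
  have e2 : O.B (u false k) (u true k) = 1 := hF.Bopp (b := false) hk0
  rw [hF.nn_act hO hk, hF.Bne (b := true) (i := k + 1) hk hk0 (by omega), hF.Bne (b := false) (i := k + 1) hk hk0 (by omega)]
  cases b with
  | true => rw [hF.Bsame (b := true) hk0 hk0, e2]; module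
  | false => rw [hF.Bsame (b := false) hk0 hk0, e1]; module

theorem Fr.nn2 {k : ℕ} (hk : k + 1 < r) (b : Bool) :
    O.act (nn O (u true k) (u false k) (u true (k + 1)) (u false (k + 1))) (u b (k + 1)) = -u b k := by
  have hk0 : k < r := by omega
  have e1 : O.B (u true (k + 1)) (u false (k + 1)) = 1 := hF.Bopp (b := true) hk
  have e2 : O.B (u false (k + 1)) (u true (k + 1)) = 1 := hF.Bopp (b := false) hk
  rw [hF.nn_act hO hk, hF.Bne (b := true) (j := k + 1) hk0 hk (by omega), hF.Bne (b := false) (j := k + 1) hk0 hk (by omega)]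
  cases b with
  | true => rw [hF.Bsame (b := true) hk hk, e2]; module
  | false => rw [hF.Bsame (b := false) hk hk, e1]; module

theorem Fr.nn3 {k : ℕ} (hk : k + 1 < r) {j : ℕ} (hj : j < r) (h1 : j ≠ k) (h2 : j ≠ k + 1) (b : Bool) :
    O.act (nn O (u true k) (u false k) (u true (k + 1)) (u false (k + 1))) (u b j) = u b j := by
  have hk0 : k < r := by omega
  rw [hF.nn_act hO hk, hF.Bne (b := true) hk0 hj (Ne.symm h1), hF.Bne (b := false) hk0 hj (Ne.symm h1),
    hF.Bne (b := true) hk hj (Ne.symm h2), hF.Bne (b := false) hk hj (Ne.symm h2)]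
  module

theorem Fr.nn4 {k : ℕ} (hk : k + 1 < r) {a : V} (ha : a ∈ A) :
    O.act (nn O (u true k) (u false k) (u true (k + 1)) (u false (k + 1))) a = a := by
  rw [hF.nn_act hO hk, hF.BA _ _ (by omega) _ ha, hF.BA _ _ (by omega) _ ha, hF.BA _ _ (by omega) _ ha, hF.BA _ _ (by omega) _ ha]
  module

theorem Fr.CC_act (k : ℕ) (hk : k < r) :
    (∀ b j, j < k → O.act (CC O u k) (u b j) = u b (j + 1)) ∧ (∀ b, O.act (CC O u k) (u b k) = ((-1 : F) ^ k) • u b 0) ∧
    (∀ b j, k < j → j < r → O.act (CC O u k) (u b j) = u b j) ∧ (∀ a ∈ A, O.act (CC O u k) a = a) := by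
  induction k with
  | zero =>
    refine ⟨fun b j hj => absurd hj (by omega), fun b => ?_, fun b j _ _ => ?_, fun a _ => ?_⟩
    · rw [CC, act_one, pow_zero, one_smul]
    · rw [CC, act_one]
    · rw [CC, act_one]
  | succ k ih =>
    obtain ⟨i1, i2, i3, i4⟩ := ih (by omega)
    refine ⟨fun b j hj => ?_, fun b => ?_, fun b j hj hjr => ?_, fun a ha => ?_⟩
    · rw [CC, act_mul]
      by_cases hjk : j = k
      · subst hjk
        rw [hF.nn1 hO hk, i3 _ _ (by omega) (by omega)]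
      · rw [hF.nn3 hO hk (by omega) hjk (by omega), i1 _ _ (by omega)]
    · rw [CC, act_mul, hF.nn2 hO hk, map_neg, i2, pow_succ, mul_neg_one, neg_smul]
    · rw [CC, act_mul, hF.nn3 hO hk hjr (by omega) (by omega), i3 _ _ (by omega) hjr]
    · rw [CC, act_mul, hF.nn4 hO hk ha, i4 a ha]

theorem Fr.nA_act (hr : 0 < r) {a : V} (ha : a ∈ A) (hNa : O.N a ≠ 0) (v : V) :
    O.act (nA O (u true 0) (u false 0) a) v = v - (O.B (u true 0) v + O.B (u false 0) v * (O.N a)⁻¹) • u false 0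
      - (O.B (u false 0) v + O.B (u true 0) v * O.N a) • u true 0 - ((O.N a)⁻¹ * O.B a v) • a :=
  OrTwoA.nA_act hO (hF.N0 _ _ hr) (hF.N0 _ _ hr) (hF.Bopp (b := true) hr) (hF.BA _ _ hr _ ha) (hF.BA _ _ hr _ ha) hNa v

theorem Fr.nA1 (hr : 0 < r) {a : V} (ha : a ∈ A) (hNa : O.N a ≠ 0) :
    O.act (nA O (u true 0) (u false 0) a) (u true 0) = (-(O.N a)⁻¹) • u false 0 := by
  have e2 : O.B (u false 0) (u true 0) = 1 := hF.Bopp (b := false) hr
  rw [hF.nA_act hO hr ha hNa, hF.Bsame (b := true) hr hr, e2, hF.BA' hO hr ha]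
  module

theorem Fr.nA2 (hr : 0 < r) {a : V} (ha : a ∈ A) (hNa : O.N a ≠ 0) :
    O.act (nA O (u true 0) (u false 0) a) (u false 0) = (-(O.N a)) • u true 0 := by
  have e2 : O.B (u true 0) (u false 0) = 1 := hF.Bopp (b := true) hr
  rw [hF.nA_act hO hr ha hNa, hF.Bsame (b := false) hr hr, e2, hF.BA' hO hr ha]
  module

theorem Fr.nA3 {a : V} (ha : a ∈ A) (hNa : O.N a ≠ 0) {j : ℕ} (hj : j < r) (hj0 : j ≠ 0) (b : Bool) :
    O.act (nA O (u true 0) (u false 0) a) (u b j) = u b j := by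
  have hr : 0 < r := by omega
  rw [hF.nA_act hO hr ha hNa, hF.Bne (b := true) hr hj (Ne.symm hj0), hF.Bne (b := false) hr hj (Ne.symm hj0), hF.BA' hO hj ha]
  module

theorem Fr.nA4 (hr : 0 < r) {a v : V} (ha : a ∈ A) (hNa : O.N a ≠ 0) (hv : v ∈ A) :
    O.act (nA O (u true 0) (u false 0) a) v = v - ((O.N a)⁻¹ * O.B a v) • a := by
  rw [hF.nA_act hO hr ha hNa, hF.BA _ _ hr _ hv, hF.BA _ _ hr _ hv]
  module

/-- the main criterion -/
theorem Fr.two (p : ℕ) [CharP F p] (hr : 3 ≤ r) (hgen : Subgroup.closure ((O.Qs (u true 0) : Set PG) ∪ (O.Qs (u false 0) : Set PG)) = ⊤)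
    {a : V} (ha : a ∈ A) (hNa : O.N a ≠ 0) {h : G} {n : ℕ} (hn : h ^ n = 1) (hpn : Nat.Coprime p n)
    (hh1 : ∀ b i, 1 ≤ i → i < r → O.act h (u b i) = u b i)
    {b₀ : Bool} {α β : F} {a' : V} (ha' : a' ∈ A) (hh2 : O.act h (u b₀ 0) = α • u true 0 + β • u false 0 + a')
    (hsp : ∀ M : Submodule F V, a' ∈ M → (∀ x ∈ M, x ∈ A → x - ((O.N a)⁻¹ * O.B a x) • a ∈ M) → A ≤ M)
    (hsc : (∃ μ : F, Subring.closure ({μ} : Set F) = ⊤ ∧ O.act h (u true 0) = μ • u true 0) ∨ (∀ M : AddSubgroup F, (1 : F) ∈ M → M = ⊤)) :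
    ∃ x y : PG, Subgroup.closure ({x, y} : Set PG) = ⊤ := by
  have hr0 : 0 < r := by omega
  obtain ⟨c, hc⟩ : ∃ c, c = nA O (u true 0) (u false 0) a * CC O u (r - 1) := ⟨_, rfl⟩
  obtain ⟨t, ht⟩ : ∃ t, t = O.E (u true 1) (u false 2) := ⟨_, rfl⟩
  obtain ⟨K, hK⟩ : ∃ K, K = Subgroup.closure ({t * h, c} : Set G) := ⟨_, rfl⟩
  obtain ⟨i1, i2, i3, i4⟩ := hF.CC_act hO (r - 1) (by omega)
  have hc1 : ∀ b i, i + 1 < r → O.act c (u b i) = u b (i + 1) := by
    intro b i hi
    rw [hc, act_mul, i1 _ _ (by omega), hF.nA3 hO ha hNa hi (by omega)]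
  have hc2 : ∀ b, ∃ μ : F, μ ≠ 0 ∧ O.act c (u b (r - 1)) = μ • u (!b) 0 := by
    intro b
    cases b with
    | true =>
      refine ⟨(-1) ^ (r - 1) * (-(O.N a)⁻¹), mul_ne_zero (pow_ne_zero _ (neg_ne_zero.2 one_ne_zero)) (neg_ne_zero.2 (inv_ne_zero hNa)), ?_⟩
      rw [hc, act_mul, i2, map_smul, hF.nA1 hO hr0 ha hNa, smul_smul]
      rfl
    | false =>
      refine ⟨(-1) ^ (r - 1) * (-(O.N a)), mul_ne_zero (pow_ne_zero _ (neg_ne_zero.2 one_ne_zero)) (neg_ne_zero.2 hNa), ?_⟩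
      rw [hc, act_mul, i2, map_smul, hF.nA2 hO hr0 ha hNa, smul_smul]
      rfl
  have hcA' : ∀ x ∈ A, O.act c x = x - ((O.N a)⁻¹ * O.B a x) • a := by
    intro x hx
    rw [hc, act_mul, i4 x hx, hF.nA4 hO hr0 ha hNa hx]
  have hcA : ∀ x ∈ A, O.act c x ∈ A := by
    intro x hx
    rw [hcA' x hx]
    exact A.sub_mem hx (A.smul_mem _ ha)
  have hB12 : O.B (u true 1) (u false 2) = 0 := hF.Bne (by omega) (by omega) (by omega)
  have hcom : t * h = h * t := by
    have h1 : h * t * h⁻¹ = t := by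
      rw [ht, E_conj hO (hF.N0 _ _ (by omega)) hB12, hh1 _ _ le_rfl (by omega), hh1 _ _ (by omega) (by omega)]
    exact (mul_inv_eq_iff_eq_mul.1 h1).symm
  have htp : t ^ p = 1 := by rw [ht]; exact E_pow_p hO p (hF.N0 _ _ (by omega)) hB12
  obtain ⟨s1, s2⟩ := TwGen.split_mem hcom htp hn hpn
  have hle : Subgroup.zpowers (t * h) ≤ K := by
    rw [Subgroup.zpowers_le, hK]; exact Subgroup.subset_closure (Or.inl rfl)
  have htK : t ∈ K := hle s1
  have hhK : h ∈ K := hle s2
  have hcK : c ∈ K := by rw [hK]; exact Subgroup.subset_closure (Or.inr rfl)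
  have hRR : RR O K (u true 1) (u false 2) := by
    refine ⟨hB12, ?_⟩
    have hN1 : O.N (u true 1) = 0 := hF.N0 _ _ (by omega)
    let M : AddSubgroup F :=
      { carrier := {l | O.E (u true 1) (l • u false 2) ∈ K}
        zero_mem' := by
          change O.E (u true 1) ((0 : F) • u false 2) ∈ K
          rw [zero_smul, E_zero hO hN1]; exact K.one_mem
        add_mem' := by
          intro x y hx hy
          change O.E (u true 1) ((x + y) • u false 2) ∈ K
          rw [add_smul, ← E_mul hO hN1 (by rw [O.br_smul, hB12, mul_zero]) (by rw [O.br_smul, hB12, mul_zero])]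
          exact K.mul_mem hx hy
        neg_mem' := by
          intro x hx
          change O.E (u true 1) ((-x) • u false 2) ∈ K
          rw [neg_smul, ← E_inv hO hN1 (by rw [O.br_smul, hB12, mul_zero])]
          exact K.inv_mem hx }
    have hM1 : (1 : F) ∈ M := by
      change O.E (u true 1) ((1 : F) • u false 2) ∈ K
      rw [one_smul, ← ht]; exact htK
    rcases hsc with ⟨μ, hμ, hhe⟩ | hsc
    · have hgK : c * h * c⁻¹ ∈ K := K.mul_mem (K.mul_mem hcK hhK) (K.inv_mem hcK)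
      have g1 : O.act (c * h * c⁻¹) (u true 1) = μ • u true 1 := by
        have e1 : O.act c⁻¹ (u true 1) = u true 0 := by
          rw [← hc1 true 0 (by omega), act_inv_act]
        rw [act_mul, act_mul, e1, hhe, map_smul, hc1 _ _ (by omega)]
      have g2 : O.act (c * h * c⁻¹) (u false 2) = u false 2 := by
        have e1 : O.act c⁻¹ (u false 2) = u false 1 := by
          rw [← hc1 false 1 (by omega), act_inv_act]
        rw [act_mul, act_mul, e1, hh1 _ _ le_rfl (by omega), hc1 _ _ (by omega)]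
      intro l
      change l ∈ M
      refine RegF.add_full M hμ ?_ one_ne_zero hM1 l
      intro l hl
      have h1 : c * h * c⁻¹ * O.E (u true 1) (l • u false 2) * (c * h * c⁻¹)⁻¹ ∈ K := K.mul_mem (K.mul_mem hgK hl) (K.inv_mem hgK)
      rw [E_conj hO hN1 (by rw [O.br_smul, hB12, mul_zero]), map_smul, g1, g2] at h1
      have e : O.E (μ • u true 1) (l • u false 2) = O.E (u true 1) ((μ * l) • u false 2) := by
        apply O.act_inj
        intro v
        rw [E_act hO (by rw [hO.smul, hN1, mul_zero]) (by rw [O.br_smul, hO.bl, hB12, mul_zero, mul_zero]),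
          E_act hO hN1 (by rw [O.br_smul, hB12, mul_zero]), hO.smul, hO.smul, hF.N0 false 2 (by omega), hO.bl, hO.bl, hO.bl]
        module
      rw [e] at h1
      exact h1
    · intro l
      change l ∈ M
      rw [hsc M hM1]; trivial
  have hcore : ∀ (b : Bool) (w : V), O.B (u b 0) w = 0 → O.E (u b 0) w ∈ K := by
    intro b w hw
    refine hF.core hO hr hcK hc1 hc2 hcA hRR hhK hh1 ha' hh2 ?_ b w hw
    intro M hM1 hM2
    apply hsp M hM1
    intro x hx hxA
    rw [← hcA' x hxA]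
    exact hM2 x hx hxA
  refine ⟨O.pr (t * h), O.pr c, ?_⟩
  have h1 : Subgroup.closure ({O.pr (t * h), O.pr c} : Set PG) = K.map O.pr := by
    rw [hK, MonoidHom.map_closure, Set.image_pair]
  rw [h1, eq_top_iff, ← hgen, Subgroup.closure_le]
  rintro x (hx | hx)
  · obtain ⟨w, hw, rfl⟩ := (mem_Qs' hO (hF.N0 true 0 hr0)).1 hx
    exact ⟨_, hcore true w hw, rfl⟩
  · obtain ⟨w, hw, rfl⟩ := (mem_Qs' hO (hF.N0 false 0 hr0)).1 hx
    exact ⟨_, hcore false w hw, rfl⟩

end

end Cfsg.Agent.H16.OrTwoA
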