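import Mathlib
import Cfsg.Agent.H16.OrTwoB
import Cfsg.Agent.H16.ReeH

set_option autoImplicit false
set_option linter.all false
set_option maxHeartbeats 400000

/-! Two-generation of orthogonal groups: the semisimple element. -/

namespace Cfsg.Agent.H16.OrTwoA

open Cfsg.Agent.H17 Cfsg.Agent.H17.Pol Cfsg.Agent.H16

variable {F V G PG : Type*} [Field F] [AddCommGroup V] [Module F V] [Group G] [Group PG]
  {O : Pol F V G PG} {r : ℕ} {u : Bool → ℕ → V} {A : Submodule F V} (hF : Fr O r u A) (hO : O.OType)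
include hF hO

theorem Fr.E0 (hr : 0 < r) {b : V} (hb : b ∈ A) (x : V) : O.act (O.E (u true 0) b) x =
    x + O.B (u true 0) x • b - (O.N b * O.B (u true 0) x + O.B b x) • u true 0 :=
  E_act hO (hF.N0 _ _ hr) (hF.BA _ _ hr _ hb) x

theorem Fr.E0inv (hr : 0 < r) {b : V} (hb : b ∈ A) (x : V) : O.act (O.E (u true 0) b)⁻¹ x =
    x - O.B (u true 0) x • b - (O.N b * O.B (u true 0) x - O.B b x) • u true 0 := by
  rw [E_inv hO (hF.N0 _ _ hr) (hF.BA _ _ hr _ hb), hF.E0 hO hr (A.neg_mem hb), hO.neg, O.bl_neg]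
  module

theorem Fr.e00 (hr : 0 < r) : O.B (u true 0) (u true 0) = 0 := hF.Bsame hr hr
theorem Fr.f00 (hr : 0 < r) : O.B (u false 0) (u false 0) = 0 := hF.Bsame hr hr
theorem Fr.ef0 (hr : 0 < r) : O.B (u true 0) (u false 0) = 1 := hF.Bopp (b := true) hr
theorem Fr.fe0 (hr : 0 < r) : O.B (u false 0) (u true 0) = 1 := hF.Bopp (b := false) hr

/-- conjugates by `E (e₀) b` still fix the other hyperbolic planes -/
theorem Fr.conj_fix {b : V} (hb : b ∈ A) {s : G} (hs : ∀ c i, 1 ≤ i → i < r → O.act s (u c i) = u c i) (c : Bool) (i : ℕ)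
    (h1 : 1 ≤ i) (hi : i < r) : O.act (O.E (u true 0) b * s * (O.E (u true 0) b)⁻¹) (u c i) = u c i := by
  have hr : 0 < r := by omega
  have e1 : O.B (u true 0) (u c i) = 0 := hF.Bne hr hi (by omega)
  rw [act_mul, act_mul, hF.E0inv hO hr hb, e1, hF.BA' hO hi hb]
  have e2 : u c i - (0 : F) • b - (O.N b * 0 - 0) • u true 0 = u c i := by module
  rw [e2, hs c i h1 hi, hF.E0 hO hr hb, e1, hF.BA' hO hi hb]
  module

theorem Fr.caseD [Fintype F] (p : ℕ) [CharP F p] (hr : 3 ≤ r)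
    (hgen : Subgroup.closure ((O.Qs (u true 0) : Set PG) ∪ (O.Qs (u false 0) : Set PG)) = ⊤)
    {a b : V} (ha : a ∈ A) (hb : b ∈ A) (hNa : O.N a ≠ 0) (hab : O.B a b ≠ 0) (hA : ∀ M : Submodule F V, a ∈ M → b ∈ M → A ≤ M)
    (hq : 4 ≤ Fintype.card F) : ∃ x y : PG, Subgroup.closure ({x, y} : Set PG) = ⊤ := by
  classical
  have hr0 : 0 < r := by omega
  obtain ⟨k, hk⟩ := IsCyclic.exists_generator (α := Fˣ)
  have hok : orderOf k = Fintype.card F - 1 := by
    rw [orderOf_eq_card_of_forall_mem_zpowers hk, Nat.card_eq_fintype_card, Fintype.card_units]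
  have hok2 : Fintype.card F - 1 ≤ 2 * orderOf (k ^ 2) := by
    rw [← hok]
    apply Nat.le_of_dvd
    · have := orderOf_pos (k ^ 2)
      omega
    · apply orderOf_dvd_of_pow_eq_one
      rw [pow_mul, pow_orderOf_eq_one]
  obtain ⟨m, hm⟩ : ∃ m : F, m = (k : F) := ⟨_, rfl⟩
  have hm0 : m ≠ 0 := by rw [hm]; exact k.ne_zero
  have hm2 : m * m ≠ 1 := by
    intro h
    have h1 : k ^ 2 = 1 := by
      ext
      rw [Units.val_pow_eq_pow_val, ← hm, pow_two, h]; rfl
    have h2 := Nat.le_of_dvd (by norm_num) (orderOf_dvd_of_pow_eq_one h1)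
    rw [hok] at h2
    omega
  have hcl : Subring.closure ({m * m} : Set F) = ⊤ := by
    have := ReeH.closure_order hok2
    rw [Units.val_pow_eq_pow_val, ← hm, pow_two] at this
    exact this
  have hNm : O.N (m • a) ≠ 0 := by
    rw [hO.smul]; exact mul_ne_zero (mul_ne_zero hm0 hm0) hNa
  have hma : m • a ∈ A := A.smul_mem _ ha
  obtain ⟨d, hd⟩ : ∃ d, d = nA O (u true 0) (u false 0) (m • a) * nA O (u true 0) (u false 0) a := ⟨_, rfl⟩
  have d1 : O.act d (u true 0) = (m * m) • u true 0 := by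
    rw [hd, act_mul, hF.nA1 hO hr0 ha hNa, map_smul, hF.nA2 hO hr0 hma hNm, hO.smul, smul_smul]
    congr 1
    field_simp
  have d2 : O.act d (u false 0) = (m * m)⁻¹ • u false 0 := by
    rw [hd, act_mul, hF.nA2 hO hr0 ha hNa, map_smul, hF.nA1 hO hr0 hma hNm, hO.smul, smul_smul]
    congr 1
    field_simp
  have d3 : ∀ c i, 1 ≤ i → i < r → O.act d (u c i) = u c i := by
    intro c i h1 hi
    rw [hd, act_mul, hF.nA3 hO ha hNa hi (by omega), hF.nA3 hO hma hNm hi (by omega)]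
  have d4 : ∀ v ∈ A, O.act d v = v := by
    intro v hv
    rw [hd, act_mul, hF.nA4 hO hr0 ha hNa hv, hF.nA4 hO hr0 hma hNm (A.sub_mem hv (A.smul_mem _ ha)), hO.bl, O.br_sub, O.br_smul,
      hO.self a, hO.smul]
    match_scalars <;> field_simp <;> ring
  have dp : ∀ n : ℕ, O.act (d ^ n) (u true 0) = ((m * m) ^ n) • u true 0 ∧ O.act (d ^ n) (u false 0) = (((m * m)⁻¹) ^ n) • u false 0 ∧
      (∀ c i, 1 ≤ i → i < r → O.act (d ^ n) (u c i) = u c i) ∧ (∀ v ∈ A, O.act (d ^ n) v = v) := by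
    intro n
    induction n with
    | zero =>
      exact ⟨by rw [pow_zero, pow_zero, act_one, one_smul], by rw [pow_zero, pow_zero, act_one, one_smul],
        fun c i _ _ => by rw [pow_zero, act_one], fun v _ => by rw [pow_zero, act_one]⟩
    | succ n ih =>
      obtain ⟨i1, i2, i3, i4⟩ := ih
      refine ⟨?_, ?_, ?_, ?_⟩
      · rw [pow_succ, act_mul, d1, map_smul, i1, smul_smul, pow_succ]; congr 1; ring
      · rw [pow_succ, act_mul, d2, map_smul, i2, smul_smul, pow_succ]; congr 1; ring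
      · intro c i h1 hi
        rw [pow_succ, act_mul, d3 c i h1 hi, i3 c i h1 hi]
      · intro v hv
        rw [pow_succ, act_mul, d4 v hv, i4 v hv]
  have dq : d ^ (Fintype.card F - 1) = 1 := by
    obtain ⟨i1, i2, i3, i4⟩ := dp (Fintype.card F - 1)
    have e1 := FiniteField.pow_card_sub_one_eq_one (m * m) (mul_ne_zero hm0 hm0)
    have e2 := FiniteField.pow_card_sub_one_eq_one (m * m)⁻¹ (inv_ne_zero (mul_ne_zero hm0 hm0))
    apply hF.ext hO
    · intro c i hi
      rw [act_one]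
      by_cases h0 : i = 0
      · subst h0
        cases c with
        | true => rw [i1, e1, one_smul]
        | false => rw [i2, e2, one_smul]
      · exact i3 c i (by omega) hi
    · intro v hv
      rw [i4 v hv, act_one]
  obtain ⟨h, hh⟩ : ∃ h, h = O.E (u true 0) b * d * (O.E (u true 0) b)⁻¹ := ⟨_, rfl⟩
  have hhn : h ^ (Fintype.card F - 1) = 1 := by
    rw [hh, conj_pow, dq, mul_one, mul_inv_cancel]
  have hcop : Nat.Coprime p (Fintype.card F - 1) := by
    obtain ⟨n, hp, hcard⟩ := FiniteField.card F p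
    have h1 : 1 < Fintype.card F := Fintype.one_lt_card
    have h2 : Nat.Coprime (Fintype.card F) (Fintype.card F - 1) := by
      have := (Nat.coprime_self_add_right (m := Fintype.card F - 1) (n := 1)).2 (Nat.coprime_one_right _)
      have e : Fintype.card F - 1 + 1 = Fintype.card F := by omega
      rw [e] at this
      exact this.symm
    exact Nat.Coprime.coprime_dvd_left (by rw [hcard]; exact dvd_pow_self p n.ne_zero) h2
  have hbb : O.B b b = 2 * O.N b := hO.self b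
  have h0 : O.act h (u true 0) = (m * m) • u true 0 := by
    rw [hh, act_mul, act_mul, hF.E0inv hO hr0 hb, hF.e00 hO hr0, hF.BA' hO hr0 hb]
    have e1 : u true 0 - (0 : F) • b - (O.N b * 0 - 0) • u true 0 = u true 0 := by module
    rw [e1, d1, map_smul, hF.E0 hO hr0 hb, hF.e00 hO hr0, hF.BA' hO hr0 hb]
    module
  have h2 : O.act h (u false 0) = (-(m * m)⁻¹ * O.N b + 2 * O.N b - O.N b * (m * m)) • u true 0 + (m * m)⁻¹ • u false 0 + ((m * m)⁻¹ - 1) • b := by
    rw [hh, act_mul, act_mul, hF.E0inv hO hr0 hb, hF.ef0 hO hr0, hF.BA' hO hr0 hb]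
    simp only [map_sub, map_smul, d1, d2, d4 b hb]
    rw [hF.E0 hO hr0 hb, hF.E0 hO hr0 hb, hF.E0 hO hr0 hb, hF.e00 hO hr0, hF.ef0 hO hr0, hF.BA' hO hr0 hb, hF.BA' hO hr0 hb,
      hF.BA _ _ hr0 _ hb, hbb]
    module
  have hne : (m * m)⁻¹ - 1 ≠ 0 := by
    intro h
    apply hm2
    have : (m * m)⁻¹ = 1 := sub_eq_zero.1 h
    rwa [inv_eq_one] at this
  refine hF.two hO p hr hgen ha hNa (h := h) hhn hcop ?_ (b₀ := false) (A.smul_mem ((m * m)⁻¹ - 1) hb) h2 ?_ (Or.inl ⟨m * m, hcl, h0⟩)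
  · intro c i h1 hi
    rw [hh]
    exact hF.conj_fix hO hb d3 c i h1 hi
  · intro M hM1 hM2
    have hbM : b ∈ M := by
      have := M.smul_mem ((m * m)⁻¹ - 1)⁻¹ hM1
      rwa [smul_smul, inv_mul_cancel₀ hne, one_smul] at this
    have h3 := hM2 b hbM hb
    have h4 := M.sub_mem hbM h3
    rw [sub_sub_cancel] at h4
    have h5 : (O.N a)⁻¹ * O.B a b ≠ 0 := mul_ne_zero (inv_ne_zero hNa) hab
    have h6 := M.smul_mem ((O.N a)⁻¹ * O.B a b)⁻¹ h4
    rw [smul_smul, inv_mul_cancel₀ h5, one_smul] at h6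
    exact hA M h6 hbM

end Cfsg.Agent.H16.OrTwoA
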