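import Mathlib
import Cfsg.Agent.H16.OrTwoC

set_option autoImplicit false
set_option linter.all false
set_option maxHeartbeats 400000

/-! Two-generation of orthogonal groups: fields with two or three elements. -/

namespace Cfsg.Agent.H16.OrTwoA

open Cfsg.Agent.H17 Cfsg.Agent.H17.Pol Cfsg.Agent.H16

theorem prime_full {F : Type*} [Field F] [Fintype F] {p : ℕ} (hpp : p.Prime) (hp : Fintype.card F = p) (M : AddSubgroup F) (h : (1 : F) ∈ M) : M = ⊤ := by
  rw [eq_top_iff]
  intro c _
  have : Fact p.Prime := ⟨hpp⟩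
  let e : ZMod p ≃+* F := ZMod.ringEquivOfPrime F hpp hp
  have hc : c = (((e.symm c).val : ℕ) : F) := by
    have h1 : e (((e.symm c).val : ℕ) : ZMod p) = (((e.symm c).val : ℕ) : F) := map_natCast e _
    rw [← h1, ZMod.natCast_val, ZMod.cast_id, e.apply_symm_apply]
  rw [hc, ← nsmul_one]
  exact M.nsmul_mem h _

variable {F V G PG : Type*} [Field F] [AddCommGroup V] [Module F V] [Group G] [Group PG]
  {O : Pol F V G PG} {r : ℕ} {u : Bool → ℕ → V} {A : Submodule F V} (hF : Fr O r u A) (hO : O.OType)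

theorem span_aux {a b : V} (hb : b ∈ A) {s : F} (hs : s ≠ 0) (hA : ∀ M : Submodule F V, a ∈ M → b ∈ M → A ≤ M)
    (M : Submodule F V) (hbM : b ∈ M) (h3 : b - s • a ∈ M) : A ≤ M := by
  have h4 := M.sub_mem hbM h3
  rw [sub_sub_cancel] at h4
  have h6 := M.smul_mem s⁻¹ h4
  rw [smul_smul, inv_mul_cancel₀ hs, one_smul] at h6
  exact hA M h6 hbM

include hF hO

theorem Fr.nA_sq (hr : 0 < r) {a : V} (ha : a ∈ A) (hNa : O.N a ≠ 0) : nA O (u true 0) (u false 0) a ^ 2 = 1 := by
  rw [pow_two]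
  apply hF.ext hO
  · intro c i hi
    rw [act_one, act_mul]
    by_cases h0 : i = 0
    · subst h0
      cases c with
      | true =>
        rw [hF.nA1 hO hr ha hNa, map_smul, hF.nA2 hO hr ha hNa, smul_smul]
        have : -(O.N a)⁻¹ * -O.N a = 1 := by field_simp
        rw [this, one_smul]
      | false =>
        rw [hF.nA2 hO hr ha hNa, map_smul, hF.nA1 hO hr ha hNa, smul_smul]
        have : -O.N a * -(O.N a)⁻¹ = 1 := by field_simp
        rw [this, one_smul]
    · rw [hF.nA3 hO ha hNa hi h0, hF.nA3 hO ha hNa hi h0]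
  · intro v hv
    rw [act_one, act_mul, hF.nA4 hO hr ha hNa hv, hF.nA4 hO hr ha hNa (A.sub_mem hv (A.smul_mem _ ha)), O.br_sub, O.br_smul, hO.self a]
    match_scalars <;> field_simp <;> ring

theorem Fr.case3 [Fintype F] (p : ℕ) [CharP F p] (hp : p = 3) (hr : 3 ≤ r)
    (hgen : Subgroup.closure ((O.Qs (u true 0) : Set PG) ∪ (O.Qs (u false 0) : Set PG)) = ⊤)
    {a b : V} (ha : a ∈ A) (hb : b ∈ A) (hNa : O.N a ≠ 0) (hab : O.B a b ≠ 0) (hA : ∀ M : Submodule F V, a ∈ M → b ∈ M → A ≤ M)
    (hq : Fintype.card F = 3) : ∃ x y : PG, Subgroup.closure ({x, y} : Set PG) = ⊤ := by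
  classical
  have hr0 : 0 < r := by omega
  have h20 : (2 : F) ≠ 0 := by
    have h1 : ((2 : ℕ) : F) ≠ 0 := by
      rw [Ne, CharP.cast_eq_zero_iff F p, hp]
      norm_num
    exact_mod_cast h1
  have hsc := prime_full (F := F) Nat.prime_three hq
  have hmain : ∀ {a2 : V} (ha2 : a2 ∈ A) (hN2 : O.N a2 ≠ 0),
      ∃ h : G, h ^ 2 = 1 ∧ (∀ c i, 1 ≤ i → i < r → O.act h (u c i) = u c i) ∧
      ∃ α β : F, O.act h (u false 0) = α • u true 0 + β • u false 0 + (-b + ((O.N a2)⁻¹ * O.B a2 b) • a2 + (O.N b * (O.N a2)⁻¹) • b) := by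
    intro a2 ha2 hN2
    obtain ⟨s, hs⟩ : ∃ s, s = nA O (u true 0) (u false 0) a2 := ⟨_, rfl⟩
    have s1 : O.act s (u true 0) = (-(O.N a2)⁻¹) • u false 0 := by rw [hs, hF.nA1 hO hr0 ha2 hN2]
    have s2 : O.act s (u false 0) = (-(O.N a2)) • u true 0 := by rw [hs, hF.nA2 hO hr0 ha2 hN2]
    have s3 : O.act s b = b - ((O.N a2)⁻¹ * O.B a2 b) • a2 := by rw [hs, hF.nA4 hO hr0 ha2 hN2 hb]
    refine ⟨O.E (u true 0) b * s * (O.E (u true 0) b)⁻¹, ?_, ?_, ?_⟩
    · rw [conj_pow, hs, hF.nA_sq hO hr0 ha2 hN2, mul_one, mul_inv_cancel]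
    · intro c i h1 hi
      apply hF.conj_fix hO hb _ c i h1 hi
      intro c i h1 hi
      rw [hs, hF.nA3 hO ha2 hN2 hi (by omega)]
    · have hbb : O.B b b = 2 * O.N b := hO.self b
      have hba : O.B b a2 = O.B a2 b := hO.sy _ _
      refine ⟨-(O.N a2) + (2 * O.N b - (O.N a2)⁻¹ * O.B a2 b * O.B a2 b) - O.N b * (O.N a2)⁻¹ * O.N b, O.N b * (O.N a2)⁻¹, ?_⟩
      rw [act_mul, act_mul, hF.E0inv hO hr0 hb, hF.ef0 hO hr0, hF.BA' hO hr0 hb]
      simp only [map_sub, map_smul, s1, s2, s3]
      rw [hF.E0 hO hr0 hb, hF.E0 hO hr0 hb, hF.E0 hO hr0 hb, hF.E0 hO hr0 hb, hF.e00 hO hr0, hF.ef0 hO hr0, hF.BA' hO hr0 hb, hF.BA' hO hr0 hb,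
        hF.BA _ _ hr0 _ hb, hF.BA _ _ hr0 _ ha2, hbb, hba]
      module
  by_cases hNb : O.N b = 0
  · obtain ⟨h, h1, h2, α, β, h3⟩ := hmain ha hNa
    rw [hNb, zero_mul, zero_smul, add_zero] at h3
    have hmem : -b + ((O.N a)⁻¹ * O.B a b) • a ∈ A := A.add_mem (A.neg_mem hb) (A.smul_mem _ ha)
    refine hF.two hO p hr hgen ha hNa (h := h) h1 (by rw [hp]; norm_num) h2 (b₀ := false) hmem h3 ?_ (Or.inr hsc)
    intro M hM1 hM2
    have h4 := hM2 _ hM1 hmem
    rw [O.br_add, O.br_neg, O.br_smul, hO.self a] at h4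
    have e : -b + ((O.N a)⁻¹ * O.B a b) • a - ((O.N a)⁻¹ * (-O.B a b + (O.N a)⁻¹ * O.B a b * (2 * O.N a))) • a = -b := by
      match_scalars <;> field_simp <;> ring
    rw [e] at h4
    have hbM : b ∈ M := by rw [← neg_neg b]; exact M.neg_mem h4
    refine span_aux hb (mul_ne_zero (inv_ne_zero hNa) hab) hA M hbM ?_
    have := M.neg_mem hM1
    rwa [neg_add, neg_neg, ← sub_eq_add_neg] at this
  · obtain ⟨h, h1, h2, α, β, h3⟩ := hmain hb hNb
    have e : -b + ((O.N b)⁻¹ * O.B b b) • b + (O.N b * (O.N b)⁻¹) • b = (2 : F) • b := by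
      rw [hO.self b]
      match_scalars
      field_simp
      ring
    rw [e] at h3
    refine hF.two hO p hr hgen ha hNa (h := h) h1 (by rw [hp]; norm_num) h2 (b₀ := false) (A.smul_mem _ hb) h3 ?_ (Or.inr hsc)
    intro M hM1 hM2
    have hbM : b ∈ M := by
      have := M.smul_mem (2 : F)⁻¹ hM1
      rwa [smul_smul, inv_mul_cancel₀ h20, one_smul] at this
    exact span_aux hb (mul_ne_zero (inv_ne_zero hNa) hab) hA M hbM (hM2 b hbM hb)

theorem Fr.case2 [Fintype F] (p : ℕ) [CharP F p] (hp : p = 2) (hr : 3 ≤ r)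
    (hgen : Subgroup.closure ((O.Qs (u true 0) : Set PG) ∪ (O.Qs (u false 0) : Set PG)) = ⊤)
    {a b : V} (ha : a ∈ A) (hb : b ∈ A) (hNa : O.N a ≠ 0) (hab : O.B a b ≠ 0) (hA : ∀ M : Submodule F V, a ∈ M → b ∈ M → A ≤ M)
    (hq : Fintype.card F = 2) : ∃ x y : PG, Subgroup.closure ({x, y} : Set PG) = ⊤ := by
  classical
  have hr0 : 0 < r := by omega
  have h20 : (2 : F) = 0 := by
    have h1 : ((2 : ℕ) : F) = 0 := by
      rw [CharP.cast_eq_zero_iff F p, hp]
    exact_mod_cast h1
  have hsc := prime_full (F := F) Nat.prime_two hq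
  have hone : ∀ x : F, x ≠ 0 → x = 1 := by
    intro x hx
    have := FiniteField.pow_card_sub_one_eq_one x hx
    rw [hq] at this
    simpa using this
  have hNa1 := hone _ hNa
  have hab1 := hone _ hab
  have hfin : ∀ {h : G} {n : ℕ} (hn : h ^ n = 1) (hpn : Nat.Coprime p n)
    (hh1 : ∀ b i, 1 ≤ i → i < r → O.act h (u b i) = u b i) {α β : F} (hh2 : O.act h (u false 0) = α • u true 0 + β • u false 0 + b),
      ∃ x y : PG, Subgroup.closure ({x, y} : Set PG) = ⊤ := by
    intro h n hn hpn hh1 α β hh2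
    refine hF.two hO p hr hgen ha hNa hn hpn hh1 hb hh2 ?_ (Or.inr hsc)
    intro M hM1 hM2
    exact span_aux hb (mul_ne_zero (inv_ne_zero hNa) hab) hA M hM1 (hM2 b hM1 hb)
  have F0 : ∀ {x : V}, x ∈ A → ∀ v, O.act (O.E (u false 0) x) v = v + O.B (u false 0) v • x - (O.N x * O.B (u false 0) v + O.B x v) • u false 0 :=
    fun hx v => E_act hO (hF.N0 _ _ hr0) (hF.BA _ _ hr0 _ hx) v
  have hfix : ∀ {x y : V}, x ∈ A → y ∈ A → ∀ c i, 1 ≤ i → i < r → O.act (O.E (u true 0) y * O.E (u false 0) x) (u c i) = u c i := by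
    intro x y hx hy c i h1 hi
    rw [act_mul, F0 hx, hF.Bne (b := false) hr0 hi (by omega), hF.BA' hO hi hx]
    have e : u c i + (0 : F) • x - (O.N x * 0 + 0) • u false 0 = u c i := by module
    rw [e, hF.E0 hO hr0 hy, hF.Bne (b := true) hr0 hi (by omega), hF.BA' hO hi hy]
    module
  have hf0 : ∀ {x y : V}, x ∈ A → y ∈ A → O.act (O.E (u true 0) y * O.E (u false 0) x) (u false 0) = (-O.N y) • u true 0 + (1 : F) • u false 0 + y := by
    intro x y hx hy
    rw [act_mul, F0 hx, hF.f00 hO hr0, hF.BA' hO hr0 hx]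
    have e : u false 0 + (0 : F) • x - (O.N x * 0 + 0) • u false 0 = u false 0 := by module
    rw [e, hF.E0 hO hr0 hy, hF.ef0 hO hr0, hF.BA' hO hr0 hy]
    module
  have he0 : ∀ {x y : V}, x ∈ A → y ∈ A → O.act (O.E (u true 0) y * O.E (u false 0) x) (u true 0) = (1 - O.B y x + O.N x * O.N y) • u true 0 + (-O.N x) • u false 0 + x
      + (-O.N x) • y := by
    intro x y hx hy
    rw [act_mul, F0 hx, hF.fe0 hO hr0, hF.BA' hO hr0 hx]
    simp only [map_sub, map_add, map_smul]
    rw [hF.E0 hO hr0 hy, hF.E0 hO hr0 hy, hF.E0 hO hr0 hy, hF.ef0 hO hr0, hF.e00 hO hr0, hF.BA' hO hr0 hy, hF.BA' hO hr0 hy, hF.BA _ _ hr0 _ hx]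
    module
  have hA0 : ∀ {x y v : V}, x ∈ A → y ∈ A → v ∈ A → O.act (O.E (u true 0) y * O.E (u false 0) x) v = v + (-O.B y v + O.B x v * O.N y) • u true 0
      + (-O.B x v) • u false 0 + (-O.B x v) • y := by
    intro x y v hx hy hv
    rw [act_mul, F0 hx, hF.BA _ _ hr0 _ hv]
    simp only [map_sub, map_add, map_smul]
    rw [hF.E0 hO hr0 hy, hF.E0 hO hr0 hy, hF.E0 hO hr0 hy, hF.ef0 hO hr0, hF.BA' hO hr0 hy, hF.BA _ _ hr0 _ hv, hF.BA _ _ hr0 _ hx]
    module
  have hext : ∀ {g : G}, (∀ c i, 1 ≤ i → i < r → O.act g (u c i) = u c i) → O.act g (u true 0) = u true 0 → O.act g (u false 0) = u false 0 →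
      O.act g a = a → O.act g b = b → g = 1 := by
    intro g g1 g2 g3 g4 g5
    apply hF.ext hO
    · intro c i hi
      rw [act_one]
      by_cases h0 : i = 0
      · subst h0
        cases c with
        | true => exact g2
        | false => exact g3
      · exact g1 c i (by omega) hi
    · intro v hv
      have := hA (LinearMap.eqLocus (O.act g) (O.act 1)) (by
        change O.act g a = O.act 1 a
        rw [g4, act_one]) (by
        change O.act g b = O.act 1 b
        rw [g5, act_one])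
      exact this hv
  have hpowfix : ∀ {x y : V}, x ∈ A → y ∈ A → ∀ n : ℕ, ∀ c i, 1 ≤ i → i < r → O.act ((O.E (u true 0) y * O.E (u false 0) x) ^ n) (u c i) = u c i := by
    intro x y hx hy n c i h1 hi
    induction n with
    | zero => rw [pow_zero, act_one]
    | succ n ih => rw [pow_succ, act_mul, hfix hx hy c i h1 hi, ih]
  by_cases hNb : O.N b = 0
  · -- order 3
    obtain ⟨x, hx⟩ : ∃ x, x = a + b := ⟨_, rfl⟩
    have hxA : x ∈ A := by rw [hx]; exact A.add_mem ha hb
    have hNx : O.N x = 0 := by rw [hx, hO.add, hNa1, hNb, hab1]; linear_combination h20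
    have hxb : O.B x b = 1 := by rw [hx, O.bl_add, hab1, hO.self b, hNb]; ring
    have hbx : O.B b x = 1 := by rw [hO.sy]; exact hxb
    obtain ⟨h, hh⟩ : ∃ h, h = O.E (u true 0) b * O.E (u false 0) x := ⟨_, rfl⟩
    have q1 : O.act h (u true 0) = x := by
      rw [hh, he0 hxA hb, hbx, hNx]; module
    have q2 : O.act h x = x - u true 0 := by
      rw [hh, hA0 hxA hb hxA, hbx, hO.self x, hNx]; module
    have q3 : O.act h (u false 0) = u false 0 + b := by
      rw [hh, hf0 hxA hb, hNb]; module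
    have q4 : O.act h b = - u false 0 := by
      rw [hh, hA0 hxA hb hb, hO.self b, hxb, hNb]; module
    have h3 : h ^ 3 = 1 := by
      have e3 : h ^ 3 = h * h * h := by rw [pow_succ, pow_two]
      have hneg : ∀ v : V, -v = v := by
        intro v
        have : (2 : F) • v = 0 := by rw [h20, zero_smul]
        rw [two_smul] at this
        exact neg_eq_of_add_eq_zero_left this
      have k1 : O.act (h ^ 3) (u true 0) = u true 0 := by
        rw [e3, act_mul, act_mul, q1, q2, map_sub, q1, q2, sub_right_comm, sub_self, zero_sub, hneg]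
      have k2 : O.act (h ^ 3) (u false 0) = u false 0 := by
        rw [e3, act_mul, act_mul, q3, map_add, q3, q4, add_right_comm, add_neg_cancel, zero_add, q4, hneg]
      have k3 : O.act (h ^ 3) x = x := by
        rw [e3, act_mul, act_mul, q2, map_sub, q2, q1, sub_right_comm, sub_self, zero_sub, map_neg, q1, hneg]
      have k4 : O.act (h ^ 3) b = b := by
        rw [e3, act_mul, act_mul, q4, map_neg, q3, map_neg, map_add, q3, q4, add_right_comm, add_neg_cancel, zero_add, hneg]
      apply hext _ k1 k2 _ k4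
      · intro c i h1 hi
        rw [hh]; exact hpowfix hxA hb 3 c i h1 hi
      · have e : a = x - b := by rw [hx]; abel
        rw [e, map_sub, k3, k4]
    refine hfin (h := h) h3 (by rw [hp]; norm_num) ?_ (α := 0) (β := 1) ?_
    · intro c i h1 hi
      rw [hh]; exact hfix hxA hb c i h1 hi
    · rw [q3]; module
  · -- order 5
    have hNb1 := hone _ hNb
    have hba1 : O.B b a = 1 := by rw [hO.sy]; exact hab1
    obtain ⟨h, hh⟩ : ∃ h, h = O.E (u true 0) b * O.E (u false 0) a := ⟨_, rfl⟩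
    have haa : O.B a a = 0 := by rw [hO.self a, hNa1, mul_one, h20]
    have hbb : O.B b b = 0 := by rw [hO.self b, hNb1, mul_one, h20]
    have q1 : O.act h (u true 0) = u true 0 + u false 0 + a + b := by
      rw [hh, he0 ha hb, hba1, hNa1, hNb1]
      match_scalars <;> first | ring1 | linear_combination h20 | linear_combination -h20
    have q2 : O.act h a = a + u true 0 := by
      rw [hh, hA0 ha hb ha, hba1, haa]
      match_scalars <;> first | ring1 | linear_combination h20 | linear_combination -h20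
    have q3 : O.act h (u false 0) = u true 0 + u false 0 + b := by
      rw [hh, hf0 ha hb, hNb1]
      match_scalars <;> first | ring1 | linear_combination h20 | linear_combination -h20
    have q4 : O.act h b = u true 0 + u false 0 := by
      rw [hh, hA0 ha hb hb, hab1, hbb, hNb1]
      match_scalars <;> first | ring1 | linear_combination h20 | linear_combination -h20
    -- orbit `a → a + e → f + b → b → e + f → a`
    have r1 : O.act h (a + u true 0) = u false 0 + b := by
      rw [map_add, q1, q2]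
      have e : a + u true 0 + (u true 0 + u false 0 + a + b) = u false 0 + b + (2 : F) • (a + u true 0) := by module
      rw [e, h20, zero_smul, add_zero]
    have r2 : O.act h (u false 0 + b) = b := by
      rw [map_add, q3, q4]
      have e : u true 0 + u false 0 + b + (u true 0 + u false 0) = b + (2 : F) • (u true 0 + u false 0) := by module
      rw [e, h20, zero_smul, add_zero]
    have r3 : O.act h (u true 0 + u false 0) = a := by
      rw [map_add, q1, q3]
      have e : u true 0 + u false 0 + a + b + (u true 0 + u false 0 + b) = a + (2 : F) • (u true 0 + u false 0 + b) := by module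
      rw [e, h20, zero_smul, add_zero]
    have e5 : h ^ 5 = h * h * h * h * h := by
      rw [pow_succ, pow_succ, pow_succ, pow_two]
    have k3 : O.act (h ^ 5) a = a := by
      rw [e5, act_mul, act_mul, act_mul, act_mul, q2, r1, r2, q4, r3]
    have k4 : O.act (h ^ 5) b = b := by
      rw [e5, act_mul, act_mul, act_mul, act_mul, q4, r3, q2, r1, r2]
    have k5 : O.act (h ^ 5) (a + u true 0) = a + u true 0 := by
      rw [e5, act_mul, act_mul, act_mul, act_mul, r1, r2, q4, r3, q2]
    have k6 : O.act (h ^ 5) (u false 0 + b) = u false 0 + b := by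
      rw [e5, act_mul, act_mul, act_mul, act_mul, r2, q4, r3, q2, r1]
    have k1 : O.act (h ^ 5) (u true 0) = u true 0 := by
      rw [map_add, k3] at k5
      exact add_left_cancel k5
    have k2 : O.act (h ^ 5) (u false 0) = u false 0 := by
      rw [map_add, k4] at k6
      exact add_right_cancel k6
    have h5 : h ^ 5 = 1 := by
      apply hext _ k1 k2 k3 k4
      intro c i h1 hi
      rw [hh]; exact hpowfix ha hb 5 c i h1 hi
    refine hfin (h := h) h5 (by rw [hp]; norm_num) ?_ (α := 1) (β := 1) ?_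
    · intro c i h1 hi
      rw [hh]; exact hfix ha hb c i h1 hi
    · rw [q3]; module

/-- all fields -/
theorem Fr.final [Fintype F] (hr : 3 ≤ r)
    (hgen : Subgroup.closure ((O.Qs (u true 0) : Set PG) ∪ (O.Qs (u false 0) : Set PG)) = ⊤)
    {a b : V} (ha : a ∈ A) (hb : b ∈ A) (hNa : O.N a ≠ 0) (hab : O.B a b ≠ 0) (hA : ∀ M : Submodule F V, a ∈ M → b ∈ M → A ≤ M) :
    ∃ x y : PG, Subgroup.closure ({x, y} : Set PG) = ⊤ := by
  obtain ⟨p, hp⟩ := CharP.exists F
  have h1 : 1 < Fintype.card F := Fintype.one_lt_card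
  by_cases h4 : 4 ≤ Fintype.card F
  · exact hF.caseD hO p hr hgen ha hb hNa hab hA h4
  · obtain ⟨n, hpp, hcard⟩ := FiniteField.card F p
    have hdvd : p ∣ Fintype.card F := by rw [hcard]; exact dvd_pow_self p n.ne_zero
    by_cases h3 : Fintype.card F = 3
    · have : p = 3 := (Nat.prime_dvd_prime_iff_eq hpp Nat.prime_three).1 (by rwa [h3] at hdvd)
      exact hF.case3 hO p this hr hgen ha hb hNa hab hA h3
    · have h2 : Fintype.card F = 2 := by omega
      have : p = 2 := (Nat.prime_dvd_prime_iff_eq hpp Nat.prime_two).1 (by rwa [h2] at hdvd)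
      exact hF.case2 hO p this hr hgen ha hb hNa hab hA h2

end Cfsg.Agent.H16.OrTwoA
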