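import Cfsg.Agent.H16.SpTwoI
import Cfsg.Agent.H5.SpSimple
import Cfsg.Agent.S0301
import Cfsg.Agent.S0304
import Cfsg.Agent.S1083
import Cfsg.Agent.S2405

set_option autoImplicit false
set_option linter.all false
set_option maxHeartbeats 400000

/-! `PSp_{2m}(q)` is generated by two elements. -/

namespace Cfsg.Agent.H16.SpTwoJ

open Matrix Cfsg Cfsg.Agent.H5

theorem two_of_surj {G H : Type*} [Group G] [Group H] (f : G →* H) (hf : Function.Surjective f)
    (h : ∃ a b : G, Subgroup.closure ({a, b} : Set G) = ⊤) : ∃ a b : H, Subgroup.closure ({a, b} : Set H) = ⊤ := by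
  obtain ⟨a, b, hab⟩ := h
  refine ⟨f a, f b, ?_⟩
  have h1 := MonoidHom.map_closure f {a, b}
  rw [hab, Subgroup.map_top_of_surjective f hf, Set.image_pair] at h1
  exact h1.symm

theorem psp {F : Type*} [Field F] [Fintype F] (m : ℕ) (hm : 2 ≤ m) (hF : m = 2 → 2 < Fintype.card F) :
    ∃ a b : Cfsg.PSp m F, Subgroup.closure ({a, b} : Set (Cfsg.PSp m F)) = ⊤ := by
  classical
  by_cases h3 : 3 ≤ m
  · obtain ⟨n, rfl⟩ : ∃ n, m = n + 3 := ⟨m - 3, by omega⟩
    exact two_of_surj (QuotientGroup.mk' _) (QuotientGroup.mk'_surjective _) SpTwoI.two_gen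
  · have hm2 : m = 2 := by omega
    subst hm2
    have hc := hF rfl
    obtain ⟨x, hx0, hx1⟩ : ∃ x : F, x ≠ 0 ∧ x ≠ 1 := by
      by_contra hn
      push Not at hn
      have h1 : (Finset.univ : Finset F) ⊆ {0, 1} := by
        intro x _
        rw [Finset.mem_insert, Finset.mem_singleton]
        by_cases h : x = 0
        · exact Or.inl h
        · exact Or.inr (hn x h)
      have h2 := Finset.card_le_card h1
      rw [Finset.card_univ] at h2
      have h3 : ({0, 1} : Finset F).card ≤ 2 := Finset.card_le_two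
      omega
    have hB := Cfsg.Agent.S2405.result (F := F) Cfsg.Lie.chevB2 (by simp) (fun _ => ⟨x, hx0, hx1⟩)
    obtain ⟨e1⟩ := Cfsg.Agent.S1083.result (F := F) ⟨x, hx0, hx1⟩
    have hP := two_of_surj e1.toMonoidHom e1.surjective hB
    rcases Nat.even_or_odd (Fintype.card F) with he | ho
    · have hchar : CharP F 2 := by
        obtain ⟨p, hp, k, hpp, hcard⟩ := FiniteField.card' F
        have : 2 ∣ p ^ (k : ℕ) := by rw [← hcard]; exact he.two_dvd
        have h4 := (Nat.prime_dvd_prime_iff_eq Nat.prime_two hpp).1 (Nat.prime_two.dvd_of_dvd_pow this)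
        rw [h4]; exact hp
      obtain ⟨e2⟩ := Cfsg.Agent.S0304.result (F := F) 2
      let f : Omega F (quadFormOdd 2 F) →* Matrix.symplecticGroup (Fin 2) F := e2.toMonoidHom.comp (Subgroup.subtype _)
      have hf : Function.Surjective f := by
        rw [← MonoidHom.range_eq_top, MonoidHom.range_comp, Subgroup.range_subtype]
        change Subgroup.map e2.toMonoidHom (commutator ↥(isometryGroup F (quadFormOdd 2 F))) = ⊤
        rw [commutator_def, Subgroup.map_commutator, Subgroup.map_top_of_surjective _ e2.surjective, ← commutator_def]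
        exact sp_perfect (Or.inr (Or.inl ⟨rfl, hc⟩))
      have hle : Subgroup.center (Omega F (quadFormOdd 2 F)) ≤ (Subgroup.center (Matrix.symplecticGroup (Fin 2) F)).comap f := by
        intro z hz
        rw [Subgroup.mem_comap, Subgroup.mem_center_iff]
        intro g
        obtain ⟨y, rfl⟩ := hf g
        rw [← map_mul, ← map_mul, Subgroup.mem_center_iff.1 hz]
      have hs : Function.Surjective (QuotientGroup.map _ _ f hle) := by
        intro y
        obtain ⟨y', rfl⟩ := QuotientGroup.mk'_surjective _ y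
        obtain ⟨z, rfl⟩ := hf y'
        exact ⟨QuotientGroup.mk z, rfl⟩
      exact two_of_surj _ hs hP
    · obtain ⟨e2⟩ := Cfsg.Agent.S0301.result (F := F) ho
      exact two_of_surj e2.toMonoidHom e2.surjective hP

end Cfsg.Agent.H16.SpTwoJ
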