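import Mathlib
import Cfsg.Agent.H16.OrTwoD
import Cfsg.Agent.H16.SpTwoJ
import Cfsg.Agent.H5.OrthForms
import Cfsg.Agent.H5.OmegaQuot

set_option autoImplicit false
set_option linter.all false
set_option maxHeartbeats 400000

/-! Two-generation of the three families of orthogonal groups. -/

namespace Cfsg.Agent.H16.OrTwoA

open Cfsg Cfsg.Agent.H5 Cfsg.Agent.H17 Cfsg.Agent.H17.Pol Cfsg.Agent.H16

section
variable {F V G PG : Type*} [Field F] [AddCommGroup V] [Module F V] [Group G] [Group PG]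
  {O : Pol F V G PG}

/-- the orthogonal complement -/
def perp (O : Pol F V G PG) (r : ℕ) (u : Bool → ℕ → V) : Submodule F V where
  carrier := {a | ∀ b i, i < r → O.B (u b i) a = 0}
  zero_mem' := fun b i _ => O.br_zero _
  add_mem' := fun {x y} hx hy b i hi => by rw [O.br_add, hx b i hi, hy b i hi, add_zero]
  smul_mem' := fun c x hx b i hi => by rw [O.br_smul, hx b i hi, mul_zero]

theorem Fr.mk' (r : ℕ) (u : Bool → ℕ → V) (h1 : ∀ b i, i < r → O.N (u b i) = 0)
    (h2 : ∀ b c i j, i < r → j < r → O.B (u b i) (u c j) = if i = j ∧ b ≠ c then 1 else 0) : Fr O r u (perp O r u) := by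
  refine ⟨h1, h2, fun b i hi a ha => ha b i hi, fun v => ?_⟩
  refine ⟨fun b i => O.B (u (!b) i) v, v - ∑ i ∈ Finset.range r, (O.B (u (!true) i) v • u true i + O.B (u (!false) i) v • u false i), ?_, by abel⟩
  intro b i hi
  rw [O.br_sub, map_sum, Finset.sum_eq_single i, O.br_add, O.br_smul, O.br_smul, h2 _ _ _ _ hi hi, h2 _ _ _ _ hi hi]
  · cases b <;> simp
  · intro j hj hji
    rw [Finset.mem_range] at hj
    rw [O.br_add, O.br_smul, O.br_smul, h2 _ _ _ _ hi hj, h2 _ _ _ _ hi hj, if_neg (fun h => hji h.1.symm), if_neg (fun h => hji h.1.symm)]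
    simp
  · intro h; exact absurd (Finset.mem_range.2 hi) h

end

section
variable {F : Type*} [Field F] [Fintype F] {ι : Type} [Fintype ι] [DecidableEq ι] {Q : QuadraticForm F (ι → F)}

theorem pom_two (hnd : ND Q) (hn : 5 ≤ Fintype.card ι) {m r : ℕ} (hr : 3 ≤ r) (hrm : r ≤ m) (σ : Bool → Fin m → ι)
    (hσ : ∀ b c i j, σ b i = σ c j ↔ b = c ∧ i = j) (hB : ∀ b i v, pB Q (Pi.single (σ b i) 1) v = v (σ (!b) i))
    (hQ : ∀ b i, Q (Pi.single (σ b i) 1) = 0) (a b : ι → F) (ha : ∀ (c : Bool) (i : Fin m), i.val < r → a (σ c i) = 0)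
    (hb : ∀ (c : Bool) (i : Fin m), i.val < r → b (σ c i) = 0) (hQa : Q a ≠ 0) (hab : pB Q a b ≠ 0)
    (hsp : ∀ v : ι → F, (∀ (c : Bool) (i : Fin m), i.val < r → v (σ c i) = 0) → ∃ s t : F, v = s • a + t • b) :
    ∃ x y : POmega F ⇑Q, Subgroup.closure ({x, y} : Set (POmega F ⇑Q)) = ⊤ := by
  have hfr : 5 ≤ Module.finrank F (ι → F) := by rw [Module.finrank_fintype_fun_eq_card]; exact hn
  obtain ⟨u, hu⟩ : ∃ u : Bool → ℕ → (ι → F), u = fun b i => if h : i < m then Pi.single (σ b ⟨i, h⟩) 1 else 0 := ⟨_, rfl⟩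
  have hu' : ∀ b i (h : i < m), u b i = Pi.single (σ b ⟨i, h⟩) 1 := by
    intro b i h
    rw [hu]; simp [h]
  have hBu : ∀ b i (h : i < m) v, (pomPol Q hnd hfr).B (u b i) v = v (σ (!b) ⟨i, h⟩) := by
    intro b i h v
    rw [hu' b i h]
    exact hB b ⟨i, h⟩ v
  have hF : Fr (pomPol Q hnd hfr) r u (perp (pomPol Q hnd hfr) r u) := by
    apply Fr.mk'
    · intro b i hi
      rw [hu' b i (by omega)]
      exact hQ _ _
    · intro b c i j hi hj
      rw [hBu b i (by omega), hu' c j (by omega), Pi.single_apply]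
      apply if_congr _ rfl rfl
      rw [hσ]
      constructor
      · rintro ⟨h1, h2⟩
        refine ⟨congrArg Fin.val h2, ?_⟩
        rw [← h1]; cases b <;> decide
      · rintro ⟨h1, h2⟩
        refine ⟨?_, Fin.ext h1⟩
        cases b <;> cases c <;> simp_all
  have hmem : ∀ v : ι → F, v ∈ perp (pomPol Q hnd hfr) r u ↔ ∀ (c : Bool) (i : Fin m), i.val < r → v (σ c i) = 0 := by
    intro v
    constructor
    · intro h c i hi
      have := h (!c) i.val hi
      rw [hBu (!c) i.val i.2, Bool.not_not] at this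
      exact this
    · intro h c i hi
      rw [hBu c i (by omega)]
      exact h _ _ hi
  have hHyp : (pomPol Q hnd hfr).Hyp (u true 0) (u false 0) := ⟨hF.N0 _ _ (by omega), hF.N0 _ _ (by omega), hF.Bopp (b := true) (by omega)⟩
  have h1 := hF.final ot_O hr (gen_O _ _ hHyp) ((hmem a).2 ha) ((hmem b).2 hb) hQa hab (by
    intro M haM hbM v hv
    obtain ⟨s, t, rfl⟩ := hsp v ((hmem v).1 hv)
    exact M.add_mem (M.smul_mem _ haM) (M.smul_mem _ hbM))
  exact SpTwoJ.two_of_surj (pomEquiv hnd hn).symm.toMonoidHom (pomEquiv hnd hn).symm.surjective h1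

end

section
variable {F : Type*} [Field F] [Fintype F]

theorem odd_two (hodd : Odd (Fintype.card F)) (m : ℕ) (hm : 3 ≤ m) :
    ∃ a b : Cfsg.POmega F (Cfsg.quadFormOdd m F), Subgroup.closure ({a, b} : Set (Cfsg.POmega F (Cfsg.quadFormOdd m F))) = ⊤ := by
  classical
  have h2 : (2 : F) ≠ 0 := by
    intro h
    obtain ⟨p, hp⟩ := CharP.exists F
    obtain ⟨n, hpp, hcard⟩ := FiniteField.card F p
    have h3 : ((2 : ℕ) : F) = 0 := by exact_mod_cast h
    rw [CharP.cast_eq_zero_iff F p] at h3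
    have h4 := (Nat.prime_dvd_prime_iff_eq hpp Nat.prime_two).1 h3
    rw [hcard, h4] at hodd
    exact (Nat.not_even_iff_odd.2 hodd) ((Nat.even_pow' n.ne_zero).2 even_two)
  rw [← qOdd_coe]
  refine pom_two (Q := qOdd m F) (nd_odd h2) (by simp; omega) (m := m) (r := m) hm le_rfl (fun b i => Sum.inr (if b then Sum.inl i else Sum.inr i))
    ?_ ?_ ?_ (Pi.single (Sum.inl ()) 1) (Pi.single (Sum.inl ()) 1) ?_ ?_ ?_ ?_ ?_
  · intro b c i j
    cases b <;> cases c <;> simp
  · intro b i v
    rw [pB_odd]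
    cases b <;> simp [Pi.single_apply]
  · intro b i
    rw [qOdd_coe, quadFormOdd]
    cases b <;> simp [Pi.single_apply]
  · intro c i _
    cases c <;> simp
  · intro c i _
    cases c <;> simp
  · rw [qOdd_coe, quadFormOdd]
    simp [Pi.single_apply]
  · rw [pB_odd]
    simp [Pi.single_apply, h2]
  · intro v hv
    refine ⟨v (Sum.inl ()), 0, ?_⟩
    funext k
    rcases k with ⟨⟩ | i | i
    · simp
    · have := hv true i i.2
      simp at this
      simp [this]
    · have := hv false i i.2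
      simp at this
      simp [this]

theorem plus_two (m : ℕ) (hm : 4 ≤ m) :
    ∃ a b : Cfsg.POmega F (Cfsg.quadFormPlus m F), Subgroup.closure ({a, b} : Set (Cfsg.POmega F (Cfsg.quadFormPlus m F))) = ⊤ := by
  classical
  obtain ⟨r, rfl⟩ : ∃ r, m = r + 1 := ⟨m - 1, by omega⟩
  rw [← qPlus_coe]
  refine pom_two (Q := qPlus (r + 1) F) nd_plus (by simp; omega) (m := r + 1) (r := r) (by omega) (by omega) (fun b i => (if b then Sum.inl i else Sum.inr i))
    ?_ ?_ ?_ (Pi.single (Sum.inl (Fin.last r)) 1 + Pi.single (Sum.inr (Fin.last r)) 1) (Pi.single (Sum.inl (Fin.last r)) 1) ?_ ?_ ?_ ?_ ?_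
  · intro b c i j
    cases b <;> cases c <;> simp
  · intro b i v
    rw [pB_plus]
    cases b <;> simp [Pi.single_apply]
  · intro b i
    rw [qPlus_coe, quadFormPlus]
    cases b <;> simp [Pi.single_apply]
  · intro c i hi
    have : i ≠ Fin.last r := by intro h; rw [h] at hi; exact absurd hi (by simp)
    cases c <;> simp [Pi.single_apply, this]
  · intro c i hi
    have : i ≠ Fin.last r := by intro h; rw [h] at hi; exact absurd hi (by simp)
    cases c <;> simp [Pi.single_apply, this]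
  · rw [qPlus_coe, quadFormPlus]
    simp [Pi.single_apply]
  · rw [pB_plus]
    simp [Pi.single_apply]
  · intro v hv
    refine ⟨v (Sum.inr (Fin.last r)), v (Sum.inl (Fin.last r)) - v (Sum.inr (Fin.last r)), ?_⟩
    funext k
    rcases k with i | i
    · by_cases h : i = Fin.last r
      · subst h; simp
      · have := hv true i (Fin.val_lt_last h)
        simp at this
        simp [this, h]
    · by_cases h : i = Fin.last r
      · subst h; simp
      · have := hv false i (Fin.val_lt_last h)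
        simp at this
        simp [this, h]

theorem minus_two (m : ℕ) (hm : 3 ≤ m) (a b : F)
    (hab : ∀ z₁ z₂ : F, z₁ ^ 2 + a * z₁ * z₂ + b * z₂ ^ 2 = 0 → z₁ = 0 ∧ z₂ = 0) :
    ∃ g h : Cfsg.POmega F (Cfsg.quadFormMinus m F a b),
      Subgroup.closure ({g, h} : Set (Cfsg.POmega F (Cfsg.quadFormMinus m F a b))) = ⊤ := by
  classical
  obtain ⟨s, hs⟩ : ∃ s : F, 2 * s + a ≠ 0 := by
    by_cases ha : a = 0
    · refine ⟨1, ?_⟩
      intro h
      rw [ha, mul_one, add_zero] at h
      exact (aniso_a h hab) ha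
    · exact ⟨0, by simpa using ha⟩
  rw [← qMinus_coe]
  refine pom_two (Q := qMinus m F a b) (nd_minus hab) (by simp; omega) (m := m) (r := m) hm le_rfl (fun b i => Sum.inl (if b then Sum.inl i else Sum.inr i))
    ?_ ?_ ?_ (Pi.single (Sum.inr 0) 1) (Pi.single (Sum.inr 0) s + Pi.single (Sum.inr 1) 1) ?_ ?_ ?_ ?_ ?_
  · intro b c i j
    cases b <;> cases c <;> simp
  · intro b i v
    rw [pB_minus]
    cases b <;> simp [Pi.single_apply]
  · intro b i
    rw [qMinus_coe, quadFormMinus]
    cases b <;> simp [Pi.single_apply]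
  · intro c i _
    cases c <;> simp
  · intro c i _
    cases c <;> simp
  · rw [qMinus_coe, quadFormMinus]
    simp [Pi.single_apply]
  · rw [pB_minus]
    simpa [Pi.single_apply] using hs
  · intro v hv
    refine ⟨v (Sum.inr 0) - s * v (Sum.inr 1), v (Sum.inr 1), ?_⟩
    funext k
    rcases k with (i | i) | i
    · have := hv true i i.2
      simp at this
      simp [this]
    · have := hv false i i.2
      simp at this
      simp [this]
    · fin_cases i
      · simp; ring
      · simp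

end

end Cfsg.Agent.H16.OrTwoA
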