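import Mathlib
import Cfsg.Agent.H16.PGrU2
import Cfsg.Agent.H16.PGr6

set_option autoImplicit false
set_option linter.all false

/-! Primes dividing centralizers of unipotent elements in `PSU_m(q)`. -/

namespace Cfsg.Agent.H16.PGrU

open Polynomial Module PGr SpecL3 H17 SpecLn

section su
variable {F : Type*} [Field F] [Fintype F] {q n : ℕ}

theorem su_rp_bound {p : ℕ} [Fact p.Prime] [CharP F p] (hF : Fintype.card F = q ^ 2) {σ : F →+* F} (hσ : ∀ x, σ x = x ^ q) (hn : 4 ≤ n)
    {x : Matrix (Fin n) (Fin n) F} (hxm : sT n σ x * x = 1)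
    {r : ℕ} (hr : r.Prime) (hrp : r ≠ p) (hrq : ¬ r ∣ q ^ 2 - 1) (hcop : q.Coprime r)
    (hx : x ^ (r * p) = 1) (hxr : x ^ r ≠ 1) (hxp : x ^ p ≠ 1) : orderOf (nq q r hcop) ≤ n - 2 := by
  classical
  have hp : p.Prime := Fact.out
  haveI : NeZero r := ⟨hr.ne_zero⟩
  haveI : Fact r.Prime := ⟨hr⟩
  have hcr : (Fintype.card F).Coprime r := by rw [hF]; exact Nat.Coprime.pow_left 2 hcop
  have hevr : ∀ z, Ev x z → z ^ r = 1 := by
    intro z hz
    have h1 := hz.pow_one hx
    rw [pow_mul] at h1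
    haveI : CharP (AlgebraicClosure F) p := charP_of_injective_algebraMap (algebraMap F (AlgebraicClosure F)).injective p
    have h2 : (z ^ r - 1) ^ p = 0 := by
      rw [sub_pow_char, h1, one_pow, sub_self]
    exact sub_eq_zero.1 (pow_eq_zero_iff hp.ne_zero |>.1 h2)
  obtain ⟨w, hw⟩ : ∃ w, 2 ≤ Mu x w := by
    by_contra hcon
    push Not at hcon
    exact hxr (pow_one_of_Mu hr.ne_zero (fun z => by have := hcon z; omega) hevr)
  obtain ⟨z, hz, hz1⟩ : ∃ z, Ev x z ∧ z ≠ 1 := by
    by_contra hcon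
    push Not at hcon
    obtain ⟨a, ha⟩ := exists_pow_of_ev (p := p) (x := x) (d := 1) (c := 1) (fun z hz => by rw [hcon z hz, one_pow, map_one])
    rw [one_mul, one_pow, map_one] at ha
    have h1 : orderOf x ∣ p ^ a := orderOf_dvd_of_pow_eq_one ha
    have h2 : orderOf x ∣ r * p := orderOf_dvd_of_pow_eq_one hx
    have h3 : orderOf x ∣ p := by
      apply Nat.Coprime.dvd_of_dvd_mul_left _ h2
      exact Nat.Coprime.coprime_dvd_left h1 (Nat.Coprime.pow_left _ ((Nat.coprime_primes hp hr).2 hrp.symm))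
    exact hxp (orderOf_dvd_iff_pow_eq_one.1 h3)
  have hT : ∀ u ∈ ({nq q r hcop} : Set (ZMod r)ˣ), ∀ w : AlgebraicClosure F, w ^ r = 1 → Ev x w → Ev x (w ^ (u : ZMod r).val) := by
    intro u hu w hw hE
    rw [Set.mem_singleton_iff] at hu
    subst hu
    have h1 : w ^ ((nq q r hcop : (ZMod r)ˣ) : ZMod r).val = (w ^ q)⁻¹ := by
      have h2 : r ∣ ((nq q r hcop : (ZMod r)ˣ) : ZMod r).val + q := by
        rw [← ZMod.natCast_eq_zero_iff]
        push_cast
        rw [ZMod.natCast_zmod_val, coe_nq]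
        ring
      obtain ⟨c, hc⟩ := h2
      apply eq_inv_of_mul_eq_one_left
      rw [← pow_add, hc, pow_mul, hw, one_pow]
    rw [h1]
    exact ev_unitary hF hσ hxm hE
  obtain ⟨e, he⟩ : ∃ e, e = orderOf (nq q r hcop) := ⟨_, rfl⟩
  have hcardH : Nat.card (Subgroup.closure {nq q r hcop}) = e := by
    rw [← Subgroup.zpowers_eq_closure, Nat.card_zpowers, he]
  have hsum : ∀ v : AlgebraicClosure F, orderOf v = r → Ev x v → e ≤ ∑ v ∈ orb r v (Subgroup.closure {nq q r hcop}), Mu x v := by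
    intro v ho hv
    rw [← hcardH, ← card_orb ho, Finset.card_eq_sum_ones]
    apply Finset.sum_le_sum
    intro u hu
    exact Mu_pos.1 (ev_orb ho _ hT hv hu)
  have ho : orderOf z = r := orderOf_eq_prime (hevr z hz) hz1
  rw [← he]
  by_cases hw1 : w = 1
  · have h2 : w ∉ orb r z (Subgroup.closure {nq q r hcop}) := by
      intro h
      have := orderOf_orb ho h
      rw [hw1, orderOf_one] at this
      exact hr.one_lt.ne this
    have h3 := sum_Mu_le x (insert w (orb r z (Subgroup.closure {nq q r hcop})))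
    rw [Finset.sum_insert h2, Fintype.card_fin] at h3
    have h4 := hsum z ho hz
    omega
  · have hwE : Ev x w := Mu_pos.2 (by omega)
    have ho' : orderOf w = r := orderOf_eq_prime (hevr w hwE) hw1
    have hqu : qu F r hcr = nq q r hcop ^ 2 := by
      apply Units.ext
      rw [Units.val_pow_eq_pow_val, coe_nq, neg_sq]
      unfold qu
      rw [ZMod.coe_unitOfCoprime, hF]
      push_cast; rfl
    have hsub' : Subgroup.closure {qu F r hcr} ≤ Subgroup.closure {nq q r hcop} := by
      rw [Subgroup.closure_le]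
      intro u hu
      rw [Set.mem_singleton_iff] at hu
      rw [hu, hqu]
      exact Subgroup.pow_mem _ (Subgroup.subset_closure (by simp)) 2
    have h1 : ∀ v ∈ orb r w (Subgroup.closure {qu F r hcr}), 2 ≤ Mu x v := by
      intro v hv
      exact pred_orb (fun v => 2 ≤ Mu x v) ho' {qu F r hcr} (fun u hu w hw h => by
        rw [Set.mem_singleton_iff] at hu
        subst hu
        exact pred_qu _ w hw h) hw hv
    have hsub : orb r w (Subgroup.closure {qu F r hcr}) ⊆ orb r w (Subgroup.closure {nq q r hcop}) := by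
      unfold orb
      apply Finset.image_subset_image
      intro u hu
      rw [Finset.mem_filter] at hu ⊢
      exact ⟨hu.1, hsub' hu.2⟩
    have h3 := sum_Mu_le x (orb r w (Subgroup.closure {nq q r hcop}))
    rw [← Finset.sum_sdiff hsub, Fintype.card_fin] at h3
    have h4 : 2 * (orb r w (Subgroup.closure {qu F r hcr})).card ≤ ∑ v ∈ orb r w (Subgroup.closure {qu F r hcr}), Mu x v := by
      rw [mul_comm, ← smul_eq_mul, ← Finset.sum_const]
      exact Finset.sum_le_sum h1
    have h5 : (orb r w (Subgroup.closure {nq q r hcop}) \ orb r w (Subgroup.closure {qu F r hcr})).card ≤ ∑ v ∈ orb r w (Subgroup.closure {nq q r hcop}) \ orb r w (Subgroup.closure {qu F r hcr}), Mu x v := by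
      rw [Finset.card_eq_sum_ones]
      apply Finset.sum_le_sum
      intro u hu
      rw [Finset.mem_sdiff] at hu
      exact Mu_pos.1 (ev_orb ho' _ hT hwE hu.1)
    have hk : Nat.card (Subgroup.closure {qu F r hcr}) = orderOf (nq q r hcop ^ 2) := by
      rw [← Subgroup.zpowers_eq_closure, Nat.card_zpowers, hqu]
    rw [Finset.card_sdiff_of_subset hsub, card_orb ho', card_orb ho', hcardH, hk] at h5
    rw [card_orb ho', hk] at h4
    have hepos : 0 < e := by rw [he]; exact orderOf_pos _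
    rcases Nat.even_or_odd e with hev | hodd
    · have h6 : orderOf (nq q r hcop ^ 2) = e / 2 := by
        rw [orderOf_pow_of_dvd (by norm_num) (by rw [← he]; exact hev.two_dvd), he]
      rw [h6] at h4 h5
      obtain ⟨t, ht⟩ := hev
      omega
    · have h6 : orderOf (nq q r hcop ^ 2) = e := by
        have h7 : (orderOf (nq q r hcop)).Coprime 2 := by rw [← he]; exact Nat.coprime_two_right.2 hodd
        rw [h7.orderOf_pow, he]
      rw [h6] at h4 h5
      omega

lemma dvd_ordU_of {r k : ℕ} [Fact r.Prime] (hcop : q.Coprime r) (hk : orderOf (nq q r hcop) ≤ k) (hq : 1 ≤ q) : r ∣ H5.ordU q k := by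
  haveI : NeZero r := ⟨(Fact.out : r.Prime).ne_zero⟩
  unfold H5.ordU
  apply Dvd.dvd.mul_left
  obtain ⟨e, he⟩ : ∃ e, e = orderOf (nq q r hcop) := ⟨_, rfl⟩
  have hepos : 0 < e := by rw [he]; exact orderOf_pos _
  have h0 := pow_orderOf_eq_one (nq q r hcop)
  have h2 := congrArg Units.val h0
  rw [Units.val_pow_eq_pow_val, coe_nq, Units.val_one, ← he] at h2
  have h1 : r ∣ (if Even (e - 1) then q ^ (e - 1 + 1) + 1 else q ^ (e - 1 + 1) - 1) := by
    rw [Nat.sub_add_cancel hepos]
    split_ifs with h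
    · have ho : Odd e := by
        obtain ⟨t, ht⟩ := h
        exact ⟨t, by omega⟩
      rw [ho.neg_pow] at h2
      rw [← ZMod.natCast_eq_zero_iff]
      push_cast
      linear_combination -h2
    · have ho : Even e := by
        rw [Nat.not_even_iff_odd] at h
        obtain ⟨t, ht⟩ := h
        exact ⟨t + 1, by omega⟩
      rw [ho.neg_pow] at h2
      rw [← ZMod.natCast_eq_zero_iff, Nat.cast_sub (Nat.one_le_pow _ _ hq)]
      push_cast
      rw [h2, sub_self]
  exact h1.trans (Finset.dvd_prod_of_mem (fun i => if Even i then q ^ (i + 1) + 1 else q ^ (i + 1) - 1) (Finset.mem_range.2 (by omega)))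

theorem psu_comm (p : ℕ) [Fact p.Prime] [CharP F p] (m q : ℕ) (hm : 4 ≤ m) (hF : Fintype.card F = q ^ 2)
    (a b : Cfsg.PSU m F q) (ha : orderOf a = p) (hab : Commute a b) :
    (orderOf b).primeFactors ⊆ (Nat.card ↥(Cfsg.SU (m - 2) F q)).primeFactors := by
  classical
  have hp : p.Prime := Fact.out
  obtain ⟨σ, hσ, hσ2, hσ1⟩ := H5.exists_frob hF
  have hq2 : 2 ≤ q := H5.q_pos hF
  have hq2' : q ^ 2 - 1 = (q + 1) * (q - 1) := by
    have := Nat.sq_sub_sq q 1
    rwa [one_pow] at this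
  obtain ⟨f, _, hf⟩ := FiniteField.card F p
  have hpq : p ∣ q := by
    have h1 : p ∣ q ^ 2 := by rw [← hF, hf]; exact dvd_pow_self p f.ne_zero
    exact hp.dvd_of_dvd_pow h1
  have hcard := H5.card_SU_mul (F := F) (n := m - 2) hF (by omega)
  -- the factor
  obtain ⟨k, hk⟩ : ∃ k, m - 2 = k + 2 := ⟨m - 4, by omega⟩
  have hU : H5.ordU q (m - 2) = (q + 1) * (q ^ (k + 1) * (q ^ 2 - 1) * (q ^ ((m - 2) * (m - 2 - 1) / 2 - (k + 1)) * ∏ i ∈ Finset.range k, (if Even (i + 2) then q ^ (i + 2 + 1) + 1 else q ^ (i + 2 + 1) - 1))) := by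
    unfold H5.ordU
    rw [hk, Finset.prod_range_succ', Finset.prod_range_succ']
    have h1 : k + 1 ≤ (k + 2) * (k + 2 - 1) / 2 := by
      rw [Nat.le_div_iff_mul_le (by norm_num)]
      have : k + 2 - 1 = k + 1 := by omega
      rw [this]; nlinarith
    have h2 : q ^ ((k + 2) * (k + 2 - 1) / 2) = q ^ (k + 1) * q ^ ((k + 2) * (k + 2 - 1) / 2 - (k + 1)) := by
      rw [← pow_add]; congr 1; omega
    rw [h2]
    simp
    ring
  have hSU : Nat.card ↥(Cfsg.SU (m - 2) F q) = q ^ (k + 1) * (q ^ 2 - 1) * (q ^ ((m - 2) * (m - 2 - 1) / 2 - (k + 1)) * ∏ i ∈ Finset.range k, (if Even (i + 2) then q ^ (i + 2 + 1) + 1 else q ^ (i + 2 + 1) - 1)) := by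
    rw [hU] at hcard
    exact Nat.eq_of_mul_eq_mul_left (by omega) hcard
  intro r hr
  rw [Nat.mem_primeFactors] at hr ⊢
  obtain ⟨hr, hrb, -⟩ := hr
  refine ⟨hr, ?_, Nat.card_pos.ne'⟩
  haveI : Fact r.Prime := ⟨hr⟩
  by_cases hrp : r = p
  · rw [hSU, hrp]
    apply Dvd.dvd.mul_right
    apply Dvd.dvd.mul_right
    exact dvd_pow hpq (by omega)
  by_cases hrq : r ∣ q ^ 2 - 1
  · rw [hSU]
    apply Dvd.dvd.mul_right
    exact hrq.mul_left _
  have hcop : q.Coprime r := by
    have := coprime_of_ne (F := F) hr hrp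
    rw [hF] at this
    exact Nat.Coprime.coprime_dvd_left (dvd_pow_self q (by norm_num)) this
  have hr1 : ¬ r ∣ q + 1 := fun h => hrq (by rw [hq2']; exact h.mul_right _)
  -- element of order rp
  have hbo : orderOf (b ^ (orderOf b / r)) = r := by
    obtain ⟨c, hc⟩ := hrb
    have hb0 : 0 < orderOf b := orderOf_pos b
    have hc0 : c ≠ 0 := by rintro rfl; rw [mul_zero] at hc; omega
    have h1 : orderOf b / r = c := by rw [hc, Nat.mul_div_cancel_left _ hr.pos]
    rw [h1, orderOf_pow_of_dvd hc0 (by rw [hc]; exact Dvd.intro_left _ rfl), hc, Nat.mul_div_cancel _ (Nat.pos_of_ne_zero hc0)]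
  have hgo : orderOf (b ^ (orderOf b / r) * a) = r * p := by
    rw [((hab.symm).pow_left _).orderOf_mul_eq_mul_orderOf_of_coprime (by rw [hbo, ha]; exact (Nat.coprime_primes hr hp).2 hrp), hbo, ha]
  have hZ : ∀ z ∈ Subgroup.center ↥(Cfsg.SU m F q), z ^ (Nat.gcd m (q + 1)) = 1 := fun z hz => center_pow hF (by omega) hz
  have hpq1 : ¬ p ∣ q + 1 := fun h => by
    have := (Nat.dvd_add_right hpq).1 h
    exact hp.one_lt.ne' (Nat.dvd_one.1 this)
  obtain ⟨x, hx⟩ := exists_lift' hZ hgo (by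
    apply Nat.Coprime.mul_left
    · rw [Nat.Prime.coprime_iff_not_dvd hr]
      exact fun h => hr1 (h.trans (Nat.gcd_dvd_right _ _))
    · rw [Nat.Prime.coprime_iff_not_dvd hp]
      exact fun h => hpq1 (h.trans (Nat.gcd_dvd_right _ _)))
  have hpow : ∀ j, mt x ^ j = 1 ↔ r * p ∣ j := by
    intro j
    rw [← mt_pow, ← mt_one, ← hx, orderOf_dvd_iff_pow_eq_one]
    exact ⟨fun h => mt_inj h, fun h => by rw [h]⟩
  have hb := su_rp_bound (p := p) hF hσ hm (mt_unitary hσ hσ2 x) hr hrp hrq hcop ((hpow _).2 dvd_rfl)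
    (fun h => by
      have := Nat.le_of_dvd hr.pos ((hpow _).1 h)
      have h5 := hp.two_le
      have h6 := hr.pos
      nlinarith)
    (fun h => by
      have := Nat.le_of_dvd hp.pos ((hpow _).1 h)
      have h5 := hr.two_le
      have h6 := hp.pos
      nlinarith)
  have hd := dvd_ordU_of hcop hb (by omega)
  rw [← hcard] at hd
  rcases hr.dvd_mul.1 hd with h | h
  · exact absurd h hr1
  · exact h

end su

end Cfsg.Agent.H16.PGrU
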