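import Mathlib
import Cfsg.Agent.H16.InvPGL

set_option autoImplicit false
set_option linter.all false

/-! Classes of elements of prime order in `GL_n(q)`. -/

namespace Cfsg.Agent.H16.PrOrd

open Module Matrix Polynomial UniqueFactorizationMonoid

lemma card_le_sum (P : Type*) [Fintype P] (N : ℕ) : Nat.card {c : P → ℕ // ∑ x, c x ≤ N} = (N + Fintype.card P).choose (Fintype.card P) := by
  classical
  let e : {c : P → ℕ // ∑ x, c x ≤ N} ≃ {c : Option P → ℕ // ∑ x, c x = N} :=
    { toFun := fun c => ⟨fun o => o.elim (N - ∑ x, c.1 x) c.1, by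
        rw [Fintype.sum_option]; have := c.2; simp only [Option.elim]; omega⟩
      invFun := fun c => ⟨fun x => c.1 (some x), by
        have := c.2; rw [Fintype.sum_option] at this
        show ∑ x, c.1 (some x) ≤ N
        omega⟩
      left_inv := fun c => rfl
      right_inv := fun c => by
        apply Subtype.ext
        funext o
        have := c.2; rw [Fintype.sum_option] at this
        rcases o with _ | x
        · simp only [Option.elim]; omega
        · rfl }
  rw [Nat.card_congr e, Nat.card_congr (Sym.equivNatSumOfFintype (Option P) N).symm, Nat.card_eq_fintype_card, Sym.card_sym_eq_choose,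
    Fintype.card_option]
  rw [show Fintype.card P + 1 + N - 1 = N + Fintype.card P by omega]
  exact Nat.choose_symm_add

lemma card_le_sum_ne (P : Type*) [Fintype P] (N : ℕ) : Nat.card {c : P → ℕ // c ≠ 0 ∧ ∑ x, c x ≤ N} = (N + Fintype.card P).choose (Fintype.card P) - 1 := by
  classical
  rw [← card_le_sum P N]
  haveI : Finite {c : P → ℕ // ∑ x, c x ≤ N} := by
    apply Finite.of_injective (fun c : {c : P → ℕ // ∑ x, c x ≤ N} => fun x => (⟨c.1 x, by
      have h1 := c.2
      have h2 : c.1 x ≤ ∑ x, c.1 x := Finset.single_le_sum (fun _ _ => Nat.zero_le _) (Finset.mem_univ x)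
      omega⟩ : Fin (N + 1)))
    intro a b h
    apply Subtype.ext; funext x
    have := congrFun h x
    simpa using this
  haveI : Fintype {c : P → ℕ // ∑ x, c x ≤ N} := Fintype.ofFinite _
  let z : {c : P → ℕ // ∑ x, c x ≤ N} := ⟨0, by simp⟩
  have e : {c : P → ℕ // c ≠ 0 ∧ ∑ x, c x ≤ N} ≃ {c : {c : P → ℕ // ∑ x, c x ≤ N} // c ≠ z} :=
    { toFun := fun c => ⟨⟨c.1, c.2.2⟩, fun h => c.2.1 (congrArg Subtype.val h)⟩
      invFun := fun c => ⟨c.1.1, fun h => c.2 (Subtype.ext h), c.1.2⟩
      left_inv := fun c => rfl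
      right_inv := fun c => rfl }
  rw [Nat.card_congr e, Nat.card_eq_fintype_card, Nat.card_eq_fintype_card]
  simp

section
variable {F : Type*} [Field F]

/-- the characteristic polynomial of a semisimple module killed by `f` is a product of irreducible factors of `f` -/
lemma cp_mem {f : F[X]} : ∀ (n : ℕ) {M : Type*} [AddCommGroup M] [Module F M] [Module F[X] M]
    [IsScalarTower F F[X] M] [FiniteDimensional F M] [IsSemisimpleModule F[X] M], finrank F M = n → (∀ x : M, f • x = 0) →
    SSim.cp (F := F) M ∈ Submonoid.closure {π : F[X] | π.Monic ∧ Irreducible π ∧ π ∣ f} := by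
  intro n
  induction n using Nat.strong_induction_on with
  | _ n ih =>
    intro M _ _ _ _ _ _ hn h0
    rcases subsingleton_or_nontrivial M with hs | hnt
    · have h1 := SSim.cp_natDegree (F := F) (M := M)
      rw [finrank_zero_of_subsingleton] at h1
      rw [(SSim.cp_monic (F := F) (M := M)).natDegree_eq_zero.1 h1]
      exact one_mem _
    · obtain ⟨q, hqm, hq, N, ⟨e⟩⟩ := SSim.exists_simple (F := F) (M := M)
      haveI := SSim.finite_QQ hqm
      haveI : FiniteDimensional F N := inferInstanceAs (FiniteDimensional F (N.restrictScalars F))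
      have h1 : SSim.cp (F := F) M = q * SSim.cp (F := F) N := by rw [SSim.cp_congr e, SSim.cp_prod, SSim.cp_QQ hqm]
      have hqf : q ∣ f := by
        have h2 := h0 (e.symm (Submodule.Quotient.mk (1 : F[X]), 0))
        rw [← map_smul] at h2
        have h3 := (LinearEquiv.map_eq_zero_iff e.symm).1 h2
        have h4 : f • (Submodule.Quotient.mk (1 : F[X]) : F[X] ⧸ Ideal.span {q}) = 0 := congrArg Prod.fst h3
        rwa [← Submodule.Quotient.mk_smul, smul_eq_mul, mul_one, Submodule.Quotient.mk_eq_zero, Ideal.mem_span_singleton] at h4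
      have h4 : finrank F N < n := by
        rw [← hn, ← SSim.cp_natDegree (F := F) (M := M), ← SSim.cp_natDegree (F := F) (M := N), h1, (hqm.natDegree_mul (SSim.cp_monic (F := F) (M := N)))]
        have := hq.natDegree_pos
        omega
      rw [h1]
      exact mul_mem (Submonoid.subset_closure ⟨hqm, hq, hqf⟩) (ih _ h4 (M := N) rfl (fun x => Subtype.ext (h0 x.1)))

lemma charpoly_mem {V : Type*} [AddCommGroup V] [Module F V] [FiniteDimensional F V] {f : F[X]} (hf : Squarefree f) {g : Module.End F V} (hg : aeval g f = 0) :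
    g.charpoly ∈ Submonoid.closure {π : F[X] | π.Monic ∧ Irreducible π ∧ π ∣ f} := by
  have hfs : g.IsSemisimple := Module.End.isSemisimple_of_squarefree_aeval_eq_zero hf hg
  haveI : IsSemisimpleModule F[X] (AEval' g) := hfs
  haveI : FiniteDimensional F (AEval' g) := (AEval'.of g).finiteDimensional
  rw [← SSim.cp_aeval g]
  apply cp_mem _ (M := AEval' g) rfl
  intro x
  obtain ⟨v, rfl⟩ := (AEval'.of g).surjective x
  rw [← AEval.of_aeval_smul, hg]; simp

variable [DecidableEq F] {P : Finset F[X]} (hP : ∀ π ∈ P, π.Monic ∧ Irreducible π) (h1 : (X - 1 : F[X]) ∉ P)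

noncomputable def pl (P : Finset F[X]) (a : ℕ) (c : P → ℕ) : F[X] := (X - 1) ^ a * ∏ π : P, (π : F[X]) ^ c π

include hP in
lemma pl_monic (a : ℕ) (c : P → ℕ) : (pl P a c).Monic := by
  unfold pl
  apply Monic.mul ((monic_X_sub_C 1).pow a)
  exact monic_prod_of_monic _ _ (fun π _ => (hP π π.2).1.pow _)

include hP in
lemma pl_natDegree {i : ℕ} (hi : ∀ π ∈ P, π.natDegree = i) (a : ℕ) (c : P → ℕ) : (pl P a c).natDegree = a + i * ∑ π, c π := by
  have hmon : (X - 1 : F[X]).Monic := monic_X_sub_C 1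
  have hd : (X - 1 : F[X]).natDegree = 1 := natDegree_X_sub_C 1
  have h0 : (∏ π : P, (π : F[X]) ^ c π).Monic := monic_prod_of_monic _ _ (fun (π : P) _ => (hP π π.2).1.pow _)
  unfold pl
  rw [Monic.natDegree_mul (hmon.pow a) h0, hmon.natDegree_pow, hd,
    natDegree_prod_of_monic _ _ (fun (π : P) _ => (hP π π.2).1.pow _), mul_one, Finset.mul_sum]
  congr 1
  apply Finset.sum_congr rfl
  intro π _
  rw [(hP π π.2).1.natDegree_pow, hi π π.2, mul_comm]

include hP h1 in
lemma count_pl (a : ℕ) (c : P → ℕ) (π : P) : (normalizedFactors (pl P a c)).count (π : F[X]) = c π := by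
  have h0 : ∏ π : P, (π : F[X]) ^ c π ≠ 0 := (monic_prod_of_monic _ _ (fun (π : P) _ => (hP π π.2).1.pow _)).ne_zero
  have hirr : Irreducible (X - 1 : F[X]) := irreducible_X_sub_C 1
  have hmon : (X - 1 : F[X]).Monic := monic_X_sub_C 1
  unfold pl
  rw [normalizedFactors_mul (pow_ne_zero _ hmon.ne_zero) h0, Multiset.count_add, normalizedFactors_pow, normalizedFactors_irreducible hirr,
    hmon.normalize_eq_self, Multiset.count_nsmul, Multiset.count_singleton, if_neg (fun h : (π : F[X]) = X - 1 => h1 (h ▸ π.2)), mul_zero, zero_add]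
  have h2 : ∀ s : Finset P, (normalizedFactors (∏ π ∈ s, (π : F[X]) ^ c π)).count (π : F[X]) = if π ∈ s then c π else 0 := by
    intro s
    induction s using Finset.induction_on with
    | empty => simp
    | insert x s hx ih =>
      rw [Finset.prod_insert hx, normalizedFactors_mul (pow_ne_zero _ (hP x x.2).1.ne_zero)
        ((monic_prod_of_monic _ _ (fun (π : P) _ => (hP π π.2).1.pow _)).ne_zero), Multiset.count_add, ih, normalizedFactors_pow,
        normalizedFactors_irreducible (hP x x.2).2, (hP x x.2).1.normalize_eq_self, Multiset.count_nsmul, Multiset.count_singleton]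
      by_cases hxp : π = x
      · subst hxp
        rw [if_pos rfl, if_neg hx, if_pos (Finset.mem_insert_self _ _)]; simp
      · rw [if_neg (fun h => hxp (Subtype.ext h))]
        by_cases hs : π ∈ s
        · rw [if_pos hs, if_pos (Finset.mem_insert_of_mem hs)]; simp
        · rw [if_neg hs, if_neg (by simp [hxp, hs])]; simp
  rw [h2, if_pos (Finset.mem_univ _)]

lemma pl_of_mem {f : F[X]} (hf : ∀ π : F[X], π.Monic → Irreducible π → π ∣ f → π = X - 1 ∨ π ∈ P) {g : F[X]}
    (hg : g ∈ Submonoid.closure {π : F[X] | π.Monic ∧ Irreducible π ∧ π ∣ f}) : ∃ a, ∃ c : P → ℕ, g = pl P a c := by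
  induction hg using Submonoid.closure_induction with
  | mem π hπ =>
    obtain ⟨hm, hi, hd⟩ := hπ
    rcases hf π hm hi hd with rfl | hπP
    · exact ⟨1, 0, by simp [pl]⟩
    · refine ⟨0, Pi.single ⟨π, hπP⟩ 1, ?_⟩
      unfold pl
      rw [pow_zero, one_mul, Finset.prod_eq_single (⟨π, hπP⟩ : P)]
      · rw [Pi.single_eq_same, pow_one]
      · intro b _ hb
        rw [Pi.single_eq_of_ne hb, pow_zero]
      · intro h; exact absurd (Finset.mem_univ _) h
  | one => exact ⟨0, 0, by simp [pl]⟩
  | mul x y _ _ hx hy =>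
    obtain ⟨a, c, rfl⟩ := hx
    obtain ⟨b, d, rfl⟩ := hy
    refine ⟨a + b, c + d, ?_⟩
    unfold pl
    rw [pow_add]
    have : ∏ π : P, (π : F[X]) ^ (c + d) π = (∏ π : P, (π : F[X]) ^ c π) * ∏ π : P, (π : F[X]) ^ d π := by
      rw [← Finset.prod_mul_distrib]
      exact Finset.prod_congr rfl (fun π _ => by rw [Pi.add_apply, pow_add])
    rw [this]; ring

/-- existence -/
lemma exists_pow_one [Fintype F] {n r : ℕ} (hr : 0 < r) {f : F[X]} (hf : f.Monic) (hn : f.natDegree = n) (hd : f ∣ (X ^ r - 1) ^ n) :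
    ∃ g : GL (Fin n) F, g ^ r = 1 ∧ (g : Matrix (Fin n) (Fin n) F).charpoly = f := by
  obtain ⟨M, hM⟩ := SSim.exists_with_charpoly f hf hn
  obtain ⟨p, hp⟩ := CharP.exists F
  obtain ⟨e, hpp, hq⟩ := FiniteField.card F p
  haveI : Fact p.Prime := ⟨hpp⟩
  have h1 : (M ^ r - 1) ^ n = 0 := by
    obtain ⟨k, hk⟩ := hd
    have h2 := congrArg (aeval M) hk
    rw [map_mul, ← hM, Matrix.aeval_self_charpoly, zero_mul] at h2
    simpa using h2
  have hqn : n ≤ Fintype.card F ^ n := (Nat.lt_pow_self Fintype.one_lt_card).le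
  have h2 : (M ^ r - 1) ^ (Fintype.card F ^ n) = 0 := by
    rw [show Fintype.card F ^ n = n + (Fintype.card F ^ n - n) by omega, pow_add, h1, zero_mul]
  have h3 : (M ^ (Fintype.card F ^ n)) ^ r = 1 := by
    rw [← pow_mul, mul_comm, pow_mul]
    have h4 : (M ^ r - 1) ^ (Fintype.card F ^ n) = (M ^ r) ^ (Fintype.card F ^ n) - 1 := by
      rw [hq, ← pow_mul]
      rcases Nat.eq_zero_or_pos n with rfl | hn0
      · exact Subsingleton.elim _ _
      · haveI : Nonempty (Fin n) := ⟨⟨0, hn0⟩⟩
        haveI : CharP (Matrix (Fin n) (Fin n) F) p := inferInstance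
        rw [sub_pow_char_pow_of_commute _ _ (Commute.one_right _), one_pow]
    rw [h4, sub_eq_zero] at h2
    exact h2
  obtain ⟨r', rfl⟩ := Nat.exists_eq_add_of_lt hr
  rw [zero_add] at h3 ⊢
  let g : GL (Fin n) F := ⟨M ^ (Fintype.card F ^ n), (M ^ (Fintype.card F ^ n)) ^ r', by rw [← pow_succ']; exact h3, by rw [← pow_succ]; exact h3⟩
  refine ⟨g, Units.ext h3, ?_⟩
  show (M ^ (Fintype.card F ^ n)).charpoly = f
  have : ∀ t : ℕ, (M ^ (Fintype.card F ^ t)).charpoly = M.charpoly := by
    intro t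
    induction t with
    | zero => simp
    | succ t ih =>
      rw [pow_succ, pow_mul, FiniteField.Matrix.charpoly_pow_card, ih]
  rw [this, hM]

end

theorem count {F : Type*} [Field F] [Fintype F] {p q : ℕ} [Fact p.Prime] [CharP F p] (hF : Fintype.card F = q) (n r i t : ℕ) (hr : r.Prime) (hrp : r ≠ p)
    (hi : i = orderOf (q : ZMod r)) (ht : t * i = r - 1) :
    Nat.card {C : ConjClasses (GL (Fin n) F) // ∃ g : GL (Fin n) F, ConjClasses.mk g = C ∧ orderOf g = r} = Nat.choose (n / i + t) t - 1 := by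
  classical
  haveI : Fact r.Prime := ⟨hr⟩
  have hrF : (r : F) ≠ 0 := by
    intro h
    rw [CharP.cast_eq_zero_iff F p] at h
    exact hrp ((Nat.prime_dvd_prime_iff_eq Fact.out hr).1 h).symm
  obtain ⟨e, hpp, hq⟩ := FiniteField.card F p
  have hcop : p.Coprime r := (Nat.coprime_primes hpp hr).2 hrp.symm
  set P : Finset F[X] := (normalizedFactors (cyclotomic r F)).toFinset with hPdef
  have hord : orderOf (ZMod.unitOfCoprime _ (hcop.pow_left (e : ℕ))) = i := by
    rw [hi, ← orderOf_units, ZMod.coe_unitOfCoprime, ← hF, hq]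
  have hi0 : 0 < i := by rw [← hord]; exact orderOf_pos _
  have hPc : P.card = t := by
    rw [hPdef, normalizedFactors_cyclotomic_card hq hcop, hord, Nat.totient_prime hr, ← ht, Nat.mul_div_cancel _ hi0]
  have hPd : ∀ π ∈ P, π.natDegree = i := by
    intro π hπ
    rw [hPdef, Multiset.mem_toFinset] at hπ
    rw [natDegree_of_mem_normalizedFactors_cyclotomic hq hcop hπ, hord]
  have hP : ∀ π ∈ P, π.Monic ∧ Irreducible π := by
    intro π hπ
    rw [hPdef, Multiset.mem_toFinset] at hπ
    have hirr := irreducible_of_normalized_factor π hπ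
    refine ⟨?_, hirr⟩
    rw [← normalize_normalized_factor π hπ]
    exact monic_normalize hirr.ne_zero
  have hPdvd : ∀ π ∈ P, π ∣ cyclotomic r F := by
    intro π hπ
    rw [hPdef, Multiset.mem_toFinset] at hπ
    exact dvd_of_mem_normalizedFactors hπ
  have h1P : (X - 1 : F[X]) ∉ P := by
    intro h
    have h2 := hPdvd _ h
    have h3 : (cyclotomic r F).IsRoot 1 := by
      rw [← dvd_iff_isRoot]; exact h2
    rw [IsRoot, eval_one_cyclotomic_prime] at h3
    exact hrF h3
  have hcyc : (X ^ r - 1 : F[X]) = (X - 1) * cyclotomic r F := by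
    rw [← prod_cyclotomic_eq_X_pow_sub_one hr.pos, hr.divisors, Finset.prod_insert (by rw [Finset.mem_singleton]; exact hr.one_lt.ne), Finset.prod_singleton, cyclotomic_one]
  have hsq : Squarefree (X ^ r - 1 : F[X]) := SSim.squarefree_of_pow hrF
  have hfac : ∀ π : F[X], π.Monic → Irreducible π → π ∣ X ^ r - 1 → π = X - 1 ∨ π ∈ P := by
    intro π hm hirr hd
    rw [hcyc] at hd
    rcases hirr.prime.dvd_or_dvd hd with h | h
    · left
      exact eq_of_monic_of_associated hm (monic_X_sub_C 1) (hirr.associated_of_dvd (irreducible_X_sub_C 1) h)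
    · right
      rw [hPdef, Multiset.mem_toFinset, mem_normalizedFactors_iff' (cyclotomic_ne_zero r F)]
      exact ⟨hirr, hm.normalize_eq_self, h⟩
  have hT : Nat.card {c : P → ℕ // c ≠ 0 ∧ ∑ x, c x ≤ n / i} = Nat.choose (n / i + t) t - 1 := by
    rw [card_le_sum_ne, Fintype.card_coe, hPc]
  rw [← hT]
  have hle : ∀ c : P → ℕ, (∑ x, c x ≤ n / i ↔ i * ∑ x, c x ≤ n) := by
    intro c
    rw [Nat.le_div_iff_mul_le hi0, mul_comm]
  have hex : ∀ c : {c : P → ℕ // c ≠ 0 ∧ ∑ x, c x ≤ n / i}, ∃ g : GL (Fin n) F, g ^ r = 1 ∧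
      (g : Matrix (Fin n) (Fin n) F).charpoly = pl P (n - i * ∑ x, c.1 x) c.1 := by
    intro c
    have hc := (hle c.1).1 c.2.2
    have hdeg : (pl P (n - i * ∑ x, c.1 x) c.1).natDegree = n := by
      rw [pl_natDegree hP hPd]; omega
    apply exists_pow_one hr.pos (pl_monic hP _ _) hdeg
    unfold pl
    have h5 : (∏ π : P, (π : F[X]) ^ c.1 π) ∣ (∏ π : P, (cyclotomic r F) ^ c.1 π) :=
      Finset.prod_dvd_prod_of_dvd _ _ (fun π _ => pow_dvd_pow_of_dvd (hPdvd _ π.2) _)
    rw [Finset.prod_pow_eq_pow_sum] at h5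
    have h6 : ∑ x, c.1 x ≤ i * ∑ x, c.1 x := Nat.le_mul_of_pos_left _ hi0
    rw [hcyc, mul_pow]
    exact mul_dvd_mul (pow_dvd_pow _ (by omega)) (h5.trans (pow_dvd_pow _ (by omega)))
  choose J hJ1 hJ2 using hex
  have hone : ((1 : GL (Fin n) F) : Matrix (Fin n) (Fin n) F).charpoly = pl P n 0 := by
    rw [Units.val_one, Matrix.charpoly_one, Fintype.card_fin]; simp [pl]
  apply InvP.card_classes' (fun x : GL (Fin n) F => orderOf x = r) J
  · intro c
    apply orderOf_eq_prime (hJ1 c)
    intro h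
    have h2 := hJ2 c
    rw [h, hone] at h2
    apply c.2.1
    funext π
    have h3 := count_pl hP h1P n 0 π
    rw [h2, count_pl hP h1P] at h3
    exact h3
  · intro g hg
    have hgr : g ^ r = 1 := by rw [← hg]; exact pow_orderOf_eq_one g
    have hE : (toLin' (g : Matrix (Fin n) (Fin n) F)) ^ r = 1 := by
      rw [← toLin'_pow, ← Units.val_pow_eq_pow_val, hgr]; simp; rfl
    have hmem := charpoly_mem hsq (g := toLin' (g : Matrix (Fin n) (Fin n) F)) (by rw [map_sub, map_pow, aeval_X, hE, map_one, sub_self])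
    rw [Matrix.charpoly_toLin'] at hmem
    obtain ⟨a, c, hac⟩ := pl_of_mem hfac hmem
    have hdeg := congrArg natDegree hac
    rw [pl_natDegree hP hPd, Matrix.charpoly_natDegree_eq_dim, Fintype.card_fin] at hdeg
    have hc0 : c ≠ 0 := by
      rintro rfl
      simp only [Pi.zero_apply, Finset.sum_const_zero, mul_zero, add_zero] at hdeg
      subst hdeg
      obtain ⟨Q, hQ⟩ := SSim.gl_conj_of_charpoly (h := 1) hrF hrF hgr (one_pow r) (hac.trans hone.symm)
      rw [one_mul, mul_eq_left] at hQ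
      rw [hQ, orderOf_one] at hg
      exact hr.one_lt.ne hg
    refine ⟨⟨c, hc0, (hle c).2 (by omega)⟩, ?_⟩
    have ha : a = n - i * ∑ x, c x := by omega
    obtain ⟨Q, hQ⟩ := SSim.gl_conj_of_charpoly hrF hrF (hJ1 ⟨c, hc0, (hle c).2 (by omega)⟩) hgr (by rw [hJ2]; exact ((congrArg (fun a => pl P a c) ha).symm.trans hac.symm))
    rw [isConj_iff]
    exact ⟨Q, by rw [hQ, mul_inv_cancel_right]⟩
  · intro c d h
    obtain ⟨Q, hQ⟩ := isConj_iff.1 h
    have h1 : (J d : Matrix (Fin n) (Fin n) F).charpoly = (J c : Matrix (Fin n) (Fin n) F).charpoly := by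
      rw [← hQ, Units.val_mul, Units.val_mul, Matrix.coe_units_inv, charpoly_units_conj]
    rw [hJ2, hJ2] at h1
    apply Subtype.ext
    funext π
    rw [← count_pl hP h1P (n - i * ∑ x, c.1 x) c.1 π, ← h1, count_pl hP h1P]

end Cfsg.Agent.H16.PrOrd
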