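import Mathlib
import Cfsg.Agent.H17.QClass2
import Cfsg.Agent.H5.OrthForms

set_option autoImplicit false
set_option linter.all false

/-! Quadratic forms over the field of two elements with a given polarization. -/

namespace Cfsg.Agent.H16.QF2

open Cfsg.Agent.H5

variable (m : ℕ)

abbrev VV (m : ℕ) : Type := Fin m ⊕ Fin m → ZMod 2
abbrev q0 (m : ℕ) : VV m → ZMod 2 := Cfsg.quadFormPlus m (ZMod 2)

/-- the polarization -/
def ff (m : ℕ) (u v : VV m) : ZMod 2 := q0 m (u + v) - q0 m u - q0 m v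

lemma ff_eq (u v : VV m) : ff m u v = pB (qPlus m (ZMod 2)) u v := by
  rw [pB_apply, QuadraticMap.polar, qPlus_coe]; rfl

/-- forms polarizing to `ff` -/
def IsPol (q : VV m → ZMod 2) : Prop := ∀ u v, q (u + v) = q u + q v + ff m u v

/-- the form `q0 + f(·, w)` -/
noncomputable def Qw (w : VV m) : QuadraticForm (ZMod 2) (VV m) :=
  qPlus m (ZMod 2) + QuadraticMap.linMulLin (pB (qPlus m (ZMod 2)) w) (pB (qPlus m (ZMod 2)) w)

lemma sq_self (x : ZMod 2) : x * x = x := by revert x; decide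
lemma add_self (x : ZMod 2) : x + x = 0 := by revert x; decide

lemma Qw_apply (w v : VV m) : Qw m w v = q0 m v + ff m v w := by
  unfold Qw
  rw [QuadraticMap.add_apply, QuadraticMap.linMulLin_apply, sq_self, qPlus_coe, pB_symm, ← ff_eq]

lemma q0_add (u v : VV m) : q0 m (u + v) = q0 m u + q0 m v + ff m u v := by
  unfold ff; ring

lemma ff_add_left (u v w : VV m) : ff m (u + v) w = ff m u w + ff m v w := by
  simp only [ff_eq, map_add, LinearMap.add_apply]

lemma ff_add_right (u v w : VV m) : ff m u (v + w) = ff m u v + ff m u w := by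
  simp only [ff_eq, map_add]

lemma ff_symm (u v : VV m) : ff m u v = ff m v u := by rw [ff_eq, ff_eq, pB_symm]

lemma Qw_pol (w : VV m) : IsPol m (Qw m w) := by
  intro u v
  rw [Qw_apply, Qw_apply, Qw_apply, q0_add, ff_add_left]; ring

lemma pB_Qw (w x y : VV m) : pB (Qw m w) x y = pB (qPlus m (ZMod 2)) x y := by
  rw [pB_apply, QuadraticMap.polar, Qw_pol m w x y, ← ff_eq]; ring

lemma nd_Qw (w : VV m) : ND (Qw m w) := by
  intro x hx
  apply nd_plus (m := m) (F := ZMod 2) x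
  intro y
  rw [← pB_Qw m w]; exact hx y

/-- every form polarizing to `f` is some `Qw` -/
lemma exists_w {q : VV m → ZMod 2} (hq : IsPol m q) : ∃ w, ∀ v, q v = Qw m w v := by
  have h0 : q 0 = 0 := by
    have h1 := hq 0 0
    rw [add_zero] at h1
    have h2 : ff m 0 0 = 0 := by rw [ff_eq]; simp
    rw [h2, add_zero] at h1
    have := add_self (q 0)
    rw [← h1] at this
    exact this
  let g : VV m →+ ZMod 2 :=
    { toFun := fun v => q v - q0 m v
      map_zero' := by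
        rw [h0]
        have : q0 m 0 = 0 := by simp [q0, Cfsg.quadFormPlus]
        rw [this, sub_zero]
      map_add' := by
        intro u v
        rw [hq u v, q0_add]; ring }
  let gl : VV m →ₗ[ZMod 2] ZMod 2 := g.toZModLinearMap 2
  have hinj : Function.Injective (pB (qPlus m (ZMod 2))) := by
    rw [injective_iff_map_eq_zero]
    intro x hx
    apply nd_plus (m := m) (F := ZMod 2) x
    intro y
    rw [hx]; rfl
  have hsurj : Function.Surjective (pB (qPlus m (ZMod 2))) := by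
    rw [← LinearMap.injective_iff_surjective_of_finrank_eq_finrank]
    · exact hinj
    · exact (Subspace.dual_finrank_eq).symm
  obtain ⟨w, hw⟩ := hsurj gl
  refine ⟨w, fun v => ?_⟩
  rw [Qw_apply, ff_symm, ff_eq, hw]
  show q v = q0 m v + (q v - q0 m v)
  ring

lemma zn_shift {q : VV m → ZMod 2} (hq : IsPol m q) (w : VV m) :
    Nat.card {v : VV m // q v + ff m v w = 0} = Nat.card {v : VV m // q v = q w} := by
  apply Nat.card_congr
  refine Equiv.subtypeEquiv (Equiv.addRight w) fun v => ?_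
  rw [Equiv.coe_addRight, hq v w]
  constructor
  · intro h
    have : q v + q w + ff m v w = (q v + ff m v w) + q w := by ring
    rw [this, h, zero_add]
  · intro h
    have : q v + ff m v w = (q v + q w + ff m v w) - q w := by ring
    rw [this, h, sub_self]

lemma card_level (hm : 1 ≤ m) (c : ZMod 2) : Nat.card {v : VV m // q0 m v = c} = if c = 0 then 2 ^ (2 * m - 1) + 2 ^ (m - 1) else 2 ^ (2 * m - 1) - 2 ^ (m - 1) := by
  have h := card_plus_level (m := m) (F := ZMod 2) c (q := 2) (by rw [Nat.card_eq_fintype_card, ZMod.card])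
  obtain ⟨k, rfl⟩ : ∃ k, m = k + 1 := ⟨m - 1, by omega⟩
  rw [h]
  have e1 : k + 1 - 1 = k := rfl
  have e2 : 2 * (k + 1) - 1 = 2 * k + 1 := by omega
  rw [e1, e2]
  have e3 : (2 ^ (k + 1) - 1) * 2 ^ k = 2 ^ (2 * k + 1) - 2 ^ k := by
    rw [Nat.sub_mul, one_mul]; congr 1; ring
  have e4 : 2 ^ k ≤ 2 ^ (2 * k + 1) := Nat.pow_le_pow_right (by norm_num) (by omega)
  by_cases hc : c = 0
  · rw [if_pos hc, e3]
    subst hc
    have : Nat.card {t : Unit // (0 : ZMod 2) = 0} = 1 := by simp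
    rw [this, mul_one]
    have : 2 ^ (k + 1) = 2 * 2 ^ k := by ring
    omega
  · rw [if_neg hc, e3]
    have : Nat.card {t : Unit // (0 : ZMod 2) = c} = 0 := by
      rw [Nat.card_eq_zero]
      left
      exact ⟨fun x => hc x.2.symm⟩
    rw [this, mul_zero, add_zero]

lemma zn_Qw (hm : 1 ≤ m) (w : VV m) : zn (Qw m w) = if q0 m w = 0 then 2 ^ (2 * m - 1) + 2 ^ (m - 1) else 2 ^ (2 * m - 1) - 2 ^ (m - 1) := by
  rw [← card_level m hm, ← zn_shift m (fun u v => q0_add m u v) w]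
  unfold zn
  simp only [Qw_apply]

lemma zn_min (hm : 1 ≤ m) : zn (qMinus (m - 1) (ZMod 2) 1 1) = 2 ^ (2 * m - 1) - 2 ^ (m - 1) := by
  have hab : ∀ z₁ z₂ : ZMod 2, z₁ ^ 2 + 1 * z₁ * z₂ + 1 * z₂ ^ 2 = 0 → z₁ = 0 ∧ z₂ = 0 := by decide
  rw [zn_minus hab (q := 2) (by rw [Nat.card_eq_fintype_card, ZMod.card])]
  obtain ⟨k, rfl⟩ : ∃ k, m = k + 1 := ⟨m - 1, by omega⟩
  have e1 : k + 1 - 1 = k := rfl
  have e2 : 2 * (k + 1) - 1 = 2 * k + 1 := by omega
  rw [e1, e2]
  rcases Nat.eq_zero_or_pos k with hk | hk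
  · subst hk; rfl
  · obtain ⟨j, rfl⟩ : ∃ j, k = j + 1 := ⟨k - 1, by omega⟩
    have e3 : j + 1 - 1 = j := rfl
    rw [e3, Nat.sub_mul, one_mul]
    have e4 : 2 ^ (j + 1) * (2 ^ 2 * 2 ^ j) = 2 ^ (2 * (j + 1) + 1) := by ring
    have e5 : 2 ^ 2 * 2 ^ j = 2 * 2 ^ (j + 1) := by ring
    rw [e4, e5]
    have e6 : 2 * 2 ^ (j + 1) ≤ 2 ^ (2 * (j + 1) + 1) := by
      calc 2 * 2 ^ (j + 1) = 2 ^ (j + 2) := by ring
        _ ≤ _ := Nat.pow_le_pow_right (by norm_num) (by omega)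
    omega

lemma nd_min : ND (qMinus m (ZMod 2) 1 1) :=
  nd_minus (m := m) (F := ZMod 2) (a := 1) (b := 1) (by decide)

lemma zn_of_equiv {ι : Type} {Q : QuadraticForm (ZMod 2) (VV m)} {Q' : (ι → ZMod 2) → ZMod 2} (g : VV m ≃ₗ[ZMod 2] (ι → ZMod 2)) (h : ∀ v, Q v = Q' (g v)) :
    zn Q = Nat.card {v : ι → ZMod 2 // Q' v = 0} := by
  unfold zn
  apply Nat.card_congr
  exact Equiv.subtypeEquiv g.toEquiv fun v => by rw [h]; rfl

lemma pow_lt' (hm : 1 ≤ m) : 2 ^ (m - 1) ≤ 2 ^ (2 * m - 1) := Nat.pow_le_pow_right (by norm_num) (by omega)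

lemma plus_iff (hm : 1 ≤ m) (w : VV m) : (∃ g : VV m ≃ₗ[ZMod 2] VV m, ∀ v, Qw m w v = q0 m (g v)) ↔ q0 m w = 0 := by
  constructor
  · rintro ⟨g, hg⟩
    have h1 := zn_of_equiv m g hg
    rw [zn_Qw m hm, card_level m hm 0, if_pos rfl] at h1
    by_contra hc
    rw [if_neg hc] at h1
    have h2 := pow_lt' m hm
    have h3 : 0 < 2 ^ (m - 1) := by positivity
    omega
  · intro h
    have h1 : zn (Qw m w) = zn (qPlus m (ZMod 2)) := by
      rw [zn_Qw m hm, if_pos h]
      unfold zn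
      rw [qPlus_coe, card_level m hm 0, if_pos rfl]
    have hfr : Module.finrank (ZMod 2) (VV m) = 2 * m := by
      rw [Module.finrank_fintype_fun_eq_card, Fintype.card_sum, Fintype.card_fin]; omega
    obtain ⟨φ, hφ⟩ := Cfsg.Agent.H17.class_even m (nd_Qw m w) nd_plus hfr hfr h1 (c := 1) one_ne_zero
    obtain ⟨ψ, hψ⟩ := Cfsg.Agent.H17.exists_simEquiv one_ne_zero hφ (nd_Qw m w) rfl
    refine ⟨ψ, fun v => ?_⟩
    have := hψ v
    rw [one_mul, qPlus_coe] at this
    exact this.symm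

lemma minus_iff (hm : 1 ≤ m) (w : VV m) : (∃ g : VV m ≃ₗ[ZMod 2] ((Fin (m - 1) ⊕ Fin (m - 1)) ⊕ Fin 2 → ZMod 2), ∀ v, Qw m w v = Cfsg.quadFormMinus (m - 1) (ZMod 2) 1 1 (g v)) ↔ q0 m w ≠ 0 := by
  constructor
  · rintro ⟨g, hg⟩
    have h1 := zn_of_equiv m g hg
    have h4 := zn_min m hm
    unfold zn at h4
    rw [qMinus_coe] at h4
    rw [zn_Qw m hm, h4] at h1
    intro hc
    rw [if_pos hc] at h1
    have h2 := pow_lt' m hm
    have h3 : 0 < 2 ^ (m - 1) := by positivity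
    omega
  · intro h
    have h1 : zn (Qw m w) = zn (qMinus (m - 1) (ZMod 2) 1 1) := by
      rw [zn_Qw m hm, if_neg h, zn_min m hm]
    have hfr : Module.finrank (ZMod 2) (VV m) = 2 * m := by
      rw [Module.finrank_fintype_fun_eq_card, Fintype.card_sum, Fintype.card_fin]; omega
    have hfr' : Module.finrank (ZMod 2) ((Fin (m - 1) ⊕ Fin (m - 1)) ⊕ Fin 2 → ZMod 2) = 2 * m := by
      rw [Module.finrank_fintype_fun_eq_card, Fintype.card_sum, Fintype.card_sum, Fintype.card_fin, Fintype.card_fin]; omega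
    obtain ⟨φ, hφ⟩ := Cfsg.Agent.H17.class_even m (nd_Qw m w) (nd_min (m - 1)) hfr hfr' h1 (c := 1) one_ne_zero
    obtain ⟨ψ, hψ⟩ := Cfsg.Agent.H17.exists_simEquiv one_ne_zero hφ (nd_Qw m w) (hfr.trans hfr'.symm)
    refine ⟨ψ, fun v => ?_⟩
    have := hψ v
    rw [one_mul, qMinus_coe] at this
    exact this.symm

end Cfsg.Agent.H16.QF2
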