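import Cfsg.Agent.H6.TwReeF
import Cfsg.Agent.H16.RegF

set_option autoImplicit false
set_option linter.all false

/-! Multiplication in the Sylow 3-subgroup of `²G₂(q)` and generation by two elements. -/

namespace Cfsg.Agent.H16.ReeG

open Cfsg.Lie Cfsg.Agent.H6 Cfsg.Agent.H6.WG2
open scoped Matrix

section law
variable {K : Type*} [Field K] {e : ℕ}

theorem ct78 : chevG2.commTerms 7 8 = [(9, -2, 1, 1), (10, -3, 2, 1), (11, 3, 1, 2)] := by decide +kernel
theorem ct610 : chevG2.commTerms 6 10 = [(11, 1, 1, 1)] := by decide +kernel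

theorem rel_ca (h3 : (3 : K) = 0) (x p : K) : xg chevG2 K 8 p * xg chevG2 K 7 x = xg chevG2 K 7 x * xg chevG2 K 8 p * xg chevG2 K 9 (-(x * p)) := by
  have h := TG2.good.comm (F := K) TG2.ext (r := 7) (s := 8) (by decide +kernel) (by decide +kernel) (by decide) (by decide +kernel) x p
  rw [h]
  congr 1
  unfold ChevalleyDatum.commWord wg
  rw [ct78]
  simp only [List.map_cons, List.map_nil, List.prod_cons, List.prod_nil, mul_one, pow_one, mul_assoc]
  have e1 : (((-3 : ℤ) : K) * ((-x) ^ 2 * p)) = 0 := by push_cast; rw [h3]; ring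
  have e2 : (((3 : ℤ) : K) * (-x * p ^ 2)) = 0 := by push_cast; rw [h3]; ring
  rw [e1, e2, TG2.good.xg_zero, TG2.good.xg_zero, mul_one, mul_one]
  congr 1
  push_cast
  linear_combination (x * p) * h3

theorem rel_cb (y r : K) : xg chevG2 K 10 r * xg chevG2 K 6 y = xg chevG2 K 6 y * xg chevG2 K 10 r * xg chevG2 K 11 (-(y * r)) := by
  have h := TG2.good.comm (F := K) TG2.ext (r := 6) (s := 10) (by decide +kernel) (by decide +kernel) (by decide) (by decide +kernel) y r
  rw [h]
  congr 1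
  unfold ChevalleyDatum.commWord wg
  rw [ct610]
  simp only [List.map_cons, List.map_nil, List.prod_cons, List.prod_nil, mul_one, pow_one, mul_assoc]
  congr 1
  push_cast; ring

theorem cc (h3 : (3 : K) = 0) {i j : ℕ} (hi : i < 12) (hj : j < 12) (hn : j ≠ chevG2.neg i) (hc : cm0 3 chevG2.chainEntry i j = true) (t u : K) :
    xg chevG2 K i t * xg chevG2 K j u = xg chevG2 K j u * xg chevG2 K i t :=
  comm_of_cm0 TG2.good TG2.ext (by exact_mod_cast h3) (by rw [nr]; exact hi) (by rw [nr]; exact hj) hn hc _ _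

theorem ab4_a (h3 : (3 : K) = 0) (x p q r s : K) : ab4 (Zc K true) p q r s * Za K true x = Za K true x * ab4 (Zc K true) p (q - x * p) r s := by
  change xg chevG2 K 8 p * xg chevG2 K 9 q * xg chevG2 K 10 r * xg chevG2 K 11 s * xg chevG2 K 7 x =
    xg chevG2 K 7 x * (xg chevG2 K 8 p * xg chevG2 K 9 (q - x * p) * xg chevG2 K 10 r * xg chevG2 K 11 s)
  have c1 := cc h3 (i := 11) (j := 7) (by norm_num) (by norm_num) (by decide +kernel) (by decide +kernel) s x
  have c2 := cc h3 (i := 10) (j := 7) (by norm_num) (by norm_num) (by decide +kernel) (by decide +kernel) r x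
  have c3 := cc h3 (i := 9) (j := 7) (by norm_num) (by norm_num) (by decide +kernel) (by decide +kernel) q x
  have c4 := rel_ca h3 x p
  have e1 : q - x * p = -(x * p) + q := by ring
  rw [e1, TG2.good.xg_add]
  calc xg chevG2 K 8 p * xg chevG2 K 9 q * xg chevG2 K 10 r * xg chevG2 K 11 s * xg chevG2 K 7 x
      = xg chevG2 K 8 p * xg chevG2 K 9 q * xg chevG2 K 10 r * (xg chevG2 K 11 s * xg chevG2 K 7 x) := by group
    _ = xg chevG2 K 8 p * xg chevG2 K 9 q * (xg chevG2 K 10 r * xg chevG2 K 7 x) * xg chevG2 K 11 s := by rw [c1]; group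
    _ = xg chevG2 K 8 p * (xg chevG2 K 9 q * xg chevG2 K 7 x) * xg chevG2 K 10 r * xg chevG2 K 11 s := by rw [c2]; group
    _ = (xg chevG2 K 8 p * xg chevG2 K 7 x) * xg chevG2 K 9 q * xg chevG2 K 10 r * xg chevG2 K 11 s := by rw [c3]; group
    _ = _ := by rw [c4]; group

theorem ab4_b (h3 : (3 : K) = 0) (y p q r s : K) : ab4 (Zc K true) p q r s * Zb K true y = Zb K true y * ab4 (Zc K true) p q r (s - y * r) := by
  change xg chevG2 K 8 p * xg chevG2 K 9 q * xg chevG2 K 10 r * xg chevG2 K 11 s * xg chevG2 K 6 y =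
    xg chevG2 K 6 y * (xg chevG2 K 8 p * xg chevG2 K 9 q * xg chevG2 K 10 r * xg chevG2 K 11 (s - y * r))
  have c1 := cc h3 (i := 11) (j := 6) (by norm_num) (by norm_num) (by decide +kernel) (by decide +kernel) s y
  have c2 := rel_cb y r
  have c3 := cc h3 (i := 9) (j := 6) (by norm_num) (by norm_num) (by decide +kernel) (by decide +kernel) q y
  have c4 := cc h3 (i := 8) (j := 6) (by norm_num) (by norm_num) (by decide +kernel) (by decide +kernel) p y
  have e1 : s - y * r = -(y * r) + s := by ring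
  rw [e1, TG2.good.xg_add]
  calc xg chevG2 K 8 p * xg chevG2 K 9 q * xg chevG2 K 10 r * xg chevG2 K 11 s * xg chevG2 K 6 y
      = xg chevG2 K 8 p * xg chevG2 K 9 q * xg chevG2 K 10 r * (xg chevG2 K 11 s * xg chevG2 K 6 y) := by group
    _ = xg chevG2 K 8 p * xg chevG2 K 9 q * (xg chevG2 K 10 r * xg chevG2 K 6 y) * xg chevG2 K 11 s := by rw [c1]; group
    _ = xg chevG2 K 8 p * (xg chevG2 K 9 q * xg chevG2 K 6 y) * xg chevG2 K 10 r * xg chevG2 K 11 (-(y * r)) * xg chevG2 K 11 s := by rw [c2]; group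
    _ = (xg chevG2 K 8 p * xg chevG2 K 6 y) * xg chevG2 K 9 q * xg chevG2 K 10 r * xg chevG2 K 11 (-(y * r)) * xg chevG2 K 11 s := by rw [c3]; group
    _ = _ := by rw [c4]; group

theorem NF_mul (h3 : (3 : K) = 0) (x y p q r s x' y' p' q' r' s' : K) :
    NF K true x y p q r s * NF K true x' y' p' q' r' s' =
      NF K true (x + x') (y + y') (p + x' * y + p') (q - x' * p + x' ^ 2 * y + q') (r - x' ^ 3 * y + r')
        (s - x' ^ 3 * y ^ 2 - y' * (r - x' ^ 3 * y) + s') := by
  have hab := ab_Zc h3 (K := K) true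
  have hA : ∀ a b : K, Za K true (a + b) = Za K true a * Za K true b := fun a b => TG2.good.xg_add _ _ _
  have hB : ∀ a b : K, Zb K true (a + b) = Zb K true a * Zb K true b := fun a b => TG2.good.xg_add _ _ _
  unfold NF
  calc Za K true x * Zb K true y * ab4 (Zc K true) p q r s * (Za K true x' * Zb K true y' * ab4 (Zc K true) p' q' r' s')
      = Za K true x * Zb K true y * (ab4 (Zc K true) p q r s * Za K true x') * Zb K true y' * ab4 (Zc K true) p' q' r' s' := by group
    _ = Za K true x * (Zb K true y * Za K true x') * ab4 (Zc K true) p (q - x' * p) r s * Zb K true y' * ab4 (Zc K true) p' q' r' s' := by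
        rw [ab4_a h3]; group
    _ = Za K true x * Za K true x' * Zb K true y * (ab4 (Zc K true) (x' * y) (x' ^ 2 * y) (-(x' ^ 3 * y)) (-(x' ^ 3 * y ^ 2)) *
          ab4 (Zc K true) p (q - x' * p) r s) * Zb K true y' * ab4 (Zc K true) p' q' r' s' := by rw [rel_ba]; group
    _ = Za K true x * Za K true x' * Zb K true y * (ab4 (Zc K true) (x' * y + p) (x' ^ 2 * y + (q - x' * p)) (-(x' ^ 3 * y) + r) (-(x' ^ 3 * y ^ 2) + s) *
          Zb K true y') * ab4 (Zc K true) p' q' r' s' := by rw [hab.mul]; group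
    _ = (Za K true x * Za K true x') * (Zb K true y * Zb K true y') * (ab4 (Zc K true) (x' * y + p) (x' ^ 2 * y + (q - x' * p)) (-(x' ^ 3 * y) + r)
          (-(x' ^ 3 * y ^ 2) + s - y' * (-(x' ^ 3 * y) + r)) * ab4 (Zc K true) p' q' r' s') := by rw [ab4_b h3]; group
    _ = _ := by
        rw [hab.mul, ← hA, ← hB]
        congr 2 <;> ring

variable {σ : ↥(chevG2.group K) →* ↥(chevG2.group K)} (h : Ctx K e σ) (hf : Fl K e)
include h hf

theorem RE_mul (t u v t' u' v' : K) : RE K e true t u v * RE K e true t' u' v' =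
    RE K e true (t + t') (u + u' - t' ^ (3 * e) * t) (v + v' - t' ^ (3 * e) * t ^ 2 - t' * (u - t' ^ (3 * e) * t)) := by
  have h1 : RE K e true t u v * RE K e true t' u' v' ∈ chevG2.posUnipotent K ⊓ fixS σ :=
    mul_mem ((fix_iff h hf).2 ⟨_, _, _, rfl⟩) ((fix_iff h hf).2 ⟨_, _, _, rfl⟩)
  obtain ⟨a, b, c, habc⟩ := (fix_iff h hf).1 h1
  rw [habc]
  unfold RE at habc
  rw [NF_mul hf.three] at habc
  obtain ⟨-, h2, -, -, h3, h4⟩ := NF_inj hf.three habc
  have e3 : (t' ^ e) ^ 3 = t' ^ (3 * e) := by rw [← pow_mul, mul_comm]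
  rw [e3] at h3 h4
  rw [← h2, ← h3, ← h4]
  congr 1 <;> ring

end law

end Cfsg.Agent.H16.ReeG
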