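import Mathlib
import Cfsg.Agent.H17.RegNil
import Cfsg.Agent.H16.RegU
import Cfsg.Agent.H5.LinBasic

set_option autoImplicit false
set_option linter.all false

/-! Classes of regular unipotent elements of `SL_n`. -/

namespace Cfsg.Agent.H16

open Matrix Module

variable {F : Type*} [Field F] {n : ℕ}

/-- regular unipotent matrices -/
def IsReg (M : Matrix (Fin n) (Fin n) F) : Prop := (M - 1) ^ n = 0 ∧ (M - 1).rank = n - 1

lemma IsReg.ker {M : Matrix (Fin n) (Fin n) F} (h : IsReg M) (hn : 1 ≤ n) : finrank F (LinearMap.ker (toLin' (M - 1))) ≤ 1 := by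
  have h1 := LinearMap.finrank_range_add_finrank_ker (toLin' (M - 1))
  rw [Module.finrank_fin_fun] at h1
  have h2 : finrank F (LinearMap.range (toLin' (M - 1))) = n - 1 := h.2
  omega

lemma IsReg.pow {M : Matrix (Fin n) (Fin n) F} (h : IsReg M) : (toLin' (M - 1)) ^ n = 0 := by
  rw [← toLin'_pow, h.1, map_zero]

/-- regular unipotent matrices are conjugate in `GL_n` -/
lemma IsReg.conj {M M' : Matrix (Fin n) (Fin n) F} (h : IsReg M) (h' : IsReg M') (hn : 1 ≤ n) :
    ∃ g : GL (Fin n) F, (g : Matrix (Fin n) (Fin n) F) * M = M' * (g : Matrix (Fin n) (Fin n) F) := by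
  classical
  set N := toLin' (M - 1) with hN
  set N' := toLin' (M' - 1) with hN'
  obtain ⟨v, hv⟩ := Cfsg.Agent.H17.exists_cyclic N (h.ker hn) hn (Module.finrank_fin_fun F) h.pow
  obtain ⟨v', hv'⟩ := Cfsg.Agent.H17.exists_cyclic N' (h'.ker hn) hn (Module.finrank_fin_fun F) h'.pow
  haveI : Nonempty (Fin n) := ⟨⟨0, hn⟩⟩
  let b : Basis (Fin n) F (Fin n → F) := basisOfLinearIndependentOfCardEqFinrank (Cfsg.Agent.H17.linearIndependent_pow_apply N h.pow v hv) (by simp)
  let b' : Basis (Fin n) F (Fin n → F) := basisOfLinearIndependentOfCardEqFinrank (Cfsg.Agent.H17.linearIndependent_pow_apply N' h'.pow v' hv') (by simp)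
  have hb : ∀ i : Fin n, b i = (N ^ (i : ℕ)) v := by intro i; simp [b]
  have hb' : ∀ i : Fin n, b' i = (N' ^ (i : ℕ)) v' := by intro i; simp [b']
  let e : (Fin n → F) ≃ₗ[F] (Fin n → F) := b.equiv b' (Equiv.refl _)
  have he : ∀ k : ℕ, e ((N ^ k) v) = (N' ^ k) v' := by
    intro k
    by_cases hk : k < n
    · have := b.equiv_apply (b' := b') ⟨k, hk⟩ (Equiv.refl _)
      rw [hb] at this
      rw [Equiv.refl_apply, hb'] at this
      exact this
    · have e1 : N ^ k = 0 := by
        obtain ⟨j, rfl⟩ := Nat.exists_eq_add_of_le (not_lt.1 hk)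
        rw [pow_add, h.pow, zero_mul]
      have e2 : N' ^ k = 0 := by
        obtain ⟨j, rfl⟩ := Nat.exists_eq_add_of_le (not_lt.1 hk)
        rw [pow_add, h'.pow, zero_mul]
      rw [e1, e2, LinearMap.zero_apply, LinearMap.zero_apply, map_zero]
  have hcomm : (e : (Fin n → F) →ₗ[F] (Fin n → F)) ∘ₗ N = N' ∘ₗ (e : (Fin n → F) →ₗ[F] (Fin n → F)) := by
    apply b.ext
    intro i
    rw [LinearMap.comp_apply, LinearMap.comp_apply, hb, LinearEquiv.coe_coe, he]
    have e3 : N ((N ^ (i : ℕ)) v) = (N ^ ((i : ℕ) + 1)) v := by rw [pow_succ']; rfl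
    have e4 : N' ((N' ^ (i : ℕ)) v') = (N' ^ ((i : ℕ) + 1)) v' := by rw [pow_succ']; rfl
    rw [e3, e4, he]
  set A := LinearMap.toMatrix' (e : (Fin n → F) →ₗ[F] (Fin n → F)) with hA
  set B := LinearMap.toMatrix' (e.symm : (Fin n → F) →ₗ[F] (Fin n → F)) with hB
  refine ⟨⟨A, B, by rw [hA, hB, ← LinearMap.toMatrix'_comp]; simp, by rw [hA, hB, ← LinearMap.toMatrix'_comp]; simp⟩, ?_⟩
  show A * M = M' * A
  have h1 : A * (M - 1) = (M' - 1) * A := by
    have h2 : LinearMap.toMatrix' N = M - 1 := LinearMap.toMatrix'_toLin' _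
    have h3 : LinearMap.toMatrix' N' = M' - 1 := LinearMap.toMatrix'_toLin' _
    rw [← h2, ← h3, hA, ← LinearMap.toMatrix'_comp, ← LinearMap.toMatrix'_comp, hcomm]
  rw [mul_sub, sub_mul, mul_one, one_mul] at h1
  exact sub_left_injective h1

/-- determinants of the centralizer of a regular unipotent matrix -/
lemma IsReg.det_comm {M : Matrix (Fin n) (Fin n) F} (h : IsReg M) (hn : 1 ≤ n) (g : GL (Fin n) F)
    (hg : (g : Matrix (Fin n) (Fin n) F) * M = M * (g : Matrix (Fin n) (Fin n) F)) :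
    ∃ c : Fˣ, Matrix.GeneralLinearGroup.det g = c ^ n := by
  classical
  set N : Module.End F (Fin n → F) := toLin' (M - 1) with hN
  obtain ⟨v, hv⟩ := Cfsg.Agent.H17.exists_cyclic N (h.ker hn) hn (Module.finrank_fin_fun F) h.pow
  have hT : Commute (toLin' (g : Matrix (Fin n) (Fin n) F)) N := by
    show toLin' (g : Matrix (Fin n) (Fin n) F) * N = N * toLin' (g : Matrix (Fin n) (Fin n) F)
    rw [hN, Module.End.mul_eq_comp, Module.End.mul_eq_comp, ← toLin'_mul, ← toLin'_mul, mul_sub, sub_mul, hg, mul_one, one_mul]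
  obtain ⟨c, hc0⟩ := Cfsg.Agent.H17.commutant_eq_sum N hn (Module.finrank_fin_fun F) h.pow v hv _ hT
  have hc : (toLin' (g : Matrix (Fin n) (Fin n) F) : Module.End F (Fin n → F)) = ∑ i, c i • N ^ (i : ℕ) := hc0
  set i0 : Fin n := ⟨0, hn⟩ with hi0
  have h1 : (toLin' (g : Matrix (Fin n) (Fin n) F) : Module.End F (Fin n → F)) = algebraMap F (Module.End F (Fin n → F)) (c i0) - (∑ i ∈ Finset.univ.erase i0, (- c i) • N ^ (i : ℕ)) := by
    rw [hc, ← Finset.add_sum_erase _ _ (Finset.mem_univ i0), Algebra.algebraMap_eq_smul_one, sub_eq_add_neg, ← Finset.sum_neg_distrib]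
    congr 1
    refine Finset.sum_congr rfl fun i _ => ?_
    apply LinearMap.ext
    intro w
    simp
  set K : Module.End F (Fin n → F) := ∑ i ∈ Finset.univ.erase i0, (- c i) • N ^ (i : ℕ) with hK
  have hKn : IsNilpotent K := by
    have h2 : ∃ L, K = N * L := by
      refine ⟨∑ i ∈ Finset.univ.erase i0, (- c i) • N ^ ((i : ℕ) - 1), ?_⟩
      rw [hK, Finset.mul_sum]
      refine Finset.sum_congr rfl fun i hi => ?_
      have h3 : (i : ℕ) ≠ 0 := fun h => (Finset.mem_erase.1 hi).1 (Fin.ext h)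
      rw [mul_smul_comm, ← pow_succ', Nat.sub_add_cancel (Nat.pos_of_ne_zero h3)]
    have hKc : Commute K N := by
      rw [hK]
      apply Commute.sum_left
      intro i _
      exact ((Commute.refl N).pow_left _).smul_left _
    obtain ⟨L, hL⟩ := h2
    refine ⟨n, ?_⟩
    have h4 : ∀ k : ℕ, ∃ L', K ^ k = N ^ k * L' := by
      intro k
      induction k with
      | zero => exact ⟨1, by simp⟩
      | succ k ih =>
        obtain ⟨L', hL'⟩ := ih
        refine ⟨L * L', ?_⟩
        have h5 : K ^ (k + 1) = N ^ k * (K * L') := by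
          rw [pow_succ', hL', ← mul_assoc, (hKc.pow_right k).eq, mul_assoc]
        rw [h5, hL, pow_succ]
        simp only [mul_assoc]
    obtain ⟨L', hL'⟩ := h4 n
    rw [hL', h.pow, zero_mul]
  have h6 : LinearMap.det (toLin' (g : Matrix (Fin n) (Fin n) F)) = (c i0) ^ n := by
    rw [h1]
    have h7 := IsNilpotent.charpoly_eq_X_pow_finrank hKn
    have h8 := LinearMap.eval_charpoly K (c i0)
    rw [h7, Module.finrank_fin_fun, Polynomial.eval_pow, Polynomial.eval_X] at h8
    rw [← h8]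
  rw [LinearMap.det_toLin'] at h6
  have h9 : c i0 ≠ 0 := by
    intro h10
    rw [h10, zero_pow (by omega)] at h6
    exact ((Matrix.isUnit_iff_isUnit_det _).1 g.isUnit).ne_zero h6
  exact ⟨Units.mk0 _ h9, Units.ext (by simpa using h6)⟩

/-- conjugation of `SL` by `GL` -/
noncomputable def cjS (g : GL (Fin n) F) (s : SpecialLinearGroup (Fin n) F) : SpecialLinearGroup (Fin n) F :=
  ⟨(g : Matrix (Fin n) (Fin n) F) * s * ((g⁻¹ : GL (Fin n) F) : Matrix (Fin n) (Fin n) F), by
    rw [det_mul, det_mul, s.2, mul_one, ← det_mul, ← Units.val_mul, mul_inv_cancel, Units.val_one, det_one]⟩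

lemma cjS_reg {g : GL (Fin n) F} {s : SpecialLinearGroup (Fin n) F} (h : IsReg (s : Matrix (Fin n) (Fin n) F)) :
    IsReg ((cjS g s : SpecialLinearGroup (Fin n) F) : Matrix (Fin n) (Fin n) F) := by
  have h1 : ((cjS g s : SpecialLinearGroup (Fin n) F) : Matrix (Fin n) (Fin n) F) - 1 =
      (g : Matrix (Fin n) (Fin n) F) * ((s : Matrix (Fin n) (Fin n) F) - 1) * ((g⁻¹ : GL (Fin n) F) : Matrix (Fin n) (Fin n) F) := by
    show (g : Matrix (Fin n) (Fin n) F) * s * ((g⁻¹ : GL (Fin n) F) : Matrix (Fin n) (Fin n) F) - 1 = _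
    rw [mul_sub, sub_mul, mul_one, ← Units.val_mul, mul_inv_cancel, Units.val_one]
  constructor
  · rw [h1]
    have h2 : ∀ k : ℕ, ((g : Matrix (Fin n) (Fin n) F) * ((s : Matrix (Fin n) (Fin n) F) - 1) * ((g⁻¹ : GL (Fin n) F) : Matrix (Fin n) (Fin n) F)) ^ k =
        (g : Matrix (Fin n) (Fin n) F) * ((s : Matrix (Fin n) (Fin n) F) - 1) ^ k * ((g⁻¹ : GL (Fin n) F) : Matrix (Fin n) (Fin n) F) := by
      intro k
      have := Units.conj_pow g ((s : Matrix (Fin n) (Fin n) F) - 1) k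
      exact this
    rw [h2, h.1, mul_zero, zero_mul]
  · rw [h1, rank_mul_eq_left_of_isUnit_det _ _ ((Matrix.isUnit_iff_isUnit_det _).1 (g⁻¹).isUnit),
      rank_mul_eq_right_of_isUnit_det _ _ ((Matrix.isUnit_iff_isUnit_det _).1 g.isUnit), h.2]

lemma det_surj' (hn : 1 ≤ n) (c : Fˣ) : ∃ g : GL (Fin n) F, Matrix.GeneralLinearGroup.det g = c := by
  classical
  set i0 : Fin n := ⟨0, hn⟩
  have hd : (Matrix.diagonal (fun i : Fin n => if i = i0 then (c : F) else 1)).det = c := by
    rw [det_diagonal, Finset.prod_ite_eq' Finset.univ i0]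
    simp
  refine ⟨Matrix.GeneralLinearGroup.mkOfDetNeZero _ (by rw [hd]; exact c.ne_zero), Units.ext ?_⟩
  exact hd

/-- conjugacy in `SL` of two `GL`-conjugates of a regular unipotent element -/
lemma cjS_conj_iff (hn : 1 ≤ n) {s : SpecialLinearGroup (Fin n) F} (h : IsReg (s : Matrix (Fin n) (Fin n) F)) (g g' : GL (Fin n) F) :
    IsConj (cjS g s) (cjS g' s) ↔ ∃ a : Fˣ, (Matrix.GeneralLinearGroup.det g)⁻¹ * Matrix.GeneralLinearGroup.det g' = a ^ n := by
  constructor
  · rw [isConj_iff]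
    rintro ⟨x, hx⟩
    rw [mul_inv_eq_iff_eq_mul] at hx
    have h1 := congrArg (fun y : SpecialLinearGroup (Fin n) F => (y : Matrix (Fin n) (Fin n) F)) hx
    change (x : Matrix (Fin n) (Fin n) F) * ((g : Matrix (Fin n) (Fin n) F) * s * ((g⁻¹ : GL (Fin n) F) : Matrix (Fin n) (Fin n) F)) =
      ((g' : Matrix (Fin n) (Fin n) F) * s * ((g'⁻¹ : GL (Fin n) F) : Matrix (Fin n) (Fin n) F)) * (x : Matrix (Fin n) (Fin n) F) at h1
    set X : GL (Fin n) F := SpecialLinearGroup.toGL x with hX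
    set S : GL (Fin n) F := SpecialLinearGroup.toGL s with hS
    have h2 : X * (g * S * g⁻¹) = (g' * S * g'⁻¹) * X := Units.ext h1
    have h3 : (g'⁻¹ * X * g) * S = S * (g'⁻¹ * X * g) := by
      have e1 : (g'⁻¹ * X * g) * S = g'⁻¹ * (X * (g * S * g⁻¹)) * g := by group
      rw [e1, h2]; group
    obtain ⟨a, ha⟩ := h.det_comm hn (g'⁻¹ * X * g) (congrArg (fun y : GL (Fin n) F => (y : Matrix (Fin n) (Fin n) F)) h3)
    have hXd : Matrix.GeneralLinearGroup.det X = 1 := by
      apply Units.ext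
      show ((x : Matrix (Fin n) (Fin n) F)).det = 1
      exact x.2
    rw [map_mul, map_mul, map_inv, hXd, mul_one] at ha
    refine ⟨a⁻¹, ?_⟩
    rw [inv_pow, ← ha, _root_.mul_inv_rev, inv_inv]
  · rintro ⟨a, ha⟩
    -- `g' = y g (a I)`
    set A : GL (Fin n) F := Matrix.GeneralLinearGroup.scalar (Fin n) a with hA
    have hAdet : Matrix.GeneralLinearGroup.det A = a ^ n := by
      apply Units.ext
      show (Matrix.scalar (Fin n) (a : F)).det = _
      rw [Matrix.scalar_apply, det_diagonal]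
      simp
    have hAc : ∀ m : Matrix (Fin n) (Fin n) F, (A : Matrix (Fin n) (Fin n) F) * m = m * (A : Matrix (Fin n) (Fin n) F) := by
      intro m
      show (Matrix.scalar (Fin n) (a : F)) * m = m * (Matrix.scalar (Fin n) (a : F))
      exact (Matrix.scalar_commute (a : F) (fun r => Commute.all _ _) m).eq
    have hdet : Matrix.GeneralLinearGroup.det (g' * A⁻¹ * g⁻¹) = 1 := by
      rw [map_mul, map_mul, map_inv, map_inv, hAdet, ← ha, _root_.mul_inv_rev, inv_inv, mul_inv_cancel_left, mul_inv_cancel]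
    have h4 : g' * A⁻¹ * g⁻¹ ∈ (SpecialLinearGroup.toGL : SpecialLinearGroup (Fin n) F →* GL (Fin n) F).range := by
      rw [Cfsg.Agent.H5.range_toGL]; exact hdet
    obtain ⟨x, hx⟩ := h4
    rw [isConj_iff]
    refine ⟨x, ?_⟩
    rw [mul_inv_eq_iff_eq_mul]
    apply SpecialLinearGroup.toGL_injective
    rw [map_mul, map_mul, hx]
    set S : GL (Fin n) F := SpecialLinearGroup.toGL s with hS
    have e1 : SpecialLinearGroup.toGL (cjS g s) = g * S * g⁻¹ := Units.ext rfl
    have e2 : SpecialLinearGroup.toGL (cjS g' s) = g' * S * g'⁻¹ := Units.ext rfl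
    have e3 : A * S = S * A := Units.ext (hAc _)
    have e4 : A⁻¹ * S = S * A⁻¹ := by
      rw [inv_mul_eq_iff_eq_mul, ← mul_assoc, e3, mul_assoc, mul_inv_cancel, mul_one]
    rw [e1, e2]
    have e5 : g' * A⁻¹ * g⁻¹ * (g * S * g⁻¹) = g' * (A⁻¹ * S) * g⁻¹ := by group
    rw [e5, e4]
    group

lemma uM_reg (hn : 1 ≤ n) : IsReg (uM n F) := by
  have hN : ∀ (v : Fin n → F) (i : Fin n), ((uM n F - 1) *ᵥ v) i = if h : i.val + 1 < n then v ⟨i.val + 1, h⟩ else 0 := by
    intro v i
    rw [sub_mulVec, Pi.sub_apply, one_mulVec, uM_mulVec, add_sub_cancel_left]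
  have hpow : ∀ (k : ℕ) (v : Fin n → F) (i : Fin n), (((uM n F - 1) ^ k) *ᵥ v) i = if h : i.val + k < n then v ⟨i.val + k, h⟩ else 0 := by
    intro k
    induction k with
    | zero => intro v i; rw [pow_zero, one_mulVec, dif_pos (by simpa using i.2)]; rfl
    | succ k ih =>
      intro v i
      rw [pow_succ, ← mulVec_mulVec, ih]
      by_cases h : i.val + k < n
      · rw [dif_pos h, hN]
        by_cases h' : i.val + k + 1 < n
        · rw [dif_pos h', dif_pos (by omega : i.val + (k + 1) < n)]; rfl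
        · rw [dif_neg h', dif_neg (by omega : ¬ i.val + (k + 1) < n)]
      · rw [dif_neg h, dif_neg (by omega : ¬ i.val + (k + 1) < n)]
  have h0 : (uM n F - 1) ^ n = 0 := by
    apply mat_ext_mulVec
    intro v i
    rw [hpow, dif_neg (by omega), zero_mulVec]; rfl
  refine ⟨h0, ?_⟩
  have hker : finrank F (LinearMap.ker (toLin' (uM n F - 1))) ≤ 1 := by
    apply finrank_le_one (⟨Pi.single ⟨0, hn⟩ 1, ?_⟩ : LinearMap.ker (toLin' (uM n F - 1)))
    · rintro ⟨w, hw⟩
      refine ⟨w ⟨0, hn⟩, ?_⟩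
      apply Subtype.ext
      funext j
      show w ⟨0, hn⟩ • (Pi.single (⟨0, hn⟩ : Fin n) (1 : F) : Fin n → F) j = w j
      rw [smul_eq_mul]
      by_cases hj : j = ⟨0, hn⟩
      · rw [hj, Pi.single_eq_same, mul_one]
      · rw [Pi.single_eq_of_ne hj, mul_zero]
        have hj' : j.val ≠ 0 := fun h => hj (Fin.ext h)
        rw [LinearMap.mem_ker, toLin'_apply] at hw
        have h1 := congrFun hw ⟨j.val - 1, by omega⟩
        rw [hN, dif_pos (by show j.val - 1 + 1 < n; omega)] at h1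
        have e : (⟨(⟨j.val - 1, by omega⟩ : Fin n).val + 1, by show j.val - 1 + 1 < n; omega⟩ : Fin n) = j := Fin.ext (by show j.val - 1 + 1 = j.val; omega)
        rw [e] at h1
        exact h1.symm
    · rw [LinearMap.mem_ker, toLin'_apply]
      funext i
      rw [hN]
      split_ifs with h
      · rw [Pi.single_eq_of_ne]; rfl
        intro hh
        have := congrArg Fin.val hh
        simp at this
      · rfl
  have hker1 : 1 ≤ finrank F (LinearMap.ker (toLin' (uM n F - 1))) := by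
    rw [Nat.one_le_iff_ne_zero]
    intro h
    rw [Submodule.finrank_eq_zero] at h
    have hinj : Function.Injective (toLin' (uM n F - 1)) := LinearMap.ker_eq_bot.1 h
    have h2 : Function.Injective (toLin' ((uM n F - 1) ^ n)) := by
      rw [toLin'_pow]
      have := Function.Injective.iterate hinj n
      intro a b hab
      apply this
      simpa [Module.End.pow_apply] using hab
    rw [h0, map_zero] at h2
    have h3 : (Pi.single (⟨0, hn⟩ : Fin n) (1 : F) : Fin n → F) = 0 := h2 rfl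
    have := congrFun h3 ⟨0, hn⟩
    rw [Pi.single_eq_same] at this
    exact one_ne_zero this
  have h1 := LinearMap.finrank_range_add_finrank_ker (toLin' (uM n F - 1))
  rw [Module.finrank_fin_fun] at h1
  have h2 : finrank F (LinearMap.range (toLin' (uM n F - 1))) = n - 1 := by omega
  exact h2

theorem card_reg_classes [Fintype F] (hn : 2 ≤ n) : Nat.card {C : ConjClasses (SpecialLinearGroup (Fin n) F) //
    ∃ u : SpecialLinearGroup (Fin n) F, ConjClasses.mk u = C ∧ IsReg (u : Matrix (Fin n) (Fin n) F)} = Nat.gcd n (Fintype.card F - 1) := by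
  classical
  have hn1 : 1 ≤ n := by omega
  haveI : NeZero n := ⟨by omega⟩
  have hu : IsReg ((uS n F : SpecialLinearGroup (Fin n) F) : Matrix (Fin n) (Fin n) F) := uM_reg hn1
  choose D hD using fun c : Fˣ => det_surj' (n := n) hn1 c
  set P : Subgroup Fˣ := (powMonoidHom n : Fˣ →* Fˣ).range with hP
  let Φ : Fˣ → {C : ConjClasses (SpecialLinearGroup (Fin n) F) //
    ∃ u : SpecialLinearGroup (Fin n) F, ConjClasses.mk u = C ∧ IsReg (u : Matrix (Fin n) (Fin n) F)} := fun c =>
    ⟨ConjClasses.mk (cjS (D c) (uS n F)), _, rfl, cjS_reg hu⟩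
  have hΦ : ∀ a b : Fˣ, Φ a = Φ b ↔ a⁻¹ * b ∈ P := by
    intro a b
    rw [Subtype.ext_iff]
    show ConjClasses.mk (cjS (D a) (uS n F)) = ConjClasses.mk (cjS (D b) (uS n F)) ↔ _
    rw [ConjClasses.mk_eq_mk_iff_isConj, cjS_conj_iff hn1 hu, hD, hD]
    constructor
    · rintro ⟨x, hx⟩; exact ⟨x, hx.symm⟩
    · rintro ⟨x, hx⟩; exact ⟨x, hx.symm⟩
  let Ψ : (Fˣ ⧸ P) → {C : ConjClasses (SpecialLinearGroup (Fin n) F) //
    ∃ u : SpecialLinearGroup (Fin n) F, ConjClasses.mk u = C ∧ IsReg (u : Matrix (Fin n) (Fin n) F)} :=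
    Quotient.lift Φ (fun a b h => (hΦ a b).2 (QuotientGroup.leftRel_apply.1 h))
  have hΨ : Function.Bijective Ψ := by
    constructor
    · intro x y
      obtain ⟨a, rfl⟩ := QuotientGroup.mk_surjective x
      obtain ⟨b, rfl⟩ := QuotientGroup.mk_surjective y
      intro h
      rw [QuotientGroup.eq]
      exact (hΦ a b).1 h
    · rintro ⟨C, u, rfl, hur⟩
      obtain ⟨g, hg⟩ := hu.conj hur hn1
      refine ⟨QuotientGroup.mk (Matrix.GeneralLinearGroup.det g), ?_⟩
      apply Subtype.ext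
      show ConjClasses.mk (cjS (D (Matrix.GeneralLinearGroup.det g)) (uS n F)) = ConjClasses.mk u
      have h1 : u = cjS g (uS n F) := by
        apply Subtype.ext
        show (u : Matrix (Fin n) (Fin n) F) = (g : Matrix (Fin n) (Fin n) F) * (uS n F : Matrix (Fin n) (Fin n) F) * ((g⁻¹ : GL (Fin n) F) : Matrix (Fin n) (Fin n) F)
        rw [hg, mul_assoc, ← Units.val_mul, mul_inv_cancel, Units.val_one, mul_one]
      rw [h1, ConjClasses.mk_eq_mk_iff_isConj, cjS_conj_iff hn1 hu, hD]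
      exact ⟨1, by simp⟩
  rw [← Nat.card_congr (Equiv.ofBijective Ψ hΨ)]
  have h2 : Nat.card P * Nat.card (powMonoidHom n : Fˣ →* Fˣ).ker = Nat.card Fˣ := by
    rw [hP, mul_comm]
    have := Subgroup.card_mul_index (powMonoidHom n : Fˣ →* Fˣ).ker
    rw [Subgroup.index_ker] at this
    exact this
  have h3 : Nat.card P * P.index = Nat.card Fˣ := Subgroup.card_mul_index P
  have h4 : Nat.card (powMonoidHom n : Fˣ →* Fˣ).ker = Nat.gcd n (Fintype.card F - 1) := by
    have := Cfsg.Agent.H5.card_rootsOfUnity_eq_gcd (F := F) n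
    rw [Nat.card_eq_fintype_card (α := F)] at this
    rw [← this]
    have h : rootsOfUnity n F = (powMonoidHom n : Fˣ →* Fˣ).ker := by
      ext x; simp [mem_rootsOfUnity, MonoidHom.mem_ker]
    rw [h]
  rw [← h4]
  have hpos : 0 < Nat.card P := Nat.card_pos
  exact Nat.eq_of_mul_eq_mul_left hpos (h3.trans h2.symm)

end Cfsg.Agent.H16
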