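import Cfsg.Agent.H16.SL2Deg
import Cfsg.Agent.H16.SL2Cent
import Cfsg.Agent.H16.Torus2
import Cfsg.Agent.H16.CharHom
import Cfsg.Agent.H11.Defect4

/-! The `p`-blocks of `SL_2(q)`, `q` odd. -/

set_option autoImplicit false

namespace Cfsg.Agent.H16.SL2Blk

open Matrix Cfsg Cfsg.Agent.H3 Cfsg.Agent.H11 Cfsg.Agent.H16
open scoped ComplexConjugate

variable {F : Type*} [Field F] [Fintype F] [DecidableEq F] {p : ℕ} [hpr : Fact p.Prime] [CharP F p] {M : Ideal AlgInt}

local notation "SL₂" => Matrix.SpecialLinearGroup (Fin 2) F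

include hpr in
omit [DecidableEq F] in
lemma p_dvd_q : p ∣ Fintype.card F := by
  obtain ⟨n, _, hn⟩ := FiniteField.card F p
  rw [hn]
  exact dvd_pow_self p n.ne_zero

include hpr in
lemma deg_unit {ψ : SL₂ → ℂ} (h : IsIrrCharacter SL₂ ψ) (hne : ψ ≠ StS F) : ∃ n : ℕ, ψ 1 = n ∧ ¬ p ∣ n := by
  obtain ⟨n, -, hn⟩ := irr_one_eq_nat h
  refine ⟨n, hn, fun hd => ?_⟩
  have hq : p ∣ Fintype.card F := p_dvd_q
  have hq1 : 1 ≤ Fintype.card F := Fintype.card_pos
  have h1 : ¬ p ∣ 1 := by rw [Nat.dvd_one]; exact hpr.out.ne_one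
  have key : ∀ a b : ℕ, p ∣ a → p ∣ b → (a = b + 1 ∨ b = a + 1) → False := by
    intro a b ha hb hab
    rcases hab with h | h
    · exact h1 ((Nat.dvd_add_right hb).1 (h ▸ ha))
    · exact h1 ((Nat.dvd_add_right ha).1 (h ▸ hb))
  rcases sl2_odd_deg h hn with ⟨_, h2⟩ | ⟨h2, _⟩ | ⟨_, h2⟩ | ⟨_, h2⟩ | ⟨_, h2⟩ | ⟨_, h2⟩
  · exact h1 (h2 ▸ hd)
  · exact hne h2
  · exact key n _ hd hq (Or.inl h2)
  · exact key (2 * n) _ (hd.mul_left 2) hq (Or.inl h2)
  · exact key n _ hd hq (Or.inr h2.symm)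
  · exact key (2 * n) _ (hd.mul_left 2) hq (Or.inr h2.symm)

omit [DecidableEq F] in
lemma card_sl : Nat.card SL₂ = Fintype.card F * (Fintype.card F ^ 2 - 1) := Cfsg.Agent.H5.card_SL2 (F := F) rfl

omit [DecidableEq F] in
/-- index of the centralizer of a regular semisimple element -/
lemma index_ss (g : SL₂) (ht : (g : Matrix (Fin 2) (Fin 2) F).trace ^ 2 ≠ 4) :
    ∃ m, (Subgroup.centralizer ({g} : Set SL₂)).index = Fintype.card F * m := by
  have hq : 1 < Fintype.card F := Fintype.one_lt_card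
  have hmul := (Subgroup.centralizer ({g} : Set SL₂)).card_mul_index
  rw [card_sl] at hmul
  have hsq : Fintype.card F ^ 2 - 1 = (Fintype.card F - 1) * (Fintype.card F + 1) := by
    obtain ⟨m, hm⟩ := Nat.exists_eq_add_of_le hq.le
    rw [hm]; simp; ring_nf; omega
  by_cases hell : ∀ c : F, c ^ 2 - c * (g : Matrix (Fin 2) (Fin 2) F).trace + 1 ≠ 0
  · refine ⟨Fintype.card F - 1, ?_⟩
    rw [card_cent_sl2_ell g hell, hsq] at hmul
    apply Nat.eq_of_mul_eq_mul_left (show 0 < Fintype.card F + 1 by omega)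
    rw [hmul]; ring
  · push Not at hell
    obtain ⟨c, hc⟩ := hell
    have hc0 : c ≠ 0 := by rintro rfl; simp at hc
    have htr : (g : Matrix (Fin 2) (Fin 2) F).trace = c + c⁻¹ := by
      field_simp
      linear_combination -hc
    have hc1 : c * c ≠ 1 := by
      intro h
      apply ht
      rw [htr]
      have : c⁻¹ = c := (eq_inv_of_mul_eq_one_left h).symm
      rw [this]; linear_combination 4 * h
    refine ⟨Fintype.card F + 1, ?_⟩
    rw [card_cent_sl2_split g hc0 hc1 htr, hsq] at hmul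
    apply Nat.eq_of_mul_eq_mul_left (show 0 < Fintype.card F - 1 by omega)
    rw [hmul]; ring

lemma li_ss (hM : IsPModular p M) {ψ : SL₂ → ℂ} (h : IsIrrCharacter SL₂ ψ) (hne : ψ ≠ StS F) (g : SL₂)
    (ht : (g : Matrix (Fin 2) (Fin 2) F).trace ^ 2 ≠ 4) : MemLocalIdeal M (centralChar ψ g) := by
  have := pmod_isPrime hM
  obtain ⟨n, hn, hpn⟩ := deg_unit (p := p) h hne
  obtain ⟨m, hm⟩ := index_ss g ht
  unfold centralChar
  rw [hm, hn]
  apply li_div
  · apply li_mul_right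
    · rw [li_natCast_iff hM]
      exact (p_dvd_q (F := F)).mul_right m
    · exact lr_int (char_isIntegral (irr_isChar h) g)
  · exact lr_natCast M n
  · rw [li_natCast_iff hM]; exact hpn

omit [DecidableEq F] [Fintype F] in
lemma scal_or (g : SL₂) (hs : IsScal (g : Matrix (Fin 2) (Fin 2) F)) : g = 1 ∨ g = -1 := by
  have h1 := g.2
  rw [det_fin_two, hs.1, zero_mul, sub_zero, ← hs.2.2] at h1
  have h2 : ((g : Matrix (Fin 2) (Fin 2) F) 0 0 - 1) * ((g : Matrix (Fin 2) (Fin 2) F) 0 0 + 1) = 0 := by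
    linear_combination h1
  have h3 := isScal_eq hs
  rcases mul_eq_zero.1 h2 with h4 | h4
  · left
    apply Subtype.ext
    rw [h3, sub_eq_zero.1 h4]; simp
  · right
    apply Subtype.ext
    rw [h3, eq_neg_of_add_eq_zero_left h4]
    simp

omit [DecidableEq F] [Fintype F] in
lemma tr_one : ((1 : SL₂) : Matrix (Fin 2) (Fin 2) F).trace = 2 := by
  rw [show ((1 : SL₂) : Matrix (Fin 2) (Fin 2) F) = 1 from rfl, Matrix.trace_one]; simp

omit [DecidableEq F] [Fintype F] in
lemma tr_neg : ((-1 : SL₂) : Matrix (Fin 2) (Fin 2) F).trace = -2 := by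
  rw [SpecialLinearGroup.coe_neg, Matrix.trace_neg, tr_one]

omit [DecidableEq F] [Fintype F] in
lemma tr_ne (h2F : (2 : F) ≠ 0) : ((1 : SL₂) : Matrix (Fin 2) (Fin 2) F).trace ≠ ((-1 : SL₂) : Matrix (Fin 2) (Fin 2) F).trace := by
  rw [tr_one, tr_neg]
  intro h
  have : (2 : F) * 2 = 0 := by linear_combination h
  exact h2F (mul_self_eq_zero.1 this)

/-- the value on `± unipotent` elements -/
lemma li_par (hM : IsPModular p M) {ψ : SL₂ → ℂ} (h : IsIrrCharacter SL₂ ψ) (g : SL₂)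
    (ht : (g : Matrix (Fin 2) (Fin 2) F).trace ^ 2 = 4) :
    ∃ z : SL₂, (z = 1 ∨ z = -1) ∧ (z : Matrix (Fin 2) (Fin 2) F).trace = (g : Matrix (Fin 2) (Fin 2) F).trace ∧
      MemLocalIdeal M (ψ g - ψ z) := by
  have h5 : ((g : Matrix (Fin 2) (Fin 2) F).trace - 2) * ((g : Matrix (Fin 2) (Fin 2) F).trace + 2) = 0 := by
    linear_combination ht
  have hord : ∀ x : SL₂, x ^ p = 1 → ∃ k : ℕ, orderOf x = p ^ k := by
    intro x hx
    rcases (Nat.dvd_prime hpr.out).1 (orderOf_dvd_of_pow_eq_one hx) with h1 | h1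
    · exact ⟨0, by rw [h1, pow_zero]⟩
    · exact ⟨1, by rw [h1, pow_one]⟩
  rcases mul_eq_zero.1 h5 with h6 | h6
  · refine ⟨1, Or.inl rfl, ?_, ?_⟩
    · rw [sub_eq_zero.1 h6]; exact tr_one
    · have hx : g ^ p = 1 := (sl2_pow_p_eq_one_iff p g).2 (sub_eq_zero.1 h6)
      have := li_char_mul_sub hM (irr_isChar h) (x := g) (y := 1) (Commute.one_right g) (hord g hx)
      rwa [mul_one] at this
  · refine ⟨-1, Or.inr rfl, ?_, ?_⟩
    · rw [eq_neg_of_add_eq_zero_left h6]; exact tr_neg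
    · have hx : (-g) ^ p = 1 := by
        rw [sl2_pow_p_eq_one_iff, SpecialLinearGroup.coe_neg, Matrix.trace_neg, eq_neg_of_add_eq_zero_left h6, neg_neg]
      have := li_char_mul_sub hM (irr_isChar h) (x := -g) (y := -1) (by
        rw [commute_iff_eq]; simp) (hord _ hx)
      simpa using this

lemma sign_cases {ψ : SL₂ → ℂ} (h : IsIrrCharacter SL₂ ψ) : ψ (-1) = ψ 1 ∨ ψ (-1) = - ψ 1 := by
  have hz : (-1 : SL₂) ∈ Subgroup.center SL₂ := by
    rw [Subgroup.mem_center_iff]; intro g; simp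
  have h1 := (central_scalar h hz).1 (-1)
  have h2 : (-1 : SL₂) * (-1) = 1 := by simp
  rw [h2] at h1
  have h3 := irr_one_ne_zero h
  have h4 : ψ (-1) * ψ (-1) = ψ 1 * ψ 1 := by
    field_simp at h1
    linear_combination -h1
  rcases mul_self_eq_mul_self_iff.1 h4 with h5 | h5
  · exact Or.inl h5
  · exact Or.inr h5

/-- equal signs -/
lemma same_of_sign (hM : IsPModular p M) (h2F : (2 : F) ≠ 0) {ψ ψ' : SL₂ → ℂ} (h : IsIrrCharacter SL₂ ψ) (h' : IsIrrCharacter SL₂ ψ')
    (hne : ψ ≠ StS F) (hne' : ψ' ≠ StS F) (hs : ψ (-1) / ψ 1 = ψ' (-1) / ψ' 1) : SameBlock M ψ ψ' := by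
  have := pmod_isPrime hM
  intro g
  by_cases ht : (g : Matrix (Fin 2) (Fin 2) F).trace ^ 2 = 4
  · obtain ⟨z, hz, hzt, hz1⟩ := li_par hM h g ht
    obtain ⟨z', hz', hzt', hz1'⟩ := li_par hM h' g ht
    have hzz : z = z' := by
      have hneq := tr_ne h2F
      rcases hz with rfl | rfl <;> rcases hz' with rfl | rfl
      · rfl
      · exact absurd (hzt.trans hzt'.symm) hneq
      · exact absurd (hzt.trans hzt'.symm).symm hneq
      · rfl
    subst hzz
    have hzs : ψ z / ψ 1 = ψ' z / ψ' 1 := by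
      rcases hz with rfl | rfl
      · rw [div_self (irr_one_ne_zero h), div_self (irr_one_ne_zero h')]
      · exact hs
    obtain ⟨n, hn, hpn⟩ := deg_unit (p := p) h hne
    obtain ⟨n', hn', hpn'⟩ := deg_unit (p := p) h' hne'
    have e : centralChar ψ g - centralChar ψ' g =
        ((Subgroup.centralizer ({g} : Set SL₂)).index : ℂ) * ((ψ g - ψ z) / ψ 1 - (ψ' g - ψ' z) / ψ' 1) := by
      unfold centralChar
      rw [sub_div, sub_div, hzs]; ring
    rw [e]
    apply li_mul_left (lr_natCast M _)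
    apply li_sub
    · rw [hn]; exact li_div hz1 (lr_natCast M n) (by rw [li_natCast_iff hM]; exact hpn)
    · rw [hn']; exact li_div hz1' (lr_natCast M n') (by rw [li_natCast_iff hM]; exact hpn')
  · exact li_sub (li_ss hM h hne g ht) (li_ss hM h' hne' g ht)

/-- the Steinberg character is alone -/
lemma not_same_St (hM : IsPModular p M) {ψ : SL₂ → ℂ} (h : IsIrrCharacter SL₂ ψ) (hne : ψ ≠ StS F) :
    ¬ SameBlock M ψ (StS F) := by
  have := pmod_isPrime hM
  intro hs
  obtain ⟨t, ht⟩ := exists_elliptic F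
  set g : SL₂ := cform t 1 one_ne_zero with hg
  have hgt : (g : Matrix (Fin 2) (Fin 2) F).trace = t := cform_trace _ _ _
  have hell : ∀ c : F, c ^ 2 - c * (g : Matrix (Fin 2) (Fin 2) F).trace + 1 ≠ 0 := by rw [hgt]; exact ht
  have h1 := li_ss hM h hne g (sq_ne_four_of_ell hell)
  have h2 : MemLocalIdeal M (centralChar (StS F) g) := (li_congr (hs g)).1 h1
  have hq : 1 < Fintype.card F := Fintype.one_lt_card
  have hmul := (Subgroup.centralizer ({g} : Set SL₂)).card_mul_index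
  rw [card_cent_sl2_ell g hell, card_sl] at hmul
  have hsq : Fintype.card F ^ 2 - 1 = (Fintype.card F - 1) * (Fintype.card F + 1) := by
    obtain ⟨m, hm⟩ := Nat.exists_eq_add_of_le hq.le
    rw [hm]; simp; ring_nf; omega
  have hidx : (Subgroup.centralizer ({g} : Set SL₂)).index = Fintype.card F * (Fintype.card F - 1) := by
    rw [hsq] at hmul
    apply Nat.eq_of_mul_eq_mul_left (show 0 < Fintype.card F + 1 by omega)
    rw [hmul]; ring
  have hSt : StS F g = -1 := by rw [StS_apply, PS_ell _ _ hell]; ring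
  unfold centralChar at h2
  rw [hidx, hSt, StS_one] at h2
  have hq0 : (Fintype.card F : ℂ) ≠ 0 := by exact_mod_cast Fintype.card_ne_zero
  have e : ((Fintype.card F * (Fintype.card F - 1) : ℕ) : ℂ) * (-1) / (Fintype.card F : ℂ) =
      -((Fintype.card F - 1 : ℕ) : ℂ) := by
    push_cast
    field_simp
  rw [e] at h2
  have h3 := li_neg h2
  rw [neg_neg, li_natCast_iff hM] at h3
  have h4 : p ∣ Fintype.card F := p_dvd_q
  have h5 : p ∣ 1 := by
    have : Fintype.card F = (Fintype.card F - 1) + 1 := by omega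
    rw [this] at h4
    exact (Nat.dvd_add_right h3).1 h4
  exact hpr.out.ne_one (Nat.dvd_one.1 h5)

lemma sameBlock_symm {G : Type*} [Group G] {χ ψ : G → ℂ} [M.IsPrime] (h : SameBlock M χ ψ) : SameBlock M ψ χ :=
  fun g => li_sub_comm.1 (h g)

omit [DecidableEq F] in
lemma centralChar_neg_one (ψ : SL₂ → ℂ) : centralChar ψ (-1) = ψ (-1) / ψ 1 := by
  have hz : (-1 : SL₂) ∈ Subgroup.center SL₂ := by
    rw [Subgroup.mem_center_iff]; intro g; simp
  have : Subgroup.centralizer ({(-1 : SL₂)} : Set SL₂) = ⊤ := by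
    rw [eq_top_iff]
    intro g _
    rw [Subgroup.mem_centralizer_singleton_iff]
    exact Subgroup.mem_center_iff.1 hz g
  unfold centralChar
  rw [this, Subgroup.index_top]; simp

/-- the sign is a block invariant -/
lemma sign_of_same (hM : IsPModular p M) (hp2 : p ≠ 2) {ψ ψ' : SL₂ → ℂ} (h : IsIrrCharacter SL₂ ψ) (h' : IsIrrCharacter SL₂ ψ')
    (hs : SameBlock M ψ ψ') : ψ (-1) / ψ 1 = ψ' (-1) / ψ' 1 := by
  have := pmod_isPrime hM
  have h1 := hs (-1)
  rw [centralChar_neg_one, centralChar_neg_one] at h1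
  have h2 : ¬ p ∣ 2 := fun h => hp2 ((Nat.prime_dvd_prime_iff_eq hpr.out Nat.prime_two).1 h)
  have e1 := irr_one_ne_zero h
  have e2 := irr_one_ne_zero h'
  rcases sign_cases h with h3 | h3 <;> rcases sign_cases h' with h4 | h4
  · rw [h3, h4, div_self e1, div_self e2]
  · exfalso
    rw [h3, h4, div_self e1, neg_div, div_self e2] at h1
    have : MemLocalIdeal M ((2 : ℕ) : ℂ) := by convert h1 using 1; push_cast; ring
    rw [li_natCast_iff hM] at this; exact h2 this
  · exfalso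
    rw [h3, h4, div_self e2, neg_div, div_self e1] at h1
    have : MemLocalIdeal M ((2 : ℕ) : ℂ) := by convert li_neg h1 using 1; push_cast; ring
    rw [li_natCast_iff hM] at this; exact h2 this
  · rw [h3, h4, neg_div, neg_div, div_self e1, div_self e2]

lemma StS_neg_one : StS F (-1) = Fintype.card F := by
  rcases sign_cases (StS_irr (F := F)) with h | h
  · rw [h, StS_one]
  · exfalso
    rw [StS_one, StS_apply, PS_scal 1 (-1) (-1) (by simp), MulChar.one_apply (by simp)] at h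
    have h0 : (Fintype.card F : ℂ) = 0 := by linear_combination h / 2
    exact Fintype.card_ne_zero (by exact_mod_cast h0)

lemma eq_St_iff {ψ : SL₂ → ℂ} (h : IsIrrCharacter SL₂ ψ) : ψ 1 = Fintype.card F ↔ ψ = StS F :=
  ⟨sl2_deg_q h, fun e => by rw [e, StS_one]⟩

lemma sum_sq [Fintype (IrrCharacter (Matrix.SpecialLinearGroup (Fin 2) F))] :
    ∑ χ : IrrCharacter (Matrix.SpecialLinearGroup (Fin 2) F), (χ : SL₂ → ℂ) 1 * conj ((χ : SL₂ → ℂ) 1) =
      (Nat.card SL₂ : ℂ) := by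
  classical
  have h := column_orth (1 : SL₂) 1
  rw [if_pos (IsConj.refl 1)] at h
  rw [h]
  have : Subgroup.centralizer ({(1 : SL₂)} : Set SL₂) = ⊤ := by
    rw [eq_top_iff]; intro g _; rw [Subgroup.mem_centralizer_singleton_iff]; simp
  rw [this, Subgroup.card_top]

lemma sum_neg [Fintype (IrrCharacter (Matrix.SpecialLinearGroup (Fin 2) F))] (h2F : (2 : F) ≠ 0) :
    ∑ χ : IrrCharacter (Matrix.SpecialLinearGroup (Fin 2) F), (χ : SL₂ → ℂ) (-1) * conj ((χ : SL₂ → ℂ) 1) = 0 := by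
  classical
  have h := column_orth (-1 : SL₂) 1
  have hnc : ¬ IsConj (-1 : SL₂) 1 := by
    intro hc
    rw [isConj_comm, isConj_iff] at hc
    obtain ⟨c, hc⟩ := hc
    rw [mul_one, mul_inv_cancel] at hc
    exact tr_ne h2F (congrArg (fun z : SL₂ => (z : Matrix (Fin 2) (Fin 2) F).trace) hc)
  rw [if_neg hnc] at h
  exact h

end Cfsg.Agent.H16.SL2Blk
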