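import Cfsg.Agent.H16.SL2Blk

/-! The `p`-blocks of `SL_2(q)`, `q` odd: the theorem. -/

set_option autoImplicit false

namespace Cfsg.Agent.H16.SL2Blk

open Matrix Cfsg Cfsg.Agent.H3 Cfsg.Agent.H11 Cfsg.Agent.H16
open scoped ComplexConjugate

variable {F : Type*} [Field F] [Fintype F] {p : ℕ} [hpr : Fact p.Prime] [CharP F p] {M : Ideal AlgInt}

local notation "SL₂" => Matrix.SpecialLinearGroup (Fin 2) F

/-- the three blocks -/
def BSt (F : Type*) [Field F] [Fintype F] : Set (IrrCharacter (Matrix.SpecialLinearGroup (Fin 2) F)) :=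
  {χ : IrrCharacter (Matrix.SpecialLinearGroup (Fin 2) F) | (χ : Matrix.SpecialLinearGroup (Fin 2) F → ℂ) 1 = (Fintype.card F : ℂ)}
def Bp (F : Type*) [Field F] [Fintype F] : Set (IrrCharacter (Matrix.SpecialLinearGroup (Fin 2) F)) :=
  {χ : IrrCharacter (Matrix.SpecialLinearGroup (Fin 2) F) | (χ : Matrix.SpecialLinearGroup (Fin 2) F → ℂ) (-1) = (χ : Matrix.SpecialLinearGroup (Fin 2) F → ℂ) 1 ∧ (χ : Matrix.SpecialLinearGroup (Fin 2) F → ℂ) 1 ≠ (Fintype.card F : ℂ)}
def Bn (F : Type*) [Field F] [Fintype F] : Set (IrrCharacter (Matrix.SpecialLinearGroup (Fin 2) F)) :=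
  {χ : IrrCharacter (Matrix.SpecialLinearGroup (Fin 2) F) | (χ : Matrix.SpecialLinearGroup (Fin 2) F → ℂ) (-1) = -(χ : Matrix.SpecialLinearGroup (Fin 2) F → ℂ) 1}

include hpr in
lemma two_ne (hp2 : p ≠ 2) : (2 : F) ≠ 0 := by
  intro h
  have h1 : ((2 : ℕ) : F) = 0 := by exact_mod_cast h
  rw [CharP.cast_eq_zero_iff F p] at h1
  exact hp2 ((Nat.prime_dvd_prime_iff_eq hpr.out Nat.prime_two).1 h1)

section
variable [DecidableEq F]

lemma block_St (hM : IsPModular p M) : blockOf M (StS F) = BSt F := by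
  have := pmod_isPrime hM
  ext ψ
  change SameBlock M (StS F) (ψ : SL₂ → ℂ) ↔ (ψ : SL₂ → ℂ) 1 = _
  rw [eq_St_iff ψ.2]
  constructor
  · intro h
    by_contra hne
    exact not_same_St hM ψ.2 hne (sameBlock_symm h)
  · intro h
    rw [h]
    intro g
    rw [sub_self]; exact li_zero M

lemma block_pos (hM : IsPModular p M) (hp2 : p ≠ 2) {χ : SL₂ → ℂ} (h : IsIrrCharacter SL₂ χ) (hne : χ ≠ StS F)
    (hs : χ (-1) = χ 1) : blockOf M χ = Bp F := by
  have := pmod_isPrime hM
  ext ψ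
  change SameBlock M χ (ψ : SL₂ → ℂ) ↔ ((ψ : SL₂ → ℂ) (-1) = (ψ : SL₂ → ℂ) 1 ∧ ¬ (ψ : SL₂ → ℂ) 1 = _)
  rw [eq_St_iff ψ.2]
  have e1 := irr_one_ne_zero h
  have e2 := irr_one_ne_zero ψ.2
  constructor
  · intro hh
    constructor
    · have h1 := sign_of_same hM hp2 h ψ.2 hh
      rw [hs, div_self e1] at h1
      exact (eq_of_div_eq_one h1.symm)
    · intro h2
      rw [h2] at hh
      exact not_same_St hM h hne hh
  · rintro ⟨h1, h2⟩
    apply same_of_sign hM (two_ne hp2) h ψ.2 hne h2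
    rw [hs, h1, div_self e1, div_self e2]

lemma block_neg (hM : IsPModular p M) (hp2 : p ≠ 2) {χ : SL₂ → ℂ} (h : IsIrrCharacter SL₂ χ)
    (hs : χ (-1) = - χ 1) : blockOf M χ = Bn F := by
  have := pmod_isPrime hM
  have hStn : ∀ {χ : SL₂ → ℂ}, χ (-1) = - χ 1 → χ ≠ StS F := by
    rintro χ hs rfl
    rw [StS_neg_one, StS_one] at hs
    have h0 : (Fintype.card F : ℂ) = 0 := by linear_combination hs / 2
    exact Fintype.card_ne_zero (by exact_mod_cast h0)
  ext ψ
  change SameBlock M χ (ψ : SL₂ → ℂ) ↔ (ψ : SL₂ → ℂ) (-1) = - (ψ : SL₂ → ℂ) 1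
  have e1 := irr_one_ne_zero h
  have e2 := irr_one_ne_zero ψ.2
  constructor
  · intro hh
    have h1 := sign_of_same hM hp2 h ψ.2 hh
    rw [hs, neg_div, div_self e1] at h1
    field_simp at h1
    linear_combination -h1
  · intro h1
    apply same_of_sign hM (two_ne hp2) h ψ.2 (hStn hs) (hStn h1)
    rw [hs, h1, neg_div, neg_div, div_self e1, div_self e2]

end

lemma exists_neg (h2F : (2 : F) ≠ 0) : ∃ χ : IrrCharacter (Matrix.SpecialLinearGroup (Fin 2) F),
    (χ : SL₂ → ℂ) (-1) = - (χ : SL₂ → ℂ) 1 := by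
  classical
  haveI := Fintype.ofFinite (IrrCharacter (Matrix.SpecialLinearGroup (Fin 2) F))
  by_contra hc
  push Not at hc
  have h1 := sum_neg (F := F) h2F
  have h2 := sum_sq (F := F)
  have h3 : ∀ χ : IrrCharacter (Matrix.SpecialLinearGroup (Fin 2) F), (χ : SL₂ → ℂ) (-1) = (χ : SL₂ → ℂ) 1 :=
    fun χ => (sign_cases χ.2).resolve_right (hc χ)
  simp only [h3] at h1
  rw [h1] at h2
  have : (Nat.card (Matrix.SpecialLinearGroup (Fin 2) F)) = 0 := by exact_mod_cast h2.symm
  exact Nat.card_pos.ne' this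

lemma finsum_mem_ite {ι : Type*} [Fintype ι] (B : Set ι) [DecidablePred (· ∈ B)] (f : ι → ℂ) :
    ∑ᶠ i ∈ B, f i = ∑ i, if i ∈ B then f i else 0 := by
  rw [finsum_mem_def, finsum_eq_sum_of_fintype]
  apply Finset.sum_congr rfl
  intro i _
  by_cases h : i ∈ B
  · rw [Set.indicator_of_mem h, if_pos h]
  · rw [Set.indicator_of_notMem h, if_neg h]

lemma sum_Bn (h2F : (2 : F) ≠ 0) :
    ∑ᶠ χ ∈ Bn F, (χ : SL₂ → ℂ) 1 * conj ((χ : SL₂ → ℂ) 1) = (Nat.card SL₂ : ℂ) / 2 := by
  classical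
  haveI := Fintype.ofFinite (IrrCharacter (Matrix.SpecialLinearGroup (Fin 2) F))
  rw [finsum_mem_ite]
  have h : ∀ χ : IrrCharacter (Matrix.SpecialLinearGroup (Fin 2) F),
      (if χ ∈ Bn F then (χ : SL₂ → ℂ) 1 * conj ((χ : SL₂ → ℂ) 1) else 0) =
      ((χ : SL₂ → ℂ) 1 * conj ((χ : SL₂ → ℂ) 1) - (χ : SL₂ → ℂ) (-1) * conj ((χ : SL₂ → ℂ) 1)) / 2 := by
    intro χ
    have h0 := irr_one_ne_zero χ.2
    rcases sign_cases χ.2 with h | h
    · rw [if_neg, h]
      · ring
      · intro h'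
        change (χ : SL₂ → ℂ) (-1) = - (χ : SL₂ → ℂ) 1 at h'
        rw [h] at h'
        exact h0 (by linear_combination h' / 2)
    · rw [if_pos (show χ ∈ Bn F from h), h]; ring
  rw [Finset.sum_congr rfl fun χ _ => h χ, ← Finset.sum_div, Finset.sum_sub_distrib, sum_sq, sum_neg h2F, sub_zero]

lemma sum_Bp (h2F : (2 : F) ≠ 0) :
    ∑ᶠ χ ∈ Bp F, (χ : SL₂ → ℂ) 1 * conj ((χ : SL₂ → ℂ) 1) = (Nat.card SL₂ : ℂ) / 2 - (Fintype.card F : ℂ) ^ 2 := by
  classical
  haveI := Fintype.ofFinite (IrrCharacter (Matrix.SpecialLinearGroup (Fin 2) F))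
  rw [finsum_mem_ite]
  let S : IrrCharacter (Matrix.SpecialLinearGroup (Fin 2) F) := ⟨StS F, StS_irr⟩
  have h : ∀ χ : IrrCharacter (Matrix.SpecialLinearGroup (Fin 2) F),
      (if χ ∈ Bp F then (χ : SL₂ → ℂ) 1 * conj ((χ : SL₂ → ℂ) 1) else 0) =
      ((χ : SL₂ → ℂ) 1 * conj ((χ : SL₂ → ℂ) 1) + (χ : SL₂ → ℂ) (-1) * conj ((χ : SL₂ → ℂ) 1)) / 2 -
        if χ = S then (Fintype.card F : ℂ) ^ 2 else 0 := by
    intro χ
    have h0 := irr_one_ne_zero χ.2
    by_cases hS : χ = S
    · rw [if_pos hS, if_neg]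
      · have e1 : (χ : SL₂ → ℂ) = StS F := congrArg Subtype.val hS
        rw [e1, StS_one, StS_neg_one, Complex.conj_natCast]; ring
      · rintro ⟨-, h2⟩
        apply h2
        have e1 : (χ : SL₂ → ℂ) = StS F := congrArg Subtype.val hS
        rw [e1, StS_one]
    · rw [if_neg hS, sub_zero]
      have hne : ¬ (χ : SL₂ → ℂ) 1 = (Fintype.card F : ℂ) := by
        intro h
        exact hS (Subtype.ext ((eq_St_iff χ.2).1 h))
      rcases sign_cases χ.2 with h | h
      · rw [if_pos (show χ ∈ Bp F from ⟨h, hne⟩), h]; ring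
      · rw [if_neg, h]
        · ring
        · rintro ⟨h', -⟩
          rw [h] at h'
          exact h0 (by linear_combination -h' / 2)
  rw [Finset.sum_congr rfl fun χ _ => h χ, Finset.sum_sub_distrib, ← Finset.sum_div, Finset.sum_add_distrib, sum_sq, sum_neg h2F,
    add_zero, Finset.sum_ite_eq' Finset.univ S, if_pos (Finset.mem_univ _)]

/-- defect class at `1` -/
lemma defect_of (hM : IsPModular p M) (B : Set (IrrCharacter (Matrix.SpecialLinearGroup (Fin 2) F)))
    (h1 : MemLocalRing M (blockCoeff B 1)) (h2 : ¬ MemLocalIdeal M (blockCoeff B 1))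
    (P : Sylow p (Matrix.SpecialLinearGroup (Fin 2) F)) :
    IsDefectGroup p M B (P : Subgroup (Matrix.SpecialLinearGroup (Fin 2) F)) := by
  have := pmod_isPrime hM
  have hC : Subgroup.centralizer ({(1 : SL₂)} : Set SL₂) = ⊤ := by
    rw [eq_top_iff]; intro g _; rw [Subgroup.mem_centralizer_singleton_iff]; simp
  refine ⟨1, ⟨h1, h2, ?_⟩, P.subtype (by rw [hC]; exact le_top), ?_⟩
  · intro χ _
    unfold centralChar
    rw [hC, Subgroup.index_top, Nat.cast_one, one_mul, div_self (irr_one_ne_zero χ.2)]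
    exact not_li_one M
  · rw [Sylow.coe_subtype, Subgroup.subgroupOf_map_subtype, inf_eq_left.2]
    rw [hC]; exact le_top

theorem main (hp : p ≠ 2) (hM : IsPModular p M) :
    (∀ B : Set (IrrCharacter (Matrix.SpecialLinearGroup (Fin 2) F)), IsPBlock M B ↔ (B = BSt F ∨ B = Bp F ∨ B = Bn F)) ∧
    Nat.card {B : Set (IrrCharacter (Matrix.SpecialLinearGroup (Fin 2) F)) // IsPBlock M B} = 3 ∧
    ∀ P : Sylow p (Matrix.SpecialLinearGroup (Fin 2) F),
      IsDefectGroup p M (Bp F) (P : Subgroup (Matrix.SpecialLinearGroup (Fin 2) F)) ∧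
      IsDefectGroup p M (Bn F) (P : Subgroup (Matrix.SpecialLinearGroup (Fin 2) F)) := by
  classical
  have hprime := pmod_isPrime hM
  have h2F : (2 : F) ≠ 0 := two_ne (p := p) hp
  have hq1 : 1 < Fintype.card F := Fintype.one_lt_card
  have hcases : ∀ B : Set (IrrCharacter (Matrix.SpecialLinearGroup (Fin 2) F)), IsPBlock M B ↔ (B = BSt F ∨ B = Bp F ∨ B = Bn F) := by
    intro B
    constructor
    · rintro ⟨χ, rfl⟩
      by_cases hS : (χ : SL₂ → ℂ) = StS F
      · left; rw [hS]; exact block_St hM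
      · rcases sign_cases χ.2 with h | h
        · right; left; exact block_pos hM hp χ.2 hS h
        · right; right; exact block_neg hM hp χ.2 h
    · rintro (rfl | rfl | rfl)
      · exact ⟨⟨StS F, StS_irr⟩, (block_St hM).symm⟩
      · refine ⟨⟨fun _ => 1, isIrr_one⟩, (block_pos hM hp isIrr_one ?_ rfl).symm⟩
        intro h
        have := congrFun h 1
        rw [StS_one] at this
        have : Fintype.card F = 1 := by exact_mod_cast this.symm
        omega
      · obtain ⟨χ, hχ⟩ := exists_neg (F := F) h2F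
        exact ⟨χ, (block_neg hM hp χ.2 hχ).symm⟩
  have hcardC : (Nat.card SL₂ : ℂ) = (Fintype.card F : ℂ) * ((Fintype.card F : ℂ) ^ 2 - 1) := by
    rw [card_sl]
    have : 1 ≤ Fintype.card F ^ 2 := Nat.one_le_pow _ _ Fintype.card_pos
    push_cast [Nat.cast_sub this]
    ring
  have hq0 : (Fintype.card F : ℂ) ≠ 0 := by exact_mod_cast Fintype.card_ne_zero
  have hqq0 : (Fintype.card F : ℂ) ^ 2 - 1 ≠ 0 := by
    intro h
    have : ((Fintype.card F ^ 2 : ℕ) : ℂ) = ((1 : ℕ) : ℂ) := by push_cast; linear_combination h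
    have h2 : Fintype.card F ^ 2 = 1 := by exact_mod_cast this
    have : 1 < Fintype.card F ^ 2 := by nlinarith
    omega
  refine ⟨hcases, ?_, ?_⟩
  · have e : {B : Set (IrrCharacter (Matrix.SpecialLinearGroup (Fin 2) F)) | IsPBlock M B} = {BSt F, Bp F, Bn F} := by
      ext B
      exact hcases B
    have h1 : Nat.card {B : Set (IrrCharacter (Matrix.SpecialLinearGroup (Fin 2) F)) // IsPBlock M B} =
      ({B : Set (IrrCharacter (Matrix.SpecialLinearGroup (Fin 2) F)) | IsPBlock M B}).ncard := rfl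
    have hS : (⟨StS F, StS_irr⟩ : IrrCharacter (Matrix.SpecialLinearGroup (Fin 2) F)) ∈ BSt F := StS_one
    have hSp : (⟨StS F, StS_irr⟩ : IrrCharacter (Matrix.SpecialLinearGroup (Fin 2) F)) ∉ Bp F := fun h => h.2 StS_one
    have hSn : (⟨StS F, StS_irr⟩ : IrrCharacter (Matrix.SpecialLinearGroup (Fin 2) F)) ∉ Bn F := by
      intro h
      change StS F (-1) = - StS F 1 at h
      rw [StS_neg_one, StS_one] at h
      have h0 : (Fintype.card F : ℂ) = 0 := by linear_combination h / 2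
      exact hq0 h0
    have h1n : (⟨fun _ => 1, isIrr_one⟩ : IrrCharacter (Matrix.SpecialLinearGroup (Fin 2) F)) ∉ Bn F := by
      intro h
      change (1 : ℂ) = - 1 at h
      norm_num at h
    have h1p : (⟨fun _ => 1, isIrr_one⟩ : IrrCharacter (Matrix.SpecialLinearGroup (Fin 2) F)) ∈ Bp F := by
      refine ⟨rfl, ?_⟩
      intro h
      have h' : (1 : ℂ) = (Fintype.card F : ℂ) := h
      have : Fintype.card F = 1 := by exact_mod_cast h'.symm
      omega
    rw [h1, e, Set.ncard_eq_toFinset_card']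
    rw [Set.toFinset_insert, Set.toFinset_insert, Set.toFinset_singleton, Finset.card_insert_of_notMem,
      Finset.card_insert_of_notMem, Finset.card_singleton]
    · rw [Finset.mem_singleton]; intro h; exact h1n (h ▸ h1p)
    · rw [Finset.mem_insert, Finset.mem_singleton]
      rintro (h | h)
      · exact hSp (h ▸ hS)
      · exact hSn (h ▸ hS)
  · intro P
    have h2p : ¬ p ∣ 2 := fun h => hp ((Nat.prime_dvd_prime_iff_eq hpr.out Nat.prime_two).1 h)
    constructor
    · have e : blockCoeff (Bp F) 1 =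
          (((Fintype.card F : ℤ) ^ 2 - 1 - 2 * (Fintype.card F : ℤ) : ℤ) : ℂ) / ((2 * ((Fintype.card F : ℤ) ^ 2 - 1) : ℤ) : ℂ) := by
        unfold blockCoeff
        rw [sum_Bp h2F, hcardC]
        push_cast
        field_simp
      have hpq : (p : ℤ) ∣ (Fintype.card F : ℤ) := by exact_mod_cast (p_dvd_q (F := F) (p := p))
      have hp1 : ¬ (p : ℤ) ∣ 1 := by
        intro h
        have : p ∣ 1 := by exact_mod_cast h
        exact hpr.out.ne_one (Nat.dvd_one.1 this)
      have hd : ¬ MemLocalIdeal M ((2 * ((Fintype.card F : ℤ) ^ 2 - 1) : ℤ) : ℂ) := by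
        rw [li_intCast_iff hM]
        intro h
        rcases (Nat.prime_iff_prime_int.1 hpr.out).dvd_or_dvd h with h | h
        · exact h2p (by exact_mod_cast h)
        · apply hp1
          have := dvd_sub (dvd_pow hpq (two_ne_zero)) h
          simpa using this
      have hn : ¬ MemLocalIdeal M (((Fintype.card F : ℤ) ^ 2 - 1 - 2 * (Fintype.card F : ℤ) : ℤ) : ℂ) := by
        rw [li_intCast_iff hM]
        intro h
        apply hp1
        have h3 := dvd_sub (dvd_sub (dvd_pow hpq (two_ne_zero)) (hpq.mul_left 2)) h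
        have e : (Fintype.card F : ℤ) ^ 2 - 2 * (Fintype.card F : ℤ) -
          ((Fintype.card F : ℤ) ^ 2 - 1 - 2 * (Fintype.card F : ℤ)) = 1 := by ring
        rwa [e] at h3
      apply defect_of hM
      · rw [e]; exact lr_div (lr_intCast M _) (lr_intCast M _) hd
      · rw [e, div_eq_mul_inv, li_mul_iff (lr_intCast M _) (lr_inv (lr_intCast M _) hd)]
        rintro (h | h)
        · exact hn h
        · exact not_li_inv (lr_intCast M _) hd h
    · have e : blockCoeff (Bn F) 1 = 1 / ((2 : ℕ) : ℂ) := by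
        unfold blockCoeff
        rw [sum_Bn h2F, hcardC]
        push_cast
        field_simp
      have hd : ¬ MemLocalIdeal M ((2 : ℕ) : ℂ) := by rw [li_natCast_iff hM]; exact h2p
      apply defect_of hM
      · rw [e]; exact lr_div (lr_one M) (lr_natCast M _) hd
      · rw [e, one_div]; exact not_li_inv (lr_natCast M _) hd

end Cfsg.Agent.H16.SL2Blk
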