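import Mathlib
import Cfsg.Agent.H16.SLGen

set_option autoImplicit false
set_option linter.all false

namespace Cfsg.Agent.H16

open Matrix Matrix.SpecialLinearGroup

variable {F : Type*} [Field F]

/-- the standard signed cyclic permutation matrix -/
lemma single_mul_cyc {n : ℕ} (W : Matrix (Fin (n + 1)) (Fin (n + 1)) F)
    (hW : W = Matrix.of (fun i j => if j.val = i.val + 1 then 1 else if i.val = n ∧ j.val = 0 then (-1) ^ n else 0))
    {i j i' j' : Fin (n + 1)} (hi : i'.val = i.val + 1) (hj : j'.val = j.val + 1) (c : F) :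
    single i j c * W = W * single i' j' c := by
  have hi' := i'.2
  have hj' := j'.2
  ext a b
  by_cases ha : a = i
  · subst ha
    rw [single_mul_apply_same]
    by_cases hb : b = j'
    · subst hb
      rw [mul_single_apply_same, hW]
      simp [hi, hj]
    · rw [mul_single_apply_of_ne _ _ _ _ _ hb, hW]
      have h1 : ¬ b.val = j.val + 1 := fun h => hb (Fin.ext (h.trans hj.symm))
      have h2 : ¬ (j.val = n ∧ b.val = 0) := by rintro ⟨h, -⟩; omega
      simp only [of_apply]
      rw [if_neg h1, if_neg h2, mul_zero]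
  · rw [single_mul_apply_of_ne _ _ _ _ _ ha]
    by_cases hb : b = j'
    · subst hb
      rw [mul_single_apply_same, hW]
      have h1 : ¬ i'.val = a.val + 1 := fun h => ha (Fin.ext (by omega))
      have h2 : ¬ (a.val = n ∧ i'.val = 0) := by rintro ⟨-, h⟩; omega
      simp only [of_apply]
      rw [if_neg h1, if_neg h2, zero_mul]
    · rw [mul_single_apply_of_ne _ _ _ _ _ hb]

lemma single_mul_cyc_last {n : ℕ} (W : Matrix (Fin (n + 1)) (Fin (n + 1)) F)
    (hW : W = Matrix.of (fun i j => if j.val = i.val + 1 then 1 else if i.val = n ∧ j.val = 0 then (-1) ^ n else 0))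
    {i j i' j' : Fin (n + 1)} (hi : i'.val = i.val + 1) (hj : j.val = n) (hj' : j'.val = 0) (c : F) :
    single i j c * W = W * single i' j' (c * (-1) ^ n) := by
  have hi' := i'.2
  ext a b
  by_cases ha : a = i
  · subst ha
    rw [single_mul_apply_same]
    by_cases hb : b = j'
    · subst hb
      rw [mul_single_apply_same, hW]
      simp only [of_apply]
      rw [if_neg (by omega), if_pos ⟨hj, hj'⟩, if_pos hi]
      ring
    · rw [mul_single_apply_of_ne _ _ _ _ _ hb, hW]
      have h1 : ¬ b.val = j.val + 1 := by have := b.2; omega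
      have h2 : ¬ (j.val = n ∧ b.val = 0) := by rintro ⟨-, h⟩; exact hb (Fin.ext (h.trans hj'.symm))
      simp only [of_apply]
      rw [if_neg h1, if_neg h2, mul_zero]
  · rw [single_mul_apply_of_ne _ _ _ _ _ ha]
    by_cases hb : b = j'
    · subst hb
      rw [mul_single_apply_same, hW]
      have h1 : ¬ i'.val = a.val + 1 := fun h => ha (Fin.ext (by omega))
      have h2 : ¬ (a.val = n ∧ i'.val = 0) := by rintro ⟨-, h⟩; omega
      simp only [of_apply]
      rw [if_neg h1, if_neg h2, zero_mul]
    · rw [mul_single_apply_of_ne _ _ _ _ _ hb]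

/-- A subgroup of `SL_{n+1}` containing all `T_{k,k+1}(c)` and all `T_{n,0}(c)` is everything. -/
theorem eq_top_of_cyclic_transvections {n : ℕ} (H : Subgroup (SpecialLinearGroup (Fin (n + 1)) F))
    (h1 : ∀ (i j : Fin (n + 1)) (hij : i ≠ j) (c : F), j.val = i.val + 1 →
      SpecialLinearGroup.transvection hij c ∈ H)
    (h2 : ∀ (i j : Fin (n + 1)) (hij : i ≠ j) (c : F), i.val = n → j.val = 0 →
      SpecialLinearGroup.transvection hij c ∈ H) : H = ⊤ := by
  have hlt : ∀ (d : ℕ) (i j : Fin (n + 1)) (hij : i ≠ j) (c : F), j.val = i.val + 1 + d →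
      SpecialLinearGroup.transvection hij c ∈ H := by
    intro d
    induction d with
    | zero => intro i j hij c h; exact h1 i j hij c h
    | succ d ih =>
      intro i j hij c h
      have hj := j.2
      have hk : i.val + 1 + d < n + 1 := by omega
      have hik : i ≠ (⟨i.val + 1 + d, hk⟩ : Fin (n + 1)) := by
        intro h'; have := congrArg Fin.val h'; simp at this; omega
      have hkj : (⟨i.val + 1 + d, hk⟩ : Fin (n + 1)) ≠ j := by
        intro h'; have := congrArg Fin.val h'; simp at this; omega
      refine transvection_mem_trans H hik hkj hij (fun c => ih _ _ hik c rfl)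
        (fun c => h1 _ _ hkj c ?_) c
      simp; omega
  have hlt' : ∀ (i j : Fin (n + 1)) (hij : i ≠ j) (c : F), i.val < j.val →
      SpecialLinearGroup.transvection hij c ∈ H := fun i j hij c h =>
    hlt (j.val - (i.val + 1)) i j hij c (by omega)
  have hz : ∀ (i j : Fin (n + 1)) (hij : i ≠ j) (c : F), j.val = 0 →
      SpecialLinearGroup.transvection hij c ∈ H := by
    intro i j hij c hj
    by_cases hi : i.val = n
    · exact h2 i j hij c hi hj
    · have hil : i ≠ Fin.last n := fun h => hi (by rw [h]; rfl)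
      have hlj : Fin.last n ≠ j := by
        intro h; apply hi; have := congrArg Fin.val h; simp at this; have := i.2; omega
      refine transvection_mem_trans H hil hlj hij (fun c => hlt' _ _ hil c ?_) (fun c => h2 _ _ hlj c rfl hj) c
      have := i.2; simp; omega
  apply eq_top_of_transvection_mem
  intro i j hij c
  rcases lt_or_gt_of_ne (fun h => hij (Fin.ext h) : i.val ≠ j.val) with h | h
  · exact hlt' i j hij c h
  · by_cases hj : j.val = 0
    · exact hz i j hij c hj
    · have hi0 : i ≠ 0 := by rintro rfl; simp at h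
      have h0j : (0 : Fin (n + 1)) ≠ j := by rintro rfl; simp at hj
      exact transvection_mem_trans H hi0 h0j hij (fun c => hz _ _ hi0 c rfl)
        (fun c => hlt' _ _ h0j c (by have h00 : (0 : Fin (n + 1)).val = 0 := rfl; omega)) c

/-- A subgroup of `SL_{n+1}`, `n ≥ 1`, containing the signed cyclic permutation matrix and all
`T_{01}(c)` for `c` in a set `S` closed under negation contains all `T_{k,k+1}(c)`,
`T_{n,0}(c)`, `c ∈ S`. -/
theorem cyc_transvections_mem {n : ℕ} (hn : 1 ≤ n) (H : Subgroup (SpecialLinearGroup (Fin (n + 1)) F))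
    (w : SpecialLinearGroup (Fin (n + 1)) F)
    (hw : (w : Matrix (Fin (n + 1)) (Fin (n + 1)) F) =
      Matrix.of (fun i j => if j.val = i.val + 1 then 1 else if i.val = n ∧ j.val = 0 then (-1) ^ n else 0))
    (hwH : w ∈ H) (S : Set F) (hS : ∀ c ∈ S, -c ∈ S)
    (h01 : ∀ c ∈ S, ∀ (i j : Fin (n + 1)) (hij : i ≠ j), i.val = 0 → j.val = 1 →
      SpecialLinearGroup.transvection hij c ∈ H) :
    (∀ c ∈ S, ∀ (i j : Fin (n + 1)) (hij : i ≠ j), j.val = i.val + 1 →
      SpecialLinearGroup.transvection hij c ∈ H) ∧
    (∀ c ∈ S, ∀ (i j : Fin (n + 1)) (hij : i ≠ j), i.val = n → j.val = 0 →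
      SpecialLinearGroup.transvection hij c ∈ H) := by
  have key : ∀ (k : ℕ) (c : F), c ∈ S → ∀ (i j : Fin (n + 1)) (hij : i ≠ j), i.val = k → j.val = k + 1 →
      SpecialLinearGroup.transvection hij c ∈ H := by
    intro k
    induction k with
    | zero => intro c hc i j hij hi hj; exact h01 c hc i j hij hi hj
    | succ k ih =>
      intro c hc i j hij hi hj
      have hj2 := j.2
      have hk1 : k < n + 1 := by omega
      have hk2 : k + 1 < n + 1 := by omega
      have hne : (⟨k, hk1⟩ : Fin (n + 1)) ≠ ⟨k + 1, hk2⟩ := by intro h; simp at h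
      have := ih c hc ⟨k, hk1⟩ ⟨k + 1, hk2⟩ hne rfl rfl
      have e : (SpecialLinearGroup.transvection hij c : SpecialLinearGroup (Fin (n + 1)) F) =
          w⁻¹ * SpecialLinearGroup.transvection hne c * w := by
        rw [mul_assoc, eq_inv_mul_iff_mul_eq]
        apply sl_ext
        simp only [Matrix.SpecialLinearGroup.coe_mul, transvection_coe, mul_add, add_mul, mul_one, one_mul]
        rw [single_mul_cyc _ hw (i' := i) (j' := j) (by simp [hi]) (by simp [hj])]
      rw [e]
      exact H.mul_mem (H.mul_mem (H.inv_mem hwH) this) hwH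
  refine ⟨fun c hc i j hij h => key i.val c hc i j hij rfl h, ?_⟩
  intro c hc i j hij hi hj
  -- from T_{n-1,n}
  have hk1 : n - 1 < n + 1 := by omega
  have hne : (⟨n - 1, hk1⟩ : Fin (n + 1)) ≠ Fin.last n := by
    intro h; have := congrArg Fin.val h; simp at this; omega
  have hSc : c * (-1) ^ n ∈ S := by
    rcases neg_one_pow_eq_or F n with h | h
    · rw [h, mul_one]; exact hc
    · rw [h, mul_neg, mul_one]; exact hS c hc
  have := key (n - 1) (c * (-1) ^ n) hSc ⟨n - 1, hk1⟩ (Fin.last n) hne rfl (by simp; omega)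
  have e : (SpecialLinearGroup.transvection hij c : SpecialLinearGroup (Fin (n + 1)) F) =
      w⁻¹ * SpecialLinearGroup.transvection hne (c * (-1) ^ n) * w := by
    rw [mul_assoc, eq_inv_mul_iff_mul_eq]
    apply sl_ext
    simp only [Matrix.SpecialLinearGroup.coe_mul, transvection_coe, mul_add, add_mul, mul_one, one_mul]
    rw [single_mul_cyc_last _ hw (i' := i) (j' := j) (by simp [hi]; omega) (by simp) hj]
    rw [mul_assoc, ← mul_pow, neg_one_mul, neg_neg, one_pow, mul_one]
  rw [e]
  exact H.mul_mem (H.mul_mem (H.inv_mem hwH) this) hwH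

end Cfsg.Agent.H16
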