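import Cfsg.Agent.H5.Sp
import Cfsg.Agent.H16.TwGen

set_option autoImplicit false
set_option linter.all false
set_option maxHeartbeats 400000

/-! `Sp_{2m}(q)`, `m ≥ 3`, is generated by two elements. -/

namespace Cfsg.Agent.H16.SpTwoG

open Matrix Cfsg Cfsg.Agent.H5

variable {F : Type*} [Field F] {m : ℕ}

/-- the element given by an isometry -/
noncomputable def ofI (φ : (Fin m ⊕ Fin m → F) →ₗ[F] (Fin m ⊕ Fin m → F)) (h : ∀ u v, sympB m F (φ u) (φ v) = sympB m F u v) :
    Matrix.symplecticGroup (Fin m) F :=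
  ⟨LinearMap.toMatrix' φ, by rw [mem_Sp_iff]; intro u v; rw [LinearMap.toMatrix'_mulVec, LinearMap.toMatrix'_mulVec, h]⟩

/-- the action on vectors -/
def act (g : Matrix.symplecticGroup (Fin m) F) (v : Fin m ⊕ Fin m → F) : Fin m ⊕ Fin m → F :=
  (g : Matrix (Fin m ⊕ Fin m) (Fin m ⊕ Fin m) F).mulVec v

theorem act_ofI (φ : (Fin m ⊕ Fin m → F) →ₗ[F] (Fin m ⊕ Fin m → F)) (h : ∀ u v, sympB m F (φ u) (φ v) = sympB m F u v) (v) :
    act (ofI φ h) v = φ v := LinearMap.toMatrix'_mulVec φ v

theorem act_mul (g g' : Matrix.symplecticGroup (Fin m) F) (v) : act (g * g') v = act g (act g' v) :=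
  (Matrix.mulVec_mulVec v _ _).symm

theorem act_one (v) : act (1 : Matrix.symplecticGroup (Fin m) F) v = v := Matrix.one_mulVec v

theorem act_add (g : Matrix.symplecticGroup (Fin m) F) (u v) : act g (u + v) = act g u + act g v := Matrix.mulVec_add _ _ _

theorem act_smul (g : Matrix.symplecticGroup (Fin m) F) (c : F) (v) : act g (c • v) = c • act g v := Matrix.mulVec_smul _ _ _

theorem act_inv_act (g : Matrix.symplecticGroup (Fin m) F) (v) : act g⁻¹ (act g v) = v := by
  rw [← act_mul, inv_mul_cancel, act_one]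

theorem act_act_inv (g : Matrix.symplecticGroup (Fin m) F) (v) : act g (act g⁻¹ v) = v := by
  rw [← act_mul, mul_inv_cancel, act_one]

theorem act_form (g : Matrix.symplecticGroup (Fin m) F) (u v) : sympB m F (act g u) (act g v) = sympB m F u v :=
  mem_Sp_iff.1 g.2 u v

theorem act_spT (w : Fin m ⊕ Fin m → F) (c : F) (x) : act (spT w c) x = x + (c * sympB m F x w) • w := sympTransvection_mulVec w c x

theorem ext_act {g g' : Matrix.symplecticGroup (Fin m) F} (h : ∀ v, act g v = act g' v) : g = g' := by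
  apply Subtype.ext
  apply Matrix.ext_of_mulVec_single
  intro i
  exact h _

theorem conj_spT (g : Matrix.symplecticGroup (Fin m) F) (w : Fin m ⊕ Fin m → F) (c : F) : g * spT w c * g⁻¹ = spT (act g w) c := by
  apply ext_act
  intro v
  rw [act_mul, act_mul, act_spT, act_spT, act_add, act_smul, act_act_inv]
  have h1 : sympB m F (act g⁻¹ v) w = sympB m F v (act g w) := by
    rw [← act_form g, act_act_inv]
  rw [h1]

/-- full transvection subgroups in `K` -/
def X (K : Subgroup (Matrix.symplecticGroup (Fin m) F)) : Set (Fin m ⊕ Fin m → F) := {w | ∀ c, spT w c ∈ K}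

section
variable {K : Subgroup (Matrix.symplecticGroup (Fin m) F)}

theorem X_act {g : Matrix.symplecticGroup (Fin m) F} (hg : g ∈ K) {w} (hw : w ∈ X K) : act g w ∈ X K := by
  intro c
  rw [← conj_spT]
  exact mul_mem (mul_mem hg (hw c)) (inv_mem hg)

theorem X_add {w w'} (hw : w ∈ X K) (hw' : w' ∈ X K) (h : sympB m F w w' ≠ 0) : w + w' ∈ X K := by
  have h1 := X_act (hw' (sympB m F w w')⁻¹) hw
  rw [act_spT, inv_mul_cancel₀ h, one_smul] at h1
  exact h1

theorem X_smul {w} (hw : w ∈ X K) (a : F) : a • w ∈ X K := by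
  intro c
  have : spT (a • w) c = spT w (c * a ^ 2) := by
    apply ext_act
    intro v
    rw [act_spT, act_spT, map_smul, smul_smul, smul_eq_mul]
    congr 2; ring
  rw [this]; exact hw _

theorem eq_top_of_X (h : ∀ w, w ≠ 0 → w ∈ X K) : K = ⊤ := by
  rw [eq_top_iff, ← spTgroup_eq_top, spTgroup, Subgroup.closure_le]
  rintro A ⟨w, c, hA⟩
  have h1 : A = spT w c := Subtype.ext hA
  rw [h1]
  by_cases hw : w = 0
  · subst hw
    have : spT (0 : Fin m ⊕ Fin m → F) c = 1 := by
      apply ext_act
      intro v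
      rw [act_spT, act_one, smul_zero, add_zero]
    rw [this]; exact one_mem K
  · exact h w hw c

end

/-! ### planes -/

/-- vectors in the planes -/
def pv (i : Fin m) (a b : F) : Fin m ⊕ Fin m → F := Pi.single (Sum.inl i) a + Pi.single (Sum.inr i) b

theorem pv_inl (i j : Fin m) (a b : F) : pv i a b (Sum.inl j) = if i = j then a else 0 := by
  unfold pv
  rw [Pi.add_apply, Pi.single_apply, Pi.single_apply]
  simp [eq_comm]

theorem pv_inr (i j : Fin m) (a b : F) : pv i a b (Sum.inr j) = if i = j then b else 0 := by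
  unfold pv
  rw [Pi.add_apply, Pi.single_apply, Pi.single_apply]
  simp [eq_comm]

theorem B_pv (i : Fin m) (a b : F) (w) : sympB m F (pv i a b) w = b * w (Sum.inl i) - a * w (Sum.inr i) := by
  rw [sympB_apply, sympForm_eq, Finset.sum_eq_single i]
  · rw [pv_inl, pv_inr, if_pos rfl, if_pos rfl]
  · intro j _ hj
    rw [pv_inl, pv_inr, if_neg hj.symm, if_neg hj.symm]; ring
  · intro h; exact absurd (Finset.mem_univ _) h

theorem B_pv' (i : Fin m) (a b : F) (w) : sympB m F w (pv i a b) = w (Sum.inr i) * a - w (Sum.inl i) * b := by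
  rw [sympB_neg, B_pv]; ring

theorem pv_add (i : Fin m) (a b a' b' : F) : pv i a b + pv i a' b' = pv i (a + a') (b + b') := by
  funext s
  rcases s with s | s
  · rw [Pi.add_apply, pv_inl, pv_inl, pv_inl]; split_ifs <;> simp
  · rw [Pi.add_apply, pv_inr, pv_inr, pv_inr]; split_ifs <;> simp

theorem pv_smul (i : Fin m) (c a b : F) : c • pv i a b = pv i (c * a) (c * b) := by
  funext s
  rcases s with s | s
  · rw [Pi.smul_apply, pv_inl, pv_inl]; split_ifs <;> simp
  · rw [Pi.smul_apply, pv_inr, pv_inr]; split_ifs <;> simp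

theorem pv_zero (i : Fin m) : pv i (0 : F) 0 = 0 := by
  funext s
  rcases s with s | s
  · rw [pv_inl]; split_ifs <;> rfl
  · rw [pv_inr]; split_ifs <;> rfl

def Adj (K : Subgroup (Matrix.symplecticGroup (Fin m) F)) (i j : Fin m) : Prop :=
  ∀ a b a' b' : F, (a ≠ 0 ∨ b ≠ 0) → (a' ≠ 0 ∨ b' ≠ 0) → pv i a b + pv j a' b' ∈ X K

section
variable {K : Subgroup (Matrix.symplecticGroup (Fin m) F)}

/-- moving one component -/
theorem move {i j : Fin m} (hij : i ≠ j) (hP : ∀ a b : F, (a ≠ 0 ∨ b ≠ 0) → pv i a b ∈ X K) {a b a' b' : F} (h0 : a ≠ 0 ∨ b ≠ 0)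
    {w} (hw : w (Sum.inl i) = 0) (hw' : w (Sum.inr i) = 0) (h1 : a' ≠ 0 ∨ b' ≠ 0) (h : pv i a b + w ∈ X K) : pv i a' b' + w ∈ X K := by
  have step : ∀ a b a' b' : F, b * a' - a * b' ≠ 0 → pv i a b + w ∈ X K → pv i a' b' + w ∈ X K := by
    intro a b a' b' hd h
    have h2 : pv i (a' - a) (b' - b) ∈ X K := by
      apply hP
      by_contra hc
      push Not at hc
      apply hd
      have e1 : a' = a := by linear_combination hc.1
      have e2 : b' = b := by linear_combination hc.2
      rw [e1, e2]; ring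
    have h3 : sympB m F (pv i a b + w) (pv i (a' - a) (b' - b)) ≠ 0 := by
      rw [map_add, LinearMap.add_apply, B_pv, B_pv', pv_inl, pv_inr, if_pos rfl, if_pos rfl, hw, hw']
      intro hc
      apply hd
      linear_combination hc
    have h4 := X_add h h2 h3
    have h5 : pv i a b + w + pv i (a' - a) (b' - b) = pv i a' b' + w := by
      rw [add_right_comm, pv_add, add_sub_cancel, add_sub_cancel]
    rwa [h5] at h4
  by_cases hd : b * a' - a * b' = 0
  · -- choose an intermediate vector
    obtain ⟨x, y, hx1, hx2⟩ : ∃ x y : F, b * x - a * y ≠ 0 ∧ y * a' - x * b' ≠ 0 := by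
      rcases h0 with ha | hb
      · -- y = 1, x = 0 : first = -a, second = a'
        have ha' : a' ≠ 0 := by
          rintro rfl
          rcases h1 with h1 | h1
          · exact h1 rfl
          · apply mul_ne_zero ha h1
            linear_combination -hd
        exact ⟨0, 1, by intro hc; apply ha; linear_combination -hc, by intro hc; apply ha'; linear_combination hc⟩
      · have hb' : b' ≠ 0 := by
          rintro rfl
          rcases h1 with h1 | h1
          · apply mul_ne_zero hb h1
            linear_combination hd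
          · exact h1 rfl
        exact ⟨1, 0, by intro hc; apply hb; linear_combination hc, by intro hc; apply hb'; linear_combination -hc⟩
    exact step x y a' b' hx2 (step a b x y hx1 h)
  · exact step a b a' b' hd h

theorem Adj_of {i j : Fin m} (hij : i ≠ j) (hPi : ∀ a b : F, (a ≠ 0 ∨ b ≠ 0) → pv i a b ∈ X K)
    (hPj : ∀ a b : F, (a ≠ 0 ∨ b ≠ 0) → pv j a b ∈ X K) {a b a' b' : F} (h0 : a ≠ 0 ∨ b ≠ 0) (h1 : a' ≠ 0 ∨ b' ≠ 0)
    (h : pv i a b + pv j a' b' ∈ X K) : Adj K i j := by
  intro x y x' y' hx hx'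
  have h2 : pv i x y + pv j a' b' ∈ X K := by
    apply move hij hPi h0 _ _ hx h
    · rw [pv_inl, if_neg hij.symm]
    · rw [pv_inr, if_neg hij.symm]
  rw [add_comm] at h2 ⊢
  apply move hij.symm hPj h1 _ _ hx' h2
  · rw [pv_inl, if_neg hij]
  · rw [pv_inr, if_neg hij]

theorem Adj_trans {i j k : Fin m} (hij : i ≠ j) (hjk : j ≠ k) (hik : i ≠ k) (h1 : Adj K i j) (h2 : Adj K j k) : Adj K i k := by
  intro a b x y hab hxy
  -- `v₁` with `(v₁, v) ≠ 0`
  obtain ⟨x1, y1, hv⟩ : ∃ x1 y1 : F, y1 * x - x1 * y ≠ 0 := by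
    rcases hxy with hx | hy
    · exact ⟨0, 1, by intro hc; apply hx; linear_combination hc⟩
    · exact ⟨1, 0, by intro hc; apply hy; linear_combination -hc⟩
  have hx1 : x1 ≠ 0 ∨ y1 ≠ 0 := by
    by_contra hc
    push Not at hc
    rw [hc.1, hc.2] at hv
    exact hv (by ring)
  have hx2 : x - x1 ≠ 0 ∨ y - y1 ≠ 0 := by
    by_contra hc
    push Not at hc
    apply hv
    have e1 : x = x1 := by linear_combination hc.1
    have e2 : y = y1 := by linear_combination hc.2
    rw [e1, e2]; ring
  have a1 := h1 a b 1 0 hab (Or.inl one_ne_zero)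
  have a2 := h2 0 1 x1 y1 (Or.inr one_ne_zero) hx1
  have b1 : sympB m F (pv i a b + pv j 1 0) (pv j 0 1 + pv k x1 y1) ≠ 0 := by
    simp only [map_add, LinearMap.add_apply, B_pv, pv_inl, pv_inr, if_neg hij.symm, if_neg hik.symm, if_neg hjk.symm, if_true]
    intro hc
    apply one_ne_zero (α := F)
    linear_combination -hc
  have a3 := X_add a1 a2 b1
  have a4 := h2 (-1) (-1) (x - x1) (y - y1) (Or.inl (neg_ne_zero.2 one_ne_zero)) hx2
  have e1 : pv i a b + pv j 1 0 + (pv j 0 1 + pv k x1 y1) = pv i a b + pv j 1 1 + pv k x1 y1 := by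
    rw [add_assoc, ← add_assoc (pv j 1 0), pv_add, add_zero, zero_add, add_assoc]
  rw [e1] at a3
  have b2 : sympB m F (pv i a b + pv j 1 1 + pv k x1 y1) (pv j (-1) (-1) + pv k (x - x1) (y - y1)) ≠ 0 := by
    simp only [map_add, LinearMap.add_apply, B_pv, pv_inl, pv_inr, if_neg hij.symm, if_neg hik.symm, if_neg hjk.symm, if_neg hjk, if_true]
    intro hc
    apply hv
    linear_combination hc
  have a5 := X_add a3 a4 b2
  have e2 : pv i a b + pv j 1 1 + pv k x1 y1 + (pv j (-1) (-1) + pv k (x - x1) (y - y1)) = pv i a b + pv k x y := by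
    have e3 : pv j (1 : F) 1 + pv j (-1) (-1) = 0 := by rw [pv_add, add_neg_cancel, pv_zero]
    have e4 : pv k x1 y1 + pv k (x - x1) (y - y1) = pv k x y := by rw [pv_add, add_sub_cancel, add_sub_cancel]
    calc _ = pv i a b + (pv j 1 1 + pv j (-1) (-1)) + (pv k x1 y1 + pv k (x - x1) (y - y1)) := by abel
      _ = _ := by rw [e3, e4, add_zero]
  rwa [e2] at a5

theorem X_all (hP : ∀ i : Fin m, ∀ a b : F, (a ≠ 0 ∨ b ≠ 0) → pv i a b ∈ X K) (hA : ∀ i j : Fin m, i ≠ j → Adj K i j) :
    ∀ w, w ≠ 0 → w ∈ X K := by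
  classical
  have key : ∀ k : ℕ, ∀ w : Fin m ⊕ Fin m → F, (Finset.univ.filter fun i : Fin m => w (Sum.inl i) ≠ 0 ∨ w (Sum.inr i) ≠ 0).card = k + 1 → w ∈ X K := by
    intro k
    induction k with
    | zero =>
      intro w hw
      rw [zero_add, Finset.card_eq_one] at hw
      obtain ⟨i, hi⟩ := hw
      have h1 : w = pv i (w (Sum.inl i)) (w (Sum.inr i)) := by
        have h2 : ∀ j, j ≠ i → w (Sum.inl j) = 0 ∧ w (Sum.inr j) = 0 := by
          intro j hj
          by_contra hc
          have : j ∈ (Finset.univ.filter fun i : Fin m => w (Sum.inl i) ≠ 0 ∨ w (Sum.inr i) ≠ 0) := by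
            rw [Finset.mem_filter]
            refine ⟨Finset.mem_univ _, ?_⟩
            by_contra hd
            push Not at hd
            exact hc hd
          rw [hi, Finset.mem_singleton] at this
          exact hj this
        funext s
        rcases s with s | s
        · rw [pv_inl]
          split_ifs with h3
          · rw [h3]
          · exact (h2 s (Ne.symm h3)).1
        · rw [pv_inr]
          split_ifs with h3
          · rw [h3]
          · exact (h2 s (Ne.symm h3)).2
      have h2 : i ∈ (Finset.univ.filter fun i : Fin m => w (Sum.inl i) ≠ 0 ∨ w (Sum.inr i) ≠ 0) := by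
        rw [hi]; exact Finset.mem_singleton_self i
      rw [h1]
      exact hP i _ _ (Finset.mem_filter.1 h2).2
    | succ k ih =>
      intro w hw
      obtain ⟨j, hj, l, hl, hjl⟩ := Finset.one_lt_card.1 (by rw [hw]; omega : 1 < _)
      have hj' := (Finset.mem_filter.1 hj).2
      have hl' := (Finset.mem_filter.1 hl).2
      -- `u` in the plane `j` with `(w_j, u) ≠ 0`
      obtain ⟨x, y, hu⟩ : ∃ x y : F, w (Sum.inr j) * x - w (Sum.inl j) * y ≠ 0 := by
        rcases hj' with h | h
        · exact ⟨0, 1, by intro hc; apply h; linear_combination -hc⟩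
        · exact ⟨1, 0, by intro hc; apply h; linear_combination hc⟩
      have hxy : x ≠ 0 ∨ y ≠ 0 := by
        by_contra hc
        push Not at hc
        rw [hc.1, hc.2] at hu
        exact hu (by ring)
      have h1 : pv j x y + pv l (w (Sum.inl l)) (w (Sum.inr l)) ∈ X K := hA j l hjl _ _ _ _ hxy hl'
      set y' := pv j x y + pv l (w (Sum.inl l)) (w (Sum.inr l)) with hy'
      have c1 : y' (Sum.inl j) = x := by rw [hy', Pi.add_apply, pv_inl, pv_inl, if_pos rfl, if_neg hjl.symm, add_zero]
      have c2 : y' (Sum.inr j) = y := by rw [hy', Pi.add_apply, pv_inr, pv_inr, if_pos rfl, if_neg hjl.symm, add_zero]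
      have c3 : y' (Sum.inl l) = w (Sum.inl l) := by rw [hy', Pi.add_apply, pv_inl, pv_inl, if_pos rfl, if_neg hjl, zero_add]
      have c4 : y' (Sum.inr l) = w (Sum.inr l) := by rw [hy', Pi.add_apply, pv_inr, pv_inr, if_pos rfl, if_neg hjl, zero_add]
      have c5 : ∀ i, i ≠ j → i ≠ l → y' (Sum.inl i) = 0 ∧ y' (Sum.inr i) = 0 := by
        intro i hi hi'
        rw [hy', Pi.add_apply, Pi.add_apply, pv_inl, pv_inl, pv_inr, pv_inr, if_neg hi.symm, if_neg hi'.symm, if_neg hi.symm, if_neg hi'.symm]
        simp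
      have h2 : w - y' ∈ X K := by
        apply ih
        have h3 : (Finset.univ.filter fun i : Fin m => (w - y') (Sum.inl i) ≠ 0 ∨ (w - y') (Sum.inr i) ≠ 0) =
            (Finset.univ.filter fun i : Fin m => w (Sum.inl i) ≠ 0 ∨ w (Sum.inr i) ≠ 0).erase l := by
          ext i
          rw [Finset.mem_erase, Finset.mem_filter, Finset.mem_filter, Pi.sub_apply, Pi.sub_apply]
          by_cases hil : i = l
          · subst hil
            rw [c3, c4]; simp
          · by_cases hij : i = j
            · subst hij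
              rw [c1, c2]
              simp only [Finset.mem_univ, true_and, hil, ne_eq, not_false_eq_true, hj', iff_true]
              by_contra hc
              push Not at hc
              apply hu
              have e1 : x = w (Sum.inl i) := by linear_combination -hc.1
              have e2 : y = w (Sum.inr i) := by linear_combination -hc.2
              rw [e1, e2]; ring
            · rw [(c5 i hij hil).1, (c5 i hij hil).2, sub_zero, sub_zero]
              simp [hil]
        rw [h3, Finset.card_erase_of_mem hl, hw]; rfl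
      have h4 : sympB m F (w - y') y' ≠ 0 := by
        have e1 : sympB m F y' y' = 0 := sympB_isAlt y'
        rw [map_sub, LinearMap.sub_apply, e1, sub_zero, hy', map_add, B_pv', B_pv']
        intro hc
        apply hu
        linear_combination hc
      have h5 := X_add h2 h1 h4
      rwa [sub_add_cancel] at h5
  intro w hw
  obtain ⟨k, hk⟩ : ∃ k, (Finset.univ.filter fun i : Fin m => w (Sum.inl i) ≠ 0 ∨ w (Sum.inr i) ≠ 0).card = k + 1 := by
    refine ⟨_, (Nat.succ_pred_eq_of_pos ?_).symm⟩
    rw [Finset.card_pos]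
    by_contra hc
    rw [Finset.not_nonempty_iff_eq_empty, Finset.filter_eq_empty_iff] at hc
    apply hw
    funext s
    rcases s with s | s
    · have := hc (Finset.mem_univ s)
      push Not at this
      exact this.1
    · have := hc (Finset.mem_univ s)
      push Not at this
      exact this.2
  exact key k w hk

end

end Cfsg.Agent.H16.SpTwoG
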