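import Cfsg.Agent.H16.SpTwoG

set_option autoImplicit false
set_option linter.all false
set_option maxHeartbeats 400000

/-! `Sp_{2m}(q)`, `m ≥ 3`, is generated by two elements: the generators. -/

namespace Cfsg.Agent.H16.SpTwoH

open Matrix Cfsg Cfsg.Agent.H5 Cfsg.Agent.H16.SpTwoG Cfsg.Agent.H16.RegF Cfsg.Agent.H16.ReeH Cfsg.Agent.H16.TwGen

variable {F : Type*} [Field F] {n : ℕ}

/-- the twisted shift -/
def cycL (n : ℕ) (F : Type*) [Field F] : (Fin (n + 3) ⊕ Fin (n + 3) → F) →ₗ[F] (Fin (n + 3) ⊕ Fin (n + 3) → F) where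
  toFun x := Sum.elim (fun i => - x (Sum.inr (i - 1))) (fun i => x (Sum.inl (i - 1)))
  map_add' x y := by
    funext s
    rcases s with s | s
    · simp only [Sum.elim_inl, Pi.add_apply]; ring
    · simp only [Sum.elim_inr, Pi.add_apply]
  map_smul' c x := by
    funext s
    rcases s with s | s
    · simp only [Sum.elim_inl, Pi.smul_apply, smul_eq_mul, RingHom.id_apply]; ring
    · simp only [Sum.elim_inr, Pi.smul_apply, smul_eq_mul, RingHom.id_apply]

theorem cycL_form (u v : Fin (n + 3) ⊕ Fin (n + 3) → F) : sympB (n + 3) F (cycL n F u) (cycL n F v) = sympB (n + 3) F u v := by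
  rw [sympB_apply, sympB_apply, sympForm_eq, sympForm_eq, ← Equiv.sum_comp (Equiv.subRight (1 : Fin (n + 3)))
    (fun i => u (Sum.inr i) * v (Sum.inl i) - u (Sum.inl i) * v (Sum.inr i))]
  apply Finset.sum_congr rfl
  intro i _
  change u (Sum.inl (i - 1)) * (- v (Sum.inr (i - 1))) - (- u (Sum.inr (i - 1))) * v (Sum.inl (i - 1)) =
    u (Sum.inr (i - 1)) * v (Sum.inl (i - 1)) - u (Sum.inl (i - 1)) * v (Sum.inr (i - 1))
  ring

noncomputable def cyc (n : ℕ) (F : Type*) [Field F] : Matrix.symplecticGroup (Fin (n + 3)) F := ofI (cycL n F) cycL_form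

theorem act_cyc (i : Fin (n + 3)) (a b : F) : act (cyc n F) (pv i a b) = pv (i + 1) (-b) a := by
  unfold cyc
  rw [act_ofI]
  funext s
  rcases s with s | s
  · change - pv i a b (Sum.inr (s - 1)) = _
    rw [pv_inr, pv_inl]
    by_cases h : i + 1 = s
    · rw [if_pos h, if_pos (eq_sub_of_add_eq h)]
    · rw [if_neg h, if_neg (fun h1 => h (by rw [h1, sub_add_cancel])), neg_zero]
  · change pv i a b (Sum.inl (s - 1)) = _
    rw [pv_inl, pv_inr]
    by_cases h : i + 1 = s
    · rw [if_pos h, if_pos (eq_sub_of_add_eq h)]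
    · rw [if_neg h, if_neg (fun h1 => h (by rw [h1, sub_add_cancel]))]

theorem act_cyc_inv (i : Fin (n + 3)) (a b : F) : act (cyc n F)⁻¹ (pv (i + 1) a b) = pv i b (-a) := by
  have h := act_cyc i b (-a)
  rw [neg_neg] at h
  rw [← h, act_inv_act]

/-- the embedding of `SL₂` in the first plane -/
def embL (n : ℕ) (A : Matrix.SpecialLinearGroup (Fin 2) F) : (Fin (n + 3) ⊕ Fin (n + 3) → F) →ₗ[F] (Fin (n + 3) ⊕ Fin (n + 3) → F) where
  toFun x := Sum.elim (fun i => if i = 0 then A.1 0 0 * x (Sum.inl 0) + A.1 0 1 * x (Sum.inr 0) else x (Sum.inl i))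
    (fun i => if i = 0 then A.1 1 0 * x (Sum.inl 0) + A.1 1 1 * x (Sum.inr 0) else x (Sum.inr i))
  map_add' x y := by
    funext s
    rcases s with s | s
    · simp only [Sum.elim_inl, Pi.add_apply]; split_ifs <;> ring
    · simp only [Sum.elim_inr, Pi.add_apply]; split_ifs <;> ring
  map_smul' c x := by
    funext s
    rcases s with s | s
    · simp only [Sum.elim_inl, Pi.smul_apply, smul_eq_mul, RingHom.id_apply]; split_ifs <;> ring
    · simp only [Sum.elim_inr, Pi.smul_apply, smul_eq_mul, RingHom.id_apply]; split_ifs <;> ring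

theorem embL_form (A : Matrix.SpecialLinearGroup (Fin 2) F) (u v : Fin (n + 3) ⊕ Fin (n + 3) → F) :
    sympB (n + 3) F (embL n A u) (embL n A v) = sympB (n + 3) F u v := by
  have hd := A.2
  rw [Matrix.det_fin_two] at hd
  rw [sympB_apply, sympB_apply, sympForm_eq, sympForm_eq]
  apply Finset.sum_congr rfl
  intro i _
  change (if i = 0 then A.1 1 0 * u (Sum.inl 0) + A.1 1 1 * u (Sum.inr 0) else u (Sum.inr i)) *
    (if i = 0 then A.1 0 0 * v (Sum.inl 0) + A.1 0 1 * v (Sum.inr 0) else v (Sum.inl i)) -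
    (if i = 0 then A.1 0 0 * u (Sum.inl 0) + A.1 0 1 * u (Sum.inr 0) else u (Sum.inl i)) *
    (if i = 0 then A.1 1 0 * v (Sum.inl 0) + A.1 1 1 * v (Sum.inr 0) else v (Sum.inr i)) = _
  split_ifs with h
  · subst h
    linear_combination (u (Sum.inr 0) * v (Sum.inl 0) - u (Sum.inl 0) * v (Sum.inr 0)) * hd
  · rfl

noncomputable def emb (n : ℕ) (F : Type*) [Field F] : Matrix.SpecialLinearGroup (Fin 2) F →* Matrix.symplecticGroup (Fin (n + 3)) F :=
  MonoidHom.mk' (fun A => ofI (embL n A) (embL_form A)) (by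
    intro A B
    apply ext_act
    intro v
    rw [act_mul, act_ofI, act_ofI, act_ofI]
    have e : ∀ i j, (A * B).1 i j = A.1 i 0 * B.1 0 j + A.1 i 1 * B.1 1 j := by
      intro i j
      rw [Matrix.SpecialLinearGroup.coe_mul, Matrix.mul_apply, Fin.sum_univ_two]
    funext s
    rcases s with s | s
    · change (if s = 0 then (A * B).1 0 0 * v (Sum.inl 0) + (A * B).1 0 1 * v (Sum.inr 0) else v (Sum.inl s)) =
        (if s = 0 then A.1 0 0 * (if (0 : Fin (n + 3)) = 0 then B.1 0 0 * v (Sum.inl 0) + B.1 0 1 * v (Sum.inr 0) else v (Sum.inl 0)) +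
          A.1 0 1 * (if (0 : Fin (n + 3)) = 0 then B.1 1 0 * v (Sum.inl 0) + B.1 1 1 * v (Sum.inr 0) else v (Sum.inr 0)) else
          (if s = 0 then B.1 0 0 * v (Sum.inl 0) + B.1 0 1 * v (Sum.inr 0) else v (Sum.inl s)))
      rw [e, e, if_pos rfl, if_pos rfl]
      split_ifs
      · ring
      · rfl
    · change (if s = 0 then (A * B).1 1 0 * v (Sum.inl 0) + (A * B).1 1 1 * v (Sum.inr 0) else v (Sum.inr s)) =
        (if s = 0 then A.1 1 0 * (if (0 : Fin (n + 3)) = 0 then B.1 0 0 * v (Sum.inl 0) + B.1 0 1 * v (Sum.inr 0) else v (Sum.inl 0)) +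
          A.1 1 1 * (if (0 : Fin (n + 3)) = 0 then B.1 1 0 * v (Sum.inl 0) + B.1 1 1 * v (Sum.inr 0) else v (Sum.inr 0)) else
          (if s = 0 then B.1 1 0 * v (Sum.inl 0) + B.1 1 1 * v (Sum.inr 0) else v (Sum.inr s)))
      rw [e, e, if_pos rfl, if_pos rfl]
      split_ifs
      · ring
      · rfl)

theorem act_emb (A : Matrix.SpecialLinearGroup (Fin 2) F) (a b : F) :
    act (emb n F A) (pv 0 a b) = pv 0 (A.1 0 0 * a + A.1 0 1 * b) (A.1 1 0 * a + A.1 1 1 * b) := by
  change act (ofI (embL n A) (embL_form A)) _ = _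
  rw [act_ofI]
  funext s
  rcases s with s | s
  · change (if s = 0 then A.1 0 0 * pv 0 a b (Sum.inl 0) + A.1 0 1 * pv 0 a b (Sum.inr 0) else pv 0 a b (Sum.inl s)) = _
    rw [pv_inl, pv_inl, pv_inr, pv_inl, if_pos rfl, if_pos rfl]
    by_cases h : s = 0
    · rw [if_pos h, if_pos h.symm]
    · rw [if_neg h, if_neg (Ne.symm h), if_neg (Ne.symm h)]
  · change (if s = 0 then A.1 1 0 * pv 0 a b (Sum.inl 0) + A.1 1 1 * pv 0 a b (Sum.inr 0) else pv 0 a b (Sum.inr s)) = _
    rw [pv_inl, pv_inr, pv_inr, pv_inr, if_pos rfl, if_pos rfl]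
    by_cases h : s = 0
    · rw [if_pos h, if_pos h.symm]
    · rw [if_neg h, if_neg (Ne.symm h), if_neg (Ne.symm h)]

theorem act_emb' (A : Matrix.SpecialLinearGroup (Fin 2) F) {i : Fin (n + 3)} (hi : i ≠ 0) (a b : F) :
    act (emb n F A) (pv i a b) = pv i a b := by
  change act (ofI (embL n A) (embL_form A)) _ = _
  rw [act_ofI]
  funext s
  rcases s with s | s
  · change (if s = 0 then A.1 0 0 * pv i a b (Sum.inl 0) + A.1 0 1 * pv i a b (Sum.inr 0) else pv i a b (Sum.inl s)) = _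
    by_cases h : s = 0
    · rw [if_pos h, pv_inl, pv_inr, pv_inl, if_neg hi, if_neg hi, if_neg (by rw [h]; exact hi)]; ring
    · rw [if_neg h]
  · change (if s = 0 then A.1 1 0 * pv i a b (Sum.inl 0) + A.1 1 1 * pv i a b (Sum.inr 0) else pv i a b (Sum.inr s)) = _
    by_cases h : s = 0
    · rw [if_pos h, pv_inl, pv_inr, pv_inr, if_neg hi, if_neg hi, if_neg (by rw [h]; exact hi)]; ring
    · rw [if_neg h]

/-- conjugates of the embedded element -/
noncomputable def g1 (n : ℕ) (A : Matrix.SpecialLinearGroup (Fin 2) F) : Matrix.symplecticGroup (Fin (n + 3)) F := cyc n F * emb n F A * (cyc n F)⁻¹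
noncomputable def g2 (n : ℕ) (A : Matrix.SpecialLinearGroup (Fin 2) F) : Matrix.symplecticGroup (Fin (n + 3)) F := cyc n F * g1 n A * (cyc n F)⁻¹

theorem act_g1 (A : Matrix.SpecialLinearGroup (Fin 2) F) (a b : F) :
    act (g1 n A) (pv 1 a b) = pv 1 (A.1 1 1 * a - A.1 1 0 * b) (A.1 0 0 * b - A.1 0 1 * a) := by
  unfold g1
  have e : (1 : Fin (n + 3)) = 0 + 1 := (zero_add 1).symm
  rw [act_mul, act_mul, e, act_cyc_inv, act_emb, act_cyc]
  congr 1 <;> ring

theorem one_add : (1 : Fin (n + 3)) + 1 = 2 := by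
  apply Fin.ext
  rw [Fin.val_add]
  rfl

theorem ne10 : (1 : Fin (n + 3)) ≠ 0 := by
  intro h
  have := congrArg Fin.val h
  simp at this
theorem ne20 : (2 : Fin (n + 3)) ≠ 0 := by
  intro h
  have := congrArg Fin.val h
  have h2 : ((2 : Fin (n + 3)) : ℕ) = 2 := rfl
  rw [h2] at this
  simp at this
theorem ne21 : (2 : Fin (n + 3)) ≠ 1 := by
  intro h
  have := congrArg Fin.val h
  have h2 : ((2 : Fin (n + 3)) : ℕ) = 2 := rfl
  rw [h2] at this
  simp at this

theorem act_g1' (A : Matrix.SpecialLinearGroup (Fin 2) F) (a b : F) : act (g1 n A) (pv 2 a b) = pv 2 a b := by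
  unfold g1
  rw [act_mul, act_mul, ← one_add, act_cyc_inv, act_emb' A ne10, act_cyc, neg_neg]

theorem act_g2 (A : Matrix.SpecialLinearGroup (Fin 2) F) (a b : F) :
    act (g2 n A) (pv 2 a b) = pv 2 (A.1 0 0 * a + A.1 0 1 * b) (A.1 1 0 * a + A.1 1 1 * b) := by
  unfold g2
  rw [act_mul, act_mul, ← one_add, act_cyc_inv, act_g1, act_cyc]
  congr 1 <;> ring

theorem act_g2' (A : Matrix.SpecialLinearGroup (Fin 2) F) (a b : F) : act (g2 n A) (pv 1 a b) = pv 1 a b := by
  unfold g2 g1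
  have e : (1 : Fin (n + 3)) = 0 + 1 := (zero_add 1).symm
  have e0 : (0 : Fin (n + 3)) = -1 + 1 := (neg_add_cancel 1).symm
  have h1 : (-1 : Fin (n + 3)) ≠ 0 := by
    intro h
    exact ne10 (neg_eq_zero.1 h)
  have h2 : act (cyc n F * emb n F A * (cyc n F)⁻¹) (pv 0 b (-a)) = pv 0 b (-a) := by
    rw [act_mul, act_mul, e0, act_cyc_inv, act_emb' A h1, act_cyc, neg_neg]
  rw [act_mul, act_mul, e, act_cyc_inv, h2, act_cyc, neg_neg]

/-! ### the final step -/

open scoped Fin.NatCast Fin.CommRing in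
theorem step_all {P : Fin (n + 3) → Prop} (i0 : Fin (n + 3)) (h0 : P i0) (hs : ∀ i, P i → P (i + 1)) : ∀ i, P i := by
  have key : ∀ k : ℕ, P (i0 + (k : Fin (n + 3))) := by
    intro k
    induction k with
    | zero => rw [Nat.cast_zero, add_zero]; exact h0
    | succ k ih =>
      have := hs _ ih
      rwa [add_assoc, ← Nat.cast_succ] at this
  intro i
  have := key (i - i0).val
  rwa [Fin.cast_val_eq_self, add_sub_cancel] at this

variable {K : Subgroup (Matrix.symplecticGroup (Fin (n + 3)) F)}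

theorem plane_of {i : Fin (n + 3)} (h1 : pv i (1 : F) 0 ∈ X K) (h2 : pv i (0 : F) 1 ∈ X K) : ∀ a b : F, (a ≠ 0 ∨ b ≠ 0) → pv i a b ∈ X K := by
  intro a b hab
  have e1 : pv i a 0 ∈ X K := by have := X_smul h1 a; rwa [pv_smul, mul_one, mul_zero] at this
  have e2 : pv i 0 b ∈ X K := by have := X_smul h2 b; rwa [pv_smul, mul_one, mul_zero] at this
  by_cases ha : a = 0
  · rw [ha]; exact e2
  · by_cases hb : b = 0
    · rw [hb]; exact e1
    · have h3 := X_add e1 e2 (by
        rw [B_pv, pv_inl, pv_inr, if_pos rfl, if_pos rfl]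
        intro hc
        apply mul_ne_zero ha hb
        linear_combination -hc)
      rwa [pv_add, add_zero, zero_add] at h3

open scoped Fin.NatCast Fin.CommRing in
theorem final (hc : cyc n F ∈ K) (h1 : pv 1 (1 : F) 0 ∈ X K) (h2 : pv 1 (0 : F) 1 ∈ X K) (h3 : pv 1 (1 : F) 0 + pv 2 1 0 ∈ X K) : K = ⊤ := by
  have hP1 := plane_of h1 h2
  have hP : ∀ i : Fin (n + 3), ∀ a b : F, (a ≠ 0 ∨ b ≠ 0) → pv i a b ∈ X K := by
    apply step_all (P := fun i => ∀ a b : F, (a ≠ 0 ∨ b ≠ 0) → pv i a b ∈ X K) 1 hP1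
    intro i hi a b hab
    have h4 : pv i b (-a) ∈ X K := hi b (-a) (by rcases hab with h | h; exact Or.inr (neg_ne_zero.2 h); exact Or.inl h)
    have h5 := X_act hc h4
    rwa [act_cyc, neg_neg] at h5
  have hA1 : ∀ i : Fin (n + 3), Adj K i (i + 1) := by
    apply step_all (P := fun i => Adj K i (i + 1)) 1
    · rw [one_add]
      exact Adj_of ne21.symm (hP 1) (hP 2) (Or.inl one_ne_zero) (Or.inl one_ne_zero) h3
    · intro i hi a b a' b' h0 h0'
      have h4 := hi b (-a) b' (-a') (by rcases h0 with h | h; exact Or.inr (neg_ne_zero.2 h); exact Or.inl h)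
        (by rcases h0' with h | h; exact Or.inr (neg_ne_zero.2 h); exact Or.inl h)
      have h5 := X_act hc h4
      rwa [act_add, act_cyc, act_cyc, neg_neg, neg_neg] at h5
  have hA2 : ∀ (i : Fin (n + 3)) (k : ℕ), i ≠ i + (k : Fin (n + 3)) → Adj K i (i + (k : Fin (n + 3))) := by
    intro i k
    induction k with
    | zero => intro h; exact absurd (by rw [Nat.cast_zero, add_zero]) h
    | succ k ih =>
      intro h
      have e : i + ((k + 1 : ℕ) : Fin (n + 3)) = i + (k : Fin (n + 3)) + 1 := by rw [Nat.cast_succ, add_assoc]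
      rw [e] at h ⊢
      by_cases hk : i = i + (k : Fin (n + 3))
      · rw [← hk]; exact hA1 i
      · refine Adj_trans hk ?_ h (ih hk) (hA1 _)
        intro hc
        exact ne10 (left_eq_add.1 hc)
  have hA : ∀ i j : Fin (n + 3), i ≠ j → Adj K i j := by
    intro i j hij
    have h4 := hA2 i (j - i).val
    rw [Fin.cast_val_eq_self, add_sub_cancel] at h4
    exact h4 hij
  exact eq_top_of_X (X_all hP hA)

end Cfsg.Agent.H16.SpTwoH
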