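import Cfsg.Agent.H16.SpTwoH

set_option autoImplicit false
set_option linter.all false
set_option maxHeartbeats 400000

/-! `Sp_{2m}(q)`, `m ≥ 3`, is generated by two elements: conclusion. -/

namespace Cfsg.Agent.H16.SpTwoI

open Matrix Cfsg Cfsg.Agent.H5 Cfsg.Agent.H16.SpTwoG Cfsg.Agent.H16.SpTwoH Cfsg.Agent.H16.RegF Cfsg.Agent.H16.ReeH Cfsg.Agent.H16.TwGen

variable {F : Type*} [Field F] {n : ℕ}

abbrev e1 (n : ℕ) (F : Type*) [Field F] : Fin (n + 3) ⊕ Fin (n + 3) → F := pv 1 1 0
abbrev e2 (n : ℕ) (F : Type*) [Field F] : Fin (n + 3) ⊕ Fin (n + 3) → F := pv 2 1 0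

theorem b11 : sympB (n + 3) F (e1 n F) (e1 n F) = 0 := sympB_isAlt _
theorem b22 : sympB (n + 3) F (e2 n F) (e2 n F) = 0 := sympB_isAlt _
theorem b12 : sympB (n + 3) F (e1 n F) (e2 n F) = 0 := by rw [B_pv]; unfold e2; rw [pv_inl, pv_inr, if_neg ne21, if_neg ne21]; ring
theorem b21 : sympB (n + 3) F (e2 n F) (e1 n F) = 0 := by rw [B_pv]; unfold e1; rw [pv_inl, pv_inr, if_neg ne21.symm, if_neg ne21.symm]; ring

/-- the abelian unipotent group -/
noncomputable def UL (x y z : F) : (Fin (n + 3) ⊕ Fin (n + 3) → F) →ₗ[F] (Fin (n + 3) ⊕ Fin (n + 3) → F) where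
  toFun v := v + (x * sympB (n + 3) F v (e1 n F) + y * sympB (n + 3) F v (e2 n F)) • e1 n F +
    (y * sympB (n + 3) F v (e1 n F) + z * sympB (n + 3) F v (e2 n F)) • e2 n F
  map_add' u v := by
    simp only [map_add, LinearMap.add_apply]
    module
  map_smul' c v := by
    simp only [map_smul, LinearMap.smul_apply, smul_eq_mul, RingHom.id_apply]
    module

theorem UL_apply (x y z : F) (v : Fin (n + 3) ⊕ Fin (n + 3) → F) : UL x y z v = v + (x * sympB (n + 3) F v (e1 n F) + y * sympB (n + 3) F v (e2 n F)) • e1 n F +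
    (y * sympB (n + 3) F v (e1 n F) + z * sympB (n + 3) F v (e2 n F)) • e2 n F := rfl

theorem UL_form (x y z : F) (u v : Fin (n + 3) ⊕ Fin (n + 3) → F) : sympB (n + 3) F (UL x y z u) (UL x y z v) = sympB (n + 3) F u v := by
  rw [UL_apply, UL_apply]
  simp only [map_add, LinearMap.add_apply, map_smul, LinearMap.smul_apply, smul_eq_mul, b11, b12, b21, b22]
  rw [sympB_neg (e1 n F) v, sympB_neg (e2 n F) v]
  ring

noncomputable def U (x y z : F) : Matrix.symplecticGroup (Fin (n + 3)) F := ofI (UL x y z) (UL_form x y z)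

theorem act_U (x y z : F) (v : Fin (n + 3) ⊕ Fin (n + 3) → F) : act (U x y z) v = v + (x * sympB (n + 3) F v (e1 n F) + y * sympB (n + 3) F v (e2 n F)) • e1 n F +
    (y * sympB (n + 3) F v (e1 n F) + z * sympB (n + 3) F v (e2 n F)) • e2 n F := by
  unfold U; rw [act_ofI]; rfl

theorem U_mul (x y z x' y' z' : F) : (U x y z : Matrix.symplecticGroup (Fin (n + 3)) F) * U x' y' z' = U (x + x') (y + y') (z + z') := by
  apply ext_act
  intro v
  rw [act_mul, act_U x' y' z', act_U, act_U]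
  simp only [map_add, LinearMap.add_apply, map_smul, LinearMap.smul_apply, smul_eq_mul, b11, b12, b21, b22]
  module

theorem U_zero : (U 0 0 0 : Matrix.symplecticGroup (Fin (n + 3)) F) = 1 := by
  apply ext_act
  intro v
  rw [act_U, act_one]; module

theorem U_conj {g : Matrix.symplecticGroup (Fin (n + 3)) F} {s t : F} (h1 : act g (e1 n F) = s • e1 n F) (h2 : act g (e2 n F) = t • e2 n F) (x y z : F) :
    g * U x y z * g⁻¹ = U (s ^ 2 * x) (s * t * y) (t ^ 2 * z) := by
  apply ext_act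
  intro v
  have k1 : sympB (n + 3) F (act g⁻¹ v) (e1 n F) = s * sympB (n + 3) F v (e1 n F) := by
    rw [← act_form g, act_act_inv, h1, map_smul, smul_eq_mul]
  have k2 : sympB (n + 3) F (act g⁻¹ v) (e2 n F) = t * sympB (n + 3) F v (e2 n F) := by
    rw [← act_form g, act_act_inv, h2, map_smul, smul_eq_mul]
  rw [act_mul, act_mul, act_U, act_U, act_add, act_add, act_smul, act_smul, act_act_inv, h1, h2, k1, k2]
  module

theorem spT_U (α β c : F) : spT (α • e1 n F + β • e2 n F) c = U (c * α ^ 2) (c * α * β) (c * β ^ 2) := by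
  apply ext_act
  intro v
  rw [act_spT, act_U]
  simp only [map_add, LinearMap.add_apply, map_smul, LinearMap.smul_apply, smul_eq_mul]
  module

theorem spT_add (w : Fin (n + 3) ⊕ Fin (n + 3) → F) (c c' : F) : spT w c * spT w c' = spT w (c + c') := by
  apply ext_act
  intro v
  have h : sympB (n + 3) F w w = 0 := sympB_isAlt w
  rw [act_mul, act_spT w c', act_spT, act_spT]
  simp only [map_add, LinearMap.add_apply, map_smul, LinearMap.smul_apply, smul_eq_mul, h]
  module

theorem spT_zero (w : Fin (n + 3) ⊕ Fin (n + 3) → F) : spT w (0 : F) = 1 := by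
  apply ext_act
  intro v
  rw [act_spT, act_one]; module

theorem spT_pow (w : Fin (n + 3) ⊕ Fin (n + 3) → F) (k : ℕ) : (spT w (1 : F)) ^ k = spT w (k : F) := by
  induction k with
  | zero => rw [pow_zero, Nat.cast_zero, spT_zero]
  | succ k ih => rw [pow_succ, ih, Nat.cast_succ, spT_add]

theorem gen (p : ℕ) [CharP F p] {A : Matrix.SpecialLinearGroup (Fin 2) F} {N : ℕ} (hA : A ^ N = 1) (hcop : N.Coprime p)
    (H : ∀ K : Subgroup (Matrix.symplecticGroup (Fin (n + 3)) F), emb n F A ∈ K → spT (e1 n F + e2 n F) 1 ∈ K → cyc n F ∈ K → K = ⊤) :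
    ∃ a b : Matrix.symplecticGroup (Fin (n + 3)) F, Subgroup.closure {a, b} = ⊤ := by
  have hw : act (emb n F A) (e1 n F + e2 n F) = e1 n F + e2 n F := by
    rw [act_add, act_emb' A ne10, act_emb' A ne20]
  have hc : emb n F A * spT (e1 n F + e2 n F) 1 = spT (e1 n F + e2 n F) 1 * emb n F A := by
    rw [← mul_inv_eq_iff_eq_mul, conj_spT, hw]
  have h1 : emb n F A ^ N = 1 := by rw [← map_pow, hA, map_one]
  have h2 : (spT (e1 n F + e2 n F) (1 : F)) ^ p = 1 := by rw [spT_pow, CharP.cast_eq_zero, spT_zero]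
  obtain ⟨s1, s2⟩ := split_mem hc h1 h2 hcop
  refine ⟨emb n F A * spT (e1 n F + e2 n F) 1, cyc n F, ?_⟩
  have ha : emb n F A * spT (e1 n F + e2 n F) 1 ∈ Subgroup.closure {emb n F A * spT (e1 n F + e2 n F) 1, cyc n F} :=
    Subgroup.subset_closure (by simp)
  exact H _ ((Subgroup.zpowers_le.2 ha) s1) ((Subgroup.zpowers_le.2 ha) s2) (Subgroup.subset_closure (by simp))

section
variable {K : Subgroup (Matrix.symplecticGroup (Fin (n + 3)) F)}

theorem g1_mem {A : Matrix.SpecialLinearGroup (Fin 2) F} (hA : emb n F A ∈ K) (hc : cyc n F ∈ K) : g1 n A ∈ K :=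
  mul_mem (mul_mem hc hA) (inv_mem hc)
theorem g2_mem {A : Matrix.SpecialLinearGroup (Fin 2) F} (hA : emb n F A ∈ K) (hc : cyc n F ∈ K) : g2 n A ∈ K :=
  mul_mem (mul_mem hc (g1_mem hA hc)) (inv_mem hc)

theorem big [Fintype F] {k : Fˣ} (hk : ∀ x, x ∈ Subgroup.zpowers k) (hq : 4 ≤ Fintype.card F) {A : Matrix.SpecialLinearGroup (Fin 2) F}
    (h00 : A.1 0 0 = k) (h01 : A.1 0 1 = 0) (h10 : A.1 1 0 = 0) (h11 : A.1 1 1 = ((k⁻¹ : Fˣ) : F))
    (hA : emb n F A ∈ K) (ht : spT (e1 n F + e2 n F) 1 ∈ K) (hc : cyc n F ∈ K) : K = ⊤ := by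
  classical
  have hord : orderOf k = Fintype.card F - 1 := by
    rw [orderOf_eq_card_of_forall_mem_zpowers hk, Nat.card_units, Nat.card_eq_fintype_card]
  have hk1 : k ≠ 1 := by
    rintro rfl
    rw [orderOf_one] at hord; omega
  have hk2 : k ^ 2 ≠ 1 := by
    intro h
    have := Nat.le_of_dvd (by norm_num) (orderOf_dvd_of_pow_eq_one h)
    omega
  have hcl : Subring.closure ({((k : Fˣ) : F)} : Set F) = ⊤ := closure_order (by rw [hord]; omega)
  have ho2 : Fintype.card F - 1 ≤ 2 * orderOf (k ^ 2) := by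
    rw [orderOf_pow, hord]
    have h3 := Nat.gcd_dvd_left (Fintype.card F - 1) 2
    have h4 := Nat.le_of_dvd (by norm_num) (Nat.gcd_dvd_right (Fintype.card F - 1) 2)
    calc Fintype.card F - 1 = Nat.gcd (Fintype.card F - 1) 2 * ((Fintype.card F - 1) / Nat.gcd (Fintype.card F - 1) 2) := (Nat.mul_div_cancel' h3).symm
      _ ≤ _ := Nat.mul_le_mul_right _ h4
  have hcl2 : Subring.closure ({((k ^ 2 : Fˣ) : F)} : Set F) = ⊤ := closure_order ho2
  have hcl3 : Subring.closure ({(((k ^ 2)⁻¹ : Fˣ) : F)} : Set F) = ⊤ := closure_order (by rw [orderOf_inv]; exact ho2)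
  have a1 : act (g1 n A) (e1 n F) = ((k⁻¹ : Fˣ) : F) • e1 n F := by
    rw [act_g1, h00, h01, h10, h11, pv_smul]; congr 1 <;> ring
  have a2 : act (g1 n A) (e2 n F) = (1 : F) • e2 n F := by rw [act_g1', one_smul]
  have a3 : act (g2 n A) (e1 n F) = (1 : F) • e1 n F := by rw [act_g2', one_smul]
  have a4 : act (g2 n A) (e2 n F) = ((k : Fˣ) : F) • e2 n F := by
    rw [act_g2, h00, h01, h10, h11, pv_smul]; congr 1 <;> ring
  have c1 : ∀ x y z : F, (U x y z : Matrix.symplecticGroup (Fin (n + 3)) F) ∈ K → (U (((k⁻¹ : Fˣ) : F) ^ 2 * x) (((k⁻¹ : Fˣ) : F) * y) z : Matrix.symplecticGroup (Fin (n + 3)) F) ∈ K := by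
    intro x y z h
    have := mul_mem (mul_mem (g1_mem hA hc) h) (inv_mem (g1_mem hA hc))
    rw [U_conj a1 a2, mul_one, one_pow, one_mul] at this
    exact this
  have c2 : ∀ x y z : F, (U x y z : Matrix.symplecticGroup (Fin (n + 3)) F) ∈ K → (U x ((k : F) * y) ((k : F) ^ 2 * z) : Matrix.symplecticGroup (Fin (n + 3)) F) ∈ K := by
    intro x y z h
    have := mul_mem (mul_mem (g2_mem hA hc) h) (inv_mem (g2_mem hA hc))
    rw [U_conj a3 a4, one_mul, one_pow, one_mul] at this
    exact this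
  have Ui : ∀ x y z : F, (U x y z : Matrix.symplecticGroup (Fin (n + 3)) F) ∈ K → (U (-x) (-y) (-z) : Matrix.symplecticGroup (Fin (n + 3)) F) ∈ K := by
    intro x y z h
    have : (U (-x) (-y) (-z) : Matrix.symplecticGroup (Fin (n + 3)) F) = (U x y z)⁻¹ := by
      apply eq_inv_of_mul_eq_one_left
      rw [U_mul, neg_add_cancel, neg_add_cancel, neg_add_cancel, U_zero]
    rw [this]; exact inv_mem h
  have Us : ∀ x y z x' y' z' : F, (U x y z : Matrix.symplecticGroup (Fin (n + 3)) F) ∈ K → (U x' y' z' : Matrix.symplecticGroup (Fin (n + 3)) F) ∈ K →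
      (U (x - x') (y - y') (z - z') : Matrix.symplecticGroup (Fin (n + 3)) F) ∈ K := by
    intro x y z x' y' z' h h'
    have := mul_mem h (Ui _ _ _ h')
    rw [U_mul] at this
    simpa [sub_eq_add_neg] using this
  have p0 : (U 1 1 1 : Matrix.symplecticGroup (Fin (n + 3)) F) ∈ K := by
    have h := spT_U (n := n) (1 : F) 1 1
    rw [one_smul, one_smul] at h
    rw [h] at ht
    simpa using ht
  have p1 : (U 0 ((k : F) - 1) ((k : F) ^ 2 - 1) : Matrix.symplecticGroup (Fin (n + 3)) F) ∈ K := by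
    have := Us _ _ _ _ _ _ (c2 _ _ _ p0) p0
    simpa using this
  have p2 : (U 0 ((((k⁻¹ : Fˣ) : F) - 1) * ((k : F) - 1)) 0 : Matrix.symplecticGroup (Fin (n + 3)) F) ∈ K := by
    have := Us _ _ _ _ _ _ (c1 _ _ _ p1) p1
    have e : ((k⁻¹ : Fˣ) : F) * ((k : F) - 1) - ((k : F) - 1) = (((k⁻¹ : Fˣ) : F) - 1) * ((k : F) - 1) := by ring
    rw [e] at this
    simpa using this
  have hkn : (k : F) - 1 ≠ 0 := by
    intro h
    apply hk1; ext; rw [Units.val_one]; linear_combination h
  have hkn' : ((k⁻¹ : Fˣ) : F) - 1 ≠ 0 := by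
    intro h
    apply hk1
    rw [← inv_eq_one]; ext; rw [Units.val_one]; linear_combination h
  have hkn2 : (k : F) ^ 2 - 1 ≠ 0 := by
    intro h
    apply hk2; ext; rw [Units.val_one, Units.val_pow_eq_pow_val]; linear_combination h
  have hY : ∀ y : F, (U 0 y 0 : Matrix.symplecticGroup (Fin (n + 3)) F) ∈ K := by
    let Y : AddSubgroup F :=
      { carrier := {y | (U 0 y 0 : Matrix.symplecticGroup (Fin (n + 3)) F) ∈ K}
        zero_mem' := by show U 0 0 0 ∈ K; rw [U_zero]; exact one_mem K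
        add_mem' := by
          intro a b ha hb
          show U 0 (a + b) 0 ∈ K
          have := mul_mem (show U 0 a 0 ∈ K from ha) (show U 0 b 0 ∈ K from hb)
          rw [U_mul] at this; simpa using this
        neg_mem' := by
          intro a ha
          show U 0 (-a) 0 ∈ K
          have := Ui _ _ _ (show U 0 a 0 ∈ K from ha)
          simpa using this }
    intro y
    refine add_full Y hcl ?_ (mul_ne_zero hkn' hkn) p2 y
    intro c hc'
    show U 0 _ 0 ∈ K
    have := c2 _ _ _ (show U 0 c 0 ∈ K from hc')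
    simpa using this
  have p3 : (U 0 0 ((k : F) ^ 2 - 1) : Matrix.symplecticGroup (Fin (n + 3)) F) ∈ K := by
    have := Us _ _ _ _ _ _ p1 (hY ((k : F) - 1))
    simpa using this
  have hZ : ∀ z : F, (U 0 0 z : Matrix.symplecticGroup (Fin (n + 3)) F) ∈ K := by
    let Z : AddSubgroup F :=
      { carrier := {z | (U 0 0 z : Matrix.symplecticGroup (Fin (n + 3)) F) ∈ K}
        zero_mem' := by show U 0 0 0 ∈ K; rw [U_zero]; exact one_mem K
        add_mem' := by
          intro a b ha hb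
          show U 0 0 (a + b) ∈ K
          have := mul_mem (show U 0 0 a ∈ K from ha) (show U 0 0 b ∈ K from hb)
          rw [U_mul] at this; simpa using this
        neg_mem' := by
          intro a ha
          show U 0 0 (-a) ∈ K
          have := Ui _ _ _ (show U 0 0 a ∈ K from ha)
          simpa using this }
    intro z
    refine add_full Z hcl2 ?_ hkn2 p3 z
    intro c hc'
    show U 0 0 _ ∈ K
    have := c2 _ _ _ (show U 0 0 c ∈ K from hc')
    rw [mul_zero, ← Units.val_pow_eq_pow_val] at this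
    exact this
  have p4 : (U 1 0 0 : Matrix.symplecticGroup (Fin (n + 3)) F) ∈ K := by
    have := Us _ _ _ _ _ _ (Us _ _ _ _ _ _ p0 (hY 1)) (hZ 1)
    simpa using this
  have hXX : ∀ x : F, (U x 0 0 : Matrix.symplecticGroup (Fin (n + 3)) F) ∈ K := by
    let X' : AddSubgroup F :=
      { carrier := {x | (U x 0 0 : Matrix.symplecticGroup (Fin (n + 3)) F) ∈ K}
        zero_mem' := by show U 0 0 0 ∈ K; rw [U_zero]; exact one_mem K
        add_mem' := by
          intro a b ha hb
          show U (a + b) 0 0 ∈ K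
          have := mul_mem (show U a 0 0 ∈ K from ha) (show U b 0 0 ∈ K from hb)
          rw [U_mul] at this; simpa using this
        neg_mem' := by
          intro a ha
          show U (-a) 0 0 ∈ K
          have := Ui _ _ _ (show U a 0 0 ∈ K from ha)
          simpa using this }
    intro x
    refine add_full X' hcl3 ?_ one_ne_zero p4 x
    intro c hc'
    show U _ 0 0 ∈ K
    have := c1 _ _ _ (show U c 0 0 ∈ K from hc')
    rw [mul_zero, ← Units.val_pow_eq_pow_val, inv_pow] at this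
    exact this
  have hall : ∀ x y z : F, (U x y z : Matrix.symplecticGroup (Fin (n + 3)) F) ∈ K := by
    intro x y z
    have := mul_mem (mul_mem (hXX x) (hY y)) (hZ z)
    rw [U_mul, U_mul] at this
    simpa using this
  have x1 : e1 n F ∈ X K := by
    intro c
    have h := spT_U (n := n) (1 : F) 0 c
    rw [one_smul, zero_smul, add_zero] at h
    rw [h]; exact hall _ _ _
  have x2 : e2 n F ∈ X K := by
    intro c
    have h := spT_U (n := n) (0 : F) 1 c
    rw [one_smul, zero_smul, zero_add] at h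
    rw [h]; exact hall _ _ _
  have x3 : e1 n F + e2 n F ∈ X K := by
    intro c
    have h := spT_U (n := n) (1 : F) 1 c
    rw [one_smul, one_smul] at h
    rw [h]; exact hall _ _ _
  have x4 : pv 1 (0 : F) 1 ∈ X K := by
    have h := X_act (inv_mem hc) x2
    rw [show e2 n F = pv (1 + 1) 1 0 by rw [one_add], act_cyc_inv] at h
    have h' := X_smul h (-1)
    rw [pv_smul] at h'
    simpa using h'
  exact final hc x1 x4 x3

theorem mem_X_of_one {p : ℕ} (hpp : p.Prime) [Fintype F] (hp : Fintype.card F = p) {w : Fin (n + 3) ⊕ Fin (n + 3) → F} (h : spT w (1 : F) ∈ K) : w ∈ X K := by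
  intro c
  have : Fact p.Prime := ⟨hpp⟩
  let e : ZMod p ≃+* F := ZMod.ringEquivOfPrime F hpp hp
  have hc : c = (((e.symm c).val : ℕ) : F) := by
    have h1 : e (((e.symm c).val : ℕ) : ZMod p) = (((e.symm c).val : ℕ) : F) := map_natCast e _
    rw [← h1, ZMod.natCast_val, ZMod.cast_id, e.apply_symm_apply]
  rw [hc, ← spT_pow]
  exact pow_mem h _

theorem small3 [Fintype F] (hq : Fintype.card F = 3) (h3 : (3 : F) = 0) {A : Matrix.SpecialLinearGroup (Fin 2) F}
    (h00 : A.1 0 0 = 0) (h01 : A.1 0 1 = -1) (h10 : A.1 1 0 = 1) (h11 : A.1 1 1 = 0)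
    (hA : emb n F A ∈ K) (ht : spT (e1 n F + e2 n F) 1 ∈ K) (hc : cyc n F ∈ K) : K = ⊤ := by
  have x0 : e1 n F + e2 n F ∈ X K := mem_X_of_one Nat.prime_three hq ht
  have ha : ∀ a b : F, act (g1 n A) (pv 1 a b) = pv 1 (-b) a := by
    intro a b
    rw [act_g1, h00, h01, h10, h11]; congr 1 <;> ring
  have hg := g1_mem hA hc
  have y0 := X_act hg x0
  rw [act_add, act_g1'] at y0
  unfold e1 at y0
  rw [ha, neg_zero] at y0
  have y1 := X_smul y0 (-1)
  rw [smul_add, pv_smul, pv_smul] at y1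
  have y2 := X_add x0 y1 (by
    simp only [map_add, LinearMap.add_apply, B_pv, pv_inl, pv_inr, if_neg ne21, if_neg ne21.symm, if_true]
    intro h
    apply one_ne_zero (α := F)
    linear_combination h)
  have e3 : e1 n F + e2 n F + (pv 1 (-1 * 0) (-1 * 1) + pv 2 (-1 * 1) (-1 * 0)) = pv 1 1 (-1) := by
    unfold e1 e2
    calc (pv 1 (1 : F) 0 + pv 2 1 0 + (pv 1 (-1 * 0) (-1 * 1) + pv 2 (-1 * 1) (-1 * 0)) : Fin (n + 3) ⊕ Fin (n + 3) → F)
        = (pv 1 1 0 + pv 1 (-1 * 0) (-1 * 1)) + (pv 2 1 0 + pv 2 (-1 * 1) (-1 * 0)) := by abel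
      _ = pv 1 1 (-1) := by
        rw [pv_add, pv_add]
        have : (pv 2 ((1 : F) + -1 * 1) (0 + -1 * 0) : Fin (n + 3) ⊕ Fin (n + 3) → F) = 0 := by
          rw [← pv_zero 2]; congr 1 <;> ring
        rw [this, add_zero]; congr 1 <;> ring
  rw [e3] at y2
  have y3 := X_act hg y2
  rw [ha, neg_neg] at y3
  have y4 := X_add y2 y3 (by
    simp only [B_pv, pv_inl, pv_inr, if_true]
    intro h
    apply one_ne_zero (α := F)
    linear_combination h + h3)
  rw [pv_add, neg_add_cancel] at y4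
  have y5 := X_smul y4 (-1)
  rw [pv_smul, mul_zero] at y5
  have e5 : (-1 : F) * (1 + 1) = 1 := by linear_combination -h3
  rw [e5] at y5
  have y6 := X_act hg y5
  rw [ha, neg_zero] at y6
  exact final hc y5 y6 x0

theorem small2 [Fintype F] (hq : Fintype.card F = 2) (h2 : (2 : F) = 0) {A : Matrix.SpecialLinearGroup (Fin 2) F}
    (h00 : A.1 0 0 = 0) (h01 : A.1 0 1 = 1) (h10 : A.1 1 0 = 1) (h11 : A.1 1 1 = 1)
    (hA : emb n F A ∈ K) (ht : spT (e1 n F + e2 n F) 1 ∈ K) (hc : cyc n F ∈ K) : K = ⊤ := by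
  have x0 : e1 n F + e2 n F ∈ X K := mem_X_of_one Nat.prime_two hq ht
  have ha : ∀ a b : F, act (g1 n A) (pv 1 a b) = pv 1 (a + b) a := by
    intro a b
    rw [act_g1, h00, h01, h10, h11]
    congr 1
    · linear_combination -b * h2
    · linear_combination -a * h2
  have hg := g1_mem hA hc
  have y0 := X_act hg x0
  rw [act_add, act_g1'] at y0
  unfold e1 at y0
  rw [ha, add_zero] at y0
  have y2 := X_add x0 y0 (by
    simp only [map_add, LinearMap.add_apply, B_pv, pv_inl, pv_inr, if_neg ne21, if_neg ne21.symm, if_true]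
    intro h
    apply one_ne_zero (α := F)
    linear_combination -h)
  have e3 : e1 n F + e2 n F + (pv 1 1 1 + e2 n F) = pv 1 0 1 := by
    unfold e1 e2
    calc (pv 1 (1 : F) 0 + pv 2 1 0 + (pv 1 1 1 + pv 2 1 0) : Fin (n + 3) ⊕ Fin (n + 3) → F) = (pv 1 1 0 + pv 1 1 1) + (pv 2 1 0 + pv 2 1 0) := by abel
      _ = pv 1 0 1 := by
        rw [pv_add, pv_add]
        have h11 : (1 : F) + 1 = 0 := by linear_combination h2
        rw [h11, add_zero, pv_zero, add_zero, zero_add]
  rw [e3] at y2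
  have y3 := X_act hg y2
  rw [ha, zero_add] at y3
  exact final hc y3 y2 x0

end

/-- diagonal elements -/
def dg : Fˣ →* Matrix.SpecialLinearGroup (Fin 2) F :=
  MonoidHom.mk' (fun u => ⟨!![(u : F), 0; 0, ((u⁻¹ : Fˣ) : F)], by rw [Matrix.det_fin_two_of, mul_zero, sub_zero, Units.mul_inv]⟩) (by
    intro u v
    apply Subtype.ext
    change !![((u * v : Fˣ) : F), 0; 0, (((u * v)⁻¹ : Fˣ) : F)] = !![(u : F), 0; 0, ((u⁻¹ : Fˣ) : F)] * !![(v : F), 0; 0, ((v⁻¹ : Fˣ) : F)]
    rw [Matrix.mul_fin_two, mul_inv]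
    simp only [mul_zero, zero_mul, add_zero, zero_add, Units.val_mul])

theorem two_gen [Fintype F] : ∃ a b : Matrix.symplecticGroup (Fin (n + 3)) F, Subgroup.closure {a, b} = ⊤ := by
  classical
  obtain ⟨p, hp, k, hpp, hcard⟩ := FiniteField.card' F
  by_cases hq : 4 ≤ Fintype.card F
  · obtain ⟨κ, hκ⟩ := IsCyclic.exists_generator (α := Fˣ)
    let A : Matrix.SpecialLinearGroup (Fin 2) F := dg κ
    have hAN : A ^ (Fintype.card F - 1) = 1 := by
      have h1 : κ ^ (Fintype.card F - 1) = 1 := by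
        rw [← Nat.card_eq_fintype_card, ← Nat.card_units]; exact pow_card_eq_one'
      have h2 : dg (κ ^ (Fintype.card F - 1)) = dg κ ^ (Fintype.card F - 1) := map_pow dg κ _
      rw [h1, map_one] at h2
      exact h2.symm
    have hcop : (Fintype.card F - 1).Coprime p := by
      rw [Nat.coprime_comm, hpp.coprime_iff_not_dvd]
      intro hd
      have h1 : p ∣ Fintype.card F := by rw [hcard]; exact dvd_pow_self p k.pos.ne'
      have h2 : Fintype.card F = (Fintype.card F - 1) + 1 := by omega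
      rw [h2] at h1
      exact hpp.one_lt.ne' (Nat.dvd_one.1 ((Nat.dvd_add_right hd).1 h1))
    exact gen p hAN hcop fun K h1 h2 h3 => big hκ hq rfl rfl rfl rfl h1 h2 h3
  · have h1 := Fintype.one_lt_card (α := F)
    have h23 : Fintype.card F = 2 ∨ Fintype.card F = 3 := by omega
    have hpq : p ∣ Fintype.card F := by rw [hcard]; exact dvd_pow_self p k.pos.ne'
    rcases h23 with h2 | h3
    · have hp2 : p = 2 := by
        rw [h2] at hpq
        exact (Nat.prime_dvd_prime_iff_eq hpp Nat.prime_two).1 hpq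
      subst hp2
      have h20 : (2 : F) = 0 := by exact_mod_cast CharP.cast_eq_zero F 2
      let A : Matrix.SpecialLinearGroup (Fin 2) F := ⟨!![0, 1; 1, 1], by
        rw [Matrix.det_fin_two_of]; linear_combination -h20⟩
      have hAN : A ^ 3 = 1 := by
        apply Subtype.ext
        change (A ^ 3 : Matrix.SpecialLinearGroup (Fin 2) F).1 = 1
        rw [pow_succ, pow_two, Matrix.SpecialLinearGroup.coe_mul, Matrix.SpecialLinearGroup.coe_mul]
        change !![(0 : F), 1; 1, 1] * !![(0 : F), 1; 1, 1] * !![(0 : F), 1; 1, 1] = 1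
        have h11 : (1 : F) + 1 = 0 := by linear_combination h20
        rw [Matrix.mul_fin_two, Matrix.mul_fin_two, Matrix.one_fin_two]
        simp [h11]
      exact gen 2 hAN (by norm_num) fun K h1 h2' h3 => small2 h2 h20 rfl rfl rfl rfl h1 h2' h3
    · have hp3 : p = 3 := by
        rw [h3] at hpq
        exact (Nat.prime_dvd_prime_iff_eq hpp Nat.prime_three).1 hpq
      subst hp3
      have h30 : (3 : F) = 0 := by exact_mod_cast CharP.cast_eq_zero F 3
      let A : Matrix.SpecialLinearGroup (Fin 2) F := ⟨!![0, -1; 1, 0], by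
        rw [Matrix.det_fin_two_of]; ring⟩
      have hAN : A ^ 4 = 1 := by
        apply Subtype.ext
        have e : A ^ 4 = (A * A) * (A * A) := by rw [← pow_two, ← pow_two, ← pow_mul]
        rw [e, Matrix.SpecialLinearGroup.coe_mul, Matrix.SpecialLinearGroup.coe_mul]
        change !![(0 : F), -1; 1, 0] * !![(0 : F), -1; 1, 0] * (!![(0 : F), -1; 1, 0] * !![(0 : F), -1; 1, 0]) = 1
        rw [Matrix.mul_fin_two, Matrix.mul_fin_two, Matrix.one_fin_two]
        simp
      exact gen 3 hAN (by norm_num) fun K h1 h2' h3' => small3 h3 h30 rfl rfl rfl rfl h1 h2' h3'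

end Cfsg.Agent.H16.SpTwoI
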