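import Mathlib
import Cfsg.Agent.H16.FlagI
import Cfsg.Agent.H3.Inflate
import Cfsg.Agent.H5.LinBasic
import Cfsg.Agent.H5.PSLSimple
import Cfsg.Agent.H11.Defect5
import Cfsg.Agent.H27.PMod

set_option autoImplicit false
set_option linter.all false

/-! The Steinberg character of `PSL_n(q)`. -/

namespace Cfsg.Agent.H16.StP

open Cfsg Finset Matrix
open scoped ComplexConjugate

/-- pullback of permutation characters -/
lemma fpc_comap {A B : Type*} [Group A] [Group B] (f : A →* B) (P : Subgroup B) (h : ∀ b : B, ∃ a : A, ∃ x ∈ P, b = f a * x) (a : A) :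
    fixedPointCharacter (P.comap f) a = fixedPointCharacter P (f a) := by
  unfold fixedPointCharacter
  congr 1
  let e0 : A ⧸ P.comap f → B ⧸ P := Quotient.map' f (by
    intro x y hxy
    rw [QuotientGroup.leftRel_apply] at hxy ⊢
    rw [Subgroup.mem_comap] at hxy
    simpa using hxy)
  have e0m : ∀ x : A, e0 (x : A ⧸ P.comap f) = ((f x : B) : B ⧸ P) := fun x => rfl
  have hb : Function.Bijective e0 := by
    constructor
    · intro x y hxy
      induction x using QuotientGroup.induction_on with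
      | H x =>
      induction y using QuotientGroup.induction_on with
      | H y =>
      rw [e0m, e0m, QuotientGroup.eq] at hxy
      rw [QuotientGroup.eq, Subgroup.mem_comap]
      simpa using hxy
    · intro y
      induction y using QuotientGroup.induction_on with
      | H y =>
      obtain ⟨c, x, hx, rfl⟩ := h y
      refine ⟨(c : A ⧸ P.comap f), ?_⟩
      rw [e0m, QuotientGroup.eq]
      simpa using hx
  apply Nat.card_congr
  refine Equiv.subtypeEquiv (Equiv.ofBijective e0 hb) ?_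
  intro x
  rw [MulAction.mem_fixedBy, MulAction.mem_fixedBy]
  have he : e0 (a • x) = f a • e0 x := by
    induction x using QuotientGroup.induction_on with
    | H x =>
      show ((f (a * x) : B) : B ⧸ P) = ((f a * f x : B) : B ⧸ P)
      rw [map_mul]
  show a • x = x ↔ f a • e0 x = e0 x
  rw [← he]
  exact hb.1.eq_iff.symm

lemma fpc_mul {G : Type*} [Group G] (P Q : Subgroup G) (g : G) :
    fixedPointCharacter P g * fixedPointCharacter Q g = (Nat.card (MulAction.fixedBy ((G ⧸ P) × (G ⧸ Q)) g) : ℂ) := by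
  unfold fixedPointCharacter
  rw [← Nat.cast_mul, ← Nat.card_prod]
  congr 1
  apply Nat.card_congr
  refine ⟨fun x => ⟨(x.1.1, x.2.1), ?_⟩, fun y => (⟨y.1.1, ?_⟩, ⟨y.1.2, ?_⟩), fun x => rfl, fun y => rfl⟩
  · rw [MulAction.mem_fixedBy]
    exact Prod.ext x.1.2 x.2.2
  · exact congrArg Prod.fst (show g • y.1 = y.1 from y.2)
  · exact congrArg Prod.snd (show g • y.1 = y.1 from y.2)

/-- comparison of Burnside sums -/
lemma burn {A B X : Type*} [Group A] [Group B] [Fintype A] [Fintype B] [Finite X] [MulAction B X] (f : A →* B)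
    (h : ∀ x : X, ∀ b : B, ∃ a : A, f a • x = b • x) :
    (Fintype.card A : ℂ) * ∑ b : B, (Nat.card (MulAction.fixedBy X b) : ℂ) = (Fintype.card B : ℂ) * ∑ a : A, (Nat.card (MulAction.fixedBy X (f a)) : ℂ) := by
  classical
  haveI := Fintype.ofFinite X
  letI : MulAction A X := MulAction.compHom X f
  have hB := MulAction.sum_card_fixedBy_eq_card_orbits_mul_card_group B X
  have hA := MulAction.sum_card_fixedBy_eq_card_orbits_mul_card_group A X
  have hO : (MulAction.orbitRel A X) = (MulAction.orbitRel B X) := by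
    ext x y
    rw [MulAction.orbitRel_apply, MulAction.orbitRel_apply, MulAction.mem_orbit_iff, MulAction.mem_orbit_iff]
    constructor
    · rintro ⟨a, ha⟩; exact ⟨f a, ha⟩
    · rintro ⟨b, hb⟩
      obtain ⟨a, ha⟩ := h y b
      exact ⟨a, ha.trans hb⟩
  have hc : Fintype.card (MulAction.orbitRel.Quotient A X) = Fintype.card (MulAction.orbitRel.Quotient B X) := by
    apply Fintype.card_congr
    exact Quotient.congrRight (fun x y => by
      show (MulAction.orbitRel A X) x y ↔ (MulAction.orbitRel B X) x y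
      rw [hO])
  have h1 : ∑ b : B, (Nat.card (MulAction.fixedBy X b) : ℂ) = ((Fintype.card (MulAction.orbitRel.Quotient B X) * Fintype.card B : ℕ) : ℂ) := by
    rw [← hB]; push_cast
    exact Finset.sum_congr rfl fun b _ => by rw [Nat.card_eq_fintype_card]
  have h2 : ∑ a : A, (Nat.card (MulAction.fixedBy X (f a)) : ℂ) = ((Fintype.card (MulAction.orbitRel.Quotient A X) * Fintype.card A : ℕ) : ℂ) := by
    rw [← hA]; push_cast
    exact Finset.sum_congr rfl fun a _ => by
      rw [← Nat.card_eq_fintype_card]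
      rfl
  rw [h1, h2, hc]
  push_cast; ring

variable {n : ℕ} {F : Type*} [Field F]

/-- diagonal matrix with one entry `c` -/
lemma stab_det (hn : 0 < n) (a b : GL (Fin n) F) (c : Fˣ) :
    ∃ t : GL (Fin n) F, a⁻¹ * t * a ∈ upperTriangularGL n F ∧ b⁻¹ * t * b ∈ upperTriangularGL n F ∧
      (t : Matrix (Fin n) (Fin n) F).det = c := by
  classical
  obtain ⟨β, hβ, β', hβ', w, hw⟩ := gl_bruhat (a⁻¹ * b)
  let d : Fin n → F := fun i => if i = ⟨0, hn⟩ then (c : F) else 1
  have hd : ∀ i, d i ≠ 0 := by intro i; simp only [d]; split_ifs; exacts [c.ne_zero, one_ne_zero]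
  have hdp : ∏ i, d i = c := by
    rw [Finset.prod_eq_single ⟨0, hn⟩]
    · simp [d]
    · intro i _ hi; simp [d, hi]
    · intro h; exact absurd (Finset.mem_univ _) h
  obtain ⟨D, hD, hDe⟩ := exists_upper (diagonal d) (blockTriangular_diagonal d) (by intro i; rw [diagonal_apply_eq]; exact hd i)
  obtain ⟨D', hD', hDe'⟩ := exists_upper (diagonal (fun i => d (w i))) (blockTriangular_diagonal _) (by intro i; rw [diagonal_apply_eq]; exact hd _)
  have hcomm : D * pm n F w = pm n F w * D' := by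
    apply Units.ext
    rw [Units.val_mul, Units.val_mul]
    show (D : Matrix (Fin n) (Fin n) F) * (pm n F w : GL (Fin n) F) = (pm n F w : GL (Fin n) F) * (D' : Matrix (Fin n) (Fin n) F)
    rw [hDe, hDe', pm_coe]
    ext i j
    rw [diagonal_mul, mul_diagonal, of_apply]
    by_cases hij : i = w j
    · rw [if_pos hij, hij, mul_one, one_mul]
    · rw [if_neg hij, mul_zero, zero_mul]
  have hb : b = a * β⁻¹ * pm n F w * β'⁻¹ := by rw [← hw]; group
  refine ⟨a * β⁻¹ * D * β * a⁻¹, ?_, ?_, ?_⟩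
  · have : a⁻¹ * (a * β⁻¹ * D * β * a⁻¹) * a = β⁻¹ * D * β := by group
    rw [this]
    exact Subgroup.mul_mem _ (Subgroup.mul_mem _ (Subgroup.inv_mem _ hβ) hD) hβ
  · have : b⁻¹ * (a * β⁻¹ * D * β * a⁻¹) * b = β' * D' * β'⁻¹ := by
      rw [hb]
      have h1 : D = pm n F w * D' * (pm n F w)⁻¹ := by rw [← hcomm]; group
      rw [h1]; group
    rw [this]
    exact Subgroup.mul_mem _ (Subgroup.mul_mem _ hβ' hD') (Subgroup.inv_mem _ hβ')
  · have h1 : a * β⁻¹ * D * β * a⁻¹ = (a * β⁻¹) * D * (a * β⁻¹)⁻¹ := by group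
    have h2 : GeneralLinearGroup.det ((a * β⁻¹) * D * (a * β⁻¹)⁻¹) = GeneralLinearGroup.det D := by
      rw [map_mul, map_mul, map_inv, mul_comm, inv_mul_cancel_left]
    rw [h1]
    have h3 := congrArg (fun u : Fˣ => (u : F)) h2
    simp only [GeneralLinearGroup.val_det_apply] at h3
    rw [h3, hDe, det_diagonal, hdp]

abbrev SLn (n : ℕ) (F : Type*) [Field F] := Matrix.SpecialLinearGroup (Fin n) F
abbrev PSLn (n : ℕ) (F : Type*) [Field F] := Matrix.ProjectiveSpecialLinearGroup (Fin n) F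

def tg (n : ℕ) (F : Type*) [Field F] : SLn n F →* GL (Fin n) F := Matrix.SpecialLinearGroup.toGL
def πm (n : ℕ) (F : Type*) [Field F] : SLn n F →* PSLn n F := QuotientGroup.mk' _
lemma πm_surj : Function.Surjective (πm n F) := QuotientGroup.mk'_surjective _

lemma tg_trans (hn : 0 < n) {P Q : Subgroup (GL (Fin n) F)} (hP : upperTriangularGL n F ≤ P) (hQ : upperTriangularGL n F ≤ Q)
    (x : (GL (Fin n) F ⧸ P) × (GL (Fin n) F ⧸ Q)) (g : GL (Fin n) F) : ∃ s : SLn n F, tg n F s • x = g • x := by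
  obtain ⟨x, y⟩ := x
  induction x using QuotientGroup.induction_on with
  | H a =>
  induction y using QuotientGroup.induction_on with
  | H b =>
  obtain ⟨t, ht1, ht2, ht3⟩ := stab_det hn a b (GeneralLinearGroup.det g)⁻¹
  have hdet : (g * t : GL (Fin n) F).val.det = 1 := by
    rw [Units.val_mul, det_mul]
    show (g : Matrix (Fin n) (Fin n) F).det * (t : Matrix (Fin n) (Fin n) F).det = 1
    rw [ht3, ← GeneralLinearGroup.val_det_apply, Units.mul_inv]
  refine ⟨⟨(g * t : GL (Fin n) F).val, hdet⟩, ?_⟩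
  have h1 : tg n F ⟨(g * t : GL (Fin n) F).val, hdet⟩ = g * t := Units.ext rfl
  rw [h1, mul_smul]
  have h2 : t • ((a : GL (Fin n) F ⧸ P), (b : GL (Fin n) F ⧸ Q)) = ((a : GL (Fin n) F ⧸ P), (b : GL (Fin n) F ⧸ Q)) := by
    apply Prod.ext
    · show ((t * a : GL (Fin n) F) : GL (Fin n) F ⧸ P) = (a : GL (Fin n) F ⧸ P)
      rw [eq_comm, QuotientGroup.eq, ← mul_assoc]
      exact hP ht1
    · show ((t * b : GL (Fin n) F) : GL (Fin n) F ⧸ Q) = (b : GL (Fin n) F ⧸ Q)
      rw [eq_comm, QuotientGroup.eq, ← mul_assoc]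
      exact hQ ht2
  rw [h2]

lemma fac (hn : 0 < n) {P : Subgroup (GL (Fin n) F)} (hP : upperTriangularGL n F ≤ P) (g : GL (Fin n) F) : ∃ s : SLn n F, ∃ x ∈ P, g = tg n F s * x := by
  obtain ⟨t, ht1, -, ht3⟩ := stab_det hn (1 : GL (Fin n) F) 1 (GeneralLinearGroup.det g)⁻¹
  rw [inv_one, one_mul, mul_one] at ht1
  have hdet : (g * t : GL (Fin n) F).val.det = 1 := by
    rw [Units.val_mul, det_mul]
    show (g : Matrix (Fin n) (Fin n) F).det * (t : Matrix (Fin n) (Fin n) F).det = 1
    rw [ht3, ← GeneralLinearGroup.val_det_apply, Units.mul_inv]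
  refine ⟨⟨(g * t : GL (Fin n) F).val, hdet⟩, t⁻¹, P.inv_mem (hP ht1), ?_⟩
  have h1 : tg n F ⟨(g * t : GL (Fin n) F).val, hdet⟩ = g * t := Units.ext rfl
  rw [h1, mul_inv_cancel_right]

lemma center_le {P : Subgroup (GL (Fin n) F)} (hP : upperTriangularGL n F ≤ P) : (πm n F).ker ≤ P.comap (tg n F) := by
  intro z hz
  have hz' : z ∈ Subgroup.center (SLn n F) := (QuotientGroup.eq_one_iff z).1 (MonoidHom.mem_ker.1 hz)
  rw [Subgroup.mem_comap]
  apply hP
  obtain ⟨r, -, h⟩ := Matrix.SpecialLinearGroup.mem_center_iff.1 hz'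
  show (z : Matrix (Fin n) (Fin n) F).BlockTriangular id
  rw [← h]
  exact blockTriangular_diagonal _

/-- parabolic of `PSL_n` -/
noncomputable def Pb (P : Subgroup (GL (Fin n) F)) : Subgroup (PSLn n F) := (P.comap (tg n F)).map (πm n F)

lemma fpc_Pb (hn : 0 < n) {P : Subgroup (GL (Fin n) F)} (hP : upperTriangularGL n F ≤ P) (s : SLn n F) :
    fixedPointCharacter (Pb P) (πm n F s) = fixedPointCharacter P (tg n F s) := by
  rw [← fpc_comap (tg n F) P (fac hn hP) s, ← fpc_comap (πm n F) (Pb P)]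
  · unfold Pb
    rw [Subgroup.comap_map_eq_self (center_le hP)]
  · intro b
    obtain ⟨a, rfl⟩ := πm_surj b
    exact ⟨a, 1, Subgroup.one_mem _, (mul_one _).symm⟩

variable [Fintype F] [DecidableEq F]

/-- unipotent class functions on `PSL_n` -/
noncomputable def un (n : ℕ) (F : Type*) [Field F] (ν : Fin n → ℕ) : PSLn n F → ℂ :=
  fun g => ∑ κ : Equiv.Perm (Fin n),
    if ∀ i : Fin n, (κ i).val ≤ ν i + i.val then
      ((Equiv.Perm.sign κ : ℤ) : ℂ) * fixedPointCharacter (Pb (parabolicGL n F fun i => ν i + i.val - (κ i).val)) g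
    else 0

lemma un_pi (hn : 0 < n) (ν : Fin n → ℕ) (s : SLn n F) : un n F ν (πm n F s) = unipotentCharacterGL n F ν (tg n F s) := by
  unfold un unipotentCharacterGL
  apply Finset.sum_congr rfl
  intro κ _
  split_ifs
  · rw [fpc_Pb hn upper_le_parab]
  · rfl

lemma un_gen [Fintype (PSLn n F)] (ν : Fin n → ℕ) : IsGeneralizedCharacter (PSLn n F) (un n F ν) := by
  classical
  have : un n F ν = ∑ κ : Equiv.Perm (Fin n), (if ∀ i : Fin n, (κ i).val ≤ ν i + i.val then
      ((Equiv.Perm.sign κ : ℤ) : ℂ) • fixedPointCharacter (Pb (parabolicGL n F fun i => ν i + i.val - (κ i).val)) else 0) := by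
    funext g
    unfold un
    rw [Finset.sum_apply]
    apply Finset.sum_congr rfl
    intro κ _
    split_ifs
    · rfl
    · rfl
  rw [this]
  apply Cfsg.Agent.H3.isGen_sum
  intro κ _
  split_ifs
  · exact Cfsg.Agent.H3.isGen_intCast_smul _ (Cfsg.Agent.H3.isGen_of_char (fpc_isChar _))
  · exact Cfsg.Agent.H3.isGen_zero

lemma sum_sl (hn : 0 < n) (ν : Fin n → ℕ) :
    (Fintype.card (SLn n F) : ℂ) * ∑ g : GL (Fin n) F, unipotentCharacterGL n F ν g * unipotentCharacterGL n F ν g =
      (Fintype.card (GL (Fin n) F) : ℂ) * ∑ s : SLn n F, unipotentCharacterGL n F ν (tg n F s) * unipotentCharacterGL n F ν (tg n F s) := by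
  classical
  have hexp : ∀ g : GL (Fin n) F, unipotentCharacterGL n F ν g * unipotentCharacterGL n F ν g =
      ∑ κ : Equiv.Perm (Fin n), ∑ κ' : Equiv.Perm (Fin n),
        (if (∀ i : Fin n, (κ i).val ≤ ν i + i.val) ∧ (∀ i : Fin n, (κ' i).val ≤ ν i + i.val) then
        (((Equiv.Perm.sign κ : ℤ) : ℂ) * ((Equiv.Perm.sign κ' : ℤ) : ℂ)) *
          (Nat.card (MulAction.fixedBy ((GL (Fin n) F ⧸ parabolicGL n F fun i => ν i + i.val - (κ i).val) × (GL (Fin n) F ⧸ parabolicGL n F fun i => ν i + i.val - (κ' i).val)) g) : ℂ) else 0) := by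
    intro g
    unfold unipotentCharacterGL
    rw [Finset.sum_mul_sum]
    apply Finset.sum_congr rfl; intro κ _
    apply Finset.sum_congr rfl; intro κ' _
    by_cases h1 : ∀ i : Fin n, (κ i).val ≤ ν i + i.val
    · by_cases h2 : ∀ i : Fin n, (κ' i).val ≤ ν i + i.val
      · rw [if_pos h1, if_pos h2, if_pos ⟨h1, h2⟩, ← fpc_mul]; ring
      · rw [if_neg h2, mul_zero]; symm; exact if_neg (fun h => h2 h.2)
    · rw [if_neg h1, zero_mul]; symm; exact if_neg (fun h => h1 h.1)
  simp only [hexp]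
  rw [Finset.sum_comm, Finset.mul_sum]
  rw [Finset.sum_comm (s := (Finset.univ : Finset (SLn n F))), Finset.mul_sum]
  apply Finset.sum_congr rfl; intro κ _
  rw [Finset.sum_comm, Finset.mul_sum]
  rw [Finset.sum_comm (s := (Finset.univ : Finset (SLn n F))), Finset.mul_sum]
  apply Finset.sum_congr rfl; intro κ' _
  split_ifs
  · rw [← Finset.mul_sum, ← Finset.mul_sum, mul_left_comm, mul_left_comm (Fintype.card (GL (Fin n) F) : ℂ)]
    congr 1
    exact burn (tg n F) (tg_trans hn upper_le_parab upper_le_parab)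
  · simp

theorem un_irr [Fintype (PSLn n F)] (hn : 0 < n) {ν : Fin n → ℕ} (hν : ∑ i, ν i = n) (hm : Monotone ν) : IsIrrCharacter (PSLn n F) (un n F ν) := by
  classical
  refine Cfsg.Agent.H3.isIrr_of_gen (un_gen ν) ?_ ?_
  · have hconj : ∀ x : PSLn n F, conj (un n F ν x) = un n F ν x := by
      intro x
      obtain ⟨s, rfl⟩ := πm_surj x
      rw [un_pi hn, unip_conj]
    have h0 := inner_unip (F := F) hν hν hm hm
    rw [if_pos rfl, mul_one] at h0
    have h1 := sum_sl (F := F) hn ν
    rw [h0] at h1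
    have h2 : ∑ s : SLn n F, unipotentCharacterGL n F ν (tg n F s) * unipotentCharacterGL n F ν (tg n F s) = (Fintype.card (SLn n F) : ℂ) := by
      rw [Nat.card_eq_fintype_card, mul_comm] at h1
      exact (mul_left_cancel₀ (Nat.cast_ne_zero.2 Fintype.card_ne_zero) h1).symm
    have h3 := Cfsg.Agent.H3.sum_comp_surjective (πm n F) πm_surj (fun x => un n F ν x * un n F ν x)
    have h4 : ∑ a : SLn n F, un n F ν (πm n F a) * un n F ν (πm n F a) = (Fintype.card (SLn n F) : ℂ) := by
      rw [← h2]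
      exact Finset.sum_congr rfl fun s _ => by rw [un_pi hn]
    rw [h4] at h3
    have h5 : (Fintype.card (SLn n F) : ℂ) = (Nat.card (πm n F).ker : ℂ) * (Nat.card (PSLn n F) : ℂ) := by
      have h6 := Subgroup.card_mul_index (πm n F).ker
      rw [Subgroup.index_ker, MonoidHom.range_eq_top.2 πm_surj] at h6
      have h7 : Nat.card (⊤ : Subgroup (PSLn n F)) = Nat.card (PSLn n F) := Subgroup.card_top
      rw [h7] at h6
      rw [← Nat.card_eq_fintype_card, ← h6]; push_cast; rfl
    rw [h5] at h3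
    have hk : (Nat.card (πm n F).ker : ℂ) ≠ 0 := Nat.cast_ne_zero.2 Nat.card_pos.ne'
    have h8 := mul_left_cancel₀ hk h3
    unfold classInner
    rw [Finset.sum_congr rfl fun g _ => by rw [hconj], ← h8]
    exact inv_mul_cancel₀ (Nat.cast_ne_zero.2 Nat.card_pos.ne')
  · have := un_pi (F := F) hn ν 1
    rw [map_one, map_one] at this
    rw [this]
    exact unip_pos hν hm

end Cfsg.Agent.H16.StP
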