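import Mathlib
import Cfsg.Agent.H16.StP

set_option autoImplicit false
set_option linter.all false

/-! Degree and vanishing of the Steinberg character of `PSL_n(q)`. -/

namespace Cfsg.Agent.H16.StP

open Cfsg Finset Matrix
open scoped ComplexConjugate

lemma prod_pairs {n : ℕ} (f : ℕ → ℕ → ℂ) : ∏ i : Fin n, ∏ j ∈ Finset.Ioi i, f i.val j.val = ∏ j ∈ Finset.range n, ∏ i ∈ Finset.range j, f i j := by
  rw [Finset.prod_comm' (s' := fun j => Finset.Iio j) (t' := Finset.univ) (by intro x y; simp)]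
  rw [← Fin.prod_univ_eq_prod_range (fun j => ∏ i ∈ Finset.range j, f i j)]
  apply Finset.prod_congr rfl
  intro j _
  apply Finset.prod_bij (fun (i : Fin n) _ => i.val)
  · intro i hi
    have hi' : i < j := Finset.mem_Iio.1 hi
    rw [Finset.mem_range]; exact hi'
  · intro a _ b _ h; exact Fin.ext h
  · intro b hb
    rw [Finset.mem_range] at hb
    refine ⟨⟨b, hb.trans j.2⟩, ?_, rfl⟩
    rw [Finset.mem_Iio]; exact hb
  · intro i _; rfl

lemma qf_zero (q : ℕ) : qf q 0 = 1 := by simp [qf]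

lemma prod_qf (q n : ℕ) : qf q n * ∏ j ∈ Finset.range n, qf q j = ∏ j ∈ Finset.range n, qf q (1 + j) := by
  have h1 := Finset.prod_range_succ (fun j => qf q j) n
  have h2 := Finset.prod_range_succ' (fun j => qf q j) n
  rw [qf_zero, mul_one] at h2
  rw [mul_comm, ← h1, h2]
  exact Finset.prod_congr rfl fun j _ => by rw [add_comm]

variable {n : ℕ} {F : Type*} [Field F] [Fintype F]

lemma qn_diff (q : ℕ) {a b : ℕ} (h : a ≤ b) : (qn q b : ℂ) - (qn q a : ℂ) = (q : ℂ) ^ a * (qn q (b - a) : ℂ) := by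
  have := qn_sub q b a h
  rw [← this]; push_cast; ring

theorem st_deg : unipotentCharacterGL n F (fun _ => 1) 1 = ((Fintype.card F ^ (∑ i ∈ Finset.range n, i) : ℕ) : ℂ) := by
  set q := Fintype.card F with hq
  have hq1 : 1 ≤ q := Fintype.card_pos
  have h := degree_formula (n := n) (F := F) (ν := fun _ => 1) (by simp)
  rw [← hq] at h
  rw [prod_pairs (fun i j => ((qn q (1 + j) : ℂ) - (qn q (1 + i) : ℂ)))] at h
  have h1 : ∏ j ∈ Finset.range n, ∏ i ∈ Finset.range j, ((qn q (1 + j) : ℂ) - (qn q (1 + i) : ℂ)) =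
      (q : ℂ) ^ ((∑ i ∈ Finset.range n, i) + c3 n) * ∏ j ∈ Finset.range n, (qf q j : ℂ) := by
    have h2 : ∀ j ∈ Finset.range n, ∏ i ∈ Finset.range j, ((qn q (1 + j) : ℂ) - (qn q (1 + i) : ℂ)) = (q : ℂ) ^ (j + ∑ k ∈ Finset.range j, k) * (qf q j : ℂ) := by
      intro j _
      have h3 : ∀ i ∈ Finset.range j, ((qn q (1 + j) : ℂ) - (qn q (1 + i) : ℂ)) = (q : ℂ) ^ (1 + i) * (qn q (j - i) : ℂ) := by
        intro i hi
        rw [Finset.mem_range] at hi
        rw [qn_diff q (by omega), show 1 + j - (1 + i) = j - i by omega]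
      rw [Finset.prod_congr rfl h3, Finset.prod_mul_distrib, Finset.prod_pow_eq_pow_sum, Finset.sum_add_distrib]
      congr 1
      · simp
      · unfold qf
        push_cast
        rw [← Finset.prod_range_reflect]
        apply Finset.prod_congr rfl
        intro i hi
        rw [Finset.mem_range] at hi
        congr 2; omega
    rw [Finset.prod_congr rfl h2, Finset.prod_mul_distrib, Finset.prod_pow_eq_pow_sum, Finset.sum_add_distrib]
    rfl
  rw [h1, Fin.prod_univ_eq_prod_range (fun j => (qf q (1 + j) : ℂ))] at h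
  have h4 := prod_qf q n
  have h5 : (∏ j ∈ Finset.range n, (qf q (1 + j) : ℂ)) = (qf q n : ℂ) * ∏ j ∈ Finset.range n, (qf q j : ℂ) := by
    have := congrArg (fun x : ℕ => (x : ℂ)) h4
    push_cast at this
    exact this.symm
  have hpos : (∏ j ∈ Finset.range n, (qf q (1 + j) : ℂ)) ≠ 0 :=
    Finset.prod_ne_zero_iff.2 fun j _ => Nat.cast_ne_zero.2 (qf_pos q _ hq1).ne'
  have hqc : (q : ℂ) ^ (c3 n) ≠ 0 := pow_ne_zero _ (Nat.cast_ne_zero.2 (by omega))
  have h6 : (unipotentCharacterGL n F (fun _ => 1) 1 - (q : ℂ) ^ (∑ i ∈ Finset.range n, i)) * ((q : ℂ) ^ (c3 n) * ∏ j ∈ Finset.range n, (qf q (1 + j) : ℂ)) = 0 := by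
    rw [pow_add] at h
    have h7 : unipotentCharacterGL n F (fun _ => 1) 1 * (q : ℂ) ^ (c3 n) * ∏ j ∈ Finset.range n, (qf q (1 + j) : ℂ) =
      (q : ℂ) ^ (∑ i ∈ Finset.range n, i) * ((q : ℂ) ^ (c3 n) * ∏ j ∈ Finset.range n, (qf q (1 + j) : ℂ)) := by
      rw [h, h5]; ring
    linear_combination h7
  have h8 := (mul_eq_zero.1 h6).resolve_right (mul_ne_zero hqc hpos)
  rw [sub_eq_zero.1 h8]
  push_cast; rfl

lemma qn_coprime {p f : ℕ} (hp : p.Prime) (hf : f ≠ 0) (k : ℕ) (hk : k ≠ 0) : ¬ p ∣ qn (p ^ f) k := by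
  obtain ⟨k, rfl⟩ := Nat.exists_eq_succ_of_ne_zero hk
  unfold qn
  rw [Finset.sum_range_succ', pow_zero]
  intro h
  have h2 : p ∣ ∑ x ∈ Finset.range k, (p ^ f) ^ (x + 1) := by
    apply Finset.dvd_sum
    intro i _
    rw [← pow_mul]
    exact dvd_pow_self _ (Nat.mul_ne_zero hf (Nat.succ_ne_zero i))
  have h3 := (Nat.dvd_add_right h2).1 h
  exact hp.one_lt.ne' (Nat.dvd_one.1 h3)

lemma qf_coprime {p f : ℕ} (hp : p.Prime) (hf : f ≠ 0) (k : ℕ) : ¬ p ∣ qf (p ^ f) k := by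
  unfold qf
  rw [Prime.dvd_finset_prod_iff hp.prime]
  rintro ⟨j, -, h⟩
  exact qn_coprime hp hf (j + 1) (Nat.succ_ne_zero j) h

/-- the full power of `p` dividing the order of `PSL_n(q)` -/
theorem card_sylow_psl (p : ℕ) [hp : Fact p.Prime] [CharP F p] (hn : 1 ≤ n) :
    p ^ (Nat.card (PSLn n F)).factorization p = Fintype.card F ^ (∑ i ∈ Finset.range n, i) := by
  obtain ⟨f, hpp, hf⟩ := FiniteField.card F p
  have h := Cfsg.Agent.H5.card_PSL_mul (F := F) rfl n hn
  rw [gl_formula _ _ Fintype.card_pos] at h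
  set q := Fintype.card F with hq
  set N := ∑ i ∈ Finset.range n, i with hN
  have hf0 : (f : ℕ) ≠ 0 := f.ne_zero
  have hq1 : 1 < q := Fintype.one_lt_card
  have hpq1 : ¬ p ∣ q - 1 := by
    intro h1
    have h2 : p ∣ q := by rw [hf]; exact dvd_pow_self _ hf0
    have h3 := (Nat.dvd_sub h2 h1)
    rw [Nat.sub_sub_self hq1.le] at h3
    exact hpp.one_lt.ne' (Nat.dvd_one.1 h3)
  have hg : ¬ p ∣ Nat.gcd n (q - 1) := fun h1 => hpq1 (h1.trans (Nat.gcd_dvd_right _ _))
  have hqf : ¬ p ∣ qf q n := by rw [hf]; exact qf_coprime hpp hf0 n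
  have hR : ¬ p ∣ (q - 1) ^ n * qf q n := by
    rw [hpp.dvd_mul]
    rintro (h1 | h1)
    · exact hpq1 (hpp.dvd_of_dvd_pow h1)
    · exact hqf h1
  have hfac := congrArg (fun x : ℕ => x.factorization p) h
  beta_reduce at hfac
  have hG0 : Nat.card (PSLn n F) ≠ 0 := Nat.card_pos.ne'
  have hg0 : Nat.gcd n (q - 1) ≠ 0 := fun h0 => hg (h0 ▸ dvd_zero p)
  have hq0 : q - 1 ≠ 0 := by omega
  have hR0 : (q - 1) ^ n * qf q n ≠ 0 := fun h0 => hR (h0 ▸ dvd_zero p)
  have hqN : q ^ N ≠ 0 := pow_ne_zero _ (by omega)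
  rw [Nat.factorization_mul hg0 (mul_ne_zero hq0 hG0), Nat.factorization_mul hq0 hG0, Nat.factorization_mul hqN hR0] at hfac
  simp only [Finsupp.add_apply] at hfac
  rw [Nat.factorization_eq_zero_of_not_dvd hg, Nat.factorization_eq_zero_of_not_dvd hpq1, Nat.factorization_eq_zero_of_not_dvd hR, zero_add, zero_add, add_zero] at hfac
  rw [hfac, hf, ← pow_mul, Nat.Prime.factorization_pow hpp, Finsupp.single_eq_same]

theorem steinberg_psl (p : ℕ) [hp : Fact p.Prime] [CharP F p] (hn : 1 ≤ n) :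
    ∃ χ : PSLn n F → ℂ, IsIrrCharacter (PSLn n F) χ ∧ ∀ P : Sylow p (PSLn n F), χ 1 = Nat.card P ∧ ∀ x : PSLn n F, x ∈ P → x ≠ 1 → χ x = 0 := by
  classical
  letI : Fintype (PSLn n F) := Fintype.ofFinite _
  have hirr : IsIrrCharacter (PSLn n F) (un n F (fun _ => 1)) := un_irr (by omega) (by simp) (fun _ _ _ => le_rfl)
  have hdeg : un n F (fun _ => 1) 1 = ((Fintype.card F ^ (∑ i ∈ Finset.range n, i) : ℕ) : ℂ) := by
    have := un_pi (F := F) (show 0 < n by omega) (fun _ => 1) 1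
    rw [map_one, map_one] at this
    rw [this, st_deg]
  refine ⟨_, hirr, fun P => ?_⟩
  have hP : Nat.card P = Fintype.card F ^ (∑ i ∈ Finset.range n, i) := by
    rw [Sylow.card_eq_multiplicity, card_sylow_psl p hn]
  refine ⟨by rw [hdeg, hP], fun x hx hx1 => ?_⟩
  obtain ⟨M, hM⟩ := Cfsg.Agent.H27.exists_isPModular hp.out
  apply Cfsg.Agent.H11.defect_zero_vanish hM (χ := ⟨_, hirr⟩)
  · show (Nat.card (PSLn n F)).factorization p ≤ (charDegree (un n F (fun _ => 1))).factorization p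
    have h1 := (Cfsg.Agent.H11.charDegree_spec hirr).1
    rw [hdeg, ← card_sylow_psl p hn] at h1
    have h2 : charDegree (un n F (fun _ => 1)) = p ^ (Nat.card (PSLn n F)).factorization p := by
      exact_mod_cast h1.symm
    rw [h2, Nat.Prime.factorization_pow hp.out, Finsupp.single_eq_same]
  · obtain ⟨k, hk⟩ := P.2 ⟨x, hx⟩
    have h1 : x ^ p ^ k = 1 := by
      have := congrArg Subtype.val hk
      exact this
    obtain ⟨j, hj, hj'⟩ := (Nat.dvd_prime_pow hp.out).1 (orderOf_dvd_of_pow_eq_one h1)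
    rw [hj']
    rcases j with _ | j
    · rw [pow_zero] at hj'
      exact absurd (orderOf_eq_one_iff.1 hj') hx1
    · exact dvd_pow_self _ (Nat.succ_ne_zero j)

end Cfsg.Agent.H16.StP
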