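import Mathlib

set_option autoImplicit false
set_option linter.all false

/-! A square matrix over a field is similar to its transpose. -/

namespace Cfsg.Agent.H16.TrSim

open Polynomial Module

universe u
variable {F : Type u} [Field F]

/-- a functional on `F[X]/(f)` whose kernel contains no nonzero ideal -/
lemma exists_lam (f : F[X]) (hf : f ≠ 0) : ∃ lam : AdjoinRoot f →ₗ[F] F,
    ∀ a : AdjoinRoot f, (∀ k : ℕ, lam (AdjoinRoot.root f ^ k * a) = 0) → a = 0 := by
  classical
  set pb := AdjoinRoot.powerBasis hf with hpb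
  have hgen : pb.gen = AdjoinRoot.root f := AdjoinRoot.powerBasis_gen hf
  rcases Nat.eq_zero_or_pos pb.dim with h0 | h0
  · refine ⟨0, fun a _ => ?_⟩
    rw [← pb.basis.sum_repr a]
    apply Finset.sum_eq_zero
    intro i _
    exact absurd i.2 (by omega)
  · set last : Fin pb.dim := ⟨pb.dim - 1, by omega⟩ with hlast
    refine ⟨pb.basis.coord last, fun a ha => ?_⟩
    set c : Fin pb.dim → F := fun i => pb.basis.repr a i with hc
    have hroot : ∀ k : ℕ, ∀ hk : k < pb.dim, pb.basis.coord last (AdjoinRoot.root f ^ k) = if k = pb.dim - 1 then 1 else 0 := by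
      intro k hk
      have h1 : AdjoinRoot.root f ^ k = pb.basis ⟨k, hk⟩ := by rw [pb.basis_eq_pow, hgen]
      rw [h1, Basis.coord_apply, Basis.repr_self, Finsupp.single_apply]
      by_cases h : k = pb.dim - 1
      · rw [if_pos h, if_pos (Fin.ext h)]
      · rw [if_neg h, if_neg (fun hh => h (congrArg Fin.val hh))]
    have ha2 : a = ∑ i, c i • AdjoinRoot.root f ^ (i : ℕ) := by
      rw [← pb.basis.sum_repr a]
      refine Finset.sum_congr rfl fun i _ => ?_
      rw [pb.basis_eq_pow, hgen, hc]
    have key : ∀ d : ℕ, ∀ i : Fin pb.dim, pb.dim - 1 - (i : ℕ) = d → c i = 0 := by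
      intro d
      induction d using Nat.strong_induction_on with
      | _ d ih =>
        intro i hi
        have hi2 := i.2
        have h1 := ha (pb.dim - 1 - (i : ℕ))
        have h2 : AdjoinRoot.root f ^ (pb.dim - 1 - (i : ℕ)) * a = ∑ j, c j • AdjoinRoot.root f ^ ((j : ℕ) + (pb.dim - 1 - (i : ℕ))) := by
          conv_lhs => rw [ha2]
          rw [Finset.mul_sum]
          refine Finset.sum_congr rfl fun j _ => ?_
          rw [mul_smul_comm, ← pow_add, add_comm]
        rw [h2, map_sum, Finset.sum_eq_single i] at h1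
        · rw [map_smul, show (i : ℕ) + (pb.dim - 1 - (i : ℕ)) = pb.dim - 1 by omega, hroot _ (by omega), if_pos rfl, smul_eq_mul, mul_one] at h1
          exact h1
        · intro j _ hj
          rcases lt_or_gt_of_ne hj with h | h
          · have h' : (j : ℕ) < (i : ℕ) := h
            rw [map_smul, hroot _ (by omega), if_neg (by omega), smul_zero]
          · have h' : (i : ℕ) < (j : ℕ) := h
            have hj2 := j.2
            rw [ih (pb.dim - 1 - (j : ℕ)) (by omega) j rfl, zero_smul, map_zero]
        · intro h; exact absurd (Finset.mem_univ _) h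
    rw [ha2]
    apply Finset.sum_eq_zero
    intro i _
    rw [key _ i rfl, zero_smul]

/-- nondegenerate symmetric form for which an endomorphism is self adjoint -/
theorem exists_form {V : Type u} [AddCommGroup V] [Module F V] [FiniteDimensional F V] (φ : Module.End F V) :
    ∃ B : V →ₗ[F] V →ₗ[F] F, (∀ x y, B (φ x) y = B x (φ y)) ∧ (∀ y, (∀ x, B x y = 0) → y = 0) := by
  classical
  have htors : Module.IsTorsion F[X] (AEval' φ) := Module.AEval.isTorsion_of_finiteDimensional F V φ
  obtain ⟨ι, _, p, hp, e, ⟨θ⟩⟩ := Module.equiv_directSum_of_isTorsion htors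
  set f : ι → F[X] := fun i => p i ^ e i with hf
  have hf0 : ∀ i, f i ≠ 0 := fun i => pow_ne_zero _ (hp i).ne_zero
  choose lam hlam using fun i => exists_lam (f i) (hf0 i)
  -- components
  let π : (i : ι) → V → AdjoinRoot (f i) := fun i x => (θ (AEval'.of φ x) i : F[X] ⧸ F[X] ∙ p i ^ e i)
  have hadd : ∀ i x y, π i (x + y) = π i x + π i y := by
    intro i x y
    show (θ (AEval'.of φ (x + y)) i : F[X] ⧸ F[X] ∙ p i ^ e i) = _
    rw [map_add, map_add]; rfl
  let cst : (i : ι) → (F[X] ⧸ F[X] ∙ p i ^ e i) → AdjoinRoot (f i) := fun i m => m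
  have hpoly : ∀ i (r : F[X]) (m : F[X] ⧸ F[X] ∙ p i ^ e i), cst i (r • m) = AdjoinRoot.mk (f i) r * cst i m := by
    intro i r m
    obtain ⟨g, rfl⟩ := Submodule.mkQ_surjective _ m
    rfl
  have hX : ∀ i x, π i (φ x) = AdjoinRoot.root (f i) * π i x := by
    intro i x
    have h1 : AEval'.of φ (φ x) = (X : F[X]) • AEval'.of φ x := (AEval'.X_smul_of φ x).symm
    show (θ (AEval'.of φ (φ x)) i : F[X] ⧸ F[X] ∙ p i ^ e i) = _
    rw [h1, map_smul]
    exact hpoly i X _
  have hsmul : ∀ i (c : F) x, π i (c • x) = c • π i x := by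
    intro i c x
    have h1 : AEval'.of φ (c • x) = (C c : F[X]) • AEval'.of φ x := by
      rw [map_smul]
      exact (AEval.C_smul (a := φ) c _).symm
    show (θ (AEval'.of φ (c • x)) i : F[X] ⧸ F[X] ∙ p i ^ e i) = _
    rw [h1, map_smul]
    have h2 := hpoly i (C c) (θ (AEval'.of φ x) i)
    have h3 : AdjoinRoot.mk (f i) (C c) * π i x = c • π i x := by
      rw [Algebra.smul_def]; rfl
    rw [← h3]
    exact h2
  let B : V →ₗ[F] V →ₗ[F] F := LinearMap.mk₂ F (fun x y => ∑ i, lam i (π i x * π i y))
    (by intro x y z; simp only [hadd, add_mul, map_add, Finset.sum_add_distrib])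
    (by intro c x y; simp only [hsmul, smul_mul_assoc, map_smul, Finset.smul_sum])
    (by intro x y z; simp only [hadd, mul_add, map_add, Finset.sum_add_distrib])
    (by intro c x y; simp only [hsmul, mul_smul_comm, map_smul, Finset.smul_sum])
  have hB : ∀ x y, B x y = ∑ i, lam i (π i x * π i y) := fun x y => rfl
  refine ⟨B, ?_, ?_⟩
  · intro x y
    rw [hB, hB]
    refine Finset.sum_congr rfl fun i _ => ?_
    rw [hX, hX]
    congr 1; ring
  · intro y hy
    have h1 : ∀ i, π i y = 0 := by
      intro i
      apply hlam i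
      intro k
      -- test vector
      obtain ⟨x', hx'⟩ := θ.surjective (DirectSum.lof F[X] ι (fun i => F[X] ⧸ F[X] ∙ p i ^ e i) i (Submodule.Quotient.mk (X ^ k)))
      obtain ⟨x, rfl⟩ := (AEval'.of φ).surjective x'
      have h2 := hy x
      rw [hB, Finset.sum_eq_single i] at h2
      · have h3 : π i x = AdjoinRoot.root (f i) ^ k := by
          show (θ (AEval'.of φ x) i : F[X] ⧸ F[X] ∙ p i ^ e i) = _
          rw [hx', DirectSum.lof_apply]
          have : AdjoinRoot.root (f i) ^ k = AdjoinRoot.mk (f i) (X ^ k) := by rw [map_pow]; rfl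
          rw [this]; rfl
        rwa [h3] at h2
      · intro j _ hj
        have h3 : π j x = 0 := by
          show (θ (AEval'.of φ x) j : F[X] ⧸ F[X] ∙ p j ^ e j) = _
          rw [hx', DirectSum.lof_eq_of, DirectSum.of_eq_of_ne _ _ _ hj]
          rfl
        rw [h3, zero_mul, map_zero]
      · intro h; exact absurd (Finset.mem_univ _) h
    have h2 : θ (AEval'.of φ y) = 0 := by
      apply DFinsupp.ext
      intro i
      exact h1 i
    have h3 := θ.injective (h2.trans (map_zero θ).symm)
    exact (AEval'.of φ).injective (h3.trans (map_zero _).symm)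

end Cfsg.Agent.H16.TrSim
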