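import Mathlib
import Cfsg.Agent.H16.TrvA
import Cfsg.Agent.H13.Perm

set_option autoImplicit false
set_option linter.all false

/-! Counting transvections in `GL_n`. -/

namespace Cfsg.Agent.H16.Trv

open Matrix Cfsg.Agent.H12 Cfsg.Agent.H17

variable {F : Type*} [Field F] [Fintype F] {n : ℕ}

/-- functionals vanishing at a vector -/
lemma card_perp (v : Fin n → F) (hv : v ≠ 0) : Nat.card {f : Fin n → F // f ⬝ᵥ v = 0} = Fintype.card F ^ (n - 1) := by
  set φ : (Fin n → F) →ₗ[F] F := dotProductEquiv F (Fin n) v with hφ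
  have hφ' : ∀ f, φ f = f ⬝ᵥ v := fun f => dotProduct_comm v f
  have hsurj : Function.Surjective φ := by
    obtain ⟨f, hf⟩ := exists_dot_eq_one hv
    intro c
    exact ⟨c • f, by rw [map_smul, hφ', hf, smul_eq_mul, mul_one]⟩
  have h1 := LinearMap.finrank_range_add_finrank_ker φ
  rw [LinearMap.range_eq_top.2 hsurj, finrank_top, Module.finrank_self, Module.finrank_fin_fun] at h1
  have h2 : Nat.card (LinearMap.ker φ) = Fintype.card F ^ (n - 1) := by
    rw [Module.natCard_eq_pow_finrank (K := F), Nat.card_eq_fintype_card]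
    congr 1
    omega
  rw [← h2]
  apply Nat.card_congr
  exact Equiv.subtypeEquivRight fun f => by rw [LinearMap.mem_ker, hφ']

abbrev PairS (F : Type*) [Field F] (n : ℕ) : Type _ := {p : (Fin n → F) × (Fin n → F) // p.1 ≠ 0 ∧ p.2 ≠ 0 ∧ p.2 ⬝ᵥ p.1 = 0}

lemma card_ne_zero_add (n : ℕ) : Nat.card {v : Fin n → F // v ≠ 0} + 1 = Fintype.card F ^ n := by
  classical
  have h := Fintype.card_subtype_compl (fun v : Fin n → F => v = 0)
  rw [Nat.card_eq_fintype_card]
  have h2 : Fintype.card {v : Fin n → F // v ≠ 0} = Fintype.card (Fin n → F) - Fintype.card {v : Fin n → F // v = 0} := by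
    rw [← h]
  rw [h2, Fintype.card_subtype_eq]
  have h3 : 0 < Fintype.card (Fin n → F) := Fintype.card_pos
  have h4 : Fintype.card (Fin n → F) = Fintype.card F ^ n := by simp
  rw [h4] at h3 ⊢
  omega

lemma card_pairS : Nat.card (PairS F n) = (Fintype.card F ^ n - 1) * (Fintype.card F ^ (n - 1) - 1) := by
  classical
  let e : PairS F n ≃ Σ v : {v : Fin n → F // v ≠ 0}, {f : Fin n → F // f ≠ 0 ∧ f ⬝ᵥ v.1 = 0} :=
    { toFun := fun p => ⟨⟨p.1.1, p.2.1⟩, ⟨p.1.2, p.2.2⟩⟩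
      invFun := fun x => ⟨(x.1.1, x.2.1), x.1.2, x.2.2⟩
      left_inv := fun p => rfl
      right_inv := fun x => rfl }
  have h1 : ∀ v : {v : Fin n → F // v ≠ 0}, Nat.card {f : Fin n → F // f ≠ 0 ∧ f ⬝ᵥ v.1 = 0} = Fintype.card F ^ (n - 1) - 1 := by
    intro v
    rw [← card_perp v.1 v.2, Nat.card_eq_fintype_card, Nat.card_eq_fintype_card, Fintype.card_subtype, Fintype.card_subtype]
    have : (Finset.univ.filter fun f : Fin n → F => f ≠ 0 ∧ f ⬝ᵥ v.1 = 0) = (Finset.univ.filter fun f : Fin n → F => f ⬝ᵥ v.1 = 0).erase 0 := by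
      ext f
      simp only [Finset.mem_filter, Finset.mem_univ, true_and, Finset.mem_erase]
    rw [this, Finset.card_erase_of_mem]
    simp
  rw [Nat.card_congr e, Nat.card_sigma, Finset.sum_congr rfl fun v _ => h1 v, Finset.sum_const, Finset.card_univ, smul_eq_mul]
  congr 1
  have := card_ne_zero_add (F := F) n
  rw [Nat.card_eq_fintype_card] at this
  omega

/-- proportional pairs -/
lemma tvm_eq_iff {v f v' f' : Fin n → F} (hv : v ≠ 0) (hf : f ≠ 0) : tvm v' f' = tvm v f ↔ ∃ c : Fˣ, v' = (c : F) • v ∧ f' = ((c⁻¹ : Fˣ) : F) • f := by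
  constructor
  · intro h
    unfold tvm at h
    have h1 : vecMulVec v' f' = vecMulVec v f := add_left_cancel h
    obtain ⟨i, hi⟩ : ∃ i, v i ≠ 0 := by
      by_contra hcon
      push Not at hcon
      exact hv (funext hcon)
    obtain ⟨j, hj⟩ : ∃ j, f j ≠ 0 := by
      by_contra hcon
      push Not at hcon
      exact hf (funext hcon)
    have h2 : ∀ a b, v' a * f' b = v a * f b := fun a b => congrFun (congrFun h1 a) b
    have h3 : v' i * f' j ≠ 0 := by rw [h2]; exact mul_ne_zero hi hj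
    have hvi : v' i ≠ 0 := left_ne_zero_of_mul h3
    have hfj : f' j ≠ 0 := right_ne_zero_of_mul h3
    refine ⟨Units.mk0 (v' i / v i) (div_ne_zero hvi hi), ?_, ?_⟩
    · funext a
      rw [Pi.smul_apply, smul_eq_mul, Units.val_mk0]
      have ha := h2 a j
      have hb := h2 i j
      have h5 : v' a * v i * f' j = v' i * v a * f' j := by
        linear_combination (v i) * ha - (v a) * hb
      have h6 := mul_right_cancel₀ hfj h5
      field_simp
      linear_combination h6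
    · funext b
      rw [Pi.smul_apply, smul_eq_mul, Units.val_inv_eq_inv_val, Units.val_mk0, inv_div]
      have hb := h2 i b
      field_simp
      linear_combination hb
  · rintro ⟨c, rfl, rfl⟩
    unfold tvm
    congr 1
    ext a b
    rw [vecMulVec_apply, vecMulVec_apply, Pi.smul_apply, Pi.smul_apply, smul_eq_mul, smul_eq_mul]
    have : (c : F) * ((c⁻¹ : Fˣ) : F) = 1 := Units.mul_inv c
    linear_combination (v a * f b) * this

lemma card_fiber {v f : Fin n → F} (hv : v ≠ 0) (hf : f ≠ 0) (h0 : f ⬝ᵥ v = 0) :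
    Nat.card {p : PairS F n // tvm p.1.1 p.1.2 = tvm v f} = Fintype.card F - 1 := by
  classical
  have hb : Function.Bijective (fun c : Fˣ => (⟨⟨((c : F) • v, ((c⁻¹ : Fˣ) : F) • f), smul_ne_zero c.ne_zero hv, smul_ne_zero (Units.ne_zero _) hf, by
      rw [smul_dotProduct, dotProduct_smul, h0]; simp⟩, (tvm_eq_iff hv hf).2 ⟨c, rfl, rfl⟩⟩ : {p : PairS F n // tvm p.1.1 p.1.2 = tvm v f})) := by
    constructor
    · intro c c' h
      have h1 : (c : F) • v = (c' : F) • v := congrArg (fun x : {p : PairS F n // tvm p.1.1 p.1.2 = tvm v f} => x.1.1.1) h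
      exact Units.ext (smul_left_injective F hv h1)
    · rintro ⟨⟨⟨v', f'⟩, hp⟩, h⟩
      obtain ⟨c, rfl, rfl⟩ := (tvm_eq_iff hv hf).1 h
      exact ⟨c, rfl⟩
  rw [← Nat.card_congr (Equiv.ofBijective _ hb), Nat.card_eq_fintype_card, Fintype.card_units]

/-- conjugates of a transvection in `GL_n` -/
lemma conj_iff {v f : Fin n → F} (hv : v ≠ 0) (hf : f ≠ 0) (h0 : f ⬝ᵥ v = 0) (x : GL (Fin n) F) :
    IsConj (tv v f) x ↔ ∃ p : PairS F n, tv p.1.1 p.1.2 = x := by
  rw [isConj_iff]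
  constructor
  · rintro ⟨g, rfl⟩
    have h1 : (f ᵥ* ((g⁻¹ : GL (Fin n) F) : Matrix (Fin n) (Fin n) F)) ⬝ᵥ ((g : Matrix (Fin n) (Fin n) F) *ᵥ v) = 0 := by
      rw [← dotProduct_mulVec, gl_inv_mulVec_mulVec, h0]
    refine ⟨⟨((g : Matrix (Fin n) (Fin n) F) *ᵥ v, f ᵥ* ((g⁻¹ : GL (Fin n) F) : Matrix (Fin n) (Fin n) F)), gl_mulVec_ne_zero g hv, ?_, h1⟩, ?_⟩
    · intro h
      apply hf
      have : f = (f ᵥ* ((g⁻¹ : GL (Fin n) F) : Matrix (Fin n) (Fin n) F)) ᵥ* (g : Matrix (Fin n) (Fin n) F) := by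
        rw [vecMul_vecMul, ← Units.val_mul, inv_mul_cancel, Units.val_one, vecMul_one]
      simp only at h
      rw [this, h, zero_vecMul]
    · apply gl_ext
      intro y
      simp only
      rw [tv_mulVec h1, gl_mul_mulVec, gl_mul_mulVec, tv_mulVec h0, mulVec_add, mulVec_smul, gl_mulVec_inv_mulVec, dotProduct_mulVec]
  · rintro ⟨⟨⟨v', f'⟩, hv', hf', h0'⟩, rfl⟩
    simp only at hv' hf' h0'
    obtain ⟨g, hg1, hg2⟩ := exists_gl_pair hv hf h0 hv' hf' h0'
    refine ⟨g, ?_⟩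
    apply gl_ext
    intro y
    simp only
    rw [tv_mulVec h0', gl_mul_mulVec, gl_mul_mulVec, tv_mulVec h0, mulVec_add, mulVec_smul, gl_mulVec_inv_mulVec, hg1, dotProduct_mulVec, hg2]

lemma card_class {v f : Fin n → F} (hv : v ≠ 0) (hf : f ≠ 0) (h0 : f ⬝ᵥ v = 0) :
    Nat.card {x : GL (Fin n) F // IsConj (tv v f) x} * (Fintype.card F - 1) = (Fintype.card F ^ n - 1) * (Fintype.card F ^ (n - 1) - 1) := by
  classical
  rw [← card_pairS]
  let τ : PairS F n → {x : GL (Fin n) F // IsConj (tv v f) x} := fun p => ⟨tv p.1.1 p.1.2, (conj_iff hv hf h0 _).2 ⟨p, rfl⟩⟩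
  rw [Nat.card_congr (Equiv.sigmaFiberEquiv τ).symm, Nat.card_sigma]
  have h1 : ∀ y : {x : GL (Fin n) F // IsConj (tv v f) x}, Nat.card {p : PairS F n // τ p = y} = Fintype.card F - 1 := by
    rintro ⟨y, hy⟩
    obtain ⟨p0, hp0⟩ := (conj_iff hv hf h0 _).1 hy
    rw [← card_fiber p0.2.1 p0.2.2.1 p0.2.2.2]
    apply Nat.card_congr
    apply Equiv.subtypeEquivRight
    intro p
    rw [Subtype.ext_iff]
    show tv p.1.1 p.1.2 = y ↔ _
    rw [← hp0, ← coe_tv p.2.2.2, ← coe_tv p0.2.2.2]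
    exact ⟨fun h => by rw [h], fun h => Units.ext h⟩
  rw [Finset.sum_congr rfl fun y _ => h1 y, Finset.sum_const, Finset.card_univ, smul_eq_mul, Nat.card_eq_fintype_card]

end Cfsg.Agent.H16.Trv
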