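import Cfsg.Agent.H16.TwGen
import Cfsg.Agent.H6.TwTorD4

set_option autoImplicit false
set_option linter.all false
set_option maxHeartbeats 400000
set_option maxRecDepth 10000

/-! `³D₄(q)` is generated by two elements. -/

namespace Cfsg.Agent.H16.TwGenD

open Cfsg.Lie Cfsg.Agent.H6 Cfsg.Agent.H16.RegF Cfsg.Agent.H16.ReeH Cfsg.Agent.H16.TwGen
open scoped Matrix

theorem closure_order2 {F : Type*} [Field F] [Fintype F] {μ : Fˣ} (h : Fintype.card F < (orderOf μ + 1) ^ 2) :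
    Subring.closure ({(μ : F)} : Set F) = ⊤ := by
  classical
  set R := Subring.closure ({(μ : F)} : Set F) with hR
  let K : Subfield F :=
    { R with
      inv_mem' := by
        intro x hx
        change x⁻¹ ∈ R
        by_cases h : x = 0
        · subst h; rw [_root_.inv_zero]; exact R.zero_mem
        · have h1 : x ^ (Fintype.card F - 2) = x⁻¹ := by
            apply eq_inv_of_mul_eq_one_left
            rw [← pow_succ]
            have h2 : Fintype.card F - 2 + 1 = Fintype.card F - 1 := by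
              have := Fintype.one_lt_card (α := F); omega
            rw [h2]; exact FiniteField.pow_card_sub_one_eq_one x h
          rw [← h1]; exact R.pow_mem hx _ }
  have hK : ∀ x, x ∈ K ↔ x ∈ R := fun x => Iff.rfl
  have hc3 : (μ : F) ∈ K := (hK _).2 (Subring.subset_closure (Set.mem_singleton _))
  have hcard := Module.card_eq_pow_finrank (K := K) (V := F)
  set d := Module.finrank K F with hd
  set m := Fintype.card K with hm
  have hm1 : 1 < m := Fintype.one_lt_card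
  have hpw : μ ^ (m - 1) = 1 := by
    have h1 := FiniteField.pow_card_sub_one_eq_one (⟨(μ : F), hc3⟩ : K) (by
      intro h; apply μ.ne_zero; exact congrArg Subtype.val h)
    have h2 := congrArg Subtype.val h1
    ext
    rw [Units.val_pow_eq_pow_val]
    simpa using h2
  have hdvd := orderOf_dvd_of_pow_eq_one hpw
  have hle := Nat.le_of_dvd (by omega) hdvd
  have hd1 : d = 1 ∨ 2 ≤ d := by
    have : 0 < d := by
      rcases Nat.eq_zero_or_pos d with h | h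
      · rw [h, pow_zero] at hcard
        have := Fintype.one_lt_card (α := F); omega
      · exact h
    omega
  rcases hd1 with hd1 | hd2
  · rw [hd1, pow_one] at hcard
    rw [eq_top_iff]
    intro x _
    rw [← hK]
    have hinj : Function.Injective (Subtype.val : K → F) := Subtype.val_injective
    have hbij := (Fintype.bijective_iff_injective_and_card (Subtype.val : K → F)).2 ⟨hinj, hcard.symm⟩
    obtain ⟨y, hy⟩ := hbij.2 x
    rw [← hy]; exact y.2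
  · exfalso
    have h5 : m ^ 2 ≤ Fintype.card F := by rw [hcard]; exact Nat.pow_le_pow_right (by omega) hd2
    have h6 : (orderOf μ + 1) ^ 2 ≤ m ^ 2 := Nat.pow_le_pow_left (by omega) 2
    omega

theorem pw_add {D : ChevalleyDatum} {N : ℕ} {η : ℕ → ℕ → ℤ} {rc : ℕ → ℕ → ℤ} {F : Type*} [Field F] (hG : Good D N η rc)
    {A : List (Fin D.rank)} (hc : COrb D F A) (b : Bool) (f g : ℕ → F) :
    pw D F b A f * pw D F b A g = pw D F b A (fun i => f i + g i) := by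
  induction A with
  | nil => unfold pw; simp
  | cons a A ih =>
    have hx : ∀ f, pw D F b (a :: A) f = sx D F b a (f a) * pw D F b A f := fun f => by
      unfold pw; rw [List.map_cons, List.prod_cons]
    have h1 : pw D F b A f * sx D F b a (g a) = sx D F b a (g a) * pw D F b A f := (hc.comm_pw b b (g a) f).eq.symm
    have h2 : sx D F b a (f a + g a) = sx D F b a (f a) * sx D F b a (g a) := by
      unfold sx; cases b <;> exact hG.xg_add _ _ _
    rw [hx, hx, hx, ← ih hc.sub, h2]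
    calc sx D F b a (f a) * pw D F b A f * (sx D F b a (g a) * pw D F b A g)
        = sx D F b a (f a) * (pw D F b A f * sx D F b a (g a)) * pw D F b A g := by group
      _ = _ := by rw [h1]; group

open Cfsg.Agent.H6.WD4a

theorem nrD : chevD4.nroots = 24 := by decide +kernel
theorem w0_neg : ∀ r < 24, rfw chevD4 (powL 3 (L 0 ++ L 1) : List (Fin 4)) r = chevD4.neg r := by decide +kernel

section
variable {K : Type*} [Field K] {q : ℕ}

theorem tor_act (c : Fin 4 → Kˣ) {s : ℕ} (hs : s < 24) {a b a' b' : ℤ}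
    (hc : chevD4.cartan 0 s = a ∧ chevD4.cartan 1 s = b ∧ chevD4.cartan 2 s = a' ∧ chevD4.cartan 3 s = b') (t : K) :
    PhiH chevD4 K 4 c * xg chevD4 K s t * (PhiH chevD4 K 4 c)⁻¹ = xg chevD4 K s (((c 0 ^ a * c 1 ^ b * c 2 ^ a' * c 3 ^ b' : Kˣ) : K) * t) := by
  have h := (TD4.good.mon_PhiH c).act ⟨s, by rw [nrD]; exact hs⟩ t
  change PhiH chevD4 K 4 c * xg chevD4 K s t * (PhiH chevD4 K 4 c)⁻¹ = xg chevD4 K s (((∏ k : Fin 4, c k ^ chevD4.cartan k s : Kˣ) : K) * t) at h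
  rw [h, Fin.prod_univ_four]
  change xg chevD4 K s (((c 0 ^ chevD4.cartan 0 s * c 1 ^ chevD4.cartan 1 s * c 2 ^ chevD4.cartan 2 s * c 3 ^ chevD4.cartan 3 s : Kˣ) : K) * t) = _
  rw [hc.1, hc.2.1, hc.2.2.1, hc.2.2.2]

theorem lt1 : d4p1 < 24 ∧ d4p2 < 24 ∧ d4p3 < 24 ∧ d4p4 < 24 := by decide
theorem ca1 : chevD4.cartan 0 d4p1 = 2 ∧ chevD4.cartan 1 d4p1 = -1 ∧ chevD4.cartan 2 d4p1 = 0 ∧ chevD4.cartan 3 d4p1 = 0 := by decide +kernel
theorem ca2 : chevD4.cartan 0 d4p2 = -1 ∧ chevD4.cartan 1 d4p2 = 2 ∧ chevD4.cartan 2 d4p2 = -1 ∧ chevD4.cartan 3 d4p2 = -1 := by decide +kernel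
theorem ca3 : chevD4.cartan 0 d4p3 = 0 ∧ chevD4.cartan 1 d4p3 = -1 ∧ chevD4.cartan 2 d4p3 = 2 ∧ chevD4.cartan 3 d4p3 = 0 := by decide +kernel
theorem ca4 : chevD4.cartan 0 d4p4 = 0 ∧ chevD4.cartan 1 d4p4 = -1 ∧ chevD4.cartan 2 d4p4 = 0 ∧ chevD4.cartan 3 d4p4 = 2 := by decide +kernel

/-- torus elements -/
noncomputable def tt (q : ℕ) (t : Kˣ) : GL chevD4.Idx K := PhiH chevD4 K 4 ![t, 1, t ^ q, (t ^ q) ^ q]

theorem tt_mul (t u : Kˣ) : tt q (t * u) = tt q t * tt q u := by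
  unfold tt
  rw [← map_mul]
  congr 1
  funext i
  fin_cases i
  · rfl
  · exact (mul_one 1).symm
  · exact mul_pow t u q
  · change ((t * u) ^ q) ^ q = (t ^ q) ^ q * (u ^ q) ^ q
    rw [mul_pow, mul_pow]

theorem tt_Tq (hq3 : ∀ t : K, (t ^ q ^ 2) ^ q = t) (t : Kˣ) : (![t, 1, t ^ q, (t ^ q) ^ q] : Fin 4 → Kˣ) ∈ Tq K q := by
  rw [mem_Tq]
  funext i
  fin_cases i
  · exact hu3 hq3 _
  · exact one_pow q
  · rfl
  · rfl

theorem x1_eq (t : K) : pw chevD4 K true (LL 1) (f1 q t) = xg chevD4 K d4p1 t * (xg chevD4 K d4p3 (t ^ q) * xg chevD4 K d4p4 (t ^ q ^ 2)) := by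
  rw [pw1, f1_0, f1_2, f1_3]
  unfold wg
  simp only [List.map_cons, List.map_nil, List.prod_cons, List.prod_nil, mul_one]
  rfl

theorem x0_eq (t : K) : pw chevD4 K true (LL 0) (fun _ => t) = xg chevD4 K d4p2 t := by
  rw [pw0]
  unfold wg
  simp only [List.map_cons, List.map_nil, List.prod_cons, List.prod_nil, mul_one]
  rfl

theorem tt_conj1 (s : Kˣ) (t : K) : tt q s * pw chevD4 K true (LL 1) (f1 q t) * (tt q s)⁻¹ =
    pw chevD4 K true (LL 1) (f1 q (((s ^ 2 : Kˣ) : K) * t)) := by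
  rw [x1_eq, x1_eq]
  have h1 := tor_act (![s, 1, s ^ q, (s ^ q) ^ q] : Fin 4 → Kˣ) lt1.1 ca1 t
  have h2 := tor_act (![s, 1, s ^ q, (s ^ q) ^ q] : Fin 4 → Kˣ) lt1.2.2.1 ca3 (t ^ q)
  have h3 := tor_act (![s, 1, s ^ q, (s ^ q) ^ q] : Fin 4 → Kˣ) lt1.2.2.2 ca4 (t ^ q ^ 2)
  have e1 : ((![s, 1, s ^ q, (s ^ q) ^ q] : Fin 4 → Kˣ) 0) ^ (2 : ℤ) * ((![s, 1, s ^ q, (s ^ q) ^ q] : Fin 4 → Kˣ) 1) ^ (-1 : ℤ) *
      ((![s, 1, s ^ q, (s ^ q) ^ q] : Fin 4 → Kˣ) 2) ^ (0 : ℤ) * ((![s, 1, s ^ q, (s ^ q) ^ q] : Fin 4 → Kˣ) 3) ^ (0 : ℤ) = s ^ 2 := by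
    change s ^ (2 : ℤ) * 1 ^ (-1 : ℤ) * (s ^ q) ^ (0 : ℤ) * ((s ^ q) ^ q) ^ (0 : ℤ) = s ^ 2
    rw [one_zpow, zpow_zero, zpow_zero, mul_one, mul_one, mul_one, zpow_two, pow_two]
  have e2 : ((![s, 1, s ^ q, (s ^ q) ^ q] : Fin 4 → Kˣ) 0) ^ (0 : ℤ) * ((![s, 1, s ^ q, (s ^ q) ^ q] : Fin 4 → Kˣ) 1) ^ (-1 : ℤ) *
      ((![s, 1, s ^ q, (s ^ q) ^ q] : Fin 4 → Kˣ) 2) ^ (2 : ℤ) * ((![s, 1, s ^ q, (s ^ q) ^ q] : Fin 4 → Kˣ) 3) ^ (0 : ℤ) = (s ^ 2) ^ q := by
    change s ^ (0 : ℤ) * 1 ^ (-1 : ℤ) * (s ^ q) ^ (2 : ℤ) * ((s ^ q) ^ q) ^ (0 : ℤ) = (s ^ 2) ^ q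
    rw [one_zpow, zpow_zero, zpow_zero, mul_one, mul_one, one_mul, zpow_two, ← mul_pow, ← pow_two]
  have e3 : ((![s, 1, s ^ q, (s ^ q) ^ q] : Fin 4 → Kˣ) 0) ^ (0 : ℤ) * ((![s, 1, s ^ q, (s ^ q) ^ q] : Fin 4 → Kˣ) 1) ^ (-1 : ℤ) *
      ((![s, 1, s ^ q, (s ^ q) ^ q] : Fin 4 → Kˣ) 2) ^ (0 : ℤ) * ((![s, 1, s ^ q, (s ^ q) ^ q] : Fin 4 → Kˣ) 3) ^ (2 : ℤ) = (s ^ 2) ^ q ^ 2 := by
    change s ^ (0 : ℤ) * 1 ^ (-1 : ℤ) * (s ^ q) ^ (0 : ℤ) * ((s ^ q) ^ q) ^ (2 : ℤ) = (s ^ 2) ^ q ^ 2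
    rw [one_zpow, zpow_zero, zpow_zero, mul_one, mul_one, one_mul, zpow_two, ← mul_pow, ← mul_pow, ← pow_two, ← pow_mul, ← pow_two]
  rw [e1] at h1
  rw [e2] at h2
  rw [e3] at h3
  have f2 : (((s ^ 2) ^ q : Kˣ) : K) * t ^ q = (((s ^ 2 : Kˣ) : K) * t) ^ q := by
    rw [mul_pow, Units.val_pow_eq_pow_val (s ^ 2) q]
  have f3 : (((s ^ 2) ^ q ^ 2 : Kˣ) : K) * t ^ q ^ 2 = (((s ^ 2 : Kˣ) : K) * t) ^ q ^ 2 := by
    rw [mul_pow, Units.val_pow_eq_pow_val (s ^ 2) (q ^ 2)]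
  rw [f2] at h2
  rw [f3] at h3
  unfold tt
  rw [← h1, ← h2, ← h3]
  group

theorem tt_conj0 (s : Kˣ) (t : K) : tt q s * xg chevD4 K d4p2 t * (tt q s)⁻¹ =
    xg chevD4 K d4p2 ((((s * s ^ q * (s ^ q) ^ q)⁻¹ : Kˣ) : K) * t) := by
  have h1 := tor_act (![s, 1, s ^ q, (s ^ q) ^ q] : Fin 4 → Kˣ) lt1.2.1 ca2 t
  have e1 : ((![s, 1, s ^ q, (s ^ q) ^ q] : Fin 4 → Kˣ) 0) ^ (-1 : ℤ) * ((![s, 1, s ^ q, (s ^ q) ^ q] : Fin 4 → Kˣ) 1) ^ (2 : ℤ) *
      ((![s, 1, s ^ q, (s ^ q) ^ q] : Fin 4 → Kˣ) 2) ^ (-1 : ℤ) * ((![s, 1, s ^ q, (s ^ q) ^ q] : Fin 4 → Kˣ) 3) ^ (-1 : ℤ) = (s * s ^ q * (s ^ q) ^ q)⁻¹ := by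
    change s ^ (-1 : ℤ) * 1 ^ (2 : ℤ) * (s ^ q) ^ (-1 : ℤ) * ((s ^ q) ^ q) ^ (-1 : ℤ) = _
    rw [one_zpow, mul_one, zpow_neg_one, zpow_neg_one, zpow_neg_one, mul_inv, mul_inv]
  rw [e1] at h1
  exact h1

theorem two_gen [Fintype K] (hq : IsPrimePow q) (hK : Fintype.card K = q ^ 3) :
    ∃ a b : ↥(twistedD4 K q), Subgroup.closure ({a, b} : Set ↥(twistedD4 K q)) = ⊤ := by
  classical
  obtain ⟨σ, h⟩ := exists_ctx three_ne_zero hq hK
  have hq3 := pow_pow hK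
  have hT := grp h hq3
  obtain ⟨ζ, hζ⟩ := IsCyclic.exists_generator (α := Kˣ)
  have hq2 : 2 ≤ q := hq.two_le
  have hord : orderOf ζ = q ^ 3 - 1 := by
    rw [orderOf_eq_card_of_forall_mem_zpowers hζ, Nat.card_units, Nat.card_eq_fintype_card, hK]
  obtain ⟨f, rfl⟩ : ∃ f, q = f + 1 := ⟨q - 1, by omega⟩
  have hf1 : 1 ≤ f := by omega
  set M := (f + 1) ^ 2 + (f + 1) + 1 with hM
  have hfac : (f + 1) ^ 3 - 1 = f * M := by
    have : (f + 1) ^ 3 = f * M + 1 := by rw [hM]; ring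
    omega
  have hModd : Odd M := by
    rw [hM]
    have : Even ((f + 1) ^ 2 + (f + 1)) := by
      rw [pow_two]
      have := Nat.even_mul_succ_self (f + 1)
      have e : (f + 1) * (f + 1) + (f + 1) = (f + 1) * (f + 1 + 1) := by ring
      rw [e]; exact this
    exact this.add_one
  -- the element of order `M`
  set s := ζ ^ f with hs
  have hso : orderOf s = M := by
    rw [hs, orderOf_pow, hord, hfac, Nat.gcd_mul_right_left]
    exact Nat.mul_div_cancel_left _ (by omega)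
  have hs2 : orderOf (s ^ 2) = M := by
    rw [orderOf_pow, hso]
    have : Nat.gcd M 2 = 1 := Nat.coprime_two_right.2 hModd
    rw [this, Nat.div_one]
  have hN : s * s ^ (f + 1) * (s ^ (f + 1)) ^ (f + 1) = 1 := by
    have e1 : s * s ^ (f + 1) * (s ^ (f + 1)) ^ (f + 1) = s ^ M := by
      clear_value s
      rw [← pow_mul, ← pow_succ', ← pow_add]; congr 1; rw [hM]; ring
    rw [e1, ← hso, pow_orderOf_eq_one]
  have hcl : Subring.closure ({((s ^ 2 : Kˣ) : K)} : Set K) = ⊤ := by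
    apply closure_order2
    rw [hs2, hK, hM]
    nlinarith [sq_nonneg ((f + 1) ^ 2 : ℕ), Nat.zero_le f]
  -- longest element
  have hw0 : wp h.G.s (powL 3 (L 0 ++ L 1) : List (Fin chevD4.rank)) ∈ h.Wr := by
    have h1 := wp_powL (s := h.G.s) 3 (LL 0 ++ LL 1)
    change wp h.G.s (powL 3 (L 0 ++ L 1)) = _ at h1
    rw [h1, wp_append]
    exact pow_mem (mul_mem (h.wJ_mem orbL 0) (h.wJ_mem orbL 1)) 3
  have hwn : ∀ r, (wp h.G.s (powL 3 (L 0 ++ L 1) : List (Fin chevD4.rank))).1 r = h.G.ngf r := by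
    intro r
    apply Fin.ext
    rw [wp_val h.G (powL 3 (L 0 ++ L 1) : List (Fin chevD4.rank)) r]
    exact w0_neg r (lt_of_lt_of_eq r.2 nrD)
  obtain ⟨n, hn, χ, hmon⟩ := hT.rep_all hw0
  have hzt : ∀ t : Kˣ, tt (f + 1) t ∈ twistedD4 K (f + 1) := fun t => PhiH_mem h (tt_Tq hq3 t)
  have hinv : n * tt (f + 1) s * n⁻¹ = (tt (f + 1) s)⁻¹ :=
    conj_torus_neg h.G h.E (hT.le_fix hn.2).1 (hT.le_fix (hzt s)).1 hmon hwn (TD4.good.mon_PhiH (F := K) _)
  have hx0 : xg chevD4 K d4p2 (1 : K) ∈ twistedD4 K (f + 1) := by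
    rw [← x0_eq]; exact gen_mem 0 true _ (key0 1 (one_pow _) _)
  have hx1 : pw chevD4 K true (LL 1) (f1 (f + 1) (1 : K)) ∈ twistedD4 K (f + 1) := gen_mem 1 true _ (key1 hq3 1)
  have hcomm : tt (f + 1) s * xg chevD4 K d4p2 (1 : K) = xg chevD4 K d4p2 (1 : K) * tt (f + 1) s := by
    have h1 := tt_conj0 (q := f + 1) s (1 : K)
    rw [hN, inv_one, Units.val_one, one_mul, mul_inv_eq_iff_eq_mul] at h1
    exact h1
  let ψ : Kˣ →* GL chevD4.Idx K := MonoidHom.mk' (tt (f + 1)) tt_mul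
  have hTo : tt (f + 1) s ^ M = 1 := by
    have h1 : ψ (s ^ M) = ψ s ^ M := map_pow ψ _ _
    rw [← hso, pow_orderOf_eq_one, map_one, hso] at h1
    exact h1.symm
  obtain ⟨p, k, hp, hk, hpk⟩ := hq
  have hp' := hp.nat_prime
  have hcharP : CharP K p := by
    apply charP_of_card hp' (k := k * 3) (by omega)
    rw [hK, ← hpk, pow_mul]
  have hxo : xg chevD4 K d4p2 (1 : K) ^ p = 1 := by
    have h1 : ∀ n : ℕ, xg chevD4 K d4p2 (1 : K) ^ n = xg chevD4 K d4p2 (n : K) := by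
      intro n
      induction n with
      | zero => rw [pow_zero, Nat.cast_zero, TD4.good.xg_zero]
      | succ n ih => rw [pow_succ, ih, Nat.cast_succ, TD4.good.xg_add]
    rw [h1, CharP.cast_eq_zero K p, TD4.good.xg_zero]
  have hcop : Nat.Coprime M p := by
    rw [Nat.coprime_comm, hp'.coprime_iff_not_dvd]
    intro hd
    have h1 : p ∣ f + 1 := by rw [← hpk]; exact dvd_pow_self p hk.ne'
    have h2 : p ∣ (f + 1) ^ 2 + (f + 1) := dvd_add (dvd_pow h1 two_ne_zero) h1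
    have h3 := (Nat.dvd_add_right h2).1 hd
    exact hp'.one_lt.ne' (Nat.dvd_one.1 h3)
  obtain ⟨s1, s2⟩ := split_mem hcomm hTo hxo hcop
  apply gen2_of_le (mul_mem (hzt s) hx0) (mul_mem hx1 hn.2)
  set H := Subgroup.closure ({tt (f + 1) s * xg chevD4 K d4p2 (1 : K), pw chevD4 K true (LL 1) (f1 (f + 1) (1 : K)) * n} : Set (GL chevD4.Idx K)) with hH
  have ha : tt (f + 1) s * xg chevD4 K d4p2 (1 : K) ∈ H := Subgroup.subset_closure (by simp)
  have hy : pw chevD4 K true (LL 1) (f1 (f + 1) (1 : K)) * n ∈ H := Subgroup.subset_closure (by simp)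
  have hz : tt (f + 1) s ∈ H := (Subgroup.zpowers_le.2 ha) s1
  have hx : xg chevD4 K d4p2 (1 : K) ∈ H := (Subgroup.zpowers_le.2 ha) s2
  have hadd : ∀ t u : K, pw chevD4 K true (LL 1) (f1 (f + 1) t) * pw chevD4 K true (LL 1) (f1 (f + 1) u) = pw chevD4 K true (LL 1) (f1 (f + 1) (t + u)) := by
    intro t u
    have hG1 := gen_mem (K := K) (q := f + 1) 1 true
    rw [pw_add TD4.good (corb 1), pw1, pw1]
    have e1 : (t + u) ^ (f + 1) = t ^ (f + 1) + u ^ (f + 1) := by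
      rw [← hpk]; exact ff_add hp' (by omega) (by rw [hK, ← hpk, ← pow_mul] : Fintype.card K = p ^ (k * 3)) t u
    have e2 : (t + u) ^ (f + 1) ^ 2 = t ^ (f + 1) ^ 2 + u ^ (f + 1) ^ 2 := by
      rw [pow_two (f + 1), pow_mul, pow_mul, pow_mul, e1, ← hpk]
      exact ff_add hp' (by omega) (by rw [hK, ← hpk, ← pow_mul] : Fintype.card K = p ^ (k * 3)) _ _
    simp only [f1_0, f1_2, f1_3, e1, e2]
  have h0 : pw chevD4 K true (LL 1) (f1 (f + 1) (0 : K)) = 1 := by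
    have := hadd 0 0
    rw [add_zero] at this
    exact mul_eq_left.1 this
  have hinv1 : ∀ t : K, (pw chevD4 K true (LL 1) (f1 (f + 1) t))⁻¹ = pw chevD4 K true (LL 1) (f1 (f + 1) (-t)) := by
    intro t
    apply inv_eq_of_mul_eq_one_right
    rw [hadd, add_neg_cancel, h0]
  -- the commutator
  have hc2 : pw chevD4 K true (LL 1) (f1 (f + 1) (((s ^ 2 : Kˣ) : K) * 1 + -1)) ∈ H := by
    have h1 := H.mul_mem hz (H.mul_mem (H.mul_mem hy hz) (H.inv_mem hy))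
    have e1 : tt (f + 1) s * (pw chevD4 K true (LL 1) (f1 (f + 1) (1 : K)) * n * tt (f + 1) s * (pw chevD4 K true (LL 1) (f1 (f + 1) (1 : K)) * n)⁻¹) =
        tt (f + 1) s * (pw chevD4 K true (LL 1) (f1 (f + 1) (1 : K)) * (n * tt (f + 1) s * n⁻¹) * (pw chevD4 K true (LL 1) (f1 (f + 1) (1 : K)))⁻¹) := by group
    rw [e1, hinv] at h1
    have e2 : tt (f + 1) s * (pw chevD4 K true (LL 1) (f1 (f + 1) (1 : K)) * (tt (f + 1) s)⁻¹ * (pw chevD4 K true (LL 1) (f1 (f + 1) (1 : K)))⁻¹) =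
        (tt (f + 1) s * pw chevD4 K true (LL 1) (f1 (f + 1) (1 : K)) * (tt (f + 1) s)⁻¹) * (pw chevD4 K true (LL 1) (f1 (f + 1) (1 : K)))⁻¹ := by group
    rw [e2, tt_conj1, hinv1, hadd] at h1
    exact h1
  have hne : ((s ^ 2 : Kˣ) : K) * 1 + -1 ≠ 0 := by
    intro h0
    have h2 : s ^ 2 = 1 := by
      ext
      rw [Units.val_one]
      linear_combination h0
    rw [h2, orderOf_one] at hs2
    rw [hM] at hs2
    nlinarith
  have hX1' : ∀ t : K, pw chevD4 K true (LL 1) (f1 (f + 1) t) ∈ H := by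
    let A : AddSubgroup K :=
      { carrier := {t | pw chevD4 K true (LL 1) (f1 (f + 1) t) ∈ H}
        zero_mem' := by
          show pw chevD4 K true (LL 1) (f1 (f + 1) 0) ∈ H
          rw [h0]; exact H.one_mem
        add_mem' := by
          intro a b ha hb
          show pw chevD4 K true (LL 1) (f1 (f + 1) (a + b)) ∈ H
          rw [← hadd]; exact H.mul_mem ha hb
        neg_mem' := by
          intro a ha
          show pw chevD4 K true (LL 1) (f1 (f + 1) (-a)) ∈ H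
          rw [← hinv1]; exact H.inv_mem ha }
    intro t
    refine add_full A hcl ?_ hne hc2 t
    intro a ha
    show pw chevD4 K true (LL 1) (f1 (f + 1) _) ∈ H
    rw [← tt_conj1]
    exact H.mul_mem (H.mul_mem hz ha) (H.inv_mem hz)
  have hnH : n ∈ H := by
    have := H.mul_mem (H.inv_mem (hX1' 1)) hy
    rwa [inv_mul_cancel_left] at this
  have hnf : n ∈ fixS σ := hT.le_fix hn.2
  have hX1 : US (xg chevD4 K) (h.G.Um (h.wJ LL 1)) ⊓ fixS σ ≤ H := by
    apply h.corb_root orbL (corb 1) (TD4.chk.umS h 1 (ums 1))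
    intro g hg
    have h1 := hg _ in1
    rw [lam_one, one_mul] at h1
    change g (sP PT 0) = g 0 ^ (f + 1) at h1
    rw [p0] at h1
    have h1' := hg _ in1'
    rw [lam_one, one_mul] at h1'
    change g (sP PT 2) = g 2 ^ (f + 1) at h1'
    rw [p2, h1, ← pow_mul, ← pow_two] at h1'
    have h2 : pw chevD4 K true (LL 1) g = pw chevD4 K true (LL 1) (f1 (f + 1) (g 0)) := by
      rw [pw1, pw1, f1_0, f1_2, f1_3, h1, h1']
    rw [h2]; exact hX1' _
  -- the torus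
  have htor : ∀ t : Kˣ, tt (f + 1) t ∈ H := by
    intro t
    have hc := tt_Tq hq3 t
    set c : Fin 4 → Kˣ := ![t, 1, t ^ (f + 1), (t ^ (f + 1)) ^ (f + 1)] with hcdef
    have h1 : ((LL 1).map fun i : Fin chevD4.rank => hX chevD4 (xg chevD4 K) (chevD4.simple i) ((c : Fin chevD4.rank → Kˣ) i : K)).prod ∈ H := by
      have h2 : ((LL 1).map fun i : Fin chevD4.rank => hX chevD4 (xg chevD4 K) (chevD4.simple i) ((c : Fin chevD4.rank → Kˣ) i : K)) =
          ((LL 1).map fun i : Fin chevD4.rank => hX chevD4 (xg chevD4 K) (chevD4.simple i) (cF c (i : ℕ))) := by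
        apply List.map_congr_left
        intro i _
        congr 1
        exact (cF_val c i).symm
      rw [h2]
      exact TwCtx.pw_units (fun b g hg => pw_le hT hnf hnH hmon hwn hX1 (corb 1) b hg)
        (fun i t => neg_pow_of_add (h.add _ (h.G.simple_lt i i.2)) t) (corb 1) (cF_fix hc _)
    have h3 := PhiH_eq_prod TD4.good c allPerm
    change PhiH chevD4 K 4 c = _ at h3
    rw [List.map_append, List.prod_append] at h3
    have h4 : ((LL 0).map fun i : Fin chevD4.rank => hX chevD4 (xg chevD4 K) (chevD4.simple i) ((c : Fin chevD4.rank → Kˣ) i : K)).prod = 1 := by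
      have h5 : ((LL 0).map fun i : Fin chevD4.rank => hX chevD4 (xg chevD4 K) (chevD4.simple i) ((c : Fin chevD4.rank → Kˣ) i : K)).prod =
        hX chevD4 (xg chevD4 K) (chevD4.simple 1) ((1 : Kˣ) : K) * 1 := rfl
      rw [h5, mul_one, hX_eq_tor TD4.good (by decide +kernel : 1 < chevD4.rank)]
      simp only [one_zpow]
      exact tor_one
    rw [h4, one_mul] at h3
    unfold tt
    rw [← hcdef, h3]
    exact h1
  -- all of the first root group
  have hX0' : ∀ t : K, t ^ (f + 1) = t → xg chevD4 K d4p2 t ∈ H := by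
    intro t ht
    by_cases h0 : t = 0
    · subst h0
      rw [TD4.good.xg_zero]; exact H.one_mem
    · set u := Units.mk0 t h0 with hu
      obtain ⟨j, hj⟩ : ∃ j : ℕ, ζ ^ j = u⁻¹ := by
        have := (mem_powers_iff_mem_zpowers).2 (hζ u⁻¹)
        exact this
      have huf : u ^ f = 1 := by
        have h1 : u ^ (f + 1) = u := by ext; rw [Units.val_pow_eq_pow_val]; exact ht
        rw [pow_succ] at h1
        exact mul_eq_right.1 h1
      have hjM : M ∣ j := by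
        have h1 : ζ ^ (j * f) = 1 := by rw [pow_mul, hj, inv_pow, huf, inv_one]
        have h2 := orderOf_dvd_of_pow_eq_one h1
        rw [hord, hfac, mul_comm f M] at h2
        exact Nat.dvd_of_mul_dvd_mul_right (by omega) h2
      obtain ⟨i, rfl⟩ := hjM
      have h1 := tt_conj0 (q := f + 1) (ζ ^ i) (1 : K)
      have h2 : ζ ^ i * (ζ ^ i) ^ (f + 1) * ((ζ ^ i) ^ (f + 1)) ^ (f + 1) = u⁻¹ := by
        rw [← hj, ← pow_mul, ← pow_mul, ← pow_add, ← pow_add]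
        congr 1; rw [hM]; ring
      rw [h2, inv_inv, mul_one] at h1
      change _ = xg chevD4 K d4p2 t at h1
      rw [← h1]
      exact H.mul_mem (H.mul_mem (htor _) hx) (H.inv_mem (htor _))
  have hX0 : US (xg chevD4 K) (h.G.Um (h.wJ LL 0)) ⊓ fixS σ ≤ H := by
    apply h.corb_root orbL (corb 0) (TD4.chk.umS h 0 (ums 0))
    intro g hg
    have h1 := hg _ in0
    rw [lam_one, one_mul] at h1
    change g (sP PT 1) = g 1 ^ (f + 1) at h1
    rw [p1] at h1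
    have h2 : pw chevD4 K true (LL 0) g = xg chevD4 K d4p2 (g 1) := by
      rw [← x0_eq, pw0, pw0]
    rw [h2]; exact hX0' _ h1.symm
  apply gen_le TD4.good
  intro w hw
  obtain ⟨j, b, g, hg, he⟩ := word_cases hq3 hw
  rw [he]
  have hXj : US (xg chevD4 K) (h.G.Um (h.wJ LL j)) ⊓ fixS σ ≤ H := by
    fin_cases j
    · exact hX0
    · exact hX1
  exact pw_le hT hnf hnH hmon hwn hXj (corb j) b hg

end

end Cfsg.Agent.H16.TwGenD
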