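import Cfsg.Agent.H16.TwGen

set_option autoImplicit false
set_option linter.all false
set_option maxHeartbeats 400000
set_option maxRecDepth 10000

/-! `²F₄(q)` is generated by two elements. -/

namespace Cfsg.Agent.H16.TwGenF

open Cfsg.Lie Cfsg.Agent.H6 Cfsg.Agent.H6.WF4 Cfsg.Agent.H16.RegF Cfsg.Agent.H16.ReeH Cfsg.Agent.H16.TwGen
open scoped Matrix

section law
variable {K : Type*} [Field K] {e : ℕ}

theorem w0_neg : ∀ r < 48, rfw chevF4 (wr 4 : List (Fin 4)) r = chevF4.neg r := by decide +kernel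

theorem cc (h2 : (2 : K) = 0) {i j : ℕ} (hi : i < 48) (hj : j < 48) (hn : j ≠ chevF4.neg i) (hc : cm0 2 chevF4.chainEntry i j = true) (t u : K) :
    xg chevF4 K i t * xg chevF4 K j u = xg chevF4 K j u * xg chevF4 K i t :=
  comm_of_cm0 TF4.good TF4.ext (m := 2) (by exact_mod_cast h2) (by rw [nr]; exact hi) (by rw [nr]; exact hj) hn hc _ _

theorem NF_mul (h2 : (2 : K) = 0) (x y p q x' y' p' q' : K) :
    NF K true x y p q * NF K true x' y' p' q' =
      NF K true (x + x') (y + y') (p + p' + x' * y) (q + q' + x' ^ 2 * y) := by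
  have hA : ∀ a b : K, Xa K true (a + b) = Xa K true a * Xa K true b := fun a b => TF4.good.xg_add _ _ _
  have hB : ∀ a b : K, Xb K true (a + b) = Xb K true a * Xb K true b := fun a b => TF4.good.xg_add _ _ _
  have c1 : ∀ p x : K, Xc K true p * Xa K true x = Xa K true x * Xc K true p := fun p x =>
    cc h2 (i := 28) (j := 27) (by norm_num) (by norm_num) (by decide +kernel) (by decide +kernel) p x
  have c2 : ∀ p x : K, Xc K true p * Xb K true x = Xb K true x * Xc K true p := fun p x =>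
    cc h2 (i := 28) (j := 25) (by norm_num) (by norm_num) (by decide +kernel) (by decide +kernel) p x
  have c3 : ∀ p x : K, Xd K true p * Xa K true x = Xa K true x * Xd K true p := fun p x =>
    cc h2 (i := 30) (j := 27) (by norm_num) (by norm_num) (by decide +kernel) (by decide +kernel) p x
  have c4 : ∀ p x : K, Xd K true p * Xb K true x = Xb K true x * Xd K true p := fun p x =>
    cc h2 (i := 30) (j := 25) (by norm_num) (by norm_num) (by decide +kernel) (by decide +kernel) p x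
  unfold NF
  calc Xa K true x * Xb K true y * (Xc K true p * Xd K true q) * (Xa K true x' * Xb K true y' * (Xc K true p' * Xd K true q'))
      = Xa K true x * Xb K true y * Xc K true p * (Xd K true q * Xa K true x') * Xb K true y' * (Xc K true p' * Xd K true q') := by group
    _ = Xa K true x * Xb K true y * (Xc K true p * Xa K true x') * (Xd K true q * Xb K true y') * (Xc K true p' * Xd K true q') := by rw [c3]; group
    _ = Xa K true x * Xb K true y * Xa K true x' * (Xc K true p * Xb K true y') * Xd K true q * (Xc K true p' * Xd K true q') := by rw [c1, c4]; group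
    _ = Xa K true x * (Xb K true y * Xa K true x') * Xb K true y' * (Xc K true p * Xd K true q * (Xc K true p' * Xd K true q')) := by rw [c2]; group
    _ = Xa K true x * Xa K true x' * Xb K true y * (Xc K true (x' * y) * (Xd K true (x' ^ 2 * y) * Xb K true y')) *
          (Xc K true (p + p') * Xd K true (q + q')) := by rw [rel_ba h2, cd_mul h2]; group
    _ = Xa K true x * Xa K true x' * Xb K true y * (Xc K true (x' * y) * Xb K true y') * Xd K true (x' ^ 2 * y) *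
          (Xc K true (p + p') * Xd K true (q + q')) := by rw [c4]; group
    _ = (Xa K true x * Xa K true x') * (Xb K true y * Xb K true y') * ((Xc K true (x' * y) * Xd K true (x' ^ 2 * y)) *
          (Xc K true (p + p') * Xd K true (q + q'))) := by rw [c2]; group
    _ = _ := by
        rw [cd_mul h2, ← hA, ← hB]
        have e1 : x' * y + (p + p') = p + p' + x' * y := by ring
        have e2 : x' ^ 2 * y + (q + q') = q + q' + x' ^ 2 * y := by ring
        rw [e1, e2]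

variable (hf : Fl K e)
include hf

theorem RF_mul (t u t' u' : K) : RF K e true t u * RF K e true t' u' = RF K e true (t + t') (u + u' + t ^ e * t') := by
  unfold RF
  rw [NF_mul hf.two]
  have e1 : (t + t') ^ e = t ^ e + t' ^ e := hf.add t t'
  have e2 : (t + t') ^ (e + 1) = (t ^ e + t' ^ e) * (t + t') := by rw [pow_succ, e1]
  have e3 : (u + u' + t ^ e * t') ^ (2 * e) = u ^ (2 * e) + u' ^ (2 * e) + t * t' ^ (2 * e) := by
    rw [hf.add2, hf.add2, mul_pow, hf.sq]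
  have e4 : (t' ^ e) ^ 2 * t = t' ^ (2 * e) * t := by rw [← pow_mul, mul_comm e 2]
  have e5 : t ^ (e + 1) = t ^ e * t := pow_succ t e
  have e6 : t' ^ (e + 1) = t' ^ e * t' := pow_succ t' e
  rw [e1, e2, e3, e4, e5, e6]
  have a1 : t ^ e * t + u + (t' ^ e * t' + u') + t' ^ e * t = (t ^ e + t' ^ e) * (t + t') + (u + u' + t ^ e * t') := by
    linear_combination (-(t ^ e * t')) * hf.two
  have a2 : u ^ (2 * e) + u' ^ (2 * e) + t' ^ (2 * e) * t = u ^ (2 * e) + u' ^ (2 * e) + t * t' ^ (2 * e) := by ring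
  rw [a1, a2]

theorem RF_zero : RF K e true 0 0 = 1 := by
  have h1 := RF_mul hf 0 0 0 0
  rw [pow_e_zero hf] at h1
  simp only [add_zero, mul_zero, zero_mul] at h1
  exact mul_eq_left.1 h1

theorem RF_inv (t u : K) : ∃ a, (RF K e true t u)⁻¹ = RF K e true t a := by
  refine ⟨u + t ^ e * t, ?_⟩
  apply inv_eq_of_mul_eq_one_right
  rw [RF_mul hf, ← RF_zero hf]
  congr 1
  · linear_combination t * hf.two
  · linear_combination (u + t ^ e * t) * hf.two

omit hf in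
theorem hh_act (x y : Kˣ) {s : ℕ} (hs : s < 48) {a b c d : ℤ}
    (hc : chevF4.cartan 0 s = a ∧ chevF4.cartan 1 s = b ∧ chevF4.cartan 2 s = c ∧ chevF4.cartan 3 s = d) (t : K) :
    hh K e x y * xg chevF4 K s t * (hh K e x y)⁻¹ = xg chevF4 K s (((x ^ ((e : ℤ) * a + d) * y ^ ((e : ℤ) * b + c) : Kˣ) : K) * t) := by
  have h := (TF4.good.mon_PhiH (![x ^ e, y ^ e, y, x] : Fin 4 → Kˣ)).act ⟨s, by rw [nr]; exact hs⟩ t
  change hh K e x y * xg chevF4 K s t * (hh K e x y)⁻¹ = xg chevF4 K s (((∏ k : Fin 4, (![x ^ e, y ^ e, y, x] : Fin 4 → Kˣ) k ^ chevF4.cartan k s : Kˣ) : K) * t) at h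
  rw [h, hh_chr, hc.1, hc.2.1, hc.2.2.1, hc.2.2.2]

omit hf in
theorem ca24 : chevF4.cartan 0 24 = 0 ∧ chevF4.cartan 1 24 = 0 ∧ chevF4.cartan 2 24 = -1 ∧ chevF4.cartan 3 24 = 2 := by decide +kernel
omit hf in
theorem ca33 : chevF4.cartan 0 33 = 2 ∧ chevF4.cartan 1 33 = -1 ∧ chevF4.cartan 2 33 = 0 ∧ chevF4.cartan 3 33 = 0 := by decide +kernel
omit hf in
theorem ca25 : chevF4.cartan 0 25 = 0 ∧ chevF4.cartan 1 25 = -2 ∧ chevF4.cartan 2 25 = 2 ∧ chevF4.cartan 3 25 = -1 := by decide +kernel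
omit hf in
theorem ca27 : chevF4.cartan 0 27 = -1 ∧ chevF4.cartan 1 27 = 2 ∧ chevF4.cartan 2 27 = -1 ∧ chevF4.cartan 3 27 = 0 := by decide +kernel
omit hf in
theorem ca28 : chevF4.cartan 0 28 = -1 ∧ chevF4.cartan 1 28 = 0 ∧ chevF4.cartan 2 28 = 1 ∧ chevF4.cartan 3 28 = -1 := by decide +kernel
omit hf in
theorem ca30 : chevF4.cartan 0 30 = -2 ∧ chevF4.cartan 1 30 = 2 ∧ chevF4.cartan 2 30 = 0 ∧ chevF4.cartan 3 30 = -1 := by decide +kernel

end law

section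
variable {K : Type*} [Field K] {e : ℕ}
variable {σ : ↥(chevF4.group K) →* ↥(chevF4.group K)} (h : Ctx K e σ) (hf : Fl K e)
include h hf

theorem hh_conj (x y : Kˣ) (t u : K) : hh K e x y * RF K e true t u * (hh K e x y)⁻¹ =
    RF K e true (((x ^ ((e : ℤ) * 0 + -1) * y ^ ((e : ℤ) * -2 + 2) : Kˣ) : K) * t)
      (((x ^ ((e : ℤ) * -1 + -1) * y ^ ((e : ℤ) * 0 + 1) : Kˣ) : K) * u) := by
  have hp : ∀ x0 y0 p q : K, hh K e x y * NF K true x0 y0 p q * (hh K e x y)⁻¹ = NF K true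
      (((x ^ ((e : ℤ) * -1 + 0) * y ^ ((e : ℤ) * 2 + -1) : Kˣ) : K) * x0) (((x ^ ((e : ℤ) * 0 + -1) * y ^ ((e : ℤ) * -2 + 2) : Kˣ) : K) * y0)
      (((x ^ ((e : ℤ) * -1 + -1) * y ^ ((e : ℤ) * 0 + 1) : Kˣ) : K) * p) (((x ^ ((e : ℤ) * -2 + -1) * y ^ ((e : ℤ) * 2 + 0) : Kˣ) : K) * q) := by
    intro x0 y0 p q
    change hh K e x y * (xg chevF4 K 27 x0 * xg chevF4 K 25 y0 * (xg chevF4 K 28 p * xg chevF4 K 30 q)) * (hh K e x y)⁻¹ =
      xg chevF4 K 27 _ * xg chevF4 K 25 _ * (xg chevF4 K 28 _ * xg chevF4 K 30 _)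
    rw [← hh_act x y (by norm_num) ca27, ← hh_act x y (by norm_num) ca25, ← hh_act x y (by norm_num) ca28, ← hh_act x y (by norm_num) ca30]
    group
  have hT := grp h hf
  have h1 : hh K e x y * RF K e true t u * (hh K e x y)⁻¹ ∈ US (xg chevF4 K) (h.G.Um (h.wJ LL 1)) ⊓ fixS σ :=
    hT.conj_fix (hh_fix h hf x y) (TF4.good.mon_PhiH (![x ^ e, y ^ e, y, x] : Fin 4 → Kˣ)) (fun r hr => hr.1) (fun r hr => hr) ((fix_iff h hf).2 ⟨t, u, rfl⟩)
  obtain ⟨a, b, hab⟩ := (fix_iff h hf).1 h1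
  rw [hab]
  have hab2 := hab
  unfold RF at hab2
  rw [hp] at hab2
  obtain ⟨-, h2, h3, h4⟩ := NF_inj hf.two hab2
  have hb : b = ((x ^ ((e : ℤ) * -1 + -1) * y ^ ((e : ℤ) * 0 + 1) : Kˣ) : K) * u := by
    have k1 : ∀ z : Kˣ, z ^ (2 * (e : ℤ) * e) = z := by
      intro z
      have h5 := hu hf z
      rw [← pow_mul, ← zpow_natCast] at h5
      have h6 : (((e * (2 * e) : ℕ)) : ℤ) = 2 * (e : ℤ) * e := by push_cast; ring
      rwa [h6] at h5
    have k2 : (x ^ ((e : ℤ) * 0 + -1) * y ^ ((e : ℤ) * -2 + 2)) ^ (e + 1) = x ^ ((e : ℤ) * -1 + -1) * y ^ ((e : ℤ) * 0 + 1) := by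
      rw [← zpow_natCast, mul_zpow, ← zpow_mul, ← zpow_mul]
      have e1 : ((e : ℤ) * 0 + -1) * ((e + 1 : ℕ) : ℤ) = (e : ℤ) * -1 + -1 := by push_cast; ring
      have e2 : ((e : ℤ) * -2 + 2) * ((e + 1 : ℕ) : ℤ) = -(2 * (e : ℤ) * e) + 2 := by push_cast; ring
      rw [e1, e2, zpow_add y, zpow_neg, k1]
      congr 1
      have e3 : (e : ℤ) * 0 + 1 = -1 + 2 := by ring
      rw [e3, zpow_add, zpow_neg, zpow_one]
    rw [← k2]
    rw [← h2, mul_add, mul_pow, ← k2] at h3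
    rw [Units.val_pow_eq_pow_val] at h3 ⊢
    exact (add_left_cancel h3).symm
  rw [← h2, ← hb]

/-- a subgroup with the torus element and a suitable element contains the second root group -/
theorem full_X [Fintype K] {m : ℕ} (hm : 1 ≤ m) (he : e = 2 ^ m) (hK : Fintype.card K = 2 ^ (2 * m + 1)) {ζ : Kˣ} (hζ : ∀ x, x ∈ Subgroup.zpowers ζ)
    {H : Subgroup (GL chevF4.Idx K)} (hz : hh K e ζ (ζ ^ 2) ∈ H) {t₁ u₁ : K} (ht₁ : t₁ ≠ 0) (h1 : RF K e true t₁ u₁ ∈ H) :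
    ∀ t u : K, RF K e true t u ∈ H := by
  classical
  have hord : orderOf ζ = 2 * e * e - 1 := by
    rw [orderOf_eq_card_of_forall_mem_zpowers hζ, Nat.card_units, Nat.card_eq_fintype_card, hK, he]
    congr 1; ring
  have hq : Fintype.card K = 2 * e * e := by rw [hK, he]; ring
  have he2 : 2 ≤ e := by
    rw [he]
    calc 2 = 2 ^ 1 := rfl
      _ ≤ 2 ^ m := Nat.pow_le_pow_right (by norm_num) hm
  have conj := hh_conj h hf ζ (ζ ^ 2)
  have e0 : (0 : K) ^ e = 0 := pow_e_zero hf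
  have h8 : e * e ≥ 2 * e := Nat.mul_le_mul_right e he2
  have hgcd : ∀ a b c : ℤ, ∀ n : ℕ, a * (2 * e * e - 1) + b * n = 1 → Nat.gcd (2 * e * e - 1) n = 1 := by
    intro a b c n hab
    rw [Nat.eq_one_iff_not_exists_prime_dvd]
    intro p hp hpd
    have a1 : p ∣ 2 * e * e - 1 := hpd.trans (Nat.gcd_dvd_left _ _)
    have a2 : p ∣ n := hpd.trans (Nat.gcd_dvd_right _ _)
    have b1 : (p : ℤ) ∣ 2 * e * e - 1 := by
      have := Int.natCast_dvd_natCast.2 a1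
      rwa [Nat.cast_sub (by nlinarith), Nat.cast_mul, Nat.cast_mul, Nat.cast_one] at this
    have b2 : (p : ℤ) ∣ n := Int.natCast_dvd_natCast.2 a2
    have b3 : (p : ℤ) ∣ 1 := by
      rw [← hab]
      exact dvd_add (dvd_mul_of_dvd_right b1 _) (dvd_mul_of_dvd_right b2 _)
    have := Int.natCast_dvd_natCast.1 (by simpa using b3 : ((p : ℕ) : ℤ) ∣ ((1 : ℕ) : ℤ))
    exact hp.one_lt.ne' (Nat.dvd_one.1 this)
  have g1 : Nat.gcd (2 * e * e - 1) (4 * e - 3) = 1 := by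
    apply hgcd 8 (-(4 * e + 3)) 0
    rw [Nat.cast_sub (by omega)]; push_cast; ring
  have g2 : Nat.gcd (2 * e * e - 1) (e - 1) = 1 := by
    apply hgcd 1 (-(2 * e + 2)) 0
    rw [Nat.cast_sub (by omega)]; push_cast; ring
  have k1 : ζ ^ ((e : ℤ) * 0 + -1) * (ζ ^ 2) ^ ((e : ℤ) * -2 + 2) = (ζ ^ (4 * e - 3))⁻¹ := by
    rw [← zpow_natCast ζ 2, ← zpow_mul, ← zpow_add, ← zpow_natCast ζ (4 * e - 3), ← zpow_neg, Nat.cast_sub (by omega)]
    congr 1; push_cast; ring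
  have k2 : ζ ^ ((e : ℤ) * -1 + -1) * (ζ ^ 2) ^ ((e : ℤ) * 0 + 1) = (ζ ^ (e - 1))⁻¹ := by
    rw [← zpow_natCast ζ 2, ← zpow_mul, ← zpow_add, ← zpow_natCast ζ (e - 1), ← zpow_neg, Nat.cast_sub (by omega)]
    congr 1; push_cast; ring
  rw [k1, k2] at conj
  have c1 : Subring.closure ({((((ζ ^ (4 * e - 3))⁻¹ : Kˣ)) : K)} : Set K) = ⊤ := by
    apply closure_order
    rw [orderOf_inv, orderOf_pow, hord, g1, hq, Nat.div_one]
    omega
  have c2 : Subring.closure ({((((ζ ^ (e - 1))⁻¹ : Kˣ)) : K)} : Set K) = ⊤ := by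
    apply closure_order
    rw [orderOf_inv, orderOf_pow, hord, g2, hq, Nat.div_one]
    omega
  -- all `t`
  have hT : ∀ t : K, ∃ u, RF K e true t u ∈ H := by
    let A : AddSubgroup K :=
      { carrier := {t | ∃ u, RF K e true t u ∈ H}
        zero_mem' := ⟨0, by rw [RF_zero hf]; exact H.one_mem⟩
        add_mem' := by
          rintro a b ⟨u, hu⟩ ⟨u', hu'⟩
          have h9 := H.mul_mem hu hu'
          rw [RF_mul hf] at h9
          exact ⟨_, h9⟩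
        neg_mem' := by
          rintro a ⟨u, hu⟩
          rw [neg2 hf.two]
          exact ⟨u, hu⟩ }
    intro t
    refine add_full A c1 ?_ ht₁ ⟨u₁, h1⟩ t
    rintro a ⟨u, hu⟩
    exact ⟨_, by rw [← conj a u]; exact H.mul_mem (H.mul_mem hz hu) (H.inv_mem hz)⟩
  -- an element with `t = 0`, `u ≠ 0`
  have hu0 : ∃ U : K, U ≠ 0 ∧ RF K e true 0 U ∈ H := by
    obtain ⟨a, ha⟩ := hT 1
    obtain ⟨a', ha'⟩ := hT (ζ : K)
    have p1 := H.mul_mem ha ha'
    have p2 := H.mul_mem ha' ha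
    rw [RF_mul hf] at p1 p2
    rw [one_pow] at p1
    have e1 : RF K e true 0 (a + a' + 1 * (ζ : K) - (a' + a + (ζ : K) ^ e * 1)) * RF K e true ((ζ : K) + 1) (a' + a + (ζ : K) ^ e * 1) =
        RF K e true (1 + (ζ : K)) (a + a' + 1 * (ζ : K)) := by
      rw [RF_mul hf, e0]
      congr 1 <;> ring
    refine ⟨a + a' + 1 * (ζ : K) - (a' + a + (ζ : K) ^ e * 1), ?_, ?_⟩
    · intro h0
      have h2 : (ζ : K) ^ e = (ζ : K) := by linear_combination -h0
      have h3 : ζ ^ e = ζ := by ext; rw [Units.val_pow_eq_pow_val]; exact h2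
      have h4 : ζ ^ (e - 1) = 1 := by
        have : ζ ^ (e - 1) * ζ = 1 * ζ := by rw [← pow_succ, Nat.sub_add_cancel (by omega), h3, one_mul]
        exact mul_right_cancel this
      have h5 := Nat.le_of_dvd (by omega) (orderOf_dvd_of_pow_eq_one h4)
      rw [hord] at h5
      have h6 : 2 * e * e = 2 * (e * e) := by ring
      omega
    · have : RF K e true 0 (a + a' + 1 * (ζ : K) - (a' + a + (ζ : K) ^ e * 1)) =
          RF K e true (1 + (ζ : K)) (a + a' + 1 * (ζ : K)) * (RF K e true ((ζ : K) + 1) (a' + a + (ζ : K) ^ e * 1))⁻¹ := by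
        rw [← e1, mul_inv_cancel_right]
      rw [this]
      exact H.mul_mem p1 (H.inv_mem p2)
  obtain ⟨U, hU0, hUV⟩ := hu0
  have hu : ∀ u : K, RF K e true 0 u ∈ H := by
    let A : AddSubgroup K :=
      { carrier := {u | RF K e true 0 u ∈ H}
        zero_mem' := by
          show RF K e true 0 0 ∈ H
          rw [RF_zero hf]; exact H.one_mem
        add_mem' := by
          intro a b ha hb
          show RF K e true 0 (a + b) ∈ H
          have := H.mul_mem (show RF K e true 0 a ∈ H from ha) (show RF K e true 0 b ∈ H from hb)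
          rw [RF_mul hf, e0] at this
          simpa using this
        neg_mem' := by
          intro a ha
          show RF K e true 0 (-a) ∈ H
          rw [neg2 hf.two]; exact ha }
    intro u
    refine add_full A c2 ?_ hU0 hUV u
    intro c hc
    have h2 : RF K e true 0 c ∈ H := hc
    have h3 := H.mul_mem (H.mul_mem hz h2) (H.inv_mem hz)
    rw [conj, mul_zero] at h3
    exact h3
  intro t u
  obtain ⟨a, ha⟩ := hT t
  have := H.mul_mem (hu (u - a)) ha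
  rw [RF_mul hf, e0] at this
  convert this using 1
  congr 1 <;> ring

/-- the second torus in a subgroup -/
theorem tor_H {H : Subgroup (GL chevF4.Idx K)} (hpos : US (xg chevF4 K) (h.G.Um (h.wJ LL 1)) ⊓ fixS σ ≤ H)
    (hneg : ∀ g ∈ US (xg chevF4 K) {r | ∃ hr : r < chevF4.nroots, (h.G.ngf ⟨r, hr⟩ : ℕ) ∈ h.G.Um (h.wJ LL 1)} ⊓ fixS σ, g ∈ H) (y : Kˣ) :
    hh K e 1 y ∈ H := by
  have hT := grp h hf
  have hk : ∀ z : Kˣ, hh K e 1 z ∈ fixS σ := hh_fix h hf 1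
  have hmon : ∀ z : Kˣ, ∃ χ, Mon h.G (xg chevF4 K) (hh K e 1 z) 1 χ := fun z => ⟨_, TF4.good.mon_PhiH (![1 ^ e, z ^ e, z, 1] : Fin 4 → Kˣ)⟩
  have hS : ∀ i, i = 20 ∨ i = 22 ∨ i = 19 ∨ i = 17 → i ∈ {r | ∃ hr : r < chevF4.nroots, (h.G.ngf ⟨r, hr⟩ : ℕ) ∈ h.G.Um (h.wJ LL 1)} := by
    intro i hi
    have hi' : i < chevF4.nroots := by rw [nr]; omega
    refine ⟨hi', (mem_Um1 h).2 ?_⟩
    change chevF4.neg i = 25 ∨ chevF4.neg i = 27 ∨ chevF4.neg i = 28 ∨ chevF4.neg i = 30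
    have key : ∀ i < 48, i = 20 ∨ i = 22 ∨ i = 19 ∨ i = 17 → chevF4.neg i = 25 ∨ chevF4.neg i = 27 ∨ chevF4.neg i = 28 ∨ chevF4.neg i = 30 := by decide +kernel
    exact key i (by omega) hi
  have hR : ∀ t u : K, RF K e false t u ∈ US (xg chevF4 K) {r | ∃ hr : r < chevF4.nroots, (h.G.ngf ⟨r, hr⟩ : ℕ) ∈ h.G.Um (h.wJ LL 1)} ⊓ fixS σ := by
    intro t u
    refine Subgroup.mem_inf.2 ⟨?_, RF_fix h hf false t u⟩
    unfold RF NF
    exact mul_mem (mul_mem (mem_US (hS 20 (by norm_num)) _) (mem_US (hS 22 (by norm_num)) _))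
      (mul_mem (mem_US (hS 19 (by norm_num)) _) (mem_US (hS 17 (by norm_num)) _))
  have hR1 : ∀ t u : K, RF K e true t u ∈ H := fun t u => hpos ((fix_iff h hf).2 ⟨t, u, rfl⟩)
  have hR2 : ∀ t u : K, RF K e false t u ∈ H := fun t u => hneg _ (hR t u)
  have hf1 : ∀ z : Kˣ, hh K e 1 z * RF K e true 1 0 * (hh K e 1 z)⁻¹ ∈ H := by
    intro z
    obtain ⟨χ, hm⟩ := hmon z
    exact hpos (hT.conj_fix (hk z) hm (fun r hr => hr.1) (fun r hr => hr) ((fix_iff h hf).2 ⟨1, 0, rfl⟩))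
  have hf2 : ∀ z : Kˣ, hh K e 1 z * RF K e false 1 0 * (hh K e 1 z)⁻¹ ∈ H := by
    intro z
    obtain ⟨χ, hm⟩ := hmon z
    exact hneg _ (hT.conj_fix (hk z) hm (fun r hr => hr.1) (fun r hr => hr) (hR 1 0))
  have hn : Good.nwd (xg chevF4 K) (LL 1) ∈ H := by
    rw [n1_eq hf]
    exact mul_mem (mul_mem (mul_mem (inv_mem (hR1 _ _)) (hR2 _ _)) (inv_mem (hR1 _ _))) (inv_mem (hR1 _ _))
  have hkn : ∀ z : Kˣ, hh K e 1 z * Good.nwd (xg chevF4 K) (LL 1) * (hh K e 1 z)⁻¹ ∈ H := by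
    intro z
    rw [n1_eq hf]
    have h3 : hh K e 1 z * ((RF K e true 1 0)⁻¹ * RF K e false 1 0 * (RF K e true 1 0)⁻¹ * (RF K e true 1 0)⁻¹) * (hh K e 1 z)⁻¹ =
        (hh K e 1 z * RF K e true 1 0 * (hh K e 1 z)⁻¹)⁻¹ * (hh K e 1 z * RF K e false 1 0 * (hh K e 1 z)⁻¹) *
        (hh K e 1 z * RF K e true 1 0 * (hh K e 1 z)⁻¹)⁻¹ * (hh K e 1 z * RF K e true 1 0 * (hh K e 1 z)⁻¹)⁻¹ := by group
    rw [h3]
    exact mul_mem (mul_mem (mul_mem (inv_mem (hf1 z)) (hf2 z)) (inv_mem (hf1 z))) (inv_mem (hf1 z))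
  have hsq : ∀ z : Kˣ, hh K e 1 (z ^ 2) ∈ H := by
    intro z
    have h4 : hh K e 1 (z ^ 2) = (hh K e 1 z * Good.nwd (xg chevF4 K) (LL 1) * (hh K e 1 z)⁻¹) * (Good.nwd (xg chevF4 K) (LL 1))⁻¹ := by
      have h5 := conj_inv1 (e := e) z
      have h6 : hh K e 1 (z ^ 2) = hh K e 1 z * hh K e 1 z := by rw [← hh_mul, one_mul, pow_two]
      rw [h6]
      nth_rw 2 [← h5]
      group
    rw [h4]
    exact mul_mem (hkn z) (inv_mem hn)
  rw [sq_root hf y]
  exact hsq _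

omit h in
theorem x1_eq (t : K) : pw chevF4 K true (LL 0) (f0 e t) = xg chevF4 K 33 (t ^ e) * xg chevF4 K 24 t := by
  rw [pw0, f0_0, f0_3]
  unfold wg
  simp only [List.map_cons, List.map_nil, List.prod_cons, List.prod_nil, mul_one]
  rfl

omit h in
theorem x1_conj (x y : Kˣ) (t : K) : hh K e x y * pw chevF4 K true (LL 0) (f0 e t) * (hh K e x y)⁻¹ =
    pw chevF4 K true (LL 0) (f0 e (((x ^ (2 : ℤ) * y ^ (-1 : ℤ) : Kˣ) : K) * t)) := by
  rw [x1_eq hf, x1_eq hf]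
  have h1 := hh_act (e := e) x y (s := 33) (by norm_num) ca33 (t ^ e)
  have h2 := hh_act (e := e) x y (s := 24) (by norm_num) ca24 t
  have e1 : (((x ^ ((e : ℤ) * 2 + 0) * y ^ ((e : ℤ) * -1 + 0) : Kˣ) : K) * t ^ e) = (((x ^ (2 : ℤ) * y ^ (-1 : ℤ) : Kˣ) : K) * t) ^ e := by
    rw [mul_pow, ← Units.val_pow_eq_pow_val]
    congr 2
    rw [← zpow_natCast, mul_zpow, ← zpow_mul, ← zpow_mul]
    congr 2 <;> ring
  have e2 : x ^ ((e : ℤ) * 0 + 2) * y ^ ((e : ℤ) * 0 + -1) = x ^ (2 : ℤ) * y ^ (-1 : ℤ) := by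
    congr 2 <;> ring
  rw [e1] at h1
  rw [e2] at h2
  rw [← h1, ← h2]
  group

theorem two_gen [Fintype K] {m : ℕ} (hm : 1 ≤ m) (he : e = 2 ^ m) (hK : Fintype.card K = 2 ^ (2 * m + 1)) :
    ∃ a b : ↥(twistedF4 K e), Subgroup.closure ({a, b} : Set ↥(twistedF4 K e)) = ⊤ := by
  classical
  obtain ⟨ζ, hζ⟩ := IsCyclic.exists_generator (α := Kˣ)
  have hT := grp h hf
  have hord : orderOf ζ = 2 * e * e - 1 := by
    rw [orderOf_eq_card_of_forall_mem_zpowers hζ, Nat.card_units, Nat.card_eq_fintype_card, hK, he]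
    congr 1; ring
  have he2 : 2 ≤ e := by
    rw [he]
    calc 2 = 2 ^ 1 := rfl
      _ ≤ 2 ^ m := Nat.pow_le_pow_right (by norm_num) hm
  have h8 : e * e ≥ 2 * e := Nat.mul_le_mul_right e he2
  -- longest element
  obtain ⟨φ, hφ, -⟩ := exists_dih h
  have hw0 : wp h.G.s (wr 4 : List (Fin chevF4.rank)) ∈ h.Wr := by
    have := (φ (.r ((4 : ℕ) : ZMod 8))).2
    rw [hφ] at this; exact this
  have hwn : ∀ r, (wp h.G.s (wr 4 : List (Fin chevF4.rank))).1 r = h.G.ngf r := by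
    intro r
    apply Fin.ext
    rw [wp_val h.G (wr 4 : List (Fin chevF4.rank)) r]
    exact w0_neg r (lt_of_lt_of_eq r.2 nr)
  obtain ⟨n, hn, χ, hmon⟩ := hT.rep_all hw0
  have hzt : hh K e ζ (ζ ^ 2) ∈ twistedF4 K e := hh_mem h hf _ _
  have hzm := TF4.good.mon_PhiH (F := K) (![ζ ^ e, (ζ ^ 2) ^ e, ζ ^ 2, ζ] : Fin 4 → Kˣ)
  have hinv : n * hh K e ζ (ζ ^ 2) * n⁻¹ = (hh K e ζ (ζ ^ 2))⁻¹ :=
    conj_torus_neg h.G h.E (hT.le_fix hn.2).1 (hT.le_fix hzt).1 hmon hwn hzm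
  have hx1 : pw chevF4 K true (LL 0) (f0 e (1 : K)) ∈ twistedF4 K e := gen_mem true _ (key0 hf 1)
  have hx2 : RF K e true 1 0 ∈ twistedF4 K e := RF_mem true 1 0
  -- the commuting pair
  have hcomm : hh K e ζ (ζ ^ 2) * pw chevF4 K true (LL 0) (f0 e (1 : K)) = pw chevF4 K true (LL 0) (f0 e (1 : K)) * hh K e ζ (ζ ^ 2) := by
    have h1 := x1_conj hf ζ (ζ ^ 2) (1 : K)
    have h2 : ζ ^ (2 : ℤ) * (ζ ^ 2) ^ (-1 : ℤ) = 1 := by
      rw [zpow_neg, zpow_one]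
      exact mul_inv_cancel _
    rw [h2, Units.val_one, one_mul, mul_inv_eq_iff_eq_mul] at h1
    exact h1
  let ψ : Kˣ × Kˣ →* GL chevF4.Idx K := MonoidHom.mk' (fun p => hh K e p.1 p.2) (fun a b => hh_mul _ _ _ _)
  have hTo : hh K e ζ (ζ ^ 2) ^ (2 * e * e - 1) = 1 := by
    have h1 : ψ ((ζ, ζ ^ 2) ^ (2 * e * e - 1)) = ψ (ζ, ζ ^ 2) ^ (2 * e * e - 1) := map_pow ψ _ _
    have h2 : (ζ, ζ ^ 2) ^ (2 * e * e - 1) = 1 := by
      have h3 : ζ ^ (2 * e * e - 1) = 1 := by rw [← hord]; exact pow_orderOf_eq_one ζ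
      have h4 : (ζ ^ 2) ^ (2 * e * e - 1) = 1 := by rw [← pow_mul, mul_comm 2, pow_mul, h3, one_pow]
      rw [Prod.pow_mk, h3, h4]; rfl
    rw [h2, map_one] at h1
    exact h1.symm
  have hxo : pw chevF4 K true (LL 0) (f0 e (1 : K)) ^ 2 = 1 := by
    have h1 : xg chevF4 K 33 ((1 : K) ^ e) ^ 2 = 1 := by
      rw [pow_two, ← TF4.good.xg_add, ← two_mul, hf.two, zero_mul, TF4.good.xg_zero]
    have h2 : xg chevF4 K 24 (1 : K) ^ 2 = 1 := by
      rw [pow_two, ← TF4.good.xg_add, ← two_mul, hf.two, zero_mul, TF4.good.xg_zero]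
    have h3 : Commute (xg chevF4 K 33 ((1 : K) ^ e)) (xg chevF4 K 24 (1 : K)) :=
      cc hf.two (i := 33) (j := 24) (by norm_num) (by norm_num) (by decide +kernel) (by decide +kernel) _ _
    rw [x1_eq hf, h3.mul_pow, h1, h2, one_mul]
  have hcop : Nat.Coprime (2 * e * e - 1) 2 := by
    rw [Nat.coprime_two_right, Nat.odd_sub (by nlinarith)]
    simp [mul_assoc]
  obtain ⟨s1, s2⟩ := split_mem hcomm hTo hxo hcop
  apply gen2_of_le (mul_mem hzt hx1) (mul_mem hx2 hn.2)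
  set H := Subgroup.closure ({hh K e ζ (ζ ^ 2) * pw chevF4 K true (LL 0) (f0 e (1 : K)), RF K e true 1 0 * n} : Set (GL chevF4.Idx K)) with hH
  have ha : hh K e ζ (ζ ^ 2) * pw chevF4 K true (LL 0) (f0 e (1 : K)) ∈ H := Subgroup.subset_closure (by simp)
  have hy : RF K e true 1 0 * n ∈ H := Subgroup.subset_closure (by simp)
  have hz : hh K e ζ (ζ ^ 2) ∈ H := (Subgroup.zpowers_le.2 ha) s1
  have hx : pw chevF4 K true (LL 0) (f0 e (1 : K)) ∈ H := (Subgroup.zpowers_le.2 ha) s2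
  -- the commutator
  have hc : RF K e true 1 0 * (hh K e ζ (ζ ^ 2))⁻¹ * (RF K e true 1 0)⁻¹ ∈ H := by
    have := H.mul_mem (H.mul_mem hy hz) (H.inv_mem hy)
    have e1 : RF K e true 1 0 * n * hh K e ζ (ζ ^ 2) * (RF K e true 1 0 * n)⁻¹ = RF K e true 1 0 * (n * hh K e ζ (ζ ^ 2) * n⁻¹) * (RF K e true 1 0)⁻¹ := by group
    rw [e1, hinv] at this
    exact this
  have hc2 : (hh K e ζ (ζ ^ 2) * RF K e true 1 0 * (hh K e ζ (ζ ^ 2))⁻¹) * (RF K e true 1 0)⁻¹ ∈ H := by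
    have := H.mul_mem hz hc
    have e1 : hh K e ζ (ζ ^ 2) * (RF K e true 1 0 * (hh K e ζ (ζ ^ 2))⁻¹ * (RF K e true 1 0)⁻¹) =
      (hh K e ζ (ζ ^ 2) * RF K e true 1 0 * (hh K e ζ (ζ ^ 2))⁻¹) * (RF K e true 1 0)⁻¹ := by group
    rw [e1] at this
    exact this
  rw [hh_conj h hf] at hc2
  obtain ⟨a, hab⟩ := RF_inv hf 1 0
  rw [hab, RF_mul hf, mul_one] at hc2
  have k1 : ζ ^ ((e : ℤ) * 0 + -1) * (ζ ^ 2) ^ ((e : ℤ) * -2 + 2) = (ζ ^ (4 * e - 3))⁻¹ := by
    rw [← zpow_natCast ζ 2, ← zpow_mul, ← zpow_add, ← zpow_natCast ζ (4 * e - 3), ← zpow_neg, Nat.cast_sub (by omega)]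
    congr 1; push_cast; ring
  rw [k1] at hc2
  have ht1 : (((ζ ^ (4 * e - 3))⁻¹ : Kˣ) : K) + 1 ≠ 0 := by
    intro h0
    have h2 : (ζ ^ (4 * e - 3))⁻¹ = 1 := by
      ext
      rw [Units.val_one]
      linear_combination h0 - hf.two
    rw [inv_eq_one] at h2
    have h3 := orderOf_dvd_of_pow_eq_one h2
    rw [hord] at h3
    have b1 : ((2 * e * e - 1 : ℕ) : ℤ) ∣ 1 := by
      have b2 := Int.natCast_dvd_natCast.2 h3
      rw [Nat.cast_sub (by nlinarith), Nat.cast_sub (by omega)] at b2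
      rw [Nat.cast_sub (by nlinarith)]
      push_cast at b2 ⊢
      have h9 : (8 : ℤ) * (2 * e * e - 1) - (4 * e + 3) * (4 * e - 3) = 1 := by ring
      have h10 : (2 * (e : ℤ) * e - 1) ∣ (8 : ℤ) * (2 * e * e - 1) - (4 * e + 3) * (4 * e - 3) :=
        dvd_sub (dvd_mul_left _ _) (dvd_mul_of_dvd_right b2 _)
      rwa [h9] at h10
    have b3 := Int.natCast_dvd_natCast.1 (by simpa using b1 : ((2 * e * e - 1 : ℕ) : ℤ) ∣ ((1 : ℕ) : ℤ))
    have b4 := Nat.dvd_one.1 b3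
    have h6 : 2 * e * e = 2 * (e * e) := by ring
    omega
  have hU := full_X h hf hm he hK hζ hz ht1 hc2
  have hX1 : US (xg chevF4 K) (h.G.Um (h.wJ LL 1)) ⊓ fixS σ ≤ H := by
    intro g hg
    obtain ⟨t, u, rfl⟩ := (fix_iff h hf).1 hg
    exact hU t u
  have hnH : n ∈ H := by
    have := H.mul_mem (H.inv_mem (hU 1 0)) hy
    rwa [inv_mul_cancel_left] at this
  have hnf : n ∈ fixS σ := hT.le_fix hn.2
  have hneg : ∀ g ∈ US (xg chevF4 K) {r | ∃ hr : r < chevF4.nroots, (h.G.ngf ⟨r, hr⟩ : ℕ) ∈ h.G.Um (h.wJ LL 1)} ⊓ fixS σ, g ∈ H := by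
    intro g hg
    exact neg_le hT hnf hnH hmon hwn hX1 hg.1 hg.2
  have htor := tor_H h hf hX1 hneg
  have hX0' : ∀ t : K, pw chevF4 K true (LL 0) (f0 e t) ∈ H := by
    intro t
    by_cases h0 : t = 0
    · subst h0
      rw [x1_eq hf, pow_e_zero hf, TF4.good.xg_zero, TF4.good.xg_zero, mul_one]
      exact H.one_mem
    · have h1 := x1_conj hf 1 (Units.mk0 t h0)⁻¹ (1 : K)
      have h2 : (1 : Kˣ) ^ (2 : ℤ) * ((Units.mk0 t h0)⁻¹) ^ (-1 : ℤ) = Units.mk0 t h0 := by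
        rw [one_zpow, one_mul, zpow_neg, zpow_one, inv_inv]
      rw [h2, Units.val_mk0, mul_one] at h1
      rw [← h1]
      exact H.mul_mem (H.mul_mem (htor _) hx) (H.inv_mem (htor _))
  have hX0 : US (xg chevF4 K) (h.G.Um (h.wJ LL 0)) ⊓ fixS σ ≤ H := by
    apply h.corb_root orbL corb0 (TF4.chk.umS h 0 ums0)
    intro f hff
    have h1 := hff _ in3
    change f (sP PT 3) = f 3 ^ (lamF 2 LT (chevF4.simple 3) * e) at h1
    rw [p3, l3, one_mul] at h1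
    have h2 : pw chevF4 K true (LL 0) f = pw chevF4 K true (LL 0) (f0 e (f 3)) := by
      rw [pw0, pw0, f0_0, f0_3, h1]
    rw [h2]; exact hX0' _
  apply gen_le TF4.good
  rintro w (⟨t, rfl | rfl⟩ | ⟨t, u, rfl | rfl⟩)
  · have h1 := pair_eq (K := K) (e := e) true t
    change wg chevF4 K (f4PairWord e f4p1 f4p4 t) = _ at h1
    rw [h1]
    exact hX0' t
  · have h1 := pair_eq (K := K) (e := e) false t
    change wg chevF4 K (f4PairWord e f4m1 f4m4 t) = _ at h1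
    rw [h1]
    exact pw_le hT hnf hnH hmon hwn hX0 corb0 false (key0 hf t)
  · have h1 := RF_wg (K := K) (e := e) true t u
    change _ = wg chevF4 K (b2ClassWord e f4a f4b f4ab f4aab t u) at h1
    rw [← h1]
    exact hU t u
  · have h1 := RF_wg (K := K) (e := e) false t u
    change _ = wg chevF4 K (b2ClassWord e f4ma f4mb f4mab f4maab t u) at h1
    rw [← h1]
    apply hneg
    have hS : ∀ i, i = 20 ∨ i = 22 ∨ i = 19 ∨ i = 17 → i ∈ {r | ∃ hr : r < chevF4.nroots, (h.G.ngf ⟨r, hr⟩ : ℕ) ∈ h.G.Um (h.wJ LL 1)} := by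
      intro i hi
      have hi' : i < chevF4.nroots := by rw [nr]; omega
      refine ⟨hi', (mem_Um1 h).2 ?_⟩
      change chevF4.neg i = 25 ∨ chevF4.neg i = 27 ∨ chevF4.neg i = 28 ∨ chevF4.neg i = 30
      have key : ∀ i < 48, i = 20 ∨ i = 22 ∨ i = 19 ∨ i = 17 → chevF4.neg i = 25 ∨ chevF4.neg i = 27 ∨ chevF4.neg i = 28 ∨ chevF4.neg i = 30 := by decide +kernel
      exact key i (by omega) hi
    refine Subgroup.mem_inf.2 ⟨?_, RF_fix h hf false t u⟩
    unfold RF NF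
    exact mul_mem (mul_mem (mem_US (hS 20 (by norm_num)) _) (mem_US (hS 22 (by norm_num)) _))
      (mul_mem (mem_US (hS 19 (by norm_num)) _) (mem_US (hS 17 (by norm_num)) _))

end

end Cfsg.Agent.H16.TwGenF
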